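import Cfsg.Agent.Lib.Helper96.HyDefs
import Cfsg.Agent.Lib.Helper51.HypPairs
import Cfsg.Agent.Lib.Helper54.OrthForms
import Cfsg.Prelude.Def_GeometricClasses
import Cfsg.Prelude.Def_Classical

/-!
Project PI (S5989), glue: isometries of `quadFormPlus` as matrices and as endomorphisms.
-/

set_option autoImplicit false
set_option linter.unusedSectionVars false
set_option linter.unusedVariables false

namespace Cfsg.Agent.Lib.Helper96.Pi

open Module Cfsg.Agent.Lib.Helper96.Sp Matrix
open scoped MatrixGroups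

universe u

variable {F : Type u} [Field F] [Fintype F]

theorem glue_nd_top_plus (d : ℕ) :
    ND (QuadraticMap.polarBilin (Cfsg.Agent.Lib.Helper51.QPlus d F)) ⊤ := by
  intro u _ h
  apply Cfsg.Agent.Lib.Helper54.polarSep_plus (F := F) (m := d) u
  intro y
  have := h y Submodule.mem_top
  rw [QuadraticMap.polarBilin_apply_apply] at this
  rw [QuadraticMap.polar_comm]
  exact this

theorem glue_isom_plus (h2 : (2 : F) ≠ 0) (d : ℕ) :
    (∀ x : GL (Fin d ⊕ Fin d) F, x ∈ Cfsg.Geo.omegaGL (Cfsg.quadFormPlus d F) →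
      Isom (QuadraticMap.polarBilin (Cfsg.Agent.Lib.Helper51.QPlus d F))
        (Matrix.toLin' (x : Matrix (Fin d ⊕ Fin d) (Fin d ⊕ Fin d) F))) ∧
    (∀ T : Module.End F (Fin d ⊕ Fin d → F),
      Isom (QuadraticMap.polarBilin (Cfsg.Agent.Lib.Helper51.QPlus d F)) T →
      ∃ x : GL (Fin d ⊕ Fin d) F,
        Matrix.toLin' (x : Matrix (Fin d ⊕ Fin d) (Fin d ⊕ Fin d) F) = T ∧
        ∀ v, Cfsg.quadFormPlus d F ((x : Matrix (Fin d ⊕ Fin d)
          (Fin d ⊕ Fin d) F) *ᵥ v) = Cfsg.quadFormPlus d F v) := by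
  have hcoe := Cfsg.Agent.Lib.Helper51.coe_QPlus d F
  constructor
  · intro x hx
    obtain ⟨y, -, rfl⟩ := hx
    have hy : ∀ u, Cfsg.quadFormPlus d F ((((Cfsg.isometryGroup F (Cfsg.quadFormPlus d F)).subtype y :
        GL (Fin d ⊕ Fin d) F) :
        Matrix (Fin d ⊕ Fin d) (Fin d ⊕ Fin d) F) *ᵥ u)
        = Cfsg.quadFormPlus d F u := fun u => y.2 u u
    intro u v
    rw [QuadraticMap.polarBilin_apply_apply, QuadraticMap.polarBilin_apply_apply]
    unfold QuadraticMap.polar
    rw [← map_add]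
    simp only [Matrix.toLin'_apply, hcoe]
    show Cfsg.quadFormPlus d F (_ *ᵥ (u + v)) - Cfsg.quadFormPlus d F (_ *ᵥ u)
      - Cfsg.quadFormPlus d F (_ *ᵥ v) = _
    rw [hy, hy, hy]
  · intro T hT
    have hN := glue_nd_top_plus (F := F) d
    have hinj : Function.Injective T := isom_injective hN hT
    let e := LinearEquiv.ofInjectiveEndo T hinj
    have he : ∀ v, e v = T v := fun v => rfl
    have h1 : LinearMap.toMatrix' T * LinearMap.toMatrix' (e.symm : (Fin d ⊕ Fin d → F)
        →ₗ[F] (Fin d ⊕ Fin d → F)) = 1 := by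
      rw [← LinearMap.toMatrix'_comp, ← LinearMap.toMatrix'_id]
      congr 1
      refine LinearMap.ext fun v => ?_
      rw [LinearMap.comp_apply, LinearMap.id_apply, LinearEquiv.coe_coe, ← he,
        LinearEquiv.apply_symm_apply]
    have h1' : LinearMap.toMatrix' (e.symm : (Fin d ⊕ Fin d → F)
        →ₗ[F] (Fin d ⊕ Fin d → F)) * LinearMap.toMatrix' T = 1 := by
      rw [← LinearMap.toMatrix'_comp, ← LinearMap.toMatrix'_id]
      congr 1
      refine LinearMap.ext fun v => ?_
      rw [LinearMap.comp_apply, LinearMap.id_apply, LinearEquiv.coe_coe, ← he,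
        LinearEquiv.symm_apply_apply]
    refine ⟨⟨LinearMap.toMatrix' T, _, h1, h1'⟩, ?_, ?_⟩
    · show Matrix.toLin' (LinearMap.toMatrix' T) = T
      rw [Matrix.toLin'_toMatrix']
    · intro v
      show Cfsg.quadFormPlus d F (LinearMap.toMatrix' T *ᵥ v) = _
      have h3 : LinearMap.toMatrix' T *ᵥ v = T v := by
        rw [← Matrix.toLin'_apply, Matrix.toLin'_toMatrix']
      rw [h3]
      have h4 := hT v v
      rw [QuadraticMap.polarBilin_apply_apply, QuadraticMap.polarBilin_apply_apply,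
        QuadraticMap.polar_self, QuadraticMap.polar_self, hcoe] at h4
      simp only [nsmul_eq_mul, Nat.cast_ofNat] at h4
      exact mul_left_cancel₀ h2 h4

end Cfsg.Agent.Lib.Helper96.Pi
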