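import Cfsg.Agent.Lib.Helper96.BGDecH

/-!
Foundation for isometries of prime order of an alternating form: nondegenerate subspaces,
orthogonal complements, orthogonal decompositions into atoms.
-/

set_option autoImplicit false
set_option linter.unusedSectionVars false

namespace Cfsg.Agent.Lib.Helper96.Sp

open Module

section Defs

variable {F : Type*} [Field F] {V : Type*} [AddCommGroup V] [Module F V]

/-- `W` is nondegenerate for `B`. -/
def ND (B : LinearMap.BilinForm F V) (W : Submodule F V) : Prop :=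
  ∀ u ∈ W, (∀ v ∈ W, B u v = 0) → u = 0

/-- `X` and `Y` are orthogonal for `B`. -/
def Orth (B : LinearMap.BilinForm F V) (X Y : Submodule F V) : Prop :=
  ∀ u ∈ X, ∀ v ∈ Y, B u v = 0

/-- `T` is an isometry of `B`. -/
def Isom (B : LinearMap.BilinForm F V) (T : V →ₗ[F] V) : Prop :=
  ∀ x y, B (T x) (T y) = B x y

/-- Ordered orthogonal decompositions into `t` subspaces of dimension `a`. -/
def IsOD (B : LinearMap.BilinForm F V) (a : ℕ) {t : ℕ} (D : Fin t → Submodule F V) : Prop :=
  (∀ j, Module.finrank F (D j) = a) ∧ (∀ j j', j ≠ j' → Orth B (D j) (D j')) ∧ (⨆ j, D j) = ⊤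

variable {B : LinearMap.BilinForm F V}

theorem alt_swap (hA : B.IsAlt) (x y : V) : B x y = - B y x := by
  rw [← hA.neg_eq y x]

theorem orth_symm (hA : B.IsAlt) {X Y : Submodule F V} (h : Orth B X Y) : Orth B Y X := by
  intro u hu v hv
  rw [alt_swap hA, h v hv u hu, neg_zero]

theorem mem_perp_iff {W : Submodule F V} {v : V} :
    v ∈ B.orthogonal W ↔ ∀ w ∈ W, B w v = 0 := by
  rw [LinearMap.BilinForm.mem_orthogonal_iff]

theorem mem_perp_iff' (hA : B.IsAlt) {W : Submodule F V} {v : V} :
    v ∈ B.orthogonal W ↔ ∀ w ∈ W, B v w = 0 := by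
  rw [mem_perp_iff]
  constructor
  · intro h w hw
    rw [alt_swap hA, h w hw, neg_zero]
  · intro h w hw
    rw [alt_swap hA, h w hw, neg_zero]

theorem orth_iff_le_perp {X Y : Submodule F V} :
    Orth B X Y ↔ Y ≤ B.orthogonal X := by
  constructor
  · intro h v hv
    rw [mem_perp_iff]
    exact fun w hw => h w hw v hv
  · intro h u hu v hv
    exact (mem_perp_iff.mp (h hv)) u hu

theorem nd_inf_perp (hA : B.IsAlt) {W : Submodule F V} (hW : ND B W) :
    W ⊓ B.orthogonal W = ⊥ := by
  rw [eq_bot_iff]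
  rintro u ⟨hu1, hu2⟩
  rw [Submodule.mem_bot]
  exact hW u hu1 ((mem_perp_iff' hA).mp hu2)

theorem isom_injective (hN : ND B ⊤) {T : V →ₗ[F] V} (hT : Isom B T) : Function.Injective T := by
  rw [injective_iff_map_eq_zero]
  intro x hx
  apply hN x Submodule.mem_top
  intro y _
  rw [← hT x y, hx, map_zero, LinearMap.zero_apply]

/-- The orthogonal of a sum. -/
theorem orth_iSup_right {ι : Sort*} {X : Submodule F V} {Y : ι → Submodule F V}
    (h : ∀ j, Orth B X (Y j)) : Orth B X (⨆ j, Y j) := by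
  intro u hu v hv
  have h1 : (⨆ j, Y j) ≤ LinearMap.ker (B u) := by
    apply iSup_le
    intro j w hw
    exact h j u hu w hw
  exact h1 hv

theorem orth_iSup_left (hA : B.IsAlt) {ι : Sort*} {X : ι → Submodule F V} {Y : Submodule F V}
    (h : ∀ j, Orth B (X j) Y) : Orth B (⨆ j, X j) Y :=
  orth_symm hA (orth_iSup_right (fun j => orth_symm hA (h j)))

theorem orth_sup_right {X Y Z : Submodule F V} (h1 : Orth B X Y) (h2 : Orth B X Z) :
    Orth B X (Y ⊔ Z) := by
  intro u hu v hv
  obtain ⟨y, hy, z, hz, rfl⟩ := Submodule.mem_sup.mp hv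
  rw [map_add, h1 u hu y hy, h2 u hu z hz, add_zero]

theorem orth_mono {X Y X' Y' : Submodule F V} (h : Orth B X Y) (hX : X' ≤ X) (hY : Y' ≤ Y) :
    Orth B X' Y' := fun u hu v hv => h u (hX hu) v (hY hv)

/-- In an orthogonal decomposition of a nondegenerate space, every summand is nondegenerate. -/
theorem nd_of_orth_sup_top (hN : ND B ⊤) {ι : Type*} (D : ι → Submodule F V)
    (horth : ∀ j j', j ≠ j' → Orth B (D j) (D j')) (htop : ⨆ j, D j = ⊤) (j : ι) :
    ND B (D j) := by
  classical
  intro u hu h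
  apply hN u Submodule.mem_top
  intro v _
  have h1 : (⨆ j, D j) ≤ LinearMap.ker (B u) := by
    apply iSup_le
    intro j' w hw
    by_cases hj : j = j'
    · subst hj
      exact h w hw
    · exact horth j j' hj u hu w hw
  have h2 : v ∈ ⨆ j, D j := by
    rw [htop]
    exact Submodule.mem_top
  exact h1 h2

end Defs

section FD

variable {F : Type*} [Field F] {V : Type*} [AddCommGroup V] [Module F V] [FiniteDimensional F V]
  {B : LinearMap.BilinForm F V}

theorem nd_isCompl (hA : B.IsAlt) {W : Submodule F V} (hW : ND B W) :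
    IsCompl W (B.orthogonal W) :=
  (LinearMap.BilinForm.isCompl_orthogonal_iff_disjoint hA.isRefl).mpr
    (disjoint_iff.mpr (nd_inf_perp hA hW))

theorem nd_perp (hA : B.IsAlt) (hN : ND B ⊤) {W : Submodule F V} (hW : ND B W) :
    ND B (B.orthogonal W) := by
  intro u hu h
  apply hN u Submodule.mem_top
  intro v _
  have h1 : v ∈ W ⊔ B.orthogonal W := by
    rw [(nd_isCompl hA hW).sup_eq_top]
    exact Submodule.mem_top
  obtain ⟨w, hw, w', hw', rfl⟩ := Submodule.mem_sup.mp h1
  rw [map_add, (mem_perp_iff' hA).mp hu w hw, h w' hw', add_zero]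

theorem nd_rel (hA : B.IsAlt) {W Z : Submodule F V} (hW : ND B W) (hZ : ND B Z) (hWZ : W ≤ Z) :
    ND B (Z ⊓ B.orthogonal W) ∧ W ⊔ (Z ⊓ B.orthogonal W) = Z ∧
      finrank F W + finrank F ↥(Z ⊓ B.orthogonal W) = finrank F Z := by
  have hsup : W ⊔ (Z ⊓ B.orthogonal W) = Z := by
    have h1 := sup_inf_assoc_of_le (B.orthogonal W) hWZ
    rw [(nd_isCompl hA hW).sup_eq_top, top_inf_eq] at h1
    rw [inf_comm]
    exact h1.symm
  refine ⟨?_, hsup, ?_⟩
  · intro u hu h
    apply hZ u hu.1
    intro v hv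
    rw [← hsup] at hv
    obtain ⟨w, hw, w', hw', rfl⟩ := Submodule.mem_sup.mp hv
    rw [map_add, (mem_perp_iff' hA).mp hu.2 w hw, h w' hw', add_zero]
  · have h1 := Submodule.finrank_sup_add_finrank_inf_eq W (Z ⊓ B.orthogonal W)
    have h2 : W ⊓ (Z ⊓ B.orthogonal W) = ⊥ := by
      rw [eq_bot_iff, ← nd_inf_perp hA hW]
      exact inf_le_inf_left W inf_le_right
    rw [hsup, h2, finrank_bot] at h1
    omega

theorem map_eq_of_le {T : V →ₗ[F] V} (hinj : Function.Injective T) {W : Submodule F V}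
    (h : W.map T ≤ W) : W.map T = W := by
  apply Submodule.eq_of_le_of_finrank_eq h
  exact (LinearEquiv.finrank_eq (Submodule.equivMapOfInjective T hinj W)).symm

theorem perp_invariant (hN : ND B ⊤) {T : V →ₗ[F] V} (hT : Isom B T) {W : Submodule F V}
    (h : W.map T ≤ W) : (B.orthogonal W).map T ≤ B.orthogonal W := by
  have h1 := map_eq_of_le (isom_injective hN hT) h
  rintro _ ⟨y, hy, rfl⟩
  rw [mem_perp_iff]
  intro w hw
  rw [← h1] at hw
  obtain ⟨w', hw', rfl⟩ := hw
  rw [hT]
  exact (mem_perp_iff.mp hy) w' hw'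

/-- A nonzero nondegenerate subspace contains a nondegenerate plane. -/
theorem exists_plane (hA : B.IsAlt) {W : Submodule F V} (hW : ND B W) (hW0 : W ≠ ⊥) :
    ∃ P : Submodule F V, P ≤ W ∧ ND B P ∧ finrank F P = 2 := by
  obtain ⟨v, hv, hv0⟩ := (Submodule.ne_bot_iff _).mp hW0
  obtain ⟨w, hw, hvw⟩ : ∃ w ∈ W, B v w ≠ 0 := by
    by_contra hcon
    push Not at hcon
    exact hv0 (hW v hv hcon)
  have hli : LinearIndependent F ![v, w] := by
    rw [LinearIndependent.pair_iff]
    intro s t hst
    have h1 : B (s • v + t • w) w = 0 := by rw [hst, map_zero, LinearMap.zero_apply]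
    have h2 : B v (s • v + t • w) = 0 := by rw [hst, map_zero]
    rw [map_add, LinearMap.add_apply, map_smul, map_smul, LinearMap.smul_apply,
      LinearMap.smul_apply, hA w, smul_zero, add_zero, smul_eq_mul] at h1
    rw [map_add, map_smul, map_smul, hA v, smul_zero, zero_add, smul_eq_mul] at h2
    exact ⟨(mul_eq_zero.mp h1).resolve_right hvw, (mul_eq_zero.mp h2).resolve_right hvw⟩
  refine ⟨Submodule.span F (Set.range ![v, w]), ?_, ?_, ?_⟩
  · rw [Submodule.span_le]
    rintro _ ⟨k, rfl⟩
    fin_cases k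
    · exact hv
    · exact hw
  · intro u hu h
    obtain ⟨cf, hcf⟩ := (Submodule.mem_span_range_iff_exists_fun F).mp hu
    rw [Fin.sum_univ_two] at hcf
    obtain ⟨α, β, rfl⟩ : ∃ α β : F, α • v + β • w = u := ⟨cf 0, cf 1, hcf⟩
    have hvP : v ∈ Submodule.span F (Set.range ![v, w]) := Submodule.subset_span ⟨0, rfl⟩
    have hwP : w ∈ Submodule.span F (Set.range ![v, w]) := Submodule.subset_span ⟨1, rfl⟩
    have h1 := h v hvP
    have h2 := h w hwP
    rw [map_add, LinearMap.add_apply, map_smul, map_smul, LinearMap.smul_apply,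
      LinearMap.smul_apply, hA v, smul_zero, zero_add, smul_eq_mul, alt_swap hA w v,
      mul_neg, neg_eq_zero] at h1
    rw [map_add, LinearMap.add_apply, map_smul, map_smul, LinearMap.smul_apply,
      LinearMap.smul_apply, hA w, smul_zero, add_zero, smul_eq_mul] at h2
    rw [(mul_eq_zero.mp h1).resolve_right hvw, (mul_eq_zero.mp h2).resolve_right hvw, zero_smul,
      zero_smul, add_zero]
  · rw [finrank_span_eq_card hli]
    simp

/-- Orthogonal decomposition into atoms. -/
theorem orth_atoms (hA : B.IsAlt) (c₀ : ℕ) (hc₀ : 1 ≤ c₀) (A : Submodule F V → Prop)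
    (hnd : ∀ W, A W → ND B W)
    (hstep : ∀ W, A W → W ≠ ⊥ → ∃ P : Submodule F V, P ≤ W ∧ A P ∧ finrank F P = c₀ ∧
      A (W ⊓ B.orthogonal P))
    (W : Submodule F V) (hW : A W) :
    ∃ (s : ℕ) (P : Fin s → Submodule F V), (∀ j, A (P j) ∧ finrank F (P j) = c₀ ∧ P j ≤ W) ∧
      (∀ j j', j ≠ j' → Orth B (P j) (P j')) ∧ (⨆ j, P j) = W ∧ finrank F W = c₀ * s := by
  induction hn : finrank F W using Nat.strong_induction_on generalizing W with
  | _ n ih =>
    by_cases hW0 : W = ⊥
    · refine ⟨0, fun j => j.elim0, fun j => j.elim0, fun j => j.elim0, ?_, ?_⟩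
      · rw [hW0]
        simp
      · rw [← hn, hW0, finrank_bot, mul_zero]
    · obtain ⟨P₀, hP₀W, hP₀, hP₀c, hrest⟩ := hstep W hW hW0
      obtain ⟨hnd1, hsup1, hfin1⟩ := nd_rel hA (hnd P₀ hP₀) (hnd W hW) hP₀W
      obtain ⟨s, P, hP, horth, hsup, hfin⟩ := ih (finrank F ↥(W ⊓ B.orthogonal P₀)) (by omega)
        (W ⊓ B.orthogonal P₀) hrest rfl
      refine ⟨s + 1, Fin.cons P₀ P, ?_, ?_, ?_, ?_⟩
      · intro j
        refine Fin.cases ?_ (fun j => ?_) j
        · rw [Fin.cons_zero]
          exact ⟨hP₀, hP₀c, hP₀W⟩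
        · rw [Fin.cons_succ]
          exact ⟨(hP j).1, (hP j).2.1, le_trans (hP j).2.2 inf_le_left⟩
      · have h0 : ∀ j : Fin s, Orth B P₀ (P j) := by
          intro j
          rw [orth_iff_le_perp]
          exact le_trans (hP j).2.2 inf_le_right
        intro j j'
        refine Fin.cases ?_ (fun j => ?_) j
        · refine Fin.cases ?_ (fun j' => ?_) j'
          · intro h
            exact absurd rfl h
          · intro _
            rw [Fin.cons_zero, Fin.cons_succ]
            exact h0 j'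
        · refine Fin.cases ?_ (fun j' => ?_) j'
          · intro _
            rw [Fin.cons_zero, Fin.cons_succ]
            exact orth_symm hA (h0 j)
          · intro h
            rw [Fin.cons_succ, Fin.cons_succ]
            exact horth j j' (fun h' => h (by rw [h']))
      · apply le_antisymm
        · apply iSup_le
          intro j
          refine Fin.cases ?_ (fun j => ?_) j
          · rw [Fin.cons_zero]
            exact hP₀W
          · rw [Fin.cons_succ]
            exact le_trans (hP j).2.2 inf_le_left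
        · rw [← hsup1, ← hsup]
          apply sup_le
          · exact le_iSup_of_le 0 (by rw [Fin.cons_zero])
          · apply iSup_le
            intro j
            exact le_iSup_of_le j.succ (by rw [Fin.cons_succ])
      · rw [← hn, ← hfin1, hfin, hP₀c]
        ring

/-- Nondegenerate subspaces for an alternating form have even dimension; more precisely they
are orthogonal sums of nondegenerate planes. -/
theorem exists_planes (hA : B.IsAlt) (W : Submodule F V) (hW : ND B W) :
    ∃ (m : ℕ) (H : Fin m → Submodule F V), (∀ j, ND B (H j) ∧ finrank F (H j) = 2 ∧ H j ≤ W) ∧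
      (∀ j j', j ≠ j' → Orth B (H j) (H j')) ∧ (⨆ j, H j) = W ∧ finrank F W = 2 * m := by
  obtain ⟨m, H, h1, h2, h3, h4⟩ := orth_atoms hA 2 (by norm_num)
    (fun Z => ND B Z ∧ Z ≤ W) (fun Z hZ => hZ.1)
    (fun Z hZ hZ0 => by
      obtain ⟨P, hPZ, hP, hP2⟩ := exists_plane hA hZ.1 hZ0
      exact ⟨P, hPZ, ⟨hP, le_trans hPZ hZ.2⟩, hP2, (nd_rel hA hP hZ.1 hPZ).1,
        le_trans inf_le_left hZ.2⟩) W ⟨hW, le_rfl⟩
  exact ⟨m, H, fun j => ⟨(h1 j).1.1, (h1 j).2.1, (h1 j).2.2⟩, h2, h3, h4⟩

/-- The orthogonal sum of two nondegenerate subspaces is nondegenerate, of the expected dimension. -/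
theorem nd_sup (hA : B.IsAlt) {X Y : Submodule F V} (hX : ND B X) (hY : ND B Y) (hXY : Orth B X Y) :
    ND B (X ⊔ Y) ∧ finrank F ↥(X ⊔ Y) = finrank F X + finrank F Y := by
  constructor
  · intro u hu h
    obtain ⟨x, hx, y, hy, rfl⟩ := Submodule.mem_sup.mp hu
    have hx0 : x = 0 := by
      apply hX x hx
      intro v hv
      have h1 := h v (Submodule.mem_sup_left hv)
      rw [map_add, LinearMap.add_apply, orth_symm hA hXY y hy v hv, add_zero] at h1
      exact h1
    have hy0 : y = 0 := by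
      apply hY y hy
      intro v hv
      have h1 := h v (Submodule.mem_sup_right hv)
      rw [map_add, LinearMap.add_apply, hXY x hx v hv, zero_add] at h1
      exact h1
    rw [hx0, hy0, add_zero]
  · have h1 := Submodule.finrank_sup_add_finrank_inf_eq X Y
    have h2 : X ⊓ Y = ⊥ := by
      rw [eq_bot_iff]
      rintro u ⟨hu1, hu2⟩
      rw [Submodule.mem_bot]
      exact hX u hu1 (fun v hv => by rw [alt_swap hA, hXY v hv u hu2, neg_zero])
    rw [h2, finrank_bot] at h1
    omega

/-- An orthogonal summand of a nondegenerate subspace is nondegenerate. -/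
theorem nd_of_orth_sup {X Y Z : Submodule F V} (hZ : ND B Z) (hXY : Orth B X Y)
    (hsup : X ⊔ Y = Z) : ND B X := by
  intro u hu h
  apply hZ u (by rw [← hsup]; exact Submodule.mem_sup_left hu)
  intro v hv
  rw [← hsup] at hv
  obtain ⟨x, hx, y, hy, rfl⟩ := Submodule.mem_sup.mp hv
  rw [map_add, h x hx, hXY u hu y hy, add_zero]

theorem nd_bot : ND B (⊥ : Submodule F V) := by
  intro u hu _
  exact (Submodule.mem_bot F).mp hu

theorem nd_of_inf_perp {W : Submodule F V} (hA : B.IsAlt) (h : W ⊓ B.orthogonal W = ⊥) : ND B W := by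
  intro u hu hu'
  have h1 : u ∈ W ⊓ B.orthogonal W := ⟨hu, (mem_perp_iff' hA).mpr hu'⟩
  rw [h] at h1
  exact (Submodule.mem_bot F).mp h1

theorem even_finrank_of_nd (hA : B.IsAlt) (W : Submodule F V) (hW : ND B W) :
    Even (finrank F W) := by
  obtain ⟨m, -, -, -, -, h⟩ := exists_planes hA W hW
  rw [h]
  exact even_two_mul m

end FD

end Cfsg.Agent.Lib.Helper96.Sp
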