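import Cfsg.Agent.Lib.Helper96.SpFix
import Cfsg.Agent.Lib.Helper4.SpHalf

/-!
Blocks of an isometry of odd prime order of an alternating form: the commutator space is an
orthogonal sum of invariant nondegenerate subspaces of dimension `blk`, and the resulting
invariant orthogonal decompositions.
-/

set_option autoImplicit false
set_option linter.unusedSectionVars false
set_option linter.unusedVariables false

namespace Cfsg.Agent.Lib.Helper96.Sp

open Module Cfsg.Agent.Lib.Helper96.BG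

/-- The block size: the order `i` of `q` modulo `r` if it is even, and `2 * i` otherwise. -/
noncomputable def blk (q r : ℕ) : ℕ :=
  if Even (orderOf (q : ZMod r)) then orderOf (q : ZMod r) else 2 * orderOf (q : ZMod r)

theorem blk_even (q r : ℕ) : Even (blk q r) := by
  unfold blk
  split_ifs with h
  · exact h
  · exact even_two_mul _

theorem blk_pos (q r : ℕ) (h : 1 ≤ orderOf (q : ZMod r)) : 1 ≤ blk q r := by
  unfold blk
  split_ifs <;> omega

theorem dvd_half (r : ℕ) [Fact r.Prime] (q : ℕ) (hq : 1 ≤ q) (hi : Even (orderOf (q : ZMod r)))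
    (hi1 : 1 ≤ orderOf (q : ZMod r)) : r ∣ q ^ (orderOf (q : ZMod r) / 2) + 1 := by
  have hr : r.Prime := Fact.out
  obtain ⟨m, hm⟩ := hi
  have h1 : r ∣ q ^ orderOf (q : ZMod r) - 1 :=
    (dvd_pow_sub_one_iff q r _ hq).mpr dvd_rfl
  have hx : 1 ≤ q ^ m := Nat.one_le_pow _ _ hq
  have h2 : q ^ orderOf (q : ZMod r) - 1 = (q ^ m - 1) * (q ^ m + 1) := by
    rw [hm, pow_add]
    obtain ⟨y, hy⟩ : ∃ y, q ^ m = y + 1 := ⟨q ^ m - 1, by omega⟩
    rw [hy]
    have h3 : (y + 1) * (y + 1) = y * (y + 1 + 1) + 1 := by ring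
    rw [h3]
    simp
  rw [h2] at h1
  have hm2 : orderOf (q : ZMod r) / 2 = m := by omega
  rw [hm2]
  rcases (Nat.Prime.dvd_mul hr).mp h1 with h | h
  · exfalso
    have h4 := (dvd_pow_sub_one_iff q r m hq).mp h
    have h5 := Nat.le_of_dvd (by omega) h4
    omega
  · exact h

theorem blk_le (q r : ℕ) [Fact r.Prime] (hr2 : r ≠ 2) (hrq : ¬ r ∣ q) : blk q r ≤ r - 1 := by
  have hr : r.Prime := Fact.out
  have hq0 : (q : ZMod r) ≠ 0 := by
    rw [Ne, ZMod.natCast_eq_zero_iff]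
    exact hrq
  have hdvd := ZMod.orderOf_dvd_card_sub_one hq0
  have hr1 : 0 < r - 1 := by have := hr.two_le; omega
  unfold blk
  split_ifs with h
  · exact Nat.le_of_dvd hr1 hdvd
  · have hodd : Odd r := hr.odd_of_ne_two hr2
    obtain ⟨k, hk⟩ := hodd
    have h2 : 2 ∣ r - 1 := ⟨k, by omega⟩
    have hcop : Nat.Coprime 2 (orderOf (q : ZMod r)) := by
      rw [Nat.coprime_two_left]
      exact Nat.not_even_iff_odd.mp h
    exact Nat.le_of_dvd hr1 (Nat.Coprime.mul_dvd_of_dvd_of_dvd hcop h2 hdvd)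

section General

variable {F : Type*} [Field F] {V : Type*} [AddCommGroup V] [Module F V]
  [FiniteDimensional F V] {B : LinearMap.BilinForm F V}

omit [FiniteDimensional F V] in
theorem perp_sup (X Y : Submodule F V) :
    B.orthogonal (X ⊔ Y) = B.orthogonal X ⊓ B.orthogonal Y := by
  ext v
  rw [Submodule.mem_inf, mem_perp_iff, mem_perp_iff, mem_perp_iff]
  constructor
  · intro h
    exact ⟨fun w hw => h w (Submodule.mem_sup_left hw), fun w hw => h w (Submodule.mem_sup_right hw)⟩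
  · rintro ⟨h1, h2⟩ w hw
    obtain ⟨x, hx, y, hy, rfl⟩ := Submodule.mem_sup.mp hw
    rw [map_add, LinearMap.add_apply, h1 x hx, h2 y hy, add_zero]

/-- A sub-sum of `b` atoms inside a space which decomposes into atoms. -/
theorem exists_sub_atoms (hA : B.IsAlt) (c₀ : ℕ) (hc₀ : 1 ≤ c₀) (A : Submodule F V → Prop)
    (hnd : ∀ W, A W → ND B W)
    (hstep : ∀ W, A W → W ≠ ⊥ → ∃ P : Submodule F V, P ≤ W ∧ A P ∧ finrank F P = c₀ ∧
      A (W ⊓ B.orthogonal P))
    (hsup : ∀ X Y, A X → A Y → Orth B X Y → A (X ⊔ Y)) (hbot : A ⊥)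
    (W : Submodule F V) (hW : A W) (b : ℕ) (hb : c₀ * b ≤ finrank F W) :
    ∃ Q : Submodule F V, Q ≤ W ∧ A Q ∧ finrank F Q = c₀ * b ∧ A (W ⊓ B.orthogonal Q) := by
  induction b with
  | zero =>
    refine ⟨⊥, bot_le, hbot, by rw [finrank_bot, mul_zero], ?_⟩
    rw [LinearMap.BilinForm.orthogonal_bot, inf_top_eq]
    exact hW
  | succ b ih =>
    have hmul : c₀ * (b + 1) = c₀ * b + c₀ := by ring
    obtain ⟨Q, hQW, hQ, hQfin, hQrest⟩ := ih (by omega)
    obtain ⟨-, -, hfin⟩ := nd_rel hA (hnd Q hQ) (hnd W hW) hQW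
    have hne : W ⊓ B.orthogonal Q ≠ ⊥ := by
      intro h
      rw [h, finrank_bot] at hfin
      omega
    obtain ⟨P, hPle, hP, hPfin, hPrest⟩ := hstep _ hQrest hne
    have horth : Orth B Q P := orth_iff_le_perp.mpr (le_trans hPle inf_le_right)
    refine ⟨Q ⊔ P, sup_le hQW (le_trans hPle inf_le_left), hsup Q P hQ hP horth, ?_, ?_⟩
    · rw [(nd_sup hA (hnd Q hQ) (hnd P hP) horth).2, hQfin, hPfin, hmul]
    · rw [perp_sup, ← inf_assoc]
      exact hPrest

/-- Nondegenerate subspaces of every even dimension. -/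
theorem exists_nd_sub (hA : B.IsAlt) (K : Submodule F V) (hK : ND B K) (b : ℕ)
    (hb : 2 * b ≤ finrank F K) :
    ∃ Q : Submodule F V, Q ≤ K ∧ ND B Q ∧ finrank F Q = 2 * b := by
  obtain ⟨Q, hQK, hQ, hQfin, -⟩ := exists_sub_atoms hA 2 (by norm_num)
    (fun X => ND B X ∧ X ≤ K) (fun X hX => hX.1)
    (fun X hX hX0 => by
      obtain ⟨P, hPX, hP, hP2⟩ := exists_plane hA hX.1 hX0
      exact ⟨P, hPX, ⟨hP, le_trans hPX hX.2⟩, hP2, (nd_rel hA hP hX.1 hPX).1,
        le_trans inf_le_left hX.2⟩)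
    (fun X Y hX hY hXY => ⟨(nd_sup hA hX.1 hY.1 hXY).1, sup_le hX.2 hY.2⟩)
    ⟨nd_bot, bot_le⟩ K ⟨hK, le_rfl⟩ b hb
  exact ⟨Q, hQK, hQ.1, hQfin⟩

end General

section Block

variable {F : Type*} [Field F] [Fintype F] {V : Type*} [AddCommGroup V] [Module F V]
  [FiniteDimensional F V] {B : LinearMap.BilinForm F V}

/-- A nonzero invariant nondegenerate subspace of the commutator space contains an invariant
nondegenerate subspace of dimension `blk`. -/
theorem exists_block (hA : B.IsAlt) (hN : ND B ⊤) (T : Module.End F V) (hT : Isom B T) (r : ℕ)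
    [Fact r.Prime] (hr2 : r ≠ 2) (hrq : ¬ r ∣ Fintype.card F) (hr0 : (r : F) ≠ 0)
    (hTr : T ^ r = 1) (W : Submodule F V) (hW : W.map T ≤ W) (hWnd : ND B W)
    (hWR : W ≤ LinearMap.range (T - 1)) (hW0 : W ≠ ⊥) :
    ∃ P : Submodule F V, P ≤ W ∧ P.map T ≤ P ∧ ND B P ∧
      finrank F P = blk (Fintype.card F) r := by
  classical
  unfold blk
  obtain ⟨hi, -, -, hdisj, hRinv, -, hdiv, -, -⟩ := pow_one_setup T r hrq hr0 hTr
  obtain ⟨U, hUW, hU, hUi⟩ := exists_inv_dim T r hrq hr0 hTr W hW hWR hW0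
  have hUR := le_trans hUW hWR
  have hinfinv : ∀ X Y : Submodule F V, X.map T ≤ X → Y.map T ≤ Y →
      (X ⊓ B.orthogonal Y).map T ≤ X ⊓ B.orthogonal Y := by
    rintro X Y hX hY _ ⟨x, hx, rfl⟩
    exact ⟨hX ⟨x, hx.1, rfl⟩, perp_invariant hN hT hY ⟨x, hx.2, rfl⟩⟩
  rcases inv_eq_bot_or T r hrq hr0 hTr U hUR hUi _ inf_le_left (hinfinv U U hU hU) with
    hrad | hrad
  · have hUnd : ND B U := nd_of_inf_perp hA hrad
    have heven : Even (orderOf ((Fintype.card F : ℕ) : ZMod r)) := by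
      rw [← hUi]
      exact even_finrank_of_nd hA U hUnd
    exact ⟨U, hUW, hU, hUnd, by rw [if_pos heven]; exact hUi⟩
  · have hUU : Orth B U U := by
      rw [orth_iff_le_perp]
      exact inf_eq_left.mp hrad
    obtain ⟨U', hU'W, hU', hU'i, hU'U⟩ :=
      exists_partner hA hN T hT r hrq hr0 hTr W hW hWnd U hUW hU
    rw [hUi] at hU'i
    have hU'R := le_trans hU'W hWR
    rcases inv_eq_bot_or T r hrq hr0 hTr U' hU'R hU'i _ inf_le_left (hinfinv U' U' hU' hU') with
      hrad' | hrad'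
    · have hU'nd : ND B U' := nd_of_inf_perp hA hrad'
      have heven : Even (orderOf ((Fintype.card F : ℕ) : ZMod r)) := by
        rw [← hU'i]
        exact even_finrank_of_nd hA U' hU'nd
      exact ⟨U', hU'W, hU', hU'nd, by rw [if_pos heven]; exact hU'i⟩
    · have hUU' : Orth B U' U' := by
        rw [orth_iff_le_perp]
        exact inf_eq_left.mp hrad'
      have hU2 : U ⊓ B.orthogonal U' = ⊥ := by
        rcases inv_eq_bot_or T r hrq hr0 hTr U hUR hUi _ inf_le_left (hinfinv U U' hU hU') with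
          h | h
        · exact h
        · exfalso
          have h1 : U ≤ B.orthogonal U' := inf_eq_left.mp h
          have h2 : U' ≤ B.orthogonal U :=
            orth_iff_le_perp.mp (orth_symm hA (orth_iff_le_perp.mpr h1))
          have h3 : U' = ⊥ := by
            rw [eq_bot_iff, ← hU'U]
            exact le_inf le_rfl h2
          rw [h3, finrank_bot] at hU'i
          omega
      have hPnd : ND B (U ⊔ U') := nd_pair hA hUU hUU' hU'U hU2
      have hPW : U ⊔ U' ≤ W := sup_le hUW hU'W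
      have hPinv : (U ⊔ U').map T ≤ U ⊔ U' := by
        rw [Submodule.map_sup]
        exact sup_le_sup hU hU'
      by_cases heven : Even (orderOf ((Fintype.card F : ℕ) : ZMod r))
      · have hdvd : r ∣ Fintype.card F ^ (orderOf ((Fintype.card F : ℕ) : ZMod r) / 2) + 1 :=
          dvd_half r _ Fintype.card_pos heven hi
        obtain ⟨Z, hZP, hZ, hZnd, hZi⟩ := Cfsg.Agent.Lib.Helper4.SpHalf.exists_nd_half hA hN T hT r hr2 hTr _
          (by omega) hdvd U U' (U ⊔ U') hU hU' hUi hU'i hUU hUU' rfl hPnd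
          (fun Z hZP hZ => hdiv Z (le_trans hZP (le_trans hPW hWR)) hZ)
          (fun v hv hfix => by
            have h1 : v ∈ LinearMap.ker (T - 1) ⊓ LinearMap.range (T - 1) :=
              ⟨LinearMap.mem_ker.mpr (by rw [LinearMap.sub_apply, hfix]; exact sub_self v),
                hWR (hPW hv)⟩
            rw [hdisj] at h1
            exact (Submodule.mem_bot F).mp h1)
        exact ⟨Z, le_trans hZP hPW, hZ, hZnd, by rw [if_pos heven]; exact hZi⟩
      · refine ⟨U ⊔ U', hPW, hPinv, hPnd, ?_⟩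
        rw [if_neg heven]
        have h1 := Submodule.finrank_sup_add_finrank_inf_eq U U'
        have h2 : U ⊓ U' = ⊥ := by
          rw [eq_bot_iff, ← hU'U]
          exact le_inf inf_le_right (le_trans inf_le_left (orth_iff_le_perp.mp hUU))
        rw [h2, finrank_bot, hUi, hU'i] at h1
        omega

/-- The predicate for blocks. -/
theorem block_step (hA : B.IsAlt) (hN : ND B ⊤) (T : Module.End F V) (hT : Isom B T) (r : ℕ)
    [Fact r.Prime] (hr2 : r ≠ 2) (hrq : ¬ r ∣ Fintype.card F) (hr0 : (r : F) ≠ 0)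
    (hTr : T ^ r = 1) (W : Submodule F V)
    (hW : ND B W ∧ W.map T ≤ W ∧ W ≤ LinearMap.range (T - 1)) (hW0 : W ≠ ⊥) :
    ∃ P : Submodule F V, P ≤ W ∧ (ND B P ∧ P.map T ≤ P ∧ P ≤ LinearMap.range (T - 1)) ∧
      finrank F P = blk (Fintype.card F) r ∧
      (ND B (W ⊓ B.orthogonal P) ∧ (W ⊓ B.orthogonal P).map T ≤ W ⊓ B.orthogonal P ∧
        W ⊓ B.orthogonal P ≤ LinearMap.range (T - 1)) := by
  obtain ⟨P, hPW, hPinv, hPnd, hPc⟩ :=
    exists_block hA hN T hT r hr2 hrq hr0 hTr W hW.2.1 hW.1 hW.2.2 hW0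
  refine ⟨P, hPW, ⟨hPnd, hPinv, le_trans hPW hW.2.2⟩, hPc, (nd_rel hA hPnd hW.1 hPW).1, ?_,
    le_trans inf_le_left hW.2.2⟩
  rintro _ ⟨x, hx, rfl⟩
  exact ⟨hW.2.1 ⟨x, hx.1, rfl⟩, perp_invariant hN hT hPinv ⟨x, hx.2, rfl⟩⟩

/-- The dimension of an invariant nondegenerate subspace of the commutator space. -/
theorem blk_dvd_range (hA : B.IsAlt) (hN : ND B ⊤) (T : Module.End F V) (hT : Isom B T) (r : ℕ)
    [Fact r.Prime] (hr2 : r ≠ 2) (hrq : ¬ r ∣ Fintype.card F) (hr0 : (r : F) ≠ 0)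
    (hTr : T ^ r = 1) (W : Submodule F V) (hW : W.map T ≤ W) (hWnd : ND B W)
    (hWR : W ≤ LinearMap.range (T - 1)) : blk (Fintype.card F) r ∣ finrank F W := by
  obtain ⟨hi, -, -, -, -, -, -, -, -⟩ := pow_one_setup T r hrq hr0 hTr
  obtain ⟨s, -, -, -, -, hs⟩ := orth_atoms hA (blk (Fintype.card F) r) (blk_pos _ _ hi)
    (fun Z => ND B Z ∧ Z.map T ≤ Z ∧ Z ≤ LinearMap.range (T - 1)) (fun Z hZ => hZ.1)
    (fun Z hZ hZ0 => block_step hA hN T hT r hr2 hrq hr0 hTr Z hZ hZ0) W ⟨hWnd, hW, hWR⟩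
  exact ⟨s, hs⟩

theorem sp_dvd (hA : B.IsAlt) (hN : ND B ⊤) (T : Module.End F V) (hT : Isom B T) (r : ℕ)
    [Fact r.Prime] (hr2 : r ≠ 2) (hrq : ¬ r ∣ Fintype.card F) (hr0 : (r : F) ≠ 0)
    (hTr : T ^ r = 1) (W : Submodule F V) (hW : W.map T ≤ W) (hWnd : ND B W) :
    blk (Fintype.card F) r ∣ finrank F W - finrank F ↥(W ⊓ LinearMap.ker (T - 1)) := by
  obtain ⟨-, hRnd, hRinv, hsum⟩ := fix_setup hA hN T hT r hrq hr0 hTr W hW hWnd
  have h1 := blk_dvd_range hA hN T hT r hr2 hrq hr0 hTr _ hRinv hRnd inf_le_right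
  have h2 : finrank F W - finrank F ↥(W ⊓ LinearMap.ker (T - 1)) =
      finrank F ↥(W ⊓ LinearMap.range (T - 1)) := by omega
  rw [h2]
  exact h1

/-- The fixed part of an invariant nondegenerate subspace has dimension at least
`dim mod blk`. -/
theorem mod_le_fixed (hA : B.IsAlt) (hN : ND B ⊤) (T : Module.End F V) (hT : Isom B T) (r : ℕ)
    [Fact r.Prime] (hr2 : r ≠ 2) (hrq : ¬ r ∣ Fintype.card F) (hr0 : (r : F) ≠ 0)
    (hTr : T ^ r = 1) (W : Submodule F V) (hW : W.map T ≤ W) (hWnd : ND B W) :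
    finrank F W % blk (Fintype.card F) r ≤ finrank F ↥(W ⊓ LinearMap.ker (T - 1)) := by
  have h1 := sp_dvd hA hN T hT r hr2 hrq hr0 hTr W hW hWnd
  have hx : finrank F ↥(W ⊓ LinearMap.ker (T - 1)) ≤ finrank F W :=
    Submodule.finrank_mono inf_le_left
  have h2 : finrank F ↥(W ⊓ LinearMap.ker (T - 1)) % blk (Fintype.card F) r =
      finrank F W % blk (Fintype.card F) r := (Nat.modEq_iff_dvd' hx).mpr h1
  rw [← h2]
  exact Nat.mod_le _ _

end Block

end Cfsg.Agent.Lib.Helper96.Sp
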