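import Cfsg.Agent.Lib.Helper98.O72Fix
import Cfsg.Agent.Lib.Helper96.SpBlock
import Cfsg.Agent.Lib.Helper47.QuadAll

/-!
Project HY (S5992, helper96): hyperbolic subspaces of a symmetric bilinear form over a finite
field of odd characteristic; definitions and the interface structures `Facts`, `RFacts`.
The quadratic form is `v ↦ B v v`; its polar form is `2 * B`.
-/

set_option autoImplicit false
set_option linter.unusedSectionVars false
set_option linter.unusedVariables false

namespace Cfsg.Agent.Lib.Helper96.Hy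

open Module Cfsg.Agent.Lib.Helper96.Sp Cfsg.Agent.Lib.Helper47

universe u

section Defs

variable {F : Type u} [Field F] [Fintype F] {V : Type u} [AddCommGroup V] [Module F V]

/-- `W` is a hyperbolic subspace: nondegenerate with a totally singular subspace of half its
dimension. (`⊥` is hyperbolic.) -/
def Hyp (B : LinearMap.BilinForm F V) (W : Submodule F V) : Prop :=
  ND B W ∧ ∃ U : Submodule F V, U ≤ W ∧ Orth B U U ∧ 2 * finrank F U = finrank F W

/-- `W` has dimension `2k+2` and the quadratic form `w ↦ B w w` on it has type `ε`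
(value counts; `ε = 1` hyperbolic, `ε = -1` elliptic). -/
def Typ (B : LinearMap.BilinForm F V) (W : Submodule F V) (ε : ℤ) : Prop :=
  ∃ k : ℕ, finrank F W = 2 * k + 2 ∧ IsTyp (fun w : W => B (w : V) (w : V)) k ε

variable {B : LinearMap.BilinForm F V}

theorem isQuad_sub (hS : B.IsSymm) (W : Submodule F V) :
    IsQuad (fun w : W => B (w : V) (w : V)) (fun u v : W => 2 * B (u : V) (v : V)) where
  form :=
    { add_left := fun x y z => by
        simp only [Submodule.coe_add, map_add, LinearMap.add_apply]; ring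
      smul_left := fun c x y => by
        simp only [Submodule.coe_smul, map_smul, LinearMap.smul_apply, smul_eq_mul]; ring
      symm := fun x y => by
        simp only [RingHom.id_apply, one_mul]
        rw [hS.eq (x : V) (y : V)] }
  smul c v := by
    simp only [Submodule.coe_smul, map_smul, LinearMap.smul_apply, smul_eq_mul]; ring
  polar u v := by
    simp only [Submodule.coe_add, map_add, LinearMap.add_apply]
    rw [hS.eq (u : V) (v : V)]; ring

theorem nondeg_sub (h2 : (2 : F) ≠ 0) (W : Submodule F V) (hW : ND B W) :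
    Nondeg (fun u v : W => 2 * B (u : V) (v : V)) := by
  intro x hx
  have h1 : (x : V) = 0 := hW (x : V) x.2 (fun v hv => by
    have := hx ⟨v, hv⟩
    exact (mul_eq_zero.mp this).resolve_left h2)
  exact Subtype.ext h1

theorem typ_unique {W : Submodule F V} {ε ε' : ℤ} (h : Typ B W ε) (h' : Typ B W ε') : ε = ε' := by
  obtain ⟨k, hk, hT⟩ := h
  obtain ⟨k', hk', hT'⟩ := h'
  have : k = k' := by omega
  subst this
  exact hT.unique hT'

theorem typ_exists [FiniteDimensional F V] (p : ℕ) [Fact p.Prime] [CharP F p] (hS : B.IsSymm)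
    (h2 : (2 : F) ≠ 0) (W : Submodule F V) (hW : ND B W) (k : ℕ)
    (hk : finrank F W = 2 * k + 2) : Typ B W 1 ∨ Typ B W (-1) := by
  rcases (qfacts (F := F) p).typ_exists k W _ _ (isQuad_sub hS W) (nondeg_sub h2 W hW) hk with h | h
  · exact Or.inl ⟨k, hk, h⟩
  · exact Or.inr ⟨k, hk, h⟩

end Defs

section Interface

variable {F : Type u} [Field F] [Fintype F] {V : Type u} [AddCommGroup V] [Module F V]
  [FiniteDimensional F V]

/-- The facts about a nondegenerate symmetric bilinear space used by the assembly pieces. -/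
structure Facts (B : LinearMap.BilinForm F V) : Prop where
  typ_of_hyp : ∀ W : Submodule F V, Hyp B W → 0 < finrank F W → Typ B W 1
  hyp_of_typ : ∀ W : Submodule F V, ND B W → Typ B W 1 → Hyp B W
  typ_sup : ∀ (X Y : Submodule F V) (ε₁ ε₂ : ℤ), ND B X → ND B Y → Orth B X Y →
    Typ B X ε₁ → Typ B Y ε₂ → Typ B (X ⊔ Y) (ε₁ * ε₂)
  typ_ex : ∀ (W : Submodule F V), ND B W → ∀ k : ℕ, finrank F W = 2 * k + 2 →
    Typ B W 1 ∨ Typ B W (-1)
  hyp_sub : ∀ K : Submodule F V, ND B K → ∀ w : ℕ, 2 * w + 1 ≤ finrank F K →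
    ∃ W : Submodule F V, W ≤ K ∧ Hyp B W ∧ finrank F W = 2 * w
  ell_sub : ∀ K : Submodule F V, ND B K → ∀ w : ℕ, 1 ≤ w → 2 * w + 1 ≤ finrank F K →
    ∃ W : Submodule F V, W ≤ K ∧ ND B W ∧ finrank F W = 2 * w ∧ Typ B W (-1)
  nd_sub : ∀ K : Submodule F V, ND B K → ∀ t : ℕ, t ≤ finrank F K →
    ∃ W : Submodule F V, W ≤ K ∧ ND B W ∧ finrank F W = t
  rep : ∀ K : Submodule F V, ND B K → 2 ≤ finrank F K → ∀ a : F, a ≠ 0 → ∃ v ∈ K, B v v = a
  witt_ext : ∀ (X Y : Submodule F V) (φ : X ≃ₗ[F] Y),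
    (∀ x : X, B (φ x : V) (φ x : V) = B (x : V) (x : V)) →
    ∃ g : V ≃ₗ[F] V, Isom B (g : V →ₗ[F] V) ∧ ∀ x : X, g (x : V) = (φ x : V)
  hyp_map : ∀ (W : Submodule F V) (g : V ≃ₗ[F] V), Isom B (g : V →ₗ[F] V) → Hyp B W →
    Hyp B (W.map (g : V →ₗ[F] V)) ∧ finrank F (W.map (g : V →ₗ[F] V)) = finrank F W

/-- The facts about isometries `T` with `T ^ r = 1` (`r` an odd prime, not the characteristic)
used by the assembly pieces. `blk (Fintype.card F) r` is `i` for `i` even and `2 * i` for `i`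
odd, `i = orderOf (q : ZMod r)`. -/
structure RFacts (B : LinearMap.BilinForm F V) (r : ℕ) : Prop where
  blk_dvd : ∀ T : Module.End F V, Isom B T → T ^ r = 1 → ∀ Z : Submodule F V,
    Z ≤ LinearMap.range (T - 1) → Z.map T ≤ Z → ND B Z → blk (Fintype.card F) r ∣ finrank F Z
  sub_blk : ∀ T : Module.End F V, Isom B T → T ^ r = 1 → ∀ b : ℕ,
    blk (Fintype.card F) r * b ≤ finrank F (LinearMap.range (T - 1)) →
    ∃ W₁ : Submodule F V, W₁ ≤ LinearMap.range (T - 1) ∧ W₁.map T ≤ W₁ ∧ ND B W₁ ∧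
      finrank F W₁ = blk (Fintype.card F) r * b
  typ_range : ∀ T : Module.End F V, Isom B T → T ^ r = 1 → ∀ W₁ : Submodule F V,
    W₁ ≤ LinearMap.range (T - 1) → W₁.map T ≤ W₁ → ND B W₁ → ∀ b : ℕ, 1 ≤ b →
    finrank F W₁ = blk (Fintype.card F) r * b →
    Typ B W₁ (if Even (orderOf ((Fintype.card F : ℕ) : ZMod r)) then (-1) ^ b else 1)

end Interface

end Cfsg.Agent.Lib.Helper96.Hy
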