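import Mathlib
import Cfsg.Agent.Lib.Helper96.HyDefs
import Cfsg.Agent.Lib.Helper51.HypPairs
import Cfsg.Agent.Lib.Helper54.OrthSpin
import Cfsg.Agent.Lib.Helper54.OrthForms
import Cfsg.Prelude.Def_GeometricClasses
import Cfsg.Prelude.Def_Classical

/-!
Project PI (S5989, helper96): the square of an isometry of `quadFormPlus` lies in `omegaGL`
(determinant and spinor character are trivial on squares); isometries of odd order.
-/

set_option autoImplicit false
set_option linter.unusedSectionVars false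
set_option linter.unusedVariables false

namespace Cfsg.Agent.Lib.Helper96.Pi

open Module Matrix
open scoped MatrixGroups

universe u

variable {F : Type u} [Field F] [Fintype F]

theorem ringChar_ne_two (h2 : (2 : F) ≠ 0) : ringChar F ≠ 2 := by
  intro h
  apply h2
  have h3 : ((ringChar F : ℕ) : F) = 0 := ringChar.Nat.cast_ringChar
  rw [h] at h3
  exact_mod_cast h3

/-- The square of an isometry lies in the commutator subgroup of the isometry group. -/
theorem sq_mem_commutator {ι : Type} [Fintype ι] [DecidableEq ι] (Q : QuadraticForm F (ι → F))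
    (h2 : (2 : F) ≠ 0) (hQ : Cfsg.Agent.Lib.Helper54.PolarSep Q)
    (g : ↥(Cfsg.isometryGroup F ⇑Q)) : g ^ 2 ∈ commutator ↥(Cfsg.isometryGroup F ⇑Q) := by
  classical
  have hdet : Cfsg.Agent.Lib.Helper54.detO Q (g ^ 2) = 1 := by
    rw [map_pow]
    obtain ⟨vs, hvs, e⟩ := Cfsg.Agent.Lib.Helper54.exists_reflList Q h2 hQ g
    rw [e, Cfsg.Agent.Lib.Helper54.detO_reflList, ← pow_mul, mul_comm, pow_mul]
    simp
  have hχ : Cfsg.Agent.Lib.Helper51.spinChar Q 1 (g ^ 2) = 1 := by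
    rw [map_pow]
    exact Int.units_sq _
  exact Cfsg.Agent.Lib.Helper54.mem_commutator_of_det_spin Q (ringChar_ne_two h2) hQ (g ^ 2) hdet hχ

/-- An isometry of `quadFormPlus` of odd order lies in `omegaGL`. -/
theorem mem_omegaGL_plus_of_odd (h2 : (2 : F) ≠ 0) (d : ℕ) (x : GL (Fin d ⊕ Fin d) F)
    (hx : ∀ v, Cfsg.quadFormPlus d F ((x : Matrix (Fin d ⊕ Fin d) (Fin d ⊕ Fin d) F) *ᵥ v)
      = Cfsg.quadFormPlus d F v)
    (r : ℕ) (hr : Odd r) (hxr : x ^ r = 1) :
    x ∈ Cfsg.Geo.omegaGL (Cfsg.quadFormPlus d F) := by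
  classical
  rw [← Cfsg.Agent.Lib.Helper51.coe_QPlus] at hx ⊢
  have hQ := Cfsg.Agent.Lib.Helper54.polarSep_plus (F := F) (m := d)
  have hxmem : x ∈ Cfsg.isometryGroup F ⇑(Cfsg.Agent.Lib.Helper51.QPlus d F) := by
    intro u v
    exact hx u
  obtain ⟨k, hk⟩ := hr
  set g : ↥(Cfsg.isometryGroup F ⇑(Cfsg.Agent.Lib.Helper51.QPlus d F)) := ⟨x, hxmem⟩ with hg
  have hgr : g ^ r = 1 := by
    apply Subtype.ext
    rw [SubgroupClass.coe_pow]
    exact hxr
  have hsq : g = (g ^ (k + 1)) ^ 2 := by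
    rw [← pow_mul]
    have : (k + 1) * 2 = r + 1 := by omega
    rw [this, pow_succ, hgr, one_mul]
  have hmem := sq_mem_commutator (Cfsg.Agent.Lib.Helper51.QPlus d F) h2 hQ (g ^ (k + 1))
  rw [← hsq] at hmem
  exact ⟨g, hmem, rfl⟩

/-- Membership in `omegaGL (quadFormPlus d F)` in terms of the commutator subgroup of the
isometry group of `QPlus d F`. -/
theorem mem_omegaGL_plus_iff (d : ℕ) (x : GL (Fin d ⊕ Fin d) F) :
    x ∈ Cfsg.Geo.omegaGL (Cfsg.quadFormPlus d F) ↔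
      ∃ g : ↥(Cfsg.isometryGroup F ⇑(Cfsg.Agent.Lib.Helper51.QPlus d F)),
        g ∈ commutator ↥(Cfsg.isometryGroup F ⇑(Cfsg.Agent.Lib.Helper51.QPlus d F)) ∧
        (g : GL (Fin d ⊕ Fin d) F) = x := by
  rw [← Cfsg.Agent.Lib.Helper51.coe_QPlus]
  constructor
  · rintro ⟨g, hg, rfl⟩
    exact ⟨g, hg, rfl⟩
  · rintro ⟨g, hg, rfl⟩
    exact ⟨g, hg, rfl⟩

end Cfsg.Agent.Lib.Helper96.Pi
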