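import Cfsg.Agent.Lib.Helper10.TH0

set_option autoImplicit false

namespace Cfsg.Agent.Lib.Helper96.THB2

open Matrix Complex UpperHalfPlane ModularForm MatrixGroups Cfsg.Agent.Lib.Helper10.TH
open scoped Manifold Real

/-- Summability of `exp (-a |k|)` over the integers. -/
theorem summable_exp_abs {a : ℝ} (ha : 0 < a) :
    Summable (fun k : ℤ => Real.exp (-a * |(k : ℝ)|)) := by
  have h1 : Summable (fun n : ℕ => Real.exp (-a) ^ n) :=
    summable_geometric_of_lt_one (Real.exp_pos _).le (by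
      rw [Real.exp_lt_one_iff]
      linarith)
  have h2 : ∀ n : ℕ, Real.exp (-a * |((n : ℤ) : ℝ)|) = Real.exp (-a) ^ n := by
    intro n
    rw [← Real.exp_nat_mul]
    congr 1
    have : |((n : ℤ) : ℝ)| = (n : ℝ) := by
      rw [Int.cast_natCast]
      exact abs_of_nonneg (Nat.cast_nonneg n)
    rw [this]
    ring
  have h3 : ∀ n : ℕ, Real.exp (-a * |((-(n : ℤ) : ℤ) : ℝ)|) = Real.exp (-a) ^ n := by
    intro n
    rw [← h2 n]
    congr 2
    rw [Int.cast_neg, abs_neg]
  apply Summable.of_nat_of_neg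
  · exact h1.congr (fun n => (h2 n).symm)
  · exact h1.congr (fun n => (h3 n).symm)

/-- The one-dimensional Gaussian sum. -/
theorem gauss_one {c : ℝ} (hc : 0 < c) (z : ℝ) :
    Summable (fun k : ℤ => Real.exp (-c * ((k : ℝ) - z) ^ 2)) := by
  have h1 : Summable (fun k : ℤ => Real.exp (c * z ^ 2) * Real.exp (-(c / 2) * |(k : ℝ)|)) :=
    (summable_exp_abs (a := c / 2) (by linarith)).mul_left _
  refine Summable.of_nonneg_of_le (fun k => (Real.exp_pos _).le) (fun k => ?_) h1
  rw [← Real.exp_add, Real.exp_le_exp]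
  have h2 : |(k : ℝ)| ≤ (k : ℝ) ^ 2 := by
    rcases eq_or_ne k 0 with rfl | hk
    · simp
    · have h3 : (1 : ℝ) ≤ |(k : ℝ)| := by
        have h4 : (1 : ℤ) ≤ |k| := Int.one_le_abs hk
        have h5 : ((1 : ℤ) : ℝ) ≤ ((|k| : ℤ) : ℝ) := by exact_mod_cast h4
        rw [Int.cast_abs] at h5
        simpa using h5
      rw [← sq_abs]
      nlinarith [abs_nonneg (k : ℝ)]
  have h6 : (k : ℝ) ^ 2 ≤ 2 * ((k : ℝ) - z) ^ 2 + 2 * z ^ 2 := by
    nlinarith [sq_nonneg ((k : ℝ) - 2 * z)]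
  nlinarith

/-- B2 -/
theorem summable_gauss {n : ℕ} {c : ℝ} (hc : 0 < c) (z : Fin n → ℝ) :
    Summable (fun x : Fin n → ℤ => Real.exp (-c * ∑ i, ((x i : ℝ) - z i) ^ 2)) := by
  induction n with
  | zero => exact Summable.of_finite
  | succ n ih =>
    have h1 := gauss_one hc (z 0)
    have h2 := ih (fun j => z j.succ)
    have h3 := Summable.mul_of_nonneg h1 h2 (fun k => (Real.exp_pos _).le)
      (fun y => (Real.exp_pos _).le)
    rw [← (Fin.consEquiv (fun _ : Fin (n + 1) => ℤ)).summable_iff]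
    refine h3.congr (fun p => ?_)
    obtain ⟨k, y⟩ := p
    simp only [Function.comp_apply]
    rw [← Real.exp_add, Fin.sum_univ_succ]
    congr 1
    have e0 : (Fin.consEquiv (fun _ : Fin (n + 1) => ℤ)) (k, y) 0 = k := rfl
    have es : ∀ j : Fin n, (Fin.consEquiv (fun _ : Fin (n + 1) => ℤ)) (k, y) j.succ = y j := by
      intro j
      rfl
    rw [e0]
    simp only [es]
    ring

end Cfsg.Agent.Lib.Helper96.THB2
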