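import Cfsg.Agent.Lib.Helper96.SpBlock

/-!
Totally isotropic subspaces of an alternating form: basic facts, and the predicate
"a polynomial in `T` vanishes on a subspace" used to compare irreducible blocks.
-/

set_option autoImplicit false
set_option linter.unusedSectionVars false
set_option linter.unusedVariables false

namespace Cfsg.Agent.Lib.Helper96.Sp

open Module

section TI

variable {F : Type*} [Field F] {V : Type*} [AddCommGroup V] [Module F V]
  {B : LinearMap.BilinForm F V}

/-- The polynomial `f`, evaluated at `T`, vanishes on `P`. -/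
def Kills (T : Module.End F V) (f : Polynomial F) (P : Submodule F V) : Prop :=
  ∀ u ∈ P, (Polynomial.aeval T f) u = 0

theorem ti_sup (hA : B.IsAlt) {U U' : Submodule F V} (hU : Orth B U U) (hU' : Orth B U' U')
    (h : Orth B U U') : Orth B (U ⊔ U') (U ⊔ U') := by
  have h1 : Orth B U (U ⊔ U') := orth_sup_right hU h
  have h2 : Orth B U' (U ⊔ U') := orth_sup_right (orth_symm hA h) hU'
  exact orth_symm hA (orth_sup_right (orth_symm hA h1) (orth_symm hA h2))

variable [FiniteDimensional F V]

/-- A totally isotropic subspace of a nondegenerate subspace has at most half its dimension. -/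
theorem ti_le_half (hA : B.IsAlt) (hN : ND B ⊤) {K U : Submodule F V} (hK : ND B K)
    (hUK : U ≤ K) (hU : Orth B U U) : 2 * finrank F U ≤ finrank F K := by
  have h1 := finrank_inf_perp hA hN hUK hK
  have h2 : U ≤ K ⊓ B.orthogonal U := le_inf hUK (orth_iff_le_perp.mp hU)
  have h3 := Submodule.finrank_mono h2
  omega

/-- Totally isotropic subspaces of every dimension up to half exist in a nondegenerate
subspace. -/
theorem exists_ti_sub (hA : B.IsAlt) (hN : ND B ⊤) (K : Submodule F V) (hK : ND B K) (w : ℕ)
    (hw : 2 * w ≤ finrank F K) :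
    ∃ U : Submodule F V, U ≤ K ∧ Orth B U U ∧ finrank F U = w := by
  induction w with
  | zero =>
    exact ⟨⊥, bot_le, fun u hu v hv => by
      rw [Submodule.mem_bot] at hu
      rw [hu, map_zero, LinearMap.zero_apply], finrank_bot F V⟩
  | succ w ih =>
    obtain ⟨U, hUK, hU, hUw⟩ := ih (by omega)
    have h1 := finrank_inf_perp hA hN hUK hK
    have h2 : U ≤ K ⊓ B.orthogonal U := le_inf hUK (orth_iff_le_perp.mp hU)
    have h3 : U < K ⊓ B.orthogonal U := by
      refine lt_of_le_of_ne h2 (fun h => ?_)
      rw [← h] at h1
      omega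
    obtain ⟨v, hv, hvU⟩ := SetLike.exists_of_lt h3
    have hv0 : v ≠ 0 := fun h => hvU (h ▸ U.zero_mem)
    have hS : Orth B (Submodule.span F {v}) (Submodule.span F {v}) := by
      intro x hx y hy
      obtain ⟨a, rfl⟩ := Submodule.mem_span_singleton.mp hx
      obtain ⟨b, rfl⟩ := Submodule.mem_span_singleton.mp hy
      rw [map_smul, map_smul, LinearMap.smul_apply, hA v, smul_zero, smul_zero]
    have hUS : Orth B U (Submodule.span F {v}) := by
      intro x hx y hy
      obtain ⟨b, rfl⟩ := Submodule.mem_span_singleton.mp hy
      rw [map_smul, mem_perp_iff.mp hv.2 x hx, smul_zero]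
    refine ⟨U ⊔ Submodule.span F {v}, sup_le hUK ?_, ti_sup hA hU hS hUS, ?_⟩
    · rw [Submodule.span_singleton_le_iff_mem]
      exact hv.1
    · have h4 := Submodule.finrank_sup_add_finrank_inf_eq U (Submodule.span F {v})
      have h5 : U ⊓ Submodule.span F {v} = ⊥ := by
        rw [eq_bot_iff]
        rintro x ⟨hx1, hx2⟩
        obtain ⟨a, rfl⟩ := Submodule.mem_span_singleton.mp hx2
        rw [Submodule.mem_bot]
        by_cases ha : a = 0
        · rw [ha, zero_smul]
        · exfalso
          apply hvU
          have := U.smul_mem a⁻¹ hx1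
          rwa [smul_smul, inv_mul_cancel₀ ha, one_smul] at this
      rw [h5, finrank_bot, finrank_span_singleton hv0] at h4
      omega

end TI

end Cfsg.Agent.Lib.Helper96.Sp
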