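import Cfsg.Agent.Lib.Helper96.SpDefs

/-!
Isometries of prime order of an alternating form over a finite field: the fixed space and the
commutator space are orthogonal complements, invariant subspaces split, irreducible invariant
subspaces of the commutator space, dual partners.
-/

set_option autoImplicit false
set_option linter.unusedSectionVars false
set_option linter.unusedVariables false

namespace Cfsg.Agent.Lib.Helper96.Sp

open Module Cfsg.Agent.Lib.Helper96.BG

section Fix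

variable {F : Type*} [Field F] [Fintype F] {V : Type*} [AddCommGroup V] [Module F V]
  [FiniteDimensional F V] {B : LinearMap.BilinForm F V}

omit [Fintype F] [FiniteDimensional F V] in
theorem orth_ker_range {T : Module.End F V} (hT : Isom B T) :
    Orth B (LinearMap.ker (T - 1)) (LinearMap.range (T - 1)) := by
  rintro u hu _ ⟨w, rfl⟩
  rw [LinearMap.mem_ker, LinearMap.sub_apply, sub_eq_zero] at hu
  have hu' : T u = u := hu
  rw [LinearMap.sub_apply, map_sub]
  have h1 : B u (T w) = B u w := by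
    conv_lhs => rw [← hu']
    exact hT u w
  rw [h1]
  exact sub_self _

theorem ker_sup_range (T : Module.End F V) (r : ℕ) [Fact r.Prime] (hrq : ¬ r ∣ Fintype.card F)
    (hr0 : (r : F) ≠ 0) (hTr : T ^ r = 1) :
    LinearMap.ker (T - 1) ⊔ LinearMap.range (T - 1) = ⊤ := by
  obtain ⟨-, -, -, hdisj, -, -, -, -, hsum⟩ := pow_one_setup T r hrq hr0 hTr
  apply Submodule.eq_top_of_finrank_eq
  have h1 := Submodule.finrank_sup_add_finrank_inf_eq (LinearMap.ker (T - 1))
    (LinearMap.range (T - 1))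
  rw [hdisj, finrank_bot] at h1
  omega

theorem nd_ker (hA : B.IsAlt) (hN : ND B ⊤) (T : Module.End F V) (hT : Isom B T) (r : ℕ)
    [Fact r.Prime] (hrq : ¬ r ∣ Fintype.card F) (hr0 : (r : F) ≠ 0) (hTr : T ^ r = 1) :
    ND B (LinearMap.ker (T - 1)) :=
  nd_of_orth_sup hN (orth_ker_range hT) (ker_sup_range T r hrq hr0 hTr)

theorem nd_range (hA : B.IsAlt) (hN : ND B ⊤) (T : Module.End F V) (hT : Isom B T) (r : ℕ)
    [Fact r.Prime] (hrq : ¬ r ∣ Fintype.card F) (hr0 : (r : F) ≠ 0) (hTr : T ^ r = 1) :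
    ND B (LinearMap.range (T - 1)) :=
  nd_of_orth_sup hN (orth_symm hA (orth_ker_range hT))
    (by rw [sup_comm]; exact ker_sup_range T r hrq hr0 hTr)

/-- An invariant subspace is the sum of its fixed part and its commutator part. -/
theorem inv_split (T : Module.End F V) (r : ℕ) (hr0 : (r : F) ≠ 0) (hTr : T ^ r = 1)
    (W : Submodule F V) (hW : W.map T ≤ W) :
    (W ⊓ LinearMap.ker (T - 1)) ⊔ (W ⊓ LinearMap.range (T - 1)) = W := by
  apply le_antisymm (sup_le inf_le_left inf_le_left)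
  intro w hw
  have hpow : ∀ m : ℕ, (T ^ m) w ∈ W := by
    intro m
    induction m with
    | zero => exact hw
    | succ m ih =>
      rw [pow_succ']
      exact hW ⟨_, ih, rfl⟩
  have hGw : (∑ m ∈ Finset.range r, T ^ m) w ∈ W := by
    rw [LinearMap.sum_apply]
    exact Submodule.sum_mem _ (fun m _ => hpow m)
  have h1 : w = (r : F)⁻¹ • (∑ m ∈ Finset.range r, T ^ m) w +
      (r : F)⁻¹ • ((r : F) • w - (∑ m ∈ Finset.range r, T ^ m) w) := by
    rw [smul_sub, smul_smul, inv_mul_cancel₀ hr0, one_smul]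
    abel
  rw [h1]
  apply Submodule.add_mem_sup
  · exact ⟨W.smul_mem _ hGw, Submodule.smul_mem _ _ (geom_mem_ker T r hTr w)⟩
  · refine ⟨W.smul_mem _ (W.sub_mem (W.smul_mem _ hw) hGw), Submodule.smul_mem _ _ ?_⟩
    have h2 : (r : F) • w - (∑ m ∈ Finset.range r, T ^ m) w =
        ∑ m ∈ Finset.range r, (w - (T ^ m) w) := by
      rw [Finset.sum_sub_distrib, Finset.sum_const, Finset.card_range, LinearMap.sum_apply,
        Nat.cast_smul_eq_nsmul]
    rw [h2]
    refine Submodule.sum_mem _ (fun m _ => ?_)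
    refine ⟨-((∑ l ∈ Finset.range m, T ^ l) w), ?_⟩
    have h3 : (T - 1) * (∑ l ∈ Finset.range m, T ^ l) = T ^ m - 1 := mul_geom_sum T m
    have h4 : (T - 1) ((∑ l ∈ Finset.range m, T ^ l) w) = (T ^ m) w - w :=
      LinearMap.congr_fun h3 w
    rw [map_neg, h4, neg_sub]

/-- Basic package for an isometry of prime order. -/
theorem fix_setup (hA : B.IsAlt) (hN : ND B ⊤) (T : Module.End F V) (hT : Isom B T) (r : ℕ)
    [Fact r.Prime] (hrq : ¬ r ∣ Fintype.card F) (hr0 : (r : F) ≠ 0) (hTr : T ^ r = 1)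
    (W : Submodule F V) (hW : W.map T ≤ W) (hWnd : ND B W) :
    ND B (W ⊓ LinearMap.ker (T - 1)) ∧ ND B (W ⊓ LinearMap.range (T - 1)) ∧
    (W ⊓ LinearMap.range (T - 1)).map T ≤ W ⊓ LinearMap.range (T - 1) ∧
    finrank F ↥(W ⊓ LinearMap.ker (T - 1)) + finrank F ↥(W ⊓ LinearMap.range (T - 1)) =
      finrank F W := by
  obtain ⟨-, -, -, hdisj, hRinv, -, -, hdim, -⟩ := pow_one_setup T r hrq hr0 hTr
  have hsplit := inv_split T r hr0 hTr W hW
  have horth : Orth B (W ⊓ LinearMap.ker (T - 1)) (W ⊓ LinearMap.range (T - 1)) :=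
    orth_mono (orth_ker_range hT) inf_le_right inf_le_right
  refine ⟨nd_of_orth_sup hWnd horth hsplit,
    nd_of_orth_sup hWnd (orth_symm hA horth) (by rw [sup_comm]; exact hsplit), ?_, ?_⟩
  · rintro _ ⟨x, hx, rfl⟩
    exact ⟨hW ⟨x, hx.1, rfl⟩, hRinv ⟨x, hx.2, rfl⟩⟩
  · have h1 := hdim _ _ (inf_le_right : W ⊓ LinearMap.ker (T - 1) ≤ _)
      (inf_le_right : W ⊓ LinearMap.range (T - 1) ≤ _)
    rw [hsplit] at h1
    exact h1.symm

/-- Irreducibility of an invariant subspace of the commutator space of minimal dimension. -/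
theorem inv_eq_bot_or (T : Module.End F V) (r : ℕ) [Fact r.Prime] (hrq : ¬ r ∣ Fintype.card F)
    (hr0 : (r : F) ≠ 0) (hTr : T ^ r = 1) (U : Submodule F V)
    (hUR : U ≤ LinearMap.range (T - 1))
    (hUi : finrank F U = orderOf ((Fintype.card F : ℕ) : ZMod r))
    (Z : Submodule F V) (hZU : Z ≤ U) (hZ : Z.map T ≤ Z) : Z = ⊥ ∨ Z = U := by
  obtain ⟨hi, -, -, -, -, -, hdiv, -, -⟩ := pow_one_setup T r hrq hr0 hTr
  obtain ⟨k, hk⟩ := hdiv Z (le_trans hZU hUR) hZ
  have hle := Submodule.finrank_mono hZU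
  rw [hUi, hk] at hle
  rcases Nat.eq_zero_or_pos k with h0 | h0
  · left
    rw [h0, mul_zero] at hk
    exact Submodule.finrank_eq_zero.mp hk
  · right
    apply Submodule.eq_of_le_of_finrank_eq hZU
    rw [hUi, hk]
    have : orderOf ((Fintype.card F : ℕ) : ZMod r) * 1 ≤ orderOf ((Fintype.card F : ℕ) : ZMod r) * k :=
      Nat.mul_le_mul_left _ h0
    omega

/-- A nonzero invariant subspace of the commutator space contains an irreducible one. -/
theorem exists_inv_dim (T : Module.End F V) (r : ℕ) [Fact r.Prime] (hrq : ¬ r ∣ Fintype.card F)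
    (hr0 : (r : F) ≠ 0) (hTr : T ^ r = 1) (W : Submodule F V) (hW : W.map T ≤ W)
    (hWR : W ≤ LinearMap.range (T - 1)) (hW0 : W ≠ ⊥) :
    ∃ U : Submodule F V, U ≤ W ∧ U.map T ≤ U ∧
      finrank F U = orderOf ((Fintype.card F : ℕ) : ZMod r) := by
  obtain ⟨hi, hTq, hss, -, -, -, hdiv, -, -⟩ := pow_one_setup T r hrq hr0 hTr
  have hdiv' : ∀ Z : Submodule F V, Z ≤ W → Z.map T ≤ Z →
      orderOf ((Fintype.card F : ℕ) : ZMod r) ∣ finrank F Z :=
    fun Z hZW hZ => hdiv Z (le_trans hZW hWR) hZ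
  have hWpos : 0 < finrank F W := by
    rw [Nat.pos_iff_ne_zero]
    intro h
    exact hW0 (Submodule.finrank_eq_zero.mp h)
  have hle : orderOf ((Fintype.card F : ℕ) : ZMod r) * 1 ≤ finrank F W := by
    rw [mul_one]
    exact Nat.le_of_dvd hWpos (hdiv' W le_rfl hW)
  obtain ⟨U, hU1, -, hU3, hU4⟩ := exists_inv_ge T _ hi hTq hss W hW hdiv' ⊥
    (by rw [Submodule.map_bot]) bot_le 0 (by rw [finrank_bot, mul_zero]) 1 (by omega) hle
  exact ⟨U, hU3, hU1, by rw [hU4, mul_one]⟩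

omit [Fintype F] in
theorem perp_top (hA : B.IsAlt) (hN : ND B ⊤) : B.orthogonal ⊤ = ⊥ := by
  rw [eq_bot_iff]
  intro v hv
  rw [Submodule.mem_bot]
  exact hN v Submodule.mem_top (fun w hw => (mem_perp_iff' hA).mp hv w hw)

omit [Fintype F] in
/-- The dimension of the orthogonal of `U` inside a nondegenerate `W ⊇ U`. -/
theorem finrank_inf_perp (hA : B.IsAlt) (hN : ND B ⊤) {U W : Submodule F V} (hUW : U ≤ W)
    (hW : ND B W) : finrank F ↥(W ⊓ B.orthogonal U) + finrank F U = finrank F W := by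
  have h1 := LinearMap.BilinForm.finrank_add_finrank_orthogonal hA.isRefl U
  have h2 := LinearMap.BilinForm.finrank_add_finrank_orthogonal hA.isRefl W
  rw [perp_top hA hN, inf_bot_eq, finrank_bot, add_zero] at h1 h2
  have hle : B.orthogonal W ≤ B.orthogonal U := LinearMap.BilinForm.orthogonal_le hUW
  have h3 : (B.orthogonal W ⊔ W) ⊓ B.orthogonal U = B.orthogonal W ⊔ (W ⊓ B.orthogonal U) :=
    sup_inf_assoc_of_le W hle
  rw [sup_comm, (nd_isCompl hA hW).sup_eq_top, top_inf_eq] at h3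
  have h4 := Submodule.finrank_sup_add_finrank_inf_eq (B.orthogonal W) (W ⊓ B.orthogonal U)
  have h5 : B.orthogonal W ⊓ (W ⊓ B.orthogonal U) = ⊥ := by
    rw [eq_bot_iff, ← nd_inf_perp hA hW]
    exact le_inf (le_trans inf_le_right inf_le_left) inf_le_left
  rw [← h3, h5, finrank_bot] at h4
  omega

/-- A dual partner for a totally isotropic irreducible subspace. -/
theorem exists_partner (hA : B.IsAlt) (hN : ND B ⊤) (T : Module.End F V) (hT : Isom B T) (r : ℕ)
    [Fact r.Prime] (hrq : ¬ r ∣ Fintype.card F) (hr0 : (r : F) ≠ 0) (hTr : T ^ r = 1)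
    (W : Submodule F V) (hW : W.map T ≤ W) (hWnd : ND B W)
    (U : Submodule F V) (hUW : U ≤ W) (hU : U.map T ≤ U) :
    ∃ U' : Submodule F V, U' ≤ W ∧ U'.map T ≤ U' ∧ finrank F U' = finrank F U ∧
      U' ⊓ B.orthogonal U = ⊥ := by
  obtain ⟨-, -, hss, -, -, -, -, -, -⟩ := pow_one_setup T r hrq hr0 hTr
  have hZinv : (W ⊓ B.orthogonal U).map T ≤ W ⊓ B.orthogonal U := by
    rintro _ ⟨x, hx, rfl⟩
    exact ⟨hW ⟨x, hx.1, rfl⟩, perp_invariant hN hT hU ⟨x, hx.2, rfl⟩⟩
  obtain ⟨C, hC, hCinv⟩ := exists_invariant_compl T hss (W ⊓ B.orthogonal U) hZinv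
  have hfin := finrank_inf_perp hA hN hUW hWnd
  have h1 : (W ⊓ B.orthogonal U ⊔ C) ⊓ W = W ⊓ B.orthogonal U ⊔ C ⊓ W :=
    sup_inf_assoc_of_le C inf_le_left
  rw [hC.sup_eq_top, top_inf_eq] at h1
  have h2 : (W ⊓ B.orthogonal U) ⊓ (C ⊓ W) = ⊥ := by
    rw [eq_bot_iff, ← hC.inf_eq_bot]
    exact inf_le_inf_left _ inf_le_left
  have h3 := Submodule.finrank_sup_add_finrank_inf_eq (W ⊓ B.orthogonal U) (C ⊓ W)
  rw [← h1, h2, finrank_bot] at h3
  refine ⟨C ⊓ W, inf_le_right, ?_, by omega, ?_⟩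
  · rintro _ ⟨x, hx, rfl⟩
    exact ⟨hCinv ⟨x, hx.1, rfl⟩, hW ⟨x, hx.2, rfl⟩⟩
  · rw [eq_bot_iff, ← hC.inf_eq_bot]
    rintro x ⟨⟨hx1, hx2⟩, hx3⟩
    exact ⟨⟨hx2, hx3⟩, hx1⟩

omit [Fintype F] [FiniteDimensional F V] in
/-- Two totally isotropic subspaces in duality span a nondegenerate subspace. -/
theorem nd_pair (hA : B.IsAlt) {U U' : Submodule F V} (hUU : Orth B U U) (hUU' : Orth B U' U')
    (h1 : U' ⊓ B.orthogonal U = ⊥) (h2 : U ⊓ B.orthogonal U' = ⊥) : ND B (U ⊔ U') := by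
  intro x hx h
  obtain ⟨u, hu, u', hu', rfl⟩ := Submodule.mem_sup.mp hx
  have hu'0 : u' = 0 := by
    have h3 : u' ∈ U' ⊓ B.orthogonal U := by
      refine ⟨hu', (mem_perp_iff' hA).mpr (fun v hv => ?_)⟩
      have h4 := h v (Submodule.mem_sup_left hv)
      rw [map_add, LinearMap.add_apply, hUU u hu v hv, zero_add] at h4
      exact h4
    rw [h1] at h3
    exact (Submodule.mem_bot F).mp h3
  have hu0 : u = 0 := by
    have h3 : u ∈ U ⊓ B.orthogonal U' := by
      refine ⟨hu, (mem_perp_iff' hA).mpr (fun v hv => ?_)⟩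
      have h4 := h v (Submodule.mem_sup_right hv)
      rw [map_add, LinearMap.add_apply, hUU' u' hu' v hv, add_zero] at h4
      exact h4
    rw [h2] at h3
    exact (Submodule.mem_bot F).mp h3
  rw [hu0, hu'0, add_zero]

end Fix

end Cfsg.Agent.Lib.Helper96.Sp
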