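import Cfsg.Agent.Lib.Helper96.SpObst
import Cfsg.Agent.Lib.Helper58.SpGlue
import Cfsg.Agent.Lib.Helper58.SpMax
import Cfsg.Agent.Lib.Helper73.SpCount
import Cfsg.Agent.Lib.Helper94.SpWitt

/-!
Isometries of odd prime order with one block, and with the smallest possible fixed space.
-/

set_option autoImplicit false
set_option linter.unusedSectionVars false
set_option linter.unusedVariables false

namespace Cfsg.Agent.Lib.Helper96.Sp

open Module Cfsg.Agent.Lib.Helper96.BG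

section Elem

variable {F : Type*} [Field F] [Fintype F] {V : Type*} [AddCommGroup V] [Module F V]
  [FiniteDimensional F V] {B : LinearMap.BilinForm F V}

omit [Fintype F] in
/-- Witt's theorem for nondegenerate subspaces. -/
theorem witt_sub (hA : B.IsAlt) (hN : ND B ⊤) {P Q : Submodule F V} (hP : ND B P) (hQ : ND B Q)
    (hfin : finrank F P = finrank F Q) :
    ∃ h : V ≃ₗ[F] V, Isom B (h : V →ₗ[F] V) ∧ P.map (h : V →ₗ[F] V) = Q := by
  have hcP := nd_isCompl hA hP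
  have hcQ := nd_isCompl hA hQ
  have h1 := Submodule.finrank_add_eq_of_isCompl hcP
  have h2 := Submodule.finrank_add_eq_of_isCompl hcQ
  obtain ⟨g, hg, hmap⟩ := Cfsg.Agent.Lib.Helper94.SpWitt.exists_isom_map hA hN
    (fun b : Bool => if b then P else B.orthogonal P)
    (fun b : Bool => if b then Q else B.orthogonal Q)
    (fun b => by
      cases b
      · show finrank F ↥(B.orthogonal P) = finrank F ↥(B.orthogonal Q)
        omega
      · exact hfin)
    (fun b b' hbb' => by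
      cases b <;> cases b'
      · exact absurd rfl hbb'
      · exact orth_symm hA (orth_iff_le_perp.mpr (le_refl (B.orthogonal P)))
      · exact orth_iff_le_perp.mpr (le_refl (B.orthogonal P))
      · exact absurd rfl hbb')
    (by rw [iSup_bool_eq]; exact hcP.sup_eq_top)
    (fun b b' hbb' => by
      cases b <;> cases b'
      · exact absurd rfl hbb'
      · exact orth_symm hA (orth_iff_le_perp.mpr (le_refl (B.orthogonal Q)))
      · exact orth_iff_le_perp.mpr (le_refl (B.orthogonal Q))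
      · exact absurd rfl hbb')
    (by rw [iSup_bool_eq]; exact hcQ.sup_eq_top)
  exact ⟨g, hg, hmap true⟩

/-- From a nontrivial isometry of order `r`: an isometry of order `r` acting fixed-point-freely
on a nondegenerate subspace of dimension `blk` and trivially on its orthogonal. -/
theorem exists_one_block (hA : B.IsAlt) (hN : ND B ⊤) (r : ℕ) [Fact r.Prime] (hr2 : r ≠ 2)
    (hrq : ¬ r ∣ Fintype.card F) (hr0 : (r : F) ≠ 0) (g : Module.End F V) (hg : Isom B g)
    (hgr : g ^ r = 1) (hg1 : g ≠ 1) :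
    ∃ (x₁ : Module.End F V) (P₀ : Submodule F V), ND B P₀ ∧
      finrank F P₀ = blk (Fintype.card F) r ∧ Isom B x₁ ∧ x₁ ^ r = 1 ∧ P₀.map x₁ ≤ P₀ ∧
      (∀ u ∈ B.orthogonal P₀, x₁ u = u) ∧ (∀ u ∈ P₀, x₁ u = u → u = 0) := by
  obtain ⟨hi, -, -, hdisj, hRinv, -, -, -, -⟩ := pow_one_setup g r hrq hr0 hgr
  have hR0 : LinearMap.range (g - 1) ≠ ⊥ := by
    intro h
    apply hg1
    have h1 : g - 1 = 0 := LinearMap.range_eq_bot.mp h
    exact sub_eq_zero.mp h1
  obtain ⟨P₀, hP₀R, hP₀inv, hP₀nd, hP₀c⟩ := exists_block hA hN g hg r hr2 hrq hr0 hgr _ hRinv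
    (nd_range hA hN g hg r hrq hr0 hgr) le_rfl hR0
  obtain ⟨y, hy, hyr, hyP, hyperp⟩ :=
    Cfsg.Agent.Lib.Helper58.SpGlue.exists_glue hA hP₀nd g hg hP₀inv r hgr
  refine ⟨y, P₀, hP₀nd, hP₀c, hy, hyr, ?_, hyperp, ?_⟩
  · rintro _ ⟨u, hu, rfl⟩
    rw [hyP u hu]
    exact hP₀inv ⟨u, hu, rfl⟩
  · intro u hu hfix
    rw [hyP u hu] at hfix
    have h1 : u ∈ LinearMap.ker (g - 1) ⊓ LinearMap.range (g - 1) :=
      ⟨LinearMap.mem_ker.mpr (by rw [LinearMap.sub_apply, hfix]; exact sub_self u), hP₀R hu⟩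
    rw [hdisj] at h1
    exact (Submodule.mem_bot F).mp h1

omit [Fintype F] in
/-- The commutator space of a one-block isometry lies in the block. -/
theorem range_le_block (hA : B.IsAlt) {P₀ : Submodule F V} (hP₀ : ND B P₀) (x₁ : Module.End F V)
    (hx₁inv : P₀.map x₁ ≤ P₀) (hx₁P : ∀ u ∈ B.orthogonal P₀, x₁ u = u) :
    LinearMap.range (x₁ - 1) ≤ P₀ := by
  rintro _ ⟨v, rfl⟩
  have h1 : v ∈ P₀ ⊔ B.orthogonal P₀ := by
    rw [(nd_isCompl hA hP₀).sup_eq_top]
    exact Submodule.mem_top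
  obtain ⟨q, hq, p, hp, rfl⟩ := Submodule.mem_sup.mp h1
  have h2 : (x₁ - 1) (q + p) = x₁ q - q := by
    rw [LinearMap.sub_apply, map_add, hx₁P p hp]
    show x₁ q + p - (q + p) = x₁ q - q
    abel
  rw [h2]
  exact P₀.sub_mem (hx₁inv ⟨q, hq, rfl⟩) hq

/-- An isometry of order `r` whose fixed space has dimension `dim V mod blk`. -/
theorem exists_max_elt (hA : B.IsAlt) (hN : ND B ⊤) (r : ℕ) [Fact r.Prime] (hr2 : r ≠ 2)
    (hrq : ¬ r ∣ Fintype.card F) (hr0 : (r : F) ≠ 0) (g : Module.End F V) (hg : Isom B g)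
    (hgr : g ^ r = 1) (hg1 : g ≠ 1) :
    ∃ y : Module.End F V, Isom B y ∧ y ^ r = 1 ∧
      finrank F (LinearMap.ker (y - 1)) = finrank F V % blk (Fintype.card F) r := by
  obtain ⟨hi, -, -, -, -, -, -, -, -⟩ := pow_one_setup g r hrq hr0 hgr
  obtain ⟨x₁, P₀, hP₀nd, hP₀c, hx₁, hx₁r, hx₁inv, hx₁P, hx₁fix⟩ :=
    exists_one_block hA hN r hr2 hrq hr0 g hg hgr hg1
  obtain ⟨c', hc'⟩ := blk_even (Fintype.card F) r
  obtain ⟨y, hy, hyr, hyk⟩ := Cfsg.Agent.Lib.Helper58.SpMax.exists_max hA hN r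
    (blk (Fintype.card F) r) (blk_pos _ _ hi) x₁ P₀ hP₀nd hP₀c hx₁ hx₁r hx₁inv hx₁P hx₁fix
    (fun y hy hyr => nd_ker hA hN y hy r hrq hr0 hyr)
    (fun K hK hle => by
      obtain ⟨Q, hQK, hQ, hQfin⟩ := exists_nd_sub hA K hK c' (by omega)
      exact ⟨Q, hQK, hQ, by omega⟩)
    (fun Q hQ hQc => witt_sub hA hN hP₀nd hQ (by rw [hP₀c, hQc]))
    (finrank F V / blk (Fintype.card F) r) (Nat.mul_div_le _ _)
  refine ⟨y, hy, hyr, ?_⟩
  rw [hyk]
  have := Nat.div_add_mod (finrank F V) (blk (Fintype.card F) r)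
  omega

/-- A prime dividing the number of unordered orthogonal decompositions gives a nontrivial
isometry of that order. -/
theorem exists_isom_order (hA : B.IsAlt) (hN : ND B ⊤) (a t : ℕ) (ha : 1 ≤ a) (hae : Even a)
    (hV : finrank F V = t * a) (r : ℕ) [Fact r.Prime] (hr2 : r ≠ 2)
    (hrq : ¬ r ∣ Fintype.card F) (hr0 : (r : F) ≠ 0)
    (hΩ : r ∣ Nat.card {D : Fin t → Submodule F V // IsOD B a D} / Nat.factorial t) :
    ∃ g : Module.End F V, Isom B g ∧ g ^ r = 1 ∧ g ≠ 1 := by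
  have hker : LinearMap.ker ((1 : Module.End F V) - 1) = ⊤ := by
    rw [sub_self]
    exact LinearMap.ker_zero
  obtain ⟨D₀, -, h₀⟩ := exists_sp_decomp hA hN (1 : Module.End F V) (fun x y => rfl) r hr2 hrq hr0
    (one_pow r) a t ha hae hV (by
      rw [hker, finrank_top, hV]
      exact Nat.mul_le_mul_left t (Nat.mod_le _ _))
  exact Cfsg.Agent.Lib.Helper73.SpCount.exists_isom_of_dvd_count hA hN a t ha D₀ h₀
    (fun D D' hD hD' => Cfsg.Agent.Lib.Helper94.SpWitt.exists_isom_map hA hN D D'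
      (fun j => by rw [hD.1 j, hD'.1 j]) hD.2.1 hD.2.2 hD'.2.1 hD'.2.2) r hΩ

end Elem

end Cfsg.Agent.Lib.Helper96.Sp
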