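import Mathlib

/-!
# S5965: small arithmetic facts
-/

set_option autoImplicit false

namespace Cfsg.Agent.Lib.Helper96.Sf

/-- A primitive `r`-th root of unity in a finite field with `r ∣ q - 1`. -/
theorem exists_prim_root {F : Type*} [Field F] [Fintype F] (r : ℕ) [Fact r.Prime]
    (hdvd : r ∣ Fintype.card F - 1) : ∃ ω : F, ω ^ r = 1 ∧ ω ≠ 1 := by
  classical
  have h1 : r ∣ Fintype.card Fˣ := by rw [Fintype.card_units]; exact hdvd
  obtain ⟨u, hu⟩ := exists_prime_orderOf_dvd_card r h1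
  refine ⟨(u : F), ?_, ?_⟩
  · have : u ^ r = 1 := by rw [← hu]; exact pow_orderOf_eq_one u
    rw [← Units.val_pow_eq_pow_val, this, Units.val_one]
  · intro h
    have : u = 1 := Units.ext h
    rw [this, orderOf_one] at hu
    exact (Fact.out : r.Prime).one_lt.ne hu

/-- Fermat: `r ∣ a ^ r - 1` forces `r ∣ a - 1`. -/
theorem dvd_sub_one_of_pow (r a : ℕ) [Fact r.Prime] (ha : 1 ≤ a) (h : r ∣ a ^ r - 1) :
    r ∣ a - 1 := by
  have h1 : ((a ^ r - 1 : ℕ) : ZMod r) = 0 := (ZMod.natCast_eq_zero_iff _ _).mpr h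
  rw [Nat.cast_sub (Nat.one_le_pow _ _ ha), Nat.cast_pow, ZMod.pow_card, Nat.cast_one] at h1
  rw [← ZMod.natCast_eq_zero_iff, Nat.cast_sub ha, Nat.cast_one]
  exact h1

/-- Fermat: `a ^ r ≡ a` modulo the prime `r`. -/
theorem pow_mod_self (r a : ℕ) [Fact r.Prime] : a ^ r % r = a % r := by
  have h1 : ((a ^ r : ℕ) : ZMod r) = ((a : ℕ) : ZMod r) := by
    rw [Nat.cast_pow, ZMod.pow_card]
  exact (ZMod.natCast_eq_natCast_iff' _ _ _).mp h1

/-- The power `q₀` is a power of the characteristic. -/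
theorem exists_char_pow {F : Type*} [Field F] [Fintype F] (p : ℕ) [Fact p.Prime] [CharP F p]
    {q₀ k : ℕ} (hk : k ≠ 0) (hq : Fintype.card F = q₀ ^ k) : ∃ e : ℕ, q₀ = p ^ e := by
  obtain ⟨a, hp, ha⟩ := FiniteField.card F p
  have h1 : q₀ ∣ p ^ (a : ℕ) := by
    rw [← ha, hq]
    exact dvd_pow_self q₀ hk
  obtain ⟨e, -, he⟩ := (Nat.dvd_prime_pow hp).1 h1
  exact ⟨e, he⟩

end Cfsg.Agent.Lib.Helper96.Sf
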