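import Cfsg.Agent.Lib.Helper96.BGDecA

/-!
Invariant decompositions for an endomorphism `T` with `T ^ r = 1` (`r` prime, different from the
characteristic) of a vector space over a finite field.
-/

set_option autoImplicit false
set_option linter.unusedSectionVars false

namespace Cfsg.Agent.Lib.Helper96.BG

open Module

section DecB

variable {F : Type*} [Field F] [Fintype F] {V : Type*} [AddCommGroup V] [Module F V]
  [FiniteDimensional F V]

/-- The standing facts about an endomorphism with `T ^ r = 1`. -/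
theorem pow_one_setup (T : Module.End F V) (r : ℕ) [Fact r.Prime]
    (hr : ¬ r ∣ Fintype.card F) (hr0 : (r : F) ≠ 0) (hT : T ^ r = 1) :
    1 ≤ orderOf ((Fintype.card F : ℕ) : ZMod r) ∧
    T ^ (Fintype.card F ^ orderOf ((Fintype.card F : ℕ) : ZMod r)) = T ∧
    T.IsSemisimple ∧
    LinearMap.ker (T - 1) ⊓ LinearMap.range (T - 1) = ⊥ ∧
    (LinearMap.range (T - 1)).map T ≤ LinearMap.range (T - 1) ∧
    (∀ Y : Submodule F V, Y ≤ LinearMap.ker (T - 1) → Y.map T ≤ Y) ∧
    (∀ Z : Submodule F V, Z ≤ LinearMap.range (T - 1) → Z.map T ≤ Z →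
      orderOf ((Fintype.card F : ℕ) : ZMod r) ∣ finrank F Z) ∧
    (∀ Y Z : Submodule F V, Y ≤ LinearMap.ker (T - 1) → Z ≤ LinearMap.range (T - 1) →
      finrank F (Y ⊔ Z : Submodule F V) = finrank F Y + finrank F Z) ∧
    finrank F (LinearMap.ker (T - 1)) + finrank F (LinearMap.range (T - 1)) = finrank F V := by
  classical
  set i := orderOf ((Fintype.card F : ℕ) : ZMod r) with hi_def
  have hq0 : ((Fintype.card F : ℕ) : ZMod r) ≠ 0 := by
    rw [Ne, ZMod.natCast_eq_zero_iff]
    exact hr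
  have hi : 1 ≤ i := by
    have h1 : IsOfFinOrder ((Fintype.card F : ℕ) : ZMod r) := by
      have hu : IsUnit ((Fintype.card F : ℕ) : ZMod r) := isUnit_iff_ne_zero.mpr hq0
      exact hu.isOfFinOrder
    exact h1.orderOf_pos
  have hdvd : r ∣ Fintype.card F ^ i - 1 :=
    (dvd_pow_sub_one_iff _ r i Fintype.card_pos).mpr dvd_rfl
  have hTq := pow_card_pow_eq T r hT i hdvd
  have hss := isSemisimple_of_pow_eq_one T r hr0 hT
  have hdisj := ker_inf_range T r hr0 hT
  have hcomm : T * (T - 1) = (T - 1) * T := by rw [mul_sub, sub_mul, mul_one, one_mul]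
  have hNinv : (LinearMap.range (T - 1)).map T ≤ LinearMap.range (T - 1) := by
    rintro _ ⟨_, ⟨w, rfl⟩, rfl⟩
    refine ⟨T w, ?_⟩
    have := LinearMap.congr_fun hcomm w
    exact this.symm
  have hCsub : ∀ Y : Submodule F V, Y ≤ LinearMap.ker (T - 1) → Y.map T ≤ Y := by
    rintro Y hY _ ⟨y, hy, rfl⟩
    have h1 := hY hy
    rw [LinearMap.mem_ker, LinearMap.sub_apply, sub_eq_zero] at h1
    rw [h1]
    exact hy
  have hdiv : ∀ Z : Submodule F V, Z ≤ LinearMap.range (T - 1) → Z.map T ≤ Z →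
      i ∣ finrank F Z := by
    intro Z hZ hZinv
    have h1 := orderOf_dvd_sub T r hr hT Z hZinv
    have h2 : Z ⊓ LinearMap.ker (T - 1) = ⊥ := by
      rw [eq_bot_iff, ← hdisj, inf_comm]
      exact inf_le_inf_left _ hZ
    rw [h2, finrank_bot, Nat.sub_zero] at h1
    exact h1
  have hdim : ∀ Y Z : Submodule F V, Y ≤ LinearMap.ker (T - 1) → Z ≤ LinearMap.range (T - 1) →
      finrank F (Y ⊔ Z : Submodule F V) = finrank F Y + finrank F Z := by
    intro Y Z hY hZ
    have h1 := Submodule.finrank_sup_add_finrank_inf_eq Y Z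
    have h2 : Y ⊓ Z = ⊥ := by
      rw [eq_bot_iff, ← hdisj]
      exact inf_le_inf hY hZ
    rw [h2, finrank_bot, add_zero] at h1
    exact h1
  refine ⟨hi, hTq, hss, hdisj, hNinv, hCsub, hdiv, hdim, ?_⟩
  have := LinearMap.finrank_range_add_finrank_ker (T - 1)
  omega

theorem dec_arith1 (c e l s j : ℕ) : c * min s (j * e) ≤ j * (c * e + l) := by
  have h1 := Nat.mul_le_mul_left c (min_le_right s (j * e))
  have h2 : c * (j * e) = j * (c * e) := by ring
  have h3 : j * (c * e + l) = j * (c * e) + j * l := by ring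
  omega

theorem dec_arith2 (c e l s t dC j : ℕ) (hj : j ≤ t) (h1 : dC + c * s = t * (c * e + l))
    (h2 : t * l ≤ dC) : j * (c * e + l) - c * min s (j * e) ≤ dC := by
  rcases le_total s (j * e) with h | h
  · rw [min_eq_left h]
    have h3 := Nat.mul_le_mul_right (c * e + l) hj
    omega
  · rw [min_eq_right h]
    have h3 : c * (j * e) = j * (c * e) := by ring
    have h4 : j * (c * e + l) = j * (c * e) + j * l := by ring
    have h5 := Nat.mul_le_mul_right l hj
    omega

theorem dec_arith3 (c e l s j : ℕ) :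
    j * (c * e + l) - c * min s (j * e) ≤ (j + 1) * (c * e + l) - c * min s ((j + 1) * e) := by
  have h3 : c * (j * e) = j * (c * e) := by ring
  have h4 : j * (c * e + l) = j * (c * e) + j * l := by ring
  have h5 : c * ((j + 1) * e) = j * (c * e) + c * e := by ring
  have h6 : (j + 1) * (c * e + l) = j * (c * e) + j * l + c * e + l := by ring
  rcases le_total s (j * e) with h | h
  · have h' : s ≤ (j + 1) * e := le_trans h (Nat.mul_le_mul_right e (Nat.le_succ j))
    rw [min_eq_left h, min_eq_left h']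
    omega
  · rw [min_eq_right h]
    rcases le_total s ((j + 1) * e) with h' | h'
    · rw [min_eq_left h']
      have h7 := Nat.mul_le_mul_left c h'
      omega
    · rw [min_eq_right h']
      omega

/-- Invariant decompositions: if `T ^ r = 1`, `dim V = t * a` and the fixed space has dimension at
least `t * (a mod c)`, `c = ord_r(q)`, then `V` is a direct sum of `t` invariant subspaces of
dimension `a`. -/
theorem exists_decomp_pow_one (T : Module.End F V) (r : ℕ) [Fact r.Prime]
    (hr : ¬ r ∣ Fintype.card F) (hr0 : (r : F) ≠ 0) (hT : T ^ r = 1) (a t : ℕ)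
    (hV : finrank F V = t * a)
    (hC : t * (a % orderOf ((Fintype.card F : ℕ) : ZMod r)) ≤
      finrank F (LinearMap.ker (T - 1))) :
    ∃ D : Fin t → Submodule F V, (∀ j, (D j).map T ≤ D j) ∧ (∀ j, finrank F (D j) = a) ∧
      (⨆ j, D j) = ⊤ := by
  classical
  obtain ⟨hi, hTq, hss, hdisj, hNinv, hCsub, hdiv, hdim, hrk⟩ := pow_one_setup T r hr hr0 hT
  generalize orderOf ((Fintype.card F : ℕ) : ZMod r) = c at *
  obtain ⟨s, hs⟩ := hdiv (LinearMap.range (T - 1)) le_rfl hNinv
  obtain ⟨e, l, he, hl⟩ : ∃ e l, a = c * e + l ∧ a % c = l :=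
    ⟨a / c, a % c, (Nat.div_add_mod a c).symm, rfl⟩
  rw [hl] at hC
  rw [hs] at hrk
  rw [he] at hV
  have hbot : (⊥ : Submodule F V).map T ≤ ⊥ := by rw [Submodule.map_bot]
  -- the chain in the fixed space
  obtain ⟨C', hC', hC'mono⟩ := exists_chain (fun W : Submodule F V => W ≤ LinearMap.ker (T - 1))
    (fun j => j * (c * e + l) - c * min s (j * e)) t
    ⟨⊥, bot_le, by rw [finrank_bot]; simp⟩
    (fun j hj W hW hfin => by
      obtain ⟨W', h1, h2, h3⟩ := exists_sub_ge (LinearMap.ker (T - 1)) W hW _ hfin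
        ((j + 1) * (c * e + l) - c * min s ((j + 1) * e)) (dec_arith3 c e l s j)
        (dec_arith2 c e l s t _ (j + 1) hj (by omega) hC)
      exact ⟨W', h2, h1, h3⟩)
  -- the chain in the range
  obtain ⟨R', hR', hR'mono⟩ := exists_chain
    (fun W : Submodule F V => W.map T ≤ W ∧ W ≤ LinearMap.range (T - 1))
    (fun j => c * min s (j * e)) t
    ⟨⊥, ⟨hbot, bot_le⟩, by rw [finrank_bot]; simp⟩
    (fun j hj W hW hfin => by
      obtain ⟨W', h1, h2, h3, h4⟩ := exists_inv_ge T c hi hTq hss (LinearMap.range (T - 1)) hNinv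
        hdiv W hW.1 hW.2 (min s (j * e)) hfin (min s ((j + 1) * e))
        (min_le_min_left s (Nat.mul_le_mul_right e (Nat.le_succ j)))
        (by rw [hs]; exact Nat.mul_le_mul_left c (min_le_left _ _))
      exact ⟨W', ⟨h1, h3⟩, h2, h4⟩)
  obtain ⟨D, hD1, hD2, hD3, hD4⟩ := exists_decomp_of_chain T hss a t (fun j => C' j ⊔ R' j)
    (fun j hj => by
      refine ⟨?_, ?_⟩
      · rw [Submodule.map_sup]
        exact sup_le_sup (hCsub _ (hC' j hj).1) (hR' j hj).1.1
      · rw [hdim _ _ (hC' j hj).1 (hR' j hj).1.2, (hC' j hj).2, (hR' j hj).2, he]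
        have := dec_arith1 c e l s j
        omega)
    (fun j hj => sup_le_sup (hC'mono j hj) (hR'mono j hj))
  refine ⟨D, hD1, hD2, ?_⟩
  have htop : C' t ⊔ R' t = ⊤ := by
    apply Submodule.eq_top_of_finrank_eq
    rw [hdim _ _ (hC' t le_rfl).1 (hR' t le_rfl).1.2, (hC' t le_rfl).2, (hR' t le_rfl).2, hV]
    have := dec_arith1 c e l s t
    omega
  rw [eq_top_iff, ← htop]
  exact hD4

end DecB

end Cfsg.Agent.Lib.Helper96.BG
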