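import Mathlib
import Cfsg.Agent.Lib.Helper48.SVA

/-!
# S2425 piece SEMI (for helper48): semisimplicity of the `F[X]`-module of a `p'`-element and the
characteristic polynomial / dimension of the whole module
-/

set_option autoImplicit false

namespace Cfsg.Agent.Lib.Helper48.SV

open Cfsg
open scoped MatrixGroups Polynomial

section SemiAux

variable {F : Type*} [Field F] [Finite F]
variable {N : Type*} [AddCommGroup N] [Module F[X] N] [Module F N] [IsScalarTower F F[X] N] [Finite N]

theorem semi_chi_eq (W : Submodule F[X] N) {V : Type*} [AddCommGroup V] [Module F V]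
    [Module.Finite F V] (e : ↥W ≃ₗ[F] V) (φ : Module.End F V) (h : e.conj (xEnd W) = φ) :
    chi W = φ.charpoly := by
  unfold chi
  rw [← LinearEquiv.charpoly_conj e, h]

end SemiAux

section Mat

variable {F : Type*} [Field F] [Fintype F] [DecidableEq F] {n : ℕ}

/-- piece SEMI (1) -/
theorem semisimple_of_coprime (p : ℕ) [Fact p.Prime] [CharP F p] (x : GL (Fin n) F)
    (hx : (orderOf x).Coprime p) : IsSemisimpleModule F[X] (Nx x) := by
  have hxm : x ^ orderOf x = 1 := pow_orderOf_eq_one x
  have hM : (x : Matrix (Fin n) (Fin n) F) ^ orderOf x = 1 := by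
    rw [← Units.val_pow_eq_pow_val, hxm, Units.val_one]
  have hk : ((orderOf x : ℕ) : F) ≠ 0 := by
    rw [Ne, CharP.cast_eq_zero_iff F p]
    intro hdvd
    have h1 : p ∣ Nat.gcd (orderOf x) p := Nat.dvd_gcd hdvd dvd_rfl
    rw [hx] at h1
    exact (Fact.out : p.Prime).one_lt.ne' (Nat.dvd_one.mp h1)
  have hsep : (Polynomial.X ^ orderOf x - Polynomial.C (1 : F)).Separable :=
    Polynomial.separable_X_pow_sub_C 1 hk one_ne_zero
  have hss : Module.End.IsSemisimple (phi x) := by
    apply Module.End.isSemisimple_of_squarefree_aeval_eq_zero hsep.squarefree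
    rw [map_sub, map_pow, Polynomial.aeval_X, Polynomial.aeval_C, ← Matrix.toLin'_pow, hM,
      Matrix.toLin'_one, map_one]
    exact sub_self (1 : Module.End F (Fin n → F))
  exact hss

/-- the `F`-linear identification of the whole `F[X]`-module with the column space -/
noncomputable def semi_topEquiv (x : GL (Fin n) F) :
    ↥(⊤ : Submodule F[X] (Nx x)) ≃ₗ[F] (Fin n → F) :=
  ({ toFun := fun w => w.1
     invFun := fun v => ⟨v, trivial⟩
     map_add' := fun _ _ => rfl
     map_smul' := fun _ _ => rfl
     left_inv := fun _ => rfl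
     right_inv := fun _ => rfl } : ↥(⊤ : Submodule F[X] (Nx x)) ≃ₗ[F] Nx x).trans
    (Module.AEval'.of (phi x)).symm

theorem semi_conj (x : GL (Fin n) F) :
    (semi_topEquiv x).conj (xEnd (⊤ : Submodule F[X] (Nx x))) = phi x := by
  apply LinearMap.ext
  intro v
  rw [LinearEquiv.conj_apply_apply]
  apply (Module.AEval'.of (phi x)).injective
  show (Module.AEval'.of (phi x)) ((Module.AEval'.of (phi x)).symm
    ((Polynomial.X : F[X]) • (Module.AEval'.of (phi x) v))) = _
  rw [LinearEquiv.apply_symm_apply, Module.AEval'.X_smul_of]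

/-- piece SEMI (2) -/
theorem chi_top (x : GL (Fin n) F) :
    chi (⊤ : Submodule F[X] (Nx x)) = (x : Matrix (Fin n) (Fin n) F).charpoly := by
  rw [semi_chi_eq (⊤ : Submodule F[X] (Nx x)) (semi_topEquiv x) (phi x) (semi_conj x),
    Matrix.charpoly_toLin']

/-- piece SEMI (3) -/
theorem dimS_top (x : GL (Fin n) F) : dimS (⊤ : Submodule F[X] (Nx x)) = n := by
  unfold dimS
  rw [LinearEquiv.finrank_eq (semi_topEquiv x), Module.finrank_fin_fun]

end Mat

end Cfsg.Agent.Lib.Helper48.SV
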