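import Cfsg.Agent.Lib.Helper96.HyMain
import Cfsg.Agent.Lib.Helper61.O72COPY

/-!
Project PI (S5989, helper96): nondegenerate subspaces of a symmetric bilinear space that are
isometric to a fixed subspace `W₀`; definitions `Iso`, `Mem` and their basic properties.
The quadratic form is `v ↦ B v v`.
-/

set_option autoImplicit false
set_option linter.unusedSectionVars false
set_option linter.unusedVariables false

namespace Cfsg.Agent.Lib.Helper96.Pi

open Module Cfsg.Agent.Lib.Helper96.Sp Cfsg.Agent.Lib.Helper96.Hy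

universe u

variable {F : Type u} [Field F] [Fintype F] {V : Type u} [AddCommGroup V] [Module F V]

/-- `W` and `W'` are isometric for the quadratic form `v ↦ B v v`. -/
def Iso (B : LinearMap.BilinForm F V) (W W' : Submodule F V) : Prop :=
  ∃ e : W ≃ₗ[F] W', ∀ w : W, B (e w : V) (e w : V) = B (w : V) (w : V)

/-- `W` is a nondegenerate `m`-space isometric to `W₀`. -/
def Mem (B : LinearMap.BilinForm F V) (W₀ : Submodule F V) (m : ℕ) (W : Submodule F V) : Prop :=
  finrank F W = m ∧ ND B W ∧ Iso B W W₀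

/-- The type of the plane `⟨a, a⟩`: `1` if `-1` is a square in `F`, `-1` otherwise. -/
noncomputable def epsNeg (F : Type u) [Field F] : ℤ := by
  classical exact if IsSquare (-1 : F) then 1 else -1

theorem epsNeg_of_sq (h : IsSquare (-1 : F)) : epsNeg F = 1 := by
  classical
  unfold epsNeg
  rw [if_pos h]

theorem epsNeg_of_not_sq (h : ¬ IsSquare (-1 : F)) : epsNeg F = -1 := by
  classical
  unfold epsNeg
  rw [if_neg h]

variable {B : LinearMap.BilinForm F V}

theorem iso_refl (W : Submodule F V) : Iso B W W :=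
  ⟨LinearEquiv.refl F W, fun w => rfl⟩

theorem iso_symm {W W' : Submodule F V} (h : Iso B W W') : Iso B W' W := by
  obtain ⟨e, he⟩ := h
  refine ⟨e.symm, fun w => ?_⟩
  have := he (e.symm w)
  rw [LinearEquiv.apply_symm_apply] at this
  exact this.symm

theorem iso_trans {W W' W'' : Submodule F V} (h : Iso B W W') (h' : Iso B W' W'') :
    Iso B W W'' := by
  obtain ⟨e, he⟩ := h
  obtain ⟨e', he'⟩ := h'
  refine ⟨e.trans e', fun w => ?_⟩
  rw [LinearEquiv.trans_apply, he', he]

/-- The image of `W` under a global isometry is isometric to `W`. -/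
theorem iso_map (W : Submodule F V) (g : V ≃ₗ[F] V) (hg : Isom B (g : V →ₗ[F] V)) :
    Iso B W (W.map (g : V →ₗ[F] V)) := by
  refine ⟨g.submoduleMap W, fun w => ?_⟩
  exact hg (w : V) (w : V)

theorem iso_of_map_eq {W W' : Submodule F V} (g : V ≃ₗ[F] V) (hg : Isom B (g : V →ₗ[F] V))
    (h : W.map (g : V →ₗ[F] V) = W') : Iso B W W' := by
  subst h
  exact iso_map W g hg

theorem nd_map {W : Submodule F V} (g : V ≃ₗ[F] V) (hg : Isom B (g : V →ₗ[F] V))
    (hW : ND B W) : ND B (W.map (g : V →ₗ[F] V)) := by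
  rintro u ⟨u', hu', rfl⟩ h
  have h1 : u' = 0 := hW u' hu' (fun v hv => by
    have := h (g v) ⟨v, hv, rfl⟩
    rw [← hg u' v]
    exact this)
  rw [h1, map_zero]

theorem finrank_map_equiv (W : Submodule F V) (g : V ≃ₗ[F] V) :
    finrank F (W.map (g : V →ₗ[F] V)) = finrank F W :=
  (LinearEquiv.finrank_eq (g.submoduleMap W)).symm

theorem mem_map {W₀ : Submodule F V} {m : ℕ} (W : Submodule F V) (g : V ≃ₗ[F] V)
    (hg : Isom B (g : V →ₗ[F] V)) (hW : Mem B W₀ m W) : Mem B W₀ m (W.map (g : V →ₗ[F] V)) :=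
  ⟨by rw [finrank_map_equiv, hW.1], nd_map g hg hW.2.1,
    iso_trans (iso_symm (iso_map W g hg)) hW.2.2⟩

theorem mem_iso {W₀ : Submodule F V} {m : ℕ} {W W' : Submodule F V} (hW : Mem B W₀ m W)
    (hW' : Mem B W₀ m W') : Iso B W W' :=
  iso_trans hW.2.2 (iso_symm hW'.2.2)

end Cfsg.Agent.Lib.Helper96.Pi
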