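import Cfsg.Agent.Lib.Helper96.SpDefs
import Cfsg.Agent.Lib.Helper51.Jordan

/-!
Relative kernel dimensions of a nilpotent endomorphism on invariant subspaces (Jordan types of
restrictions, without passing to subtypes).
-/

set_option autoImplicit false
set_option linter.unusedSectionVars false

namespace Cfsg.Agent.Lib.Helper96.Sp

open Module Cfsg.Agent.Lib.Helper51.Jordan

section KapOn

variable {F : Type*} [Field F] {V : Type*} [AddCommGroup V] [Module F V] [FiniteDimensional F V]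

/-- The dimension of the kernel of `N ^ j` on the subspace `Z`. -/
noncomputable def kapOn (N : Module.End F V) (Z : Submodule F V) (j : ℕ) : ℕ :=
  finrank F ↥(Z ⊓ LinearMap.ker (N ^ j))

theorem kapOn_top (N : Module.End F V) (j : ℕ) : kapOn N ⊤ j = kap N j := by
  unfold kapOn kap
  rw [top_inf_eq]

theorem pow_mem_of_map_le (N : Module.End F V) (Z : Submodule F V) (hZ : Z.map N ≤ Z) (j : ℕ)
    {x : V} (hx : x ∈ Z) : (N ^ j) x ∈ Z := by
  induction j with
  | zero => exact hx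
  | succ j ih =>
    rw [pow_succ']
    exact hZ ⟨_, ih, rfl⟩

/-- Additivity over invariant independent subspaces. -/
theorem kapOn_sup (N : Module.End F V) (X Y : Submodule F V) (hX : X.map N ≤ X)
    (hY : Y.map N ≤ Y) (hXY : X ⊓ Y = ⊥) (j : ℕ) :
    kapOn N (X ⊔ Y) j = kapOn N X j + kapOn N Y j := by
  unfold kapOn
  have h1 : (X ⊔ Y) ⊓ LinearMap.ker (N ^ j) =
      (X ⊓ LinearMap.ker (N ^ j)) ⊔ (Y ⊓ LinearMap.ker (N ^ j)) := by
    apply le_antisymm
    · rintro z ⟨hz1, hz2⟩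
      obtain ⟨x, hx, y, hy, rfl⟩ := Submodule.mem_sup.mp hz1
      rw [SetLike.mem_coe, LinearMap.mem_ker, map_add] at hz2
      have hx' : (N ^ j) x ∈ X := pow_mem_of_map_le N X hX j hx
      have hy' : (N ^ j) y ∈ Y := pow_mem_of_map_le N Y hY j hy
      have h2 : (N ^ j) x ∈ X ⊓ Y := by
        refine ⟨hx', ?_⟩
        have h3 : (N ^ j) x = -(N ^ j) y := eq_neg_of_add_eq_zero_left hz2
        rw [h3]
        exact Y.neg_mem hy'
      rw [hXY, Submodule.mem_bot] at h2
      have h4 : (N ^ j) y = 0 := by rwa [h2, zero_add] at hz2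
      exact Submodule.add_mem_sup ⟨hx, LinearMap.mem_ker.mpr h2⟩ ⟨hy, LinearMap.mem_ker.mpr h4⟩
    · exact sup_le (inf_le_inf_right _ le_sup_left) (inf_le_inf_right _ le_sup_right)
  have h5 : (X ⊓ LinearMap.ker (N ^ j)) ⊓ (Y ⊓ LinearMap.ker (N ^ j)) = ⊥ := by
    rw [eq_bot_iff, ← hXY]
    exact inf_le_inf inf_le_left inf_le_left
  have h6 := Submodule.finrank_sup_add_finrank_inf_eq (X ⊓ LinearMap.ker (N ^ j))
    (Y ⊓ LinearMap.ker (N ^ j))
  rw [h5, finrank_bot, add_zero] at h6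
  rw [h1, h6]

/-- The Jordan type of a nilpotent endomorphism on an invariant subspace. -/
theorem exists_type_on (N : Module.End F V) (hnil : IsNilpotent N) (Z : Submodule F V)
    (hZ : Z.map N ≤ Z) :
    ∃ μ : Multiset ℕ, (∀ c ∈ μ, 0 < c) ∧ μ.sum = finrank F Z ∧ ∀ j, kapOn N Z j = kapM μ j := by
  have hZ' : ∀ x ∈ Z, N x ∈ Z := fun x hx => hZ ⟨x, hx, rfl⟩
  obtain ⟨μ, h1, h2, h3⟩ := exists_type (finrank F Z) ↥Z (N.restrict hZ')
    (restrict_nil N hnil Z hZ') rfl
  refine ⟨μ, h1, h2, fun j => ?_⟩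
  rw [← h3 j]
  unfold kapOn kap
  have h4 : (LinearMap.ker ((N.restrict hZ') ^ j)).map Z.subtype = Z ⊓ LinearMap.ker (N ^ j) := by
    ext x
    constructor
    · rintro ⟨w, hw, rfl⟩
      rw [SetLike.mem_coe, LinearMap.mem_ker] at hw
      refine ⟨w.2, ?_⟩
      rw [SetLike.mem_coe, LinearMap.mem_ker]
      have h5 := restrict_pow N Z hZ' j w
      rw [hw] at h5
      exact h5.symm
    · rintro ⟨hx1, hx2⟩
      refine ⟨⟨x, hx1⟩, ?_, rfl⟩
      rw [SetLike.mem_coe, LinearMap.mem_ker]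
      apply Subtype.ext
      rw [restrict_pow N Z hZ' j ⟨x, hx1⟩]
      exact LinearMap.mem_ker.mp hx2
  rw [← h4]
  exact (LinearEquiv.finrank_eq (Submodule.equivMapOfInjective Z.subtype
    (Submodule.injective_subtype Z) _)).symm

end KapOn

end Cfsg.Agent.Lib.Helper96.Sp
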