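import Cfsg.Agent.Lib.Helper96.SpMat
import Cfsg.Agent.Lib.Helper96.SpKap
import Cfsg.Agent.Lib.Helper51.JForm

/-!
Invariant nondegenerate subspaces of prescribed dimension for an isometry of odd prime order, and
the parity of the Jordan type of a unipotent isometry.
-/

set_option autoImplicit false
set_option linter.unusedSectionVars false
set_option linter.unusedVariables false

namespace Cfsg.Agent.Lib.Helper96.Sp

open Module Cfsg.Agent.Lib.Helper96.BG Cfsg.Agent.Lib.Helper51.Jordan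

section NdOdd

variable {F : Type*} [Field F] [Fintype F] {V : Type*} [AddCommGroup V] [Module F V]
  [FiniteDimensional F V] {B : LinearMap.BilinForm F V}

/-- An isometry of odd prime order with a large enough fixed space has an invariant
nondegenerate subspace of dimension `m`. -/
theorem exists_nd_inv_odd (hA : B.IsAlt) (hN : ND B ⊤) (T : Module.End F V) (hT : Isom B T)
    (r : ℕ) [Fact r.Prime] (hr2 : r ≠ 2) (hrq : ¬ r ∣ Fintype.card F) (hr0 : (r : F) ≠ 0)
    (hTr : T ^ r = 1) (m : ℕ) (hme : Even m) (hm : m ≤ finrank F V)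
    (hk : m % blk (Fintype.card F) r ≤ finrank F (LinearMap.ker (T - 1))) :
    ∃ W : Submodule F V, W.map T ≤ W ∧ ND B W ∧ finrank F W = m := by
  classical
  obtain ⟨hi, -, -, -, hRinv, hCsub, -, -, hsum⟩ := pow_one_setup T r hrq hr0 hTr
  have hc1 : 1 ≤ blk (Fintype.card F) r := blk_pos _ _ hi
  have hce : Even (blk (Fintype.card F) r) := blk_even _ _
  have hKnd := nd_ker hA hN T hT r hrq hr0 hTr
  have hRnd := nd_range hA hN T hT r hrq hr0 hTr
  obtain ⟨s, hs⟩ : blk (Fintype.card F) r ∣ finrank F (LinearMap.range (T - 1)) :=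
    blk_dvd_range hA hN T hT r hr2 hrq hr0 hTr _ hRinv hRnd le_rfl
  set c := blk (Fintype.card F) r with hc_def
  obtain ⟨m', hm'⟩ := hme
  obtain ⟨c', hc'⟩ := hce
  have hdm : c * (m / c) + m % c = m := Nat.div_add_mod m c
  have hmin : min s (m / c) = s ∨ min s (m / c) = m / c := min_choice _ _
  have hmin1 : c * min s (m / c) ≤ c * s := Nat.mul_le_mul_left c (min_le_left _ _)
  have hmin2 : c * min s (m / c) ≤ c * (m / c) := Nat.mul_le_mul_left c (min_le_right _ _)
  have hX : c * min s (m / c) = 2 * (c' * min s (m / c)) := by rw [hc']; ring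
  have hF1 : c * min s (m / c) + 2 * (m' - c' * min s (m / c)) = m := by omega
  have hF3 : 2 * (m' - c' * min s (m / c)) ≤ finrank F (LinearMap.ker (T - 1)) := by
    generalize min s (m / c) = e₁ at hmin hmin1 hmin2 hX hF1 ⊢
    rcases hmin with rfl | rfl
    · omega
    · omega
  obtain ⟨R₁, hR₁le, hR₁A, hR₁fin, -⟩ := exists_sub_atoms hA c hc1
    (fun X => ND B X ∧ X.map T ≤ X ∧ X ≤ LinearMap.range (T - 1)) (fun X hX => hX.1)
    (fun X hX hX0 => block_step hA hN T hT r hr2 hrq hr0 hTr X hX hX0)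
    (fun X Y hX hY hXY => ⟨(nd_sup hA hX.1 hY.1 hXY).1,
      by rw [Submodule.map_sup]; exact sup_le_sup hX.2.1 hY.2.1, sup_le hX.2.2 hY.2.2⟩)
    ⟨nd_bot, by rw [Submodule.map_bot], bot_le⟩ _ ⟨hRnd, hRinv, le_rfl⟩
    (min s (m / c)) (by rw [hs]; exact hmin1)
  obtain ⟨K₁, hK₁le, hK₁nd, hK₁fin⟩ := exists_nd_sub hA _ hKnd (m' - c' * min s (m / c)) hF3
  have horth : Orth B R₁ K₁ :=
    orth_mono (orth_symm hA (orth_ker_range hT)) hR₁A.2.2 hK₁le
  obtain ⟨hD₀nd, hD₀fin⟩ := nd_sup hA hR₁A.1 hK₁nd horth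
  refine ⟨R₁ ⊔ K₁, ?_, hD₀nd, ?_⟩
  · rw [Submodule.map_sup]
    exact sup_le_sup hR₁A.2.1 (hCsub K₁ hK₁le)
  · rw [hD₀fin, hR₁fin, hK₁fin]
    exact hF1

end NdOdd

section Parity

variable {F : Type*} [Field F] {V : Type*} [AddCommGroup V] [Module F V]
  [FiniteDimensional F V] {B : LinearMap.BilinForm F V}

/-- The Jordan type of a unipotent isometry of a nondegenerate alternating form: odd parts have
even multiplicity. -/
theorem type_parity (hA : B.IsAlt) (hN : ND B ⊤) (u v : Module.End F V) (huv : u * v = 1)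
    (hvu : v * u = 1) (hu : Isom B u) (μ : Multiset ℕ) (hμ : ∀ j, kap (u - 1) j = kapM μ j) :
    ∀ a, Odd a → Even (μ.count a) := by
  intro a ha
  apply Cfsg.Agent.Lib.Helper51.JForm.even_count_of_kap μ (finrank F V) _ a ha
  intro i
  obtain ⟨k, hk⟩ := Cfsg.Agent.Lib.Helper51.JForm.even_of_isometry B hA
    (fun y hy => hN y Submodule.mem_top (fun x _ => by rw [alt_swap hA, hy x, neg_zero]))
    u v huv hvu hu i
  exact ⟨k, by rw [hk, hμ]⟩

end Parity

end Cfsg.Agent.Lib.Helper96.Sp
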