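import Mathlib
import Cfsg.Agent.Lib.Helper52.GeoOmega

/-!
Overgroups in `Ω(Q)` through Eichler (Siegel) root groups.

For a subgroup `M` of the isometry group of a quadratic form `Q`, `InM Q M u w` says that the
Eichler transformation `ρ_{u,w}` lies in `M`, and `Full Q M u` that the whole root group
`{ρ_{u,w} : w ⟂ u}` at the singular vector `u` lies in `M`.  The main result `omega_le_of_full_pair`:
a subgroup containing the root groups at two non-orthogonal singular vectors contains `Ω`.
-/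

set_option autoImplicit false
set_option linter.unusedSectionVars false

namespace Cfsg.Agent.Lib.Helper96

open Module QuadraticMap
open Cfsg.Agent.Lib.Helper51 Cfsg.Agent.Lib.Helper52

section InM

variable {ι : Type} [Fintype ι] [DecidableEq ι] {F : Type*} [Field F]
variable (Q : QuadraticForm F (ι → F))

local notation "mt(" g ")" => ((g : Matrix.GeneralLinearGroup ι F) : Matrix ι ι F)

/-- The Eichler transformation `ρ_{u,w}` (with `u` singular, `w ⟂ u`) lies in `M`. -/
def InM (M : Subgroup ↥(Cfsg.isometryGroup F ⇑Q)) (u w : ι → F) : Prop :=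
  ∃ (hu : Q u = 0) (huw : polar ⇑Q u w = 0), eich Q u w hu huw ∈ M

variable {Q} {M : Subgroup ↥(Cfsg.isometryGroup F ⇑Q)}

theorem InM.sing {u w : ι → F} (h : InM Q M u w) : Q u = 0 := h.1

theorem InM.orth {u w : ι → F} (h : InM Q M u w) : polar ⇑Q u w = 0 := h.2.1

theorem InM.zero {u : ι → F} (hu : Q u = 0) : InM Q M u 0 :=
  ⟨hu, polar_zero_right _ _, by rw [eich_zero]; exact M.one_mem⟩

theorem InM.add {u w w' : ι → F} (h : InM Q M u w) (h' : InM Q M u w') : InM Q M u (w + w') := by
  obtain ⟨hu, huw, hm⟩ := h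
  obtain ⟨_, huw', hm'⟩ := h'
  refine ⟨hu, by rw [polar_add_right, huw, huw', add_zero], ?_⟩
  have := M.mul_mem hm hm'
  rwa [eich_mul] at this

theorem InM.neg {u w : ι → F} (h : InM Q M u w) : InM Q M u (-w) := by
  obtain ⟨hu, huw, hm⟩ := h
  refine ⟨hu, by rw [polar_neg_right, huw, neg_zero], ?_⟩
  have := M.inv_mem hm
  rwa [eich_inv] at this

theorem InM.sub {u w w' : ι → F} (h : InM Q M u w) (h' : InM Q M u w') : InM Q M u (w - w') := by
  rw [sub_eq_add_neg]
  exact h.add h'.neg

theorem InM.conj {u w : ι → F} (h : InM Q M u w) {g : ↥(Cfsg.isometryGroup F ⇑Q)} (hg : g ∈ M) :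
    InM Q M (mt(g).mulVec u) (mt(g).mulVec w) := by
  obtain ⟨hu, huw, hm⟩ := h
  refine ⟨by rw [isometry_apply, hu], by rw [isometry_polar, huw], ?_⟩
  have := M.mul_mem (M.mul_mem hg hm) (M.inv_mem hg)
  rwa [conj_eich] at this

theorem InM.of_eichMat_eq {u w u' w' : ι → F} (h : InM Q M u w) (hu' : Q u' = 0)
    (huw' : polar ⇑Q u' w' = 0) (e : eichMat Q u w = eichMat Q u' w') : InM Q M u' w' := by
  obtain ⟨hu, huw, hm⟩ := h
  refine ⟨hu', huw', ?_⟩
  rwa [← eich_congr Q hu huw hu' huw' e]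

/-- `ρ_{cu,w} = ρ_{u,cw}`. -/
theorem InM.smul_left {u w : ι → F} {c : F} (h : InM Q M (c • u) w) (hu : Q u = 0) :
    InM Q M u (c • w) := by
  by_cases hc : c = 0
  · subst hc
    rw [zero_smul]
    exact InM.zero hu
  · refine h.of_eichMat_eq hu ?_ (eichMat_smul_left Q u w c)
    have := h.orth
    rw [polar_smul_left, smul_eq_mul] at this
    rw [polar_smul_right, smul_eq_mul]
    exact this

theorem InM.smul_right {u w : ι → F} {c : F} (h : InM Q M u (c • w)) :
    InM Q M (c • u) w := by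
  by_cases hc : c = 0
  · subst hc
    have hu0 : Q ((0 : F) • u) = 0 := by simp
    refine ⟨hu0, by simp, ?_⟩
    have : eich Q ((0 : F) • u) w hu0 (by simp) = 1 := by
      apply isometry_ext
      rw [coe_eich, eichMat_smul_left, zero_smul, eichMat_zero]
      rfl
    rw [this]
    exact M.one_mem
  · refine h.of_eichMat_eq (by rw [QuadraticMap.map_smul, h.sing, smul_zero]) ?_
      (eichMat_smul_left Q u w c).symm
    have := h.orth
    rw [polar_smul_right, smul_eq_mul] at this
    rw [polar_smul_left, smul_eq_mul]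
    exact this

/-- A long root element is symmetric in its two singular vectors: `ρ_{u,w} = ρ_{w,-u}`. -/
theorem eichMat_swap (u w : ι → F) (hu : Q u = 0) (hw : Q w = 0) :
    eichMat Q u w = eichMat Q w (-u) := by
  apply matrix_ext_mulVec
  intro x
  rw [eichMat_mulVec, eichMat_mulVec, hw, QuadraticMap.map_neg, hu, polar_neg_left]
  module

theorem InM.swap {u w : ι → F} (h : InM Q M u w) (hw : Q w = 0) : InM Q M w (-u) := by
  refine h.of_eichMat_eq hw ?_ (eichMat_swap u w h.sing hw)
  rw [polar_neg_right, polar_comm, h.orth, neg_zero]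

/-- The root group at the singular vector `u` lies in `M`. -/
def Full (Q : QuadraticForm F (ι → F)) (M : Subgroup ↥(Cfsg.isometryGroup F ⇑Q))
    (u : ι → F) : Prop :=
  Q u = 0 ∧ ∀ w : ι → F, polar ⇑Q u w = 0 → InM Q M u w

theorem Full.zero : Full Q M 0 := by
  refine ⟨QuadraticMap.map_zero Q, fun w hw => ⟨QuadraticMap.map_zero Q, hw, ?_⟩⟩
  have : eich Q 0 w (QuadraticMap.map_zero Q) hw = 1 := by
    apply isometry_ext
    rw [coe_eich]
    have := eichMat_smul_left Q (0 : ι → F) w 0
    rw [zero_smul, zero_smul, eichMat_zero] at this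
    rw [this]
    rfl
  rw [this]
  exact M.one_mem

theorem Full.smul {u : ι → F} (h : Full Q M u) (c : F) : Full Q M (c • u) := by
  refine ⟨by rw [QuadraticMap.map_smul, h.1, smul_zero], fun w hw => ?_⟩
  by_cases hc : c = 0
  · subst hc
    rw [zero_smul]
    exact Full.zero.2 w (polar_zero_left _ _)
  · apply InM.smul_right
    apply h.2
    rw [polar_smul_left, smul_eq_mul] at hw
    rw [polar_smul_right, smul_eq_mul]
    exact hw

theorem Full.conj {u : ι → F} (h : Full Q M u) {g : ↥(Cfsg.isometryGroup F ⇑Q)} (hg : g ∈ M) :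
    Full Q M (mt(g).mulVec u) := by
  refine ⟨by rw [isometry_apply, h.1], fun w hw => ?_⟩
  have h1 : polar ⇑Q u (mt((g⁻¹ : ↥(Cfsg.isometryGroup F ⇑Q))).mulVec w) = 0 := by
    rw [← isometry_polar Q g, coe_inv_mulVec]
    exact hw
  have := (h.2 _ h1).conj hg
  rwa [coe_inv_mulVec] at this

/-- If the root groups at `y` and `z` lie in `M` and `f(y, z) ≠ 0`, then so does the root group
at every singular `x` not orthogonal to `y`. -/
theorem Full.of_not_orth {y z x : ι → F} (hy : Full Q M y) (hz : Full Q M z)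
    (hyz : polar ⇑Q y z ≠ 0) (hx : Q x = 0) (hyx : polar ⇑Q y x ≠ 0) : Full Q M x := by
  obtain ⟨w, huw, -, c, hc, e⟩ := exists_eich_fix_map Q y z x hy.1 hz.1 hx hyz hyx
  obtain ⟨hu, huw', hm⟩ := hy.2 w huw
  have h1 := hz.conj hm
  rw [coe_eich, e] at h1
  have h2 := h1.smul c⁻¹
  rwa [smul_smul, inv_mul_cancel₀ hc, one_smul] at h2

/-- For non-zero `x`, `y` there is a singular vector orthogonal to neither. -/
theorem exists_singular_not_orth_two (hQ : (polarBilin Q).Nondegenerate) (x y : ι → F)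
    (hx0 : x ≠ 0) (hx : Q x = 0) (hy0 : y ≠ 0) (hxy : polar ⇑Q x y = 0) :
    ∃ t, Q t = 0 ∧ polar ⇑Q x t ≠ 0 ∧ polar ⇑Q y t ≠ 0 := by
  obtain ⟨v1, hv1⟩ := exists_polar_ne_zero Q hQ x hx0
  obtain ⟨v2, hv2⟩ := exists_polar_ne_zero Q hQ y hy0
  obtain ⟨v, hvx, hvy⟩ : ∃ v, polar ⇑Q x v ≠ 0 ∧ polar ⇑Q y v ≠ 0 := by
    by_cases h1 : polar ⇑Q y v1 = 0
    · by_cases h2 : polar ⇑Q x v2 = 0
      · refine ⟨v1 + v2, ?_, ?_⟩
        · rw [polar_add_right, h2, add_zero]; exact hv1
        · rw [polar_add_right, h1, zero_add]; exact hv2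
      · exact ⟨v2, h2, hv2⟩
    · exact ⟨v1, hv1, h1⟩
  refine ⟨v - (Q v / polar ⇑Q x v) • x, ?_, ?_, ?_⟩
  · rw [Q_sub_smul', hx]
    field_simp
    ring
  · rw [polar_sub_right, polar_smul_right, Cfsg.Agent.Lib.Helper51.polar_self, hx, mul_zero,
      smul_zero, sub_zero]
    exact hvx
  · rw [polar_sub_right, polar_smul_right, polar_comm ⇑Q y x, hxy, smul_zero, sub_zero]
    exact hvy

/-- If the root groups at two non-orthogonal singular vectors lie in `M`, then the root group
at every singular vector lies in `M`. -/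
theorem Full.all (hQ : (polarBilin Q).Nondegenerate) {y z : ι → F} (hy : Full Q M y)
    (hz : Full Q M z) (hyz : polar ⇑Q y z ≠ 0) (x : ι → F) (hx : Q x = 0) : Full Q M x := by
  by_cases hx0 : x = 0
  · subst hx0; exact Full.zero
  by_cases hyx : polar ⇑Q y x = 0
  · have hy0 : y ≠ 0 := by
      rintro rfl
      exact hyz (polar_zero_left _ _)
    obtain ⟨t, ht, hxt, hyt⟩ := exists_singular_not_orth_two hQ x y hx0 hx hy0
      (by rw [polar_comm]; exact hyx)
    have hfull_t : Full Q M t := hy.of_not_orth hz hyz ht hyt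
    exact hfull_t.of_not_orth hy (by rw [polar_comm]; exact hyt) hx (by rw [polar_comm]; exact hxt)
  · exact hy.of_not_orth hz hyz hx hyx

end InM

section Fin

variable {ι : Type} [Fintype ι] [DecidableEq ι] {F : Type*} [Field F] [Fintype F]
variable {Q : QuadraticForm F (ι → F)} {M : Subgroup ↥(Cfsg.isometryGroup F ⇑Q)}

/-- A subgroup containing the Eichler root groups at two non-orthogonal singular vectors contains
`Ω`. -/
theorem omega_le_of_full_pair (hQ : (polarBilin Q).Nondegenerate) (hn : 5 ≤ Fintype.card ι)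
    {y z : ι → F} (hy : Full Q M y) (hz : Full Q M z) (hyz : polar ⇑Q y z ≠ 0) :
    commutator ↥(Cfsg.isometryGroup F ⇑Q) ≤ M := by
  rw [commutator_eq_eichGrp Q hQ hn, Subgroup.closure_le]
  rintro g ⟨u, w, hu, huw, rfl⟩
  obtain ⟨_, _, hm⟩ := (Full.all hQ hy hz hyz u hu).2 w huw
  exact hm

end Fin

end Cfsg.Agent.Lib.Helper96
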