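import Mathlib
import Cfsg.Prelude.Def_Sporadic_a
import Cfsg.Agent.Lib.Helper96.M24Cert

set_option autoImplicit false

/-!
# Dodecad versions of the certificate lemmas of `M24Cert`
-/

namespace Cfsg.Agent.Lib.Helper96

open Cfsg Cfsg.Agent.Lib.Helper9
open scoped Pointwise

theorem mem_dodecads_iff_msk (b : Finset GolayPt) :
    b ∈ dodecads ↔ ∃ m, m ∈ sums gB ∧ popc m = 12 ∧ msk m = b := mem_dodecads_iff b

theorem msk_mem_dodecads {m : ℕ} (hm : m ∈ sums gB) (h12 : popc m = 12) : msk m ∈ dodecads :=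
  (mem_dodecads_iff _).mpr ⟨m, hm, h12, rfl⟩

theorem smul_dodecad_mem {σ : Equiv.Perm GolayPt} (hσ : σ ∈ M24) {b : Finset GolayPt}
    (hb : b ∈ dodecads) : σ • b ∈ dodecads := by
  obtain ⟨⟨w, hw, rfl⟩, hcard⟩ := hb
  refine ⟨⟨w ∘ ⇑σ⁻¹, comp_mem_of_mem_M24 (M24.inv_mem hσ) hw, (smul_support₂ σ w).symm⟩, ?_⟩
  rw [Finset.card_smul_finset]
  exact hcard

theorem smul_mem_dodecads_iff {σ : Equiv.Perm GolayPt} (hσ : σ ∈ M24) (b : Finset GolayPt) :
    σ • b ∈ dodecads ↔ b ∈ dodecads := by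
  constructor
  · intro h
    have := smul_dodecad_mem (M24.inv_mem hσ) h
    rwa [inv_smul_smul] at this
  · exact smul_dodecad_mem hσ

/-- Counting dodecads with a property through masks. -/
theorem ncard_dodecads_filter (Q : Finset GolayPt → Prop) (P : ℕ → Bool)
    (h : ∀ m ∈ sums gB, popc m = 12 → (Q (msk m) ↔ P m = true)) :
    {b : Finset GolayPt | b ∈ dodecads ∧ Q b}.ncard = cnt (fun m => popc m == 12 && P m) gB 0 := by
  have hset : {b : Finset GolayPt | b ∈ dodecads ∧ Q b} =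
      msk '' {m | m ∈ sums gB ∧ (popc m == 12 && P m) = true} := by
    ext b
    simp only [Set.mem_ofPred_eq, Set.mem_image, Bool.and_eq_true, beq_iff_eq]
    constructor
    · rintro ⟨hb, hq⟩
      obtain ⟨m, hm, h12, rfl⟩ := (mem_dodecads_iff_msk b).mp hb
      exact ⟨m, ⟨hm, h12, (h m hm h12).mp hq⟩, rfl⟩
    · rintro ⟨m, ⟨hm, h12, hp⟩, rfl⟩
      exact ⟨msk_mem_dodecads hm h12, (h m hm h12).mpr hp⟩
  rw [hset, Set.InjOn.ncard_image]
  · have h2 : {m | m ∈ sums gB ∧ (popc m == 12 && P m) = true} =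
        (((sums gB).filter (fun m => popc m == 12 && P m)).toFinset : Set ℕ) := by
      ext m; simp
    rw [h2, Set.ncard_coe_finset, List.toFinset_card_of_nodup (nodup_sums_gB.filter _), cnt_eq,
      List.countP_eq_length_filter]
    simp
  · intro m hm m' hm' hmm
    exact msk_injOn hm.1 hm'.1 hmm

end Cfsg.Agent.Lib.Helper96
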