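import Mathlib
import Cfsg.Prelude.Def_Sporadic_a
import Cfsg.Agent.Lib.Helper96.M24InvolData

set_option autoImplicit false

/-!
# The two classes of involutions of `M24`: theory
-/

namespace Cfsg.Agent.Lib.Helper96

open Cfsg Cfsg.Agent.Lib.Helper9
open scoped Pointwise

theorem invMA_mem : invMA ∈ sums gB := mem_sums_of_inCode (by decide +kernel)

theorem invMA_popc : popc invMA = 8 := by decide +kernel

theorem invSA_fix : ∀ i < 24, (invMA.testBit i = true ↔ invSA.getD i 0 = i) := by decide +kernel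

theorem invSB_fix : ∀ i < 24, invSB.getD i 0 ≠ i := by decide +kernel

/-- the representative of the involutions of `M24` fixing an octad -/
noncomputable def sA : Equiv.Perm GolayPt := Classical.choose (tab_sound invSA_ok)

/-- the representative of the fixed-point-free involutions of `M24` -/
noncomputable def sB : Equiv.Perm GolayPt := Classical.choose (tab_sound invSB_ok)

theorem hasTable_sA : HasTable sA invSA := (Classical.choose_spec (tab_sound invSA_ok)).1

theorem hasTable_sB : HasTable sB invSB := (Classical.choose_spec (tab_sound invSB_ok)).1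

theorem sA_mem : sA ∈ M24 := (Classical.choose_spec (tab_sound invSA_ok)).2.1

theorem sB_mem : sB ∈ M24 := (Classical.choose_spec (tab_sound invSB_ok)).2.1

theorem orderOf_sA : orderOf sA = 2 :=
  haveI : Fact (Nat.Prime 2) := ⟨Nat.prime_two⟩
  orderOf_eq_of_table hasTable_sA (by decide +kernel) (by decide +kernel)

theorem orderOf_sB : orderOf sB = 2 :=
  haveI : Fact (Nat.Prime 2) := ⟨Nat.prime_two⟩
  orderOf_eq_of_table hasTable_sB (by decide +kernel) (by decide +kernel)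

/-- fixed points of a permutation given by a table -/
theorem apply_eq_iff_of_table {σ : Equiv.Perm GolayPt} {T : List ℕ} (h : HasTable σ T)
    (p : GolayPt) : σ p = p ↔ T.getD (idx p) 0 = idx p := by
  rw [h.2 p]
  constructor
  · intro h1
    have h2 := congrArg idx h1
    rwa [idx_pt (h.getD_lt _)] at h2
  · intro h1
    rw [h1, pt_idx]

theorem fix_sA : (Finset.univ.filter fun p => sA p = p) = msk invMA := by
  ext p
  rw [Finset.mem_filter, mem_msk, apply_eq_iff_of_table hasTable_sA, invSA_fix _ (idx_lt p)]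
  simp

theorem fix_sA_mem : (Finset.univ.filter fun p => sA p = p) ∈ octads := by
  rw [fix_sA]
  exact msk_mem_octads invMA_mem invMA_popc

theorem sB_fpf (p : GolayPt) : sB p ≠ p := by
  rw [Ne, apply_eq_iff_of_table hasTable_sB]
  exact invSB_fix _ (idx_lt p)

theorem idx_apply_not_mem {σ : Equiv.Perm GolayPt} {L : List ℕ} (hL : ∀ i ∈ L, i < 24)
    (hfix : ∀ i ∈ L, σ (pt i) = pt i) {j : ℕ} (hj : j < 24) (hjL : j ∉ L) :
    idx (σ (pt j)) ∉ L := by
  intro hc
  have h1 : σ (pt j) = pt (idx (σ (pt j))) := (pt_idx _).symm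
  rw [← hfix _ hc] at h1
  have h2 := σ.injective h1
  have h3 := congrArg idx h2
  rw [idx_pt hj, idx_pt (hL _ hc)] at h3
  exact hjL (h3 ▸ hc)

/-- An element of `M24` swapping `pt 23, pt 0` and `pt 1, pt 2` has a table passing the check. -/
theorem exists_table_of_swaps {g : Equiv.Perm GolayPt} (hg : g ∈ M24) (h1 : g (pt 23) = pt 0)
    (h2 : g (pt 0) = pt 23) (h3 : g (pt 1) = pt 2) (h4 : g (pt 2) = pt 1) :
    ∃ T, HasTable g T ∧ invChk T = true := by
  obtain ⟨u, hu, huM⟩ := tab_sound invU_ok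
  have u23 : u (pt 23) = pt 0 := hu.apply_pt (by norm_num)
  have u0 : u (pt 0) = pt 23 := hu.apply_pt (by norm_num)
  have u1 : u (pt 1) = pt 2 := hu.apply_pt (by norm_num)
  have u2 : u (pt 2) = pt 1 := hu.apply_pt (by norm_num)
  set σ : Equiv.Perm GolayPt := u⁻¹ * g with hσ
  have hσM : σ ∈ M24 := M24.mul_mem (M24.inv_mem huM.1) hg
  have s23 : σ (pt 23) = pt 23 := by
    rw [hσ, Equiv.Perm.mul_apply, h1, Equiv.Perm.inv_eq_iff_eq, u23]
  have s0 : σ (pt 0) = pt 0 := by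
    rw [hσ, Equiv.Perm.mul_apply, h2, Equiv.Perm.inv_eq_iff_eq, u0]
  have s1 : σ (pt 1) = pt 1 := by
    rw [hσ, Equiv.Perm.mul_apply, h3, Equiv.Perm.inv_eq_iff_eq, u1]
  have s2 : σ (pt 2) = pt 2 := by
    rw [hσ, Equiv.Perm.mul_apply, h4, Equiv.Perm.inv_eq_iff_eq, u2]
  have hσfix : ∀ i ∈ ([2, 1, 0, 23] : List ℕ), σ (pt i) = pt i := by
    intro i hi
    simp only [List.mem_cons, List.not_mem_nil, or_false] at hi
    rcases hi with rfl | rfl | rfl | rfl
    exacts [s2, s1, s0, s23]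
  have hj : idx (σ (pt 3)) ∉ ([2, 1, 0, 23] : List ℕ) :=
    idx_apply_not_mem (by decide) hσfix (by norm_num) (by decide)
  have hcov := invTJ_cover
  rw [List.all_eq_true] at hcov
  have hc := hcov (idx (σ (pt 3))) (List.mem_range.mpr (idx_lt _))
  have hj' : ([0, 1, 2, 23] : List ℕ).contains (idx (σ (pt 3))) = false := by
    rw [← Bool.not_eq_true, List.contains_iff_mem]
    intro h
    apply hj
    simp only [List.mem_cons, List.not_mem_nil, or_false] at h ⊢
    tauto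
  rw [hj', Bool.false_or, List.any_eq_true] at hc
  obtain ⟨TJ, hTJ, hTJ3⟩ := hc
  rw [beq_iff_eq] at hTJ3
  have hok := invTJ_ok
  rw [List.all_eq_true] at hok
  obtain ⟨t, ht, htM⟩ := tab_sound (hok TJ hTJ)
  have ht3 : t (pt 3) = σ (pt 3) := by
    rw [ht.apply_pt (by norm_num), hTJ3, pt_idx]
  set ρ : Equiv.Perm GolayPt := t⁻¹ * σ with hρ
  have hρmem : ρ ∈ M24 ⊓ fixing [3, 2, 1, 0, 23] := by
    refine ⟨M24.mul_mem (M24.inv_mem htM.1) hσM, ?_⟩
    intro i hi
    rw [List.mem_cons] at hi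
    rcases hi with rfl | hi
    · show (t⁻¹ * σ) (pt 3) = pt 3
      rw [Equiv.Perm.mul_apply, Equiv.Perm.inv_eq_iff_eq, ht3]
    · show (t⁻¹ * σ) (pt i) = pt i
      rw [Equiv.Perm.mul_apply, hσfix i hi, Equiv.Perm.inv_eq_iff_eq]
      exact (htM.2.1 i hi).symm
  obtain ⟨w, hw, -, hwT⟩ := exists_word5 hρmem
  have hgeq : g = u * (t * ρ) := by
    rw [hρ, hσ]; group
  refine ⟨compT invU (compT TJ (prodT sgsTabs w)), ?_, ?_⟩
  · rw [hgeq]
    exact hasTable_mul hu (hasTable_mul ht hwT)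
  · have hbig := invBig
    rw [List.all_eq_true] at hbig
    have := hbig TJ hTJ
    rw [List.all_eq_true] at this
    exact this w hw

/-- An involution of `M24` swapping `pt 23, pt 0` and `pt 1, pt 2` is conjugate to `sA` or `sB`. -/
theorem conj_of_swaps {g : Equiv.Perm GolayPt} (hg : g ∈ M24) (hgg : g * g = 1)
    (h1 : g (pt 23) = pt 0) (h2 : g (pt 0) = pt 23) (h3 : g (pt 1) = pt 2)
    (h4 : g (pt 2) = pt 1) :
    (∃ k ∈ M24, k * g * k⁻¹ = sA) ∨ (∃ k ∈ M24, k * g * k⁻¹ = sB) := by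
  obtain ⟨T, hT, hchk⟩ := exists_table_of_swaps hg h1 h2 h3 h4
  have hTT : compT T T = idT := by
    have h5 := hasTable_mul hT hT
    rw [hgg] at h5
    exact h5.unique hasTable_one
  rw [invChk, hTT] at hchk
  simp only [beq_self_eq_true, Bool.not_true, Bool.false_or, List.any_eq_true,
    Bool.or_eq_true, beq_iff_eq] at hchk
  obtain ⟨C, hC, hCT⟩ := hchk
  have hok := invCerts_ok
  rw [List.all_eq_true] at hok
  obtain ⟨c, hc, hcM⟩ := tab_sound (hok C hC)
  rcases hCT with hCT | hCT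
  · left
    refine ⟨c, hcM.1, ?_⟩
    have h5 : c * g = sA * c := by
      apply HasTable.eq_of_eq (hasTable_mul hc hT)
      rw [hCT]
      exact hasTable_mul hasTable_sA hc
    rw [h5, mul_inv_cancel_right]
  · right
    refine ⟨c, hcM.1, ?_⟩
    have h5 : c * g = sB * c := by
      apply HasTable.eq_of_eq (hasTable_mul hc hT)
      rw [hCT]
      exact hasTable_mul hasTable_sB hc
    rw [h5, mul_inv_cancel_right]

/-- table of the transposition of `pt 23` and `pt 0` -/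
def swT : List ℕ := [23, 1, 2, 3, 4, 5, 6, 7, 8, 9, 10, 11, 12, 13, 14, 15, 16, 17, 18, 19, 20, 21, 22, 0]

theorem swT_not_ok : tableOK swT = false := by decide +kernel

theorem swT_fix : ∀ i < 24, i ≠ 0 → i ≠ 23 → swT.getD i 0 = i := by decide +kernel

/-- `M24` contains no transposition. -/
theorem not_transposition {g : Equiv.Perm GolayPt} (hg : g ∈ M24) (h1 : g (pt 23) = pt 0)
    (h2 : g (pt 0) = pt 23) (h3 : ∀ p, p ≠ pt 23 → p ≠ pt 0 → g p = p) : False := by
  have hT : HasTable g swT := by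
    refine ⟨by decide, fun p => ?_⟩
    by_cases hp : p = pt 23
    · rw [hp, h1, idx_pt (by norm_num)]; rfl
    · by_cases hp0 : p = pt 0
      · rw [hp0, h2, idx_pt (by norm_num)]; rfl
      · rw [h3 p hp hp0, swT_fix _ (idx_lt p), pt_idx]
        · intro h; apply hp0; rw [← pt_idx p, h]
        · intro h; apply hp; rw [← pt_idx p, h]
  have := tableOK_of_mem_M24 swT hT.1 hT.2 hg
  rw [swT_not_ok] at this
  exact Bool.false_ne_true this

/-- Every involution of `M24` is conjugate to `sA` or to `sB`. -/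
theorem invol_conj {g : Equiv.Perm GolayPt} (hg : g ∈ M24) (h2 : orderOf g = 2) :
    (∃ k ∈ M24, k * g * k⁻¹ = sA) ∨ (∃ k ∈ M24, k * g * k⁻¹ = sB) := by
  have hgg : g * g = 1 := by
    rw [← pow_two, ← h2, pow_orderOf_eq_one]
  have hg1 : g ≠ 1 := by
    intro h
    rw [h, orderOf_one] at h2
    exact absurd h2 (by norm_num)
  have hgga : ∀ p, g (g p) = p := fun p => by
    rw [← Equiv.Perm.mul_apply, hgg]; rfl
  obtain ⟨a, ha⟩ : ∃ a, g a ≠ a := by
    by_contra hc
    exact hg1 (Equiv.ext fun p => by_contra fun h => hc ⟨p, h⟩)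
  by_cases hb : ∃ b, b ≠ a ∧ b ≠ g a ∧ g b ≠ b
  · obtain ⟨b, hba, hbga, hgb⟩ := hb
    have e1 : g b ≠ a := fun h => hbga (by rw [← h, hgga])
    have e2 : g b ≠ g a := fun h => hba (g.injective h)
    obtain ⟨k, hk, k0, k1, k2, k3⟩ := exists_map_four (p0 := a) (p1 := g a) (p2 := b)
      (p3 := g b) (Ne.symm ha) (Ne.symm hba) (Ne.symm e1) (Ne.symm hbga) (Ne.symm e2)
      (Ne.symm hgb)
    have hconj : ∀ p, (k * g * k⁻¹) (k p) = k (g p) := fun p => by
      simp [Equiv.Perm.mul_apply]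
    have hres := conj_of_swaps (g := k * g * k⁻¹) (M24.mul_mem (M24.mul_mem hk hg)
      (M24.inv_mem hk)) (by rw [show k * g * k⁻¹ * (k * g * k⁻¹) = k * (g * g) * k⁻¹ by group, hgg, mul_one,
        mul_inv_cancel])
      (by rw [← k0, hconj, k1]) (by rw [← k1, hconj, hgga, k0]) (by rw [← k2, hconj, k3])
      (by rw [← k3, hconj, hgga, k2])
    rcases hres with ⟨c, hc, hcg⟩ | ⟨c, hc, hcg⟩
    · left
      refine ⟨c * k, M24.mul_mem hc hk, ?_⟩
      rw [← hcg]; group
    · right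
      refine ⟨c * k, M24.mul_mem hc hk, ?_⟩
      rw [← hcg]; group
  · exfalso
    have hb' : ∀ b, b ≠ a → b ≠ g a → g b = b := fun b h1 h2 =>
      by_contra fun h3 => hb ⟨b, h1, h2, h3⟩
    obtain ⟨k, hk, k0, k1⟩ := exists_map_two (p0 := a) (p1 := g a) (Ne.symm ha)
    have hconj : ∀ p, (k * g * k⁻¹) (k p) = k (g p) := fun p => by
      simp [Equiv.Perm.mul_apply]
    apply not_transposition (g := k * g * k⁻¹) (M24.mul_mem (M24.mul_mem hk hg)
      (M24.inv_mem hk)) (by rw [← k0, hconj, k1]) (by rw [← k1, hconj, hgga, k0])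
    intro p hp hp0
    have h5 : p = k (k⁻¹ p) := by simp
    rw [h5, hconj]
    congr 1
    apply hb'
    · intro h; apply hp; rw [h5, h, k0]
    · intro h; apply hp0; rw [h5, h, k1]

/-- the fixed points of a conjugate -/
theorem fix_of_conj {g k s : Equiv.Perm GolayPt} (h : k * g * k⁻¹ = s) :
    (Finset.univ.filter fun p => g p = p) = k⁻¹ • (Finset.univ.filter fun p => s p = p) := by
  ext p
  rw [Finset.mem_inv_smul_finset_iff, Finset.mem_filter, Finset.mem_filter, ← h]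
  simp [Equiv.Perm.mul_apply]

theorem fix_of_conj_sA {g k : Equiv.Perm GolayPt} (hk : k ∈ M24) (h : k * g * k⁻¹ = sA) :
    (Finset.univ.filter fun p => g p = p) ∈ octads := by
  rw [fix_of_conj h, smul_mem_octads_iff (M24.inv_mem hk)]
  exact fix_sA_mem

theorem exists_fixed_of_conj_sA {g k : Equiv.Perm GolayPt} (h : k * g * k⁻¹ = sA) :
    ∃ p, g p = p := by
  have h3 : sA (pt 3) = pt 3 := by
    rw [apply_eq_iff_of_table hasTable_sA, idx_pt (by norm_num)]
    decide
  refine ⟨k⁻¹ (pt 3), ?_⟩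
  have h4 : g = k⁻¹ * sA * k := by rw [← h]; group
  rw [h4]
  simp [Equiv.Perm.mul_apply, h3]

theorem fpf_of_conj_sB {g k : Equiv.Perm GolayPt} (h : k * g * k⁻¹ = sB) (p : GolayPt) :
    g p ≠ p := by
  intro hp
  apply sB_fpf (k p)
  rw [← h]
  simp [Equiv.Perm.mul_apply, hp]

/-- The two classes of involutions of `M24`. -/
theorem m24_involution_classes :
    (∀ g ∈ M24, orderOf g = 2 →
      (Finset.univ.filter fun p => g p = p) ∈ octads ∨ ∀ p, g p ≠ p) ∧
    (∃ g ∈ M24, orderOf g = 2 ∧ (Finset.univ.filter fun p => g p = p) ∈ octads) ∧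
    (∃ g ∈ M24, orderOf g = 2 ∧ ∀ p, g p ≠ p) ∧
    ∀ g ∈ M24, ∀ h ∈ M24, orderOf g = 2 → orderOf h = 2 →
      ((∀ p, g p ≠ p) ↔ (∀ p, h p ≠ p)) → ∃ k ∈ M24, k * g * k⁻¹ = h := by
  refine ⟨?_, ⟨sA, sA_mem, orderOf_sA, fix_sA_mem⟩, ⟨sB, sB_mem, orderOf_sB, sB_fpf⟩, ?_⟩
  · intro g hg h2
    rcases invol_conj hg h2 with ⟨k, hk, hkg⟩ | ⟨k, hk, hkg⟩
    · exact Or.inl (fix_of_conj_sA hk hkg)
    · exact Or.inr (fpf_of_conj_sB hkg)
  · intro g hg h hh g2 h2 hiff
    have key : ∀ (s : Equiv.Perm GolayPt) (k1 k2 : Equiv.Perm GolayPt), k1 ∈ M24 → k2 ∈ M24 →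
        k1 * g * k1⁻¹ = s → k2 * h * k2⁻¹ = s → ∃ k ∈ M24, k * g * k⁻¹ = h := by
      intro s k1 k2 hk1 hk2 e1 e2
      refine ⟨k2⁻¹ * k1, M24.mul_mem (M24.inv_mem hk2) hk1, ?_⟩
      have : h = k2⁻¹ * s * k2 := by rw [← e2]; group
      rw [this, ← e1]; group
    rcases invol_conj hg g2 with ⟨k1, hk1, e1⟩ | ⟨k1, hk1, e1⟩ <;>
      rcases invol_conj hh h2 with ⟨k2, hk2, e2⟩ | ⟨k2, hk2, e2⟩
    · exact key sA k1 k2 hk1 hk2 e1 e2
    · exfalso
      obtain ⟨p, hp⟩ := exists_fixed_of_conj_sA e1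
      exact hiff.mpr (fpf_of_conj_sB e2) p hp
    · exfalso
      obtain ⟨p, hp⟩ := exists_fixed_of_conj_sA e2
      exact hiff.mp (fpf_of_conj_sB e1) p hp
    · exact key sB k1 k2 hk1 hk2 e1 e2

end Cfsg.Agent.Lib.Helper96
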