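import Mathlib

set_option autoImplicit false

namespace Cfsg.Agent.Lib.Helper96.BG

open Module

section Cons

variable {F : Type*} [Field F] [Fintype F]

/-- A `d × d` matrix `A` with `A ^ r = 1` and `A - 1` invertible, for a prime `r ∣ q ^ d - 1`. -/
theorem exists_block (p : ℕ) [Fact p.Prime] [CharP F p] (d : ℕ) (hd : d ≠ 0) (r : ℕ)
    [Fact r.Prime] (hr : r ∣ Fintype.card F ^ d - 1) :
    ∃ A : Matrix (Fin d) (Fin d) F, A ^ r = 1 ∧ IsUnit (A - 1) := by
  classical
  have : NeZero d := ⟨hd⟩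
  let K := FiniteField.Extension F p d
  have hfr : Module.finrank F K = d := FiniteField.finrank_extension F p d
  have hcard : Nat.card K = Fintype.card F ^ d := by
    rw [FiniteField.natCard_extension, Nat.card_eq_fintype_card]
  let b : Module.Basis (Fin d) F K := Module.finBasisOfFinrankEq F K hfr
  have : Fintype K := Fintype.ofFinite K
  have hcu : Nat.card Kˣ = Fintype.card F ^ d - 1 := by rw [Nat.card_units, hcard]
  obtain ⟨θ, hθ⟩ := exists_prime_orderOf_dvd_card' (G := Kˣ) r (by rw [hcu]; exact hr)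
  have hθ1 : θ ≠ 1 := by
    rintro rfl
    rw [orderOf_one] at hθ
    exact (Fact.out : r.Prime).one_lt.ne hθ
  refine ⟨(Algebra.leftMulMatrix b : K →ₐ[F] Matrix (Fin d) (Fin d) F) (θ : K), ?_, ?_⟩
  · rw [← map_pow, ← Units.val_pow_eq_pow_val, ← hθ, pow_orderOf_eq_one, Units.val_one, map_one]
  · have h1 : ((θ : K) - 1) ≠ 0 := by
      intro h
      apply hθ1
      apply Units.ext
      rw [Units.val_one]
      exact sub_eq_zero.mp h
    have h3 : IsUnit ((θ : K) - 1) := isUnit_iff_ne_zero.mpr h1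
    have h4 := h3.map (Algebra.leftMulMatrix b : K →ₐ[F] Matrix (Fin d) (Fin d) F)
    rw [map_sub, map_one] at h4
    exact h4

omit [Fintype F] in
theorem fromBlocks_pow' {α β : Type*} [Fintype α] [Fintype β] [DecidableEq α] [DecidableEq β]
    (B : Matrix α α F) (t : ℕ) :
    (Matrix.fromBlocks B 0 0 (1 : Matrix β β F)) ^ t = Matrix.fromBlocks (B ^ t) 0 0 1 := by
  induction t with
  | zero => rw [pow_zero, pow_zero, Matrix.fromBlocks_one]
  | succ t ih =>
    rw [pow_succ, ih, Matrix.fromBlocks_multiply, pow_succ]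
    simp

/-- An element of order dividing `r` with small fixed space: `X ^ r = 1`, `det X = 1`,
`dim ker (X - 1) ≤ n % i`, when `r ∣ q ^ i - 1` and `r ∤ q - 1`. -/
theorem exists_semisimple (p : ℕ) [Fact p.Prime] [CharP F p] (n i : ℕ) (hi : i ≠ 0) (r : ℕ)
    [Fact r.Prime] (hr : r ∣ Fintype.card F ^ i - 1) (hr1 : ¬ r ∣ Fintype.card F - 1) :
    ∃ X : Matrix (Fin n) (Fin n) F, X ^ r = 1 ∧ X.det = 1 ∧
      finrank F (LinearMap.ker (Matrix.toLin' X - 1)) ≤ n % i := by
  classical
  obtain ⟨A, hA, hA1⟩ := exists_block p i hi r hr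
  have hdetA : A.det = 1 := by
    have h1 : A.det ^ r = 1 := by rw [← Matrix.det_pow, hA, Matrix.det_one]
    have h0 : A.det ≠ 0 := by
      intro h
      rw [h, zero_pow (Fact.out : r.Prime).ne_zero] at h1
      exact zero_ne_one h1
    have h2 : A.det ^ (Fintype.card F - 1) = 1 := FiniteField.pow_card_sub_one_eq_one _ h0
    have h4 : Nat.Coprime r (Fintype.card F - 1) :=
      (Nat.Prime.coprime_iff_not_dvd (Fact.out : r.Prime)).mpr hr1
    exact (pow_eq_one_iff_of_coprime h4).mp ⟨h1, h2⟩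
  have hcard : Fintype.card ((Fin i × Fin (n / i)) ⊕ Fin (n % i)) = Fintype.card (Fin n) := by
    simp only [Fintype.card_sum, Fintype.card_prod, Fintype.card_fin]
    exact Nat.div_add_mod n i
  let e : (Fin i × Fin (n / i)) ⊕ Fin (n % i) ≃ Fin n := Fintype.equivOfCardEq hcard
  let B : Matrix (Fin i × Fin (n / i)) (Fin i × Fin (n / i)) F :=
    Matrix.blockDiagonal fun _ : Fin (n / i) => A
  let Y : Matrix ((Fin i × Fin (n / i)) ⊕ Fin (n % i)) ((Fin i × Fin (n / i)) ⊕ Fin (n % i)) F :=
    Matrix.fromBlocks B 0 0 1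
  have hBpow : B ^ r = 1 := by
    change (Matrix.blockDiagonal fun _ : Fin (n / i) => A) ^ r = 1
    rw [← Matrix.blockDiagonal_pow]
    have : (fun _ : Fin (n / i) => A) ^ r = 1 := by
      funext k
      exact hA
    rw [this, Matrix.blockDiagonal_one]
  have hYpow : Y ^ r = 1 := by
    change (Matrix.fromBlocks B 0 0 1) ^ r = 1
    rw [fromBlocks_pow', hBpow, Matrix.fromBlocks_one]
  have hYdet : Y.det = 1 := by
    change (Matrix.fromBlocks B 0 0 1).det = 1
    rw [Matrix.det_fromBlocks_zero₂₁, Matrix.det_one, mul_one]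
    change (Matrix.blockDiagonal fun _ : Fin (n / i) => A).det = 1
    rw [Matrix.det_blockDiagonal]
    simp [hdetA]
  have hBdet : (B - 1).det ≠ 0 := by
    have h1 : B - 1 = Matrix.blockDiagonal fun _ : Fin (n / i) => (A - 1) := by
      change (Matrix.blockDiagonal fun _ : Fin (n / i) => A) - 1 = _
      rw [← Matrix.blockDiagonal_one, ← Matrix.blockDiagonal_sub]
      rfl
    rw [h1, Matrix.det_blockDiagonal]
    have h2 : (A - 1).det ≠ 0 := by
      have := (Matrix.isUnit_iff_isUnit_det _).mp hA1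
      exact this.ne_zero
    simp [h2]
  refine ⟨Matrix.reindexAlgEquiv F F e Y, ?_, ?_, ?_⟩
  · rw [← map_pow, hYpow, map_one]
  · rw [Matrix.det_reindexAlgEquiv, hYdet]
  · have key : ∀ w : Fin n → F, (Matrix.reindexAlgEquiv F F e Y).mulVec w = w →
        (∀ t, w (e (Sum.inr t)) = 0) → w = 0 := by
      intro w hv1 hv
      rw [Matrix.coe_reindexAlgEquiv, Matrix.reindex_apply,
        Matrix.submatrix_mulVec_equiv, Equiv.symm_symm] at hv1
      have hu : Y.mulVec (w ∘ e) = w ∘ e := by
        funext x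
        have := congrFun hv1 (e x)
        simpa using this
      have hu2 : (w ∘ e) ∘ Sum.inr = 0 := by
        funext t
        exact hv t
      have hsplit : w ∘ e = Sum.elim ((w ∘ e) ∘ Sum.inl) ((w ∘ e) ∘ Sum.inr) :=
        (Sum.elim_comp_inl_inr _).symm
      rw [hu2] at hsplit
      have hu1 : B.mulVec ((w ∘ e) ∘ Sum.inl) = (w ∘ e) ∘ Sum.inl := by
        have h1 : Y.mulVec (Sum.elim ((w ∘ e) ∘ Sum.inl) 0) =
            Sum.elim ((w ∘ e) ∘ Sum.inl) 0 := by
          rw [← hsplit]
          exact hu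
        change (Matrix.fromBlocks B 0 0 1).mulVec _ = _ at h1
        rw [Matrix.fromBlocks_mulVec] at h1
        have h2 := congrArg (fun f => f ∘ Sum.inl) h1
        simp only [Sum.elim_comp_inl] at h2
        simpa using h2
      have hz : (w ∘ e) ∘ Sum.inl = 0 := by
        apply Matrix.eq_zero_of_mulVec_eq_zero hBdet
        rw [Matrix.sub_mulVec, hu1, Matrix.one_mulVec, sub_self]
      rw [hz] at hsplit
      funext x
      have := congrFun hsplit (e.symm x)
      simp only [Function.comp_apply, Equiv.apply_symm_apply] at this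
      rw [this]
      cases e.symm x <;> rfl
    let g : LinearMap.ker (Matrix.toLin' (Matrix.reindexAlgEquiv F F e Y) - 1) →ₗ[F]
        (Fin (n % i) → F) :=
      { toFun := fun v t => v.1 (e (Sum.inr t))
        map_add' := fun v w => rfl
        map_smul' := fun c v => rfl }
    have hg : Function.Injective g := by
      rw [injective_iff_map_eq_zero]
      intro v hv
      have hv1 : Matrix.toLin' (Matrix.reindexAlgEquiv F F e Y) v.1 = v.1 := by
        have := v.2
        rw [LinearMap.mem_ker, LinearMap.sub_apply, sub_eq_zero] at this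
        exact this
      rw [Matrix.toLin'_apply] at hv1
      apply Subtype.ext
      exact key v.1 hv1 (fun t => congrFun hv t)
    have := LinearMap.finrank_le_finrank_of_injective hg
    rw [Module.finrank_fin_fun] at this
    exact this

omit [Fintype F] in
/-- A matrix with `X ^ r = c` and determinant `((-1)^(r+1) c)^(n/r)`. -/
theorem exists_twisted (n r : ℕ) (hr : r.Prime) (hrn : r ∣ n) (c : F) :
    ∃ X : Matrix (Fin n) (Fin n) F, X ^ r = c • (1 : Matrix (Fin n) (Fin n) F) ∧
      X.det = ((-1) ^ (r + 1) * c) ^ (n / r) := by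
  classical
  have hmon : (Polynomial.X ^ r - Polynomial.C c : Polynomial F).Monic :=
    Polynomial.monic_X_pow_sub_C c hr.ne_zero
  have hf0 : (Polynomial.X ^ r - Polynomial.C c : Polynomial F) ≠ 0 := hmon.ne_zero
  let pb := AdjoinRoot.powerBasis hf0
  have hdim : pb.dim = r := by
    rw [AdjoinRoot.powerBasis_dim, Polynomial.natDegree_X_pow_sub_C]
  let M : Matrix (Fin pb.dim) (Fin pb.dim) F :=
    Algebra.leftMulMatrix pb.basis (AdjoinRoot.root (Polynomial.X ^ r - Polynomial.C c))
  have hroot : (AdjoinRoot.root (Polynomial.X ^ r - Polynomial.C c)) ^ r =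
      algebraMap F (AdjoinRoot (Polynomial.X ^ r - Polynomial.C c : Polynomial F)) c := by
    have h1 := AdjoinRoot.eval₂_root (Polynomial.X ^ r - Polynomial.C c : Polynomial F)
    rw [Polynomial.eval₂_sub, Polynomial.eval₂_pow, Polynomial.eval₂_X, Polynomial.eval₂_C,
      sub_eq_zero] at h1
    rw [h1, AdjoinRoot.algebraMap_eq]
  have hMpow : M ^ r = c • (1 : Matrix (Fin pb.dim) (Fin pb.dim) F) := by
    change (Algebra.leftMulMatrix pb.basis _) ^ r = _
    rw [← map_pow, hroot, AlgHom.commutes, Algebra.algebraMap_eq_smul_one]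
  have hMdet : M.det = (-1) ^ (r + 1) * c := by
    change (Algebra.leftMulMatrix pb.basis _).det = _
    rw [← Algebra.norm_eq_matrix_det]
    have h1 := Algebra.PowerBasis.norm_gen_eq_coeff_zero_minpoly pb
    rw [AdjoinRoot.powerBasis_gen, AdjoinRoot.minpoly_root hf0, hdim] at h1
    rw [h1, hmon.leadingCoeff, inv_one, Polynomial.C_1, mul_one]
    simp [Polynomial.coeff_X_pow, hr.ne_zero.symm, pow_succ]
  have hcard : Fintype.card (Fin pb.dim × Fin (n / r)) = Fintype.card (Fin n) := by
    simp only [Fintype.card_prod, Fintype.card_fin]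
    rw [hdim]
    exact Nat.mul_div_cancel' hrn
  let e : Fin pb.dim × Fin (n / r) ≃ Fin n := Fintype.equivOfCardEq hcard
  let Y : Matrix (Fin pb.dim × Fin (n / r)) (Fin pb.dim × Fin (n / r)) F :=
    Matrix.blockDiagonal fun _ : Fin (n / r) => M
  have hYpow : Y ^ r = c • (1 : Matrix (Fin pb.dim × Fin (n / r)) (Fin pb.dim × Fin (n / r)) F) := by
    change (Matrix.blockDiagonal fun _ : Fin (n / r) => M) ^ r = _
    rw [← Matrix.blockDiagonal_pow]
    have : (fun _ : Fin (n / r) => M) ^ r = c • (1 : Fin (n / r) → Matrix (Fin pb.dim) (Fin pb.dim) F) := by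
      funext k
      exact hMpow
    rw [this, Matrix.blockDiagonal_smul, Matrix.blockDiagonal_one]
  have hYdet : Y.det = ((-1) ^ (r + 1) * c) ^ (n / r) := by
    change (Matrix.blockDiagonal fun _ : Fin (n / r) => M).det = _
    rw [Matrix.det_blockDiagonal]
    simp [hMdet]
  refine ⟨Matrix.reindexAlgEquiv F F e Y, ?_, ?_⟩
  · rw [← map_pow, hYpow, map_smul, map_one]
  · rw [Matrix.det_reindexAlgEquiv, hYdet]

/-- In a finite field, `e ^ ((q - 1) / r) = 1` forces `e` to be an `r`-th power. -/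
theorem exists_pow_eq (r : ℕ) (hdvd : r ∣ Fintype.card F - 1) (e : F) (he0 : e ≠ 0)
    (he : e ^ ((Fintype.card F - 1) / r) = 1) : ∃ b : F, b ^ r = e := by
  classical
  obtain ⟨g, hg⟩ := IsCyclic.exists_monoid_generator (α := Fˣ)
  have hord : orderOf g = Fintype.card F - 1 := by
    rw [orderOf_eq_card_of_forall_mem_zpowers, Nat.card_eq_fintype_card, Fintype.card_units]
    intro x
    obtain ⟨j, hj⟩ := (Submonoid.mem_powers_iff _ _).mp (hg x)
    exact ⟨j, by simpa using hj⟩
  obtain ⟨j, hj⟩ := (Submonoid.mem_powers_iff _ _).mp (hg (Units.mk0 e he0))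
  obtain ⟨s, hs⟩ := hdvd
  have hq1 : 0 < Fintype.card F - 1 := by
    have := Fintype.one_lt_card (α := F)
    omega
  have hr0 : 0 < r := by
    rcases Nat.eq_zero_or_pos r with h | h
    · rw [h, zero_mul] at hs; omega
    · exact h
  have hs0 : 0 < s := by
    rcases Nat.eq_zero_or_pos s with h | h
    · rw [h, mul_zero] at hs; omega
    · exact h
  have hdiv : (Fintype.card F - 1) / r = s := by rw [hs, Nat.mul_div_cancel_left _ hr0]
  rw [hdiv] at he
  have h1 : g ^ (j * s) = 1 := by
    rw [pow_mul, hj]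
    apply Units.ext
    rw [Units.val_pow_eq_pow_val, Units.val_mk0, he, Units.val_one]
  have h2 : r * s ∣ j * s := by
    rw [← hs, ← hord]
    exact orderOf_dvd_of_pow_eq_one h1
  obtain ⟨t, ht⟩ := Nat.dvd_of_mul_dvd_mul_right hs0 h2
  refine ⟨((g ^ t : Fˣ) : F), ?_⟩
  rw [← Units.val_pow_eq_pow_val, ← pow_mul, mul_comm t r, ← ht, hj, Units.val_mk0]

/-- A non-`r`-th power of `r`-power order: `c ^ (r ^ a) = 1` with `a = v_r(q - 1)`. -/
theorem exists_not_pow (r : ℕ) [Fact r.Prime] (hdvd : r ∣ Fintype.card F - 1) :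
    ∃ c : F, (∀ b : F, b ^ r ≠ c) ∧ c ^ (r ^ padicValNat r (Fintype.card F - 1)) = 1 := by
  classical
  have hr : r.Prime := Fact.out
  obtain ⟨g, hg⟩ := IsCyclic.exists_monoid_generator (α := Fˣ)
  have hord : orderOf g = Fintype.card F - 1 := by
    rw [orderOf_eq_card_of_forall_mem_zpowers, Nat.card_eq_fintype_card, Fintype.card_units]
    intro x
    obtain ⟨j, hj⟩ := (Submonoid.mem_powers_iff _ _).mp (hg x)
    exact ⟨j, by simpa using hj⟩
  have hq1 : Fintype.card F - 1 ≠ 0 := by
    have := Fintype.one_lt_card (α := F)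
    omega
  obtain ⟨a, ha⟩ : ∃ a, a = padicValNat r (Fintype.card F - 1) := ⟨_, rfl⟩
  have hnd : ¬ r ^ (a + 1) ∣ Fintype.card F - 1 := by
    rw [ha]
    exact pow_succ_padicValNat_not_dvd hq1
  obtain ⟨s, hs⟩ : r ^ a ∣ Fintype.card F - 1 := by
    rw [ha]
    exact pow_padicValNat_dvd
  rw [← ha]
  refine ⟨((g ^ s : Fˣ) : F), ?_, ?_⟩
  · intro b hb
    have hb0 : b ≠ 0 := by
      rintro rfl
      rw [zero_pow hr.ne_zero] at hb
      exact (Units.ne_zero _) hb.symm
    obtain ⟨t, ht⟩ := (Submonoid.mem_powers_iff _ _).mp (hg (Units.mk0 b hb0))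
    have h1 : g ^ (t * r) = g ^ s := by
      rw [pow_mul, ht]
      apply Units.ext
      rw [Units.val_pow_eq_pow_val, Units.val_mk0, hb]
    have h2 := (pow_eq_pow_iff_modEq).mp h1
    rw [hord] at h2
    have h3 : r ∣ s := by
      have h4 : t * r ≡ s [MOD r] := h2.of_dvd hdvd
      have h5 : t * r ≡ 0 [MOD r] := (Nat.modEq_zero_iff_dvd).mpr (Dvd.intro_left t rfl)
      exact (Nat.modEq_zero_iff_dvd).mp (h4.symm.trans h5)
    obtain ⟨s', hs'⟩ := h3
    apply hnd
    rw [hs, hs', pow_succ]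
    exact Dvd.intro s' (by ring)
  · rw [← Units.val_pow_eq_pow_val, ← pow_mul, mul_comm, ← hs, ← hord, pow_orderOf_eq_one,
      Units.val_one]

end Cons

end Cfsg.Agent.Lib.Helper96.BG
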