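import Mathlib

set_option autoImplicit false

namespace Cfsg.Agent.Lib.Helper96.BG

open Module

section Count

variable {F : Type*} [Field F] [Fintype F]

/-- The fibre of `s ↦ span (range s)` over an `m`-space `W` is the set of bases of `W`. -/
noncomputable def fibreEquiv {V : Type*} [AddCommGroup V] [Module F V] [Finite V] (m : ℕ)
    (W : Submodule F V) (hW : finrank F W = m) :
    {s : {s : Fin m → V // LinearIndependent F s} // Submodule.span F (Set.range s.1) = W} ≃
      {t : Fin m → W // LinearIndependent F t} where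
  toFun s := ⟨fun j => ⟨s.1.1 j, by
    have h1 : s.1.1 j ∈ Submodule.span F (Set.range s.1.1) := Submodule.subset_span ⟨j, rfl⟩
    exact (le_of_eq s.2) h1⟩, by
    apply LinearIndependent.of_comp W.subtype
    exact s.1.2⟩
  invFun t := ⟨⟨fun j => (t.1 j : V), t.2.map' W.subtype (Submodule.ker_subtype W)⟩, by
    have h1 : Submodule.span F (Set.range t.1) = ⊤ :=
      t.2.span_eq_top_of_card_eq_finrank' (by rw [Fintype.card_fin, hW])
    have h2 : (Set.range fun j => (t.1 j : V)) = W.subtype '' Set.range t.1 := by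
      rw [← Set.range_comp]
      rfl
    change Submodule.span F (Set.range fun j => (t.1 j : V)) = W
    rw [h2, Submodule.span_image, h1, Submodule.map_top, Submodule.range_subtype]⟩
  left_inv s := by
    apply Subtype.ext
    apply Subtype.ext
    rfl
  right_inv t := by
    apply Subtype.ext
    rfl

theorem card_gr_mul {V : Type*} [AddCommGroup V] [Module F V] [Finite V] (m : ℕ)
    (hm : m ≤ finrank F V) :
    Nat.card {W : Submodule F V // finrank F W = m} *
        ∏ j : Fin m, (Fintype.card F ^ m - Fintype.card F ^ (j : ℕ))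
      = ∏ j : Fin m, (Fintype.card F ^ finrank F V - Fintype.card F ^ (j : ℕ)) := by
  classical
  have : Fintype V := Fintype.ofFinite V
  have : Fintype {W : Submodule F V // finrank F W = m} := Fintype.ofFinite _
  rw [← card_linearIndependent (K := F) (V := V) hm]
  let φ : {s : Fin m → V // LinearIndependent F s} → {W : Submodule F V // finrank F W = m} :=
    fun s => ⟨Submodule.span F (Set.range s.1), by
      rw [finrank_span_eq_card s.2, Fintype.card_fin]⟩
  rw [← Nat.card_congr (Equiv.sigmaFiberEquiv φ), Nat.card_sigma]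
  have h : ∀ W : {W : Submodule F V // finrank F W = m},
      Nat.card {s : {s : Fin m → V // LinearIndependent F s} // φ s = W} =
        ∏ j : Fin m, (Fintype.card F ^ m - Fintype.card F ^ (j : ℕ)) := by
    intro W
    have e : {s : {s : Fin m → V // LinearIndependent F s} // φ s = W} ≃
        {s : {s : Fin m → V // LinearIndependent F s} // Submodule.span F (Set.range s.1) = W.1} :=
      Equiv.subtypeEquivRight (fun s => by
        constructor
        · intro h; exact congrArg Subtype.val h
        · intro h; exact Subtype.ext h)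
    rw [Nat.card_congr e, Nat.card_congr (fibreEquiv m W.1 W.2),
      card_linearIndependent (K := F) (V := W.1) (le_of_eq W.2.symm), W.2]
  rw [Finset.sum_congr rfl (fun W _ => h W), Finset.sum_const, Finset.card_univ, smul_eq_mul,
    Nat.card_eq_fintype_card]

theorem prod_split (q m d : ℕ) (hmd : m ≤ d) :
    ∏ j : Fin m, (q ^ d - q ^ (j : ℕ)) =
      (∏ j : Fin m, q ^ (j : ℕ)) * ∏ j : Fin m, (q ^ (d - (j : ℕ)) - 1) := by
  rw [← Finset.prod_mul_distrib]
  apply Finset.prod_congr rfl
  intro j _
  have hj : (j : ℕ) ≤ d := by have := j.2; omega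
  rw [Nat.mul_sub, mul_one, ← pow_add, Nat.add_sub_cancel' hj]

theorem prod_fin_eq_Ico (q m d : ℕ) (hmd : m ≤ d) :
    ∏ j : Fin m, (q ^ (d - (j : ℕ)) - 1) = ∏ s ∈ Finset.Ico (d - m) d, (q ^ (s + 1) - 1) := by
  rw [Fin.prod_univ_eq_prod_range (fun j => q ^ (d - j) - 1) m,
    Finset.prod_Ico_eq_prod_range, Nat.sub_sub_self hmd,
    ← Finset.prod_range_reflect (fun j => q ^ (d - j) - 1) m]
  apply Finset.prod_congr rfl
  intro j hj
  have := Finset.mem_range.mp hj
  congr 2
  omega

/-- Number of `m`-subspaces: `#Gr(m, V) · ∏_{s<m} (q^(s+1) - 1) = ∏_{d-m ≤ s < d} (q^(s+1) - 1)`. -/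
theorem card_gr_mul' {V : Type*} [AddCommGroup V] [Module F V] [Finite V] (m : ℕ)
    (hm : m ≤ finrank F V) :
    Nat.card {W : Submodule F V // finrank F W = m} *
        ∏ s ∈ Finset.range m, (Fintype.card F ^ (s + 1) - 1)
      = ∏ s ∈ Finset.Ico (finrank F V - m) (finrank F V), (Fintype.card F ^ (s + 1) - 1) := by
  have h := card_gr_mul (F := F) (V := V) m hm
  rw [prod_split _ m m le_rfl, prod_split _ m _ hm, prod_fin_eq_Ico _ m m le_rfl,
    prod_fin_eq_Ico _ m _ hm, Nat.sub_self, ← Finset.range_eq_Ico] at h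
  have hpos : 0 < ∏ j : Fin m, Fintype.card F ^ (j : ℕ) :=
    Finset.prod_pos (fun j _ => pow_pos Fintype.card_pos _)
  apply Nat.eq_of_mul_eq_mul_left hpos
  rw [← h]
  ring

theorem card_gr_pos {V : Type*} [AddCommGroup V] [Module F V] [Finite V] (m : ℕ)
    (hm : m ≤ finrank F V) :
    0 < Nat.card {W : Submodule F V // finrank F W = m} := by
  have h := card_gr_mul' (F := F) (V := V) m hm
  rcases Nat.eq_zero_or_pos (Nat.card {W : Submodule F V // finrank F W = m}) with h0 | h0
  · rw [h0, zero_mul] at h
    exfalso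
    have hpos : 0 < ∏ s ∈ Finset.Ico (finrank F V - m) (finrank F V),
        (Fintype.card F ^ (s + 1) - 1) := by
      apply Finset.prod_pos
      intro s _
      have h1 : 1 < Fintype.card F := Fintype.one_lt_card
      have h2 : 1 < Fintype.card F ^ (s + 1) := Nat.one_lt_pow (by omega) h1
      omega
    omega
  · exact h0

/-- A prime dividing the number of `m`-subspaces divides some `q^(s+1) - 1` with
`d - m ≤ s < d`. -/
theorem exists_dvd_of_dvd_card_gr {V : Type*} [AddCommGroup V] [Module F V] [Finite V] (m : ℕ)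
    (hm : m ≤ finrank F V) (r : ℕ) (hr : r.Prime)
    (h : r ∣ Nat.card {W : Submodule F V // finrank F W = m}) :
    ∃ s, finrank F V - m ≤ s ∧ s < finrank F V ∧ r ∣ Fintype.card F ^ (s + 1) - 1 := by
  have h1 := card_gr_mul' (F := F) (V := V) m hm
  have h2 : r ∣ ∏ s ∈ Finset.Ico (finrank F V - m) (finrank F V),
      (Fintype.card F ^ (s + 1) - 1) := by
    rw [← h1]
    exact Dvd.dvd.mul_right h _
  obtain ⟨s, hs, hs2⟩ := (Nat.Prime.prime hr).exists_mem_finset_dvd h2
  exact ⟨s, (Finset.mem_Ico.mp hs).1, (Finset.mem_Ico.mp hs).2, hs2⟩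

/-- `#Gr(d - m, V) = #Gr(m, V)`. -/
theorem card_gr_symm {V : Type*} [AddCommGroup V] [Module F V] [Finite V] (m : ℕ)
    (hm : m ≤ finrank F V) :
    Nat.card {W : Submodule F V // finrank F W = finrank F V - m} =
      Nat.card {W : Submodule F V // finrank F W = m} := by
  have h1 := card_gr_mul' (F := F) (V := V) m hm
  have h2 := card_gr_mul' (F := F) (V := V) (finrank F V - m) (Nat.sub_le _ _)
  rw [Nat.sub_sub_self hm] at h2
  have hpos : ∀ t : ℕ, 0 < ∏ s ∈ Finset.range t, (Fintype.card F ^ (s + 1) - 1) := by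
    intro t
    apply Finset.prod_pos
    intro s _
    have h1 : 1 < Fintype.card F := Fintype.one_lt_card
    have h2 : 1 < Fintype.card F ^ (s + 1) := Nat.one_lt_pow (by omega) h1
    omega
  have e1 := Finset.prod_range_mul_prod_Ico (fun s => Fintype.card F ^ (s + 1) - 1)
    (Nat.sub_le (finrank F V) m)
  have e2 := Finset.prod_range_mul_prod_Ico (fun s => Fintype.card F ^ (s + 1) - 1) hm
  apply Nat.eq_of_mul_eq_mul_right (Nat.mul_pos (hpos m) (hpos (finrank F V - m)))
  calc Nat.card {W : Submodule F V // finrank F W = finrank F V - m} *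
        ((∏ s ∈ Finset.range m, (Fintype.card F ^ (s + 1) - 1)) *
          ∏ s ∈ Finset.range (finrank F V - m), (Fintype.card F ^ (s + 1) - 1))
      = (∏ s ∈ Finset.range m, (Fintype.card F ^ (s + 1) - 1)) *
          (Nat.card {W : Submodule F V // finrank F W = finrank F V - m} *
          ∏ s ∈ Finset.range (finrank F V - m), (Fintype.card F ^ (s + 1) - 1)) := by ring
    _ = ∏ s ∈ Finset.range (finrank F V), (Fintype.card F ^ (s + 1) - 1) := by rw [h2, e2]
    _ = (∏ s ∈ Finset.range (finrank F V - m), (Fintype.card F ^ (s + 1) - 1)) *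
          (Nat.card {W : Submodule F V // finrank F W = m} *
          ∏ s ∈ Finset.range m, (Fintype.card F ^ (s + 1) - 1)) := by rw [h1, e1]
    _ = _ := by ring

end Count

end Cfsg.Agent.Lib.Helper96.BG
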