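import Cfsg.Agent.Lib.Helper96.BGPair

/-!
Decompositions into equidimensional subspaces: independence from a dimension count, chains of
invariant subspaces, relative complements, and the final assembly.
-/

set_option autoImplicit false
set_option linter.unusedSectionVars false

namespace Cfsg.Agent.Lib.Helper96.BG

open Module

section Ind

variable {F : Type*} [Field F] {V : Type*} [AddCommGroup V] [Module F V] [FiniteDimensional F V]
  {ι : Type*} [Fintype ι]

/-- The sum map from the product of a family of subspaces. -/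
noncomputable def piSum (D : ι → Submodule F V) : (∀ i, D i) →ₗ[F] V :=
  ∑ i, (D i).subtype ∘ₗ LinearMap.proj i

theorem piSum_apply (D : ι → Submodule F V) (w : ∀ i, D i) : piSum D w = ∑ i, (w i : V) := by
  simp [piSum]

theorem range_piSum (D : ι → Submodule F V) : LinearMap.range (piSum D) = ⨆ i, D i := by
  classical
  apply le_antisymm
  · rintro _ ⟨w, rfl⟩
    rw [piSum_apply]
    exact Submodule.sum_mem _ (fun i _ => Submodule.mem_iSup_of_mem i (w i).2)
  · apply iSup_le
    intro i x hx
    refine ⟨Pi.single i ⟨x, hx⟩, ?_⟩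
    rw [piSum_apply, Finset.sum_eq_single i]
    · simp
    · intro j _ hj
      simp [hj]
    · intro h
      exact absurd (Finset.mem_univ i) h

theorem iSupIndep_iff_piSum_injective (D : ι → Submodule F V) :
    iSupIndep D ↔ Function.Injective (piSum D) := by
  classical
  rw [iSupIndep_iff_finsetSum_eq_zero_imp_eq_zero]
  constructor
  · intro h
    rw [injective_iff_map_eq_zero]
    intro w hw
    rw [piSum_apply] at hw
    funext i
    apply Subtype.ext
    exact h Finset.univ (fun i => (w i : V)) (fun i _ => (w i).2) hw i (Finset.mem_univ i)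
  · intro h s v hv hsum i hi
    let w : ∀ i, D i := fun i => if hi : i ∈ s then ⟨v i, hv i hi⟩ else 0
    have hw : piSum D w = 0 := by
      rw [piSum_apply, ← hsum, ← Finset.sum_subset (Finset.subset_univ s)]
      · apply Finset.sum_congr rfl
        intro j hj
        simp [w, hj]
      · intro j _ hj
        simp [w, hj]
    have h0 : w = 0 := h (by rw [hw, map_zero])
    have h1 := congrArg (fun u : ∀ i, D i => (u i : V)) h0
    simpa [w, hi] using h1

theorem finrank_iSup_le_sum (D : ι → Submodule F V) :
    finrank F ↥(⨆ i, D i) ≤ ∑ i, finrank F (D i) := by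
  rw [← range_piSum, ← Module.finrank_pi_fintype F]
  exact LinearMap.finrank_range_le _

theorem iSupIndep_of_finrank_eq (D : ι → Submodule F V)
    (h : finrank F ↥(⨆ i, D i) = ∑ i, finrank F (D i)) : iSupIndep D := by
  rw [iSupIndep_iff_piSum_injective, ← LinearMap.ker_eq_bot]
  have h1 := LinearMap.finrank_range_add_finrank_ker (piSum D)
  rw [range_piSum, h, Module.finrank_pi_fintype F] at h1
  apply Submodule.finrank_eq_zero.mp
  omega

theorem finrank_iSup_of_iSupIndep (D : ι → Submodule F V) (h : iSupIndep D) :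
    finrank F ↥(⨆ i, D i) = ∑ i, finrank F (D i) := by
  rw [← range_piSum, ← Module.finrank_pi_fintype F]
  exact LinearMap.finrank_range_of_inj ((iSupIndep_iff_piSum_injective D).mp h)

/-- Final assembly: a family of subspaces of dimension at most `a`, spanning the space of
dimension `t * a`, indexed by a type with `t` elements and permuted by an injective map `T`,
gives a decomposition indexed by `Fin t`. -/
theorem decomposition_of_family {κ : Type*} [Fintype κ] (T : V →ₗ[F] V)
    (hinj : Function.Injective T) (D : κ → Submodule F V) (π : Equiv.Perm κ) (a t : ℕ)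
    (hcard : Fintype.card κ = t) (hV : finrank F V = t * a) (hsup : ⨆ k, D k = ⊤)
    (hle : ∀ k, finrank F (D k) ≤ a) (hT : ∀ k, (D k).map T ≤ D (π k)) :
    ∃ D' : Fin t → Submodule F V, (∀ j, finrank F (D' j) = a) ∧ iSupIndep D' ∧
      (⨆ j, D' j) = ⊤ ∧ ∃ σ : Equiv.Perm (Fin t), ∀ j, (D' j).map T = D' (σ j) := by
  classical
  have h1 := finrank_iSup_le_sum D
  rw [hsup, finrank_top, hV] at h1
  have h2 : ∑ k : κ, finrank F (D k) ≤ ∑ _k : κ, a := Finset.sum_le_sum (fun k _ => hle k)
  have h3 : ∑ _k : κ, a = t * a := by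
    rw [Finset.sum_const, Finset.card_univ, hcard, smul_eq_mul]
  have h4 : ∑ k : κ, finrank F (D k) = ∑ _k : κ, a := by omega
  have hfin : ∀ k, finrank F (D k) = a := fun k =>
    (Finset.sum_eq_sum_iff_of_le (fun k _ => hle k)).mp h4 k (Finset.mem_univ k)
  have hind : iSupIndep D := by
    apply iSupIndep_of_finrank_eq
    rw [hsup, finrank_top, hV, h4, h3]
  let e : κ ≃ Fin t := Fintype.equivFinOfCardEq hcard
  refine ⟨fun j => D (e.symm j), fun j => hfin _, hind.comp e.symm.injective, ?_,
    e.symm.trans (π.trans e), fun j => ?_⟩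
  · rw [← hsup]
    exact e.symm.iSup_comp (g := D)
  · show (D (e.symm j)).map T = D (e.symm (e (π (e.symm j))))
    rw [Equiv.symm_apply_apply]
    apply Submodule.eq_of_le_of_finrank_eq (hT _)
    rw [hfin, ← hfin (e.symm j)]
    exact (Submodule.equivMapOfInjective T hinj _).finrank_eq.symm

/-- Chains of subspaces with prescribed dimensions from a one-step extension property. -/
theorem exists_chain (P : Submodule F V → Prop) (m : ℕ → ℕ) (k : ℕ)
    (h0 : ∃ W, P W ∧ finrank F W = m 0)
    (hstep : ∀ j, j < k → ∀ W, P W → finrank F W = m j →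
      ∃ W', P W' ∧ W ≤ W' ∧ finrank F W' = m (j + 1)) :
    ∃ W : ℕ → Submodule F V, (∀ j, j ≤ k → P (W j) ∧ finrank F (W j) = m j) ∧
      ∀ j, j < k → W j ≤ W (j + 1) := by
  induction k with
  | zero =>
    obtain ⟨W₀, h1, h2⟩ := h0
    refine ⟨fun _ => W₀, fun j hj => ?_, fun j hj => absurd hj (Nat.not_lt_zero j)⟩
    have : j = 0 := by omega
    subst this
    exact ⟨h1, h2⟩
  | succ k ih =>
    obtain ⟨W, hW, hmono⟩ := ih (fun j hj => hstep j (by omega))
    obtain ⟨W', h1, h2, h3⟩ := hstep k (by omega) (W k) (hW k le_rfl).1 (hW k le_rfl).2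
    obtain ⟨W'', hW1, hW2⟩ : ∃ W'' : ℕ → Submodule F V,
        (∀ j, j ≤ k → W'' j = W j) ∧ W'' (k + 1) = W' :=
      ⟨fun j => if j ≤ k then W j else W', fun j hj => if_pos hj, if_neg (by omega)⟩
    refine ⟨W'', fun j hj => ?_, fun j hj => ?_⟩
    · by_cases hjk : j ≤ k
      · rw [hW1 j hjk]
        exact hW j hjk
      · have : j = k + 1 := by omega
        subst this
        rw [hW2]
        exact ⟨h1, h3⟩
    · by_cases hjk : j < k
      · rw [hW1 j (by omega), hW1 (j + 1) (by omega)]
        exact hmono j hjk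
      · have : j = k := by omega
        subst this
        rw [hW1 j le_rfl, hW2]
        exact h2

/-- A chain of invariant subspaces of dimensions `0, a, 2a, …, ka` of a semisimple endomorphism
yields `k` invariant subspaces of dimension `a` spanning the top of the chain. -/
theorem exists_decomp_of_chain (T : Module.End F V) (hss : T.IsSemisimple) (a k : ℕ)
    (W : ℕ → Submodule F V)
    (hW : ∀ j, j ≤ k → (W j).map T ≤ W j ∧ finrank F (W j) = j * a)
    (hmono : ∀ j, j < k → W j ≤ W (j + 1)) :
    ∃ D : Fin k → Submodule F V, (∀ j, (D j).map T ≤ D j) ∧ (∀ j, finrank F (D j) = a) ∧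
      (∀ j, D j ≤ W k) ∧ W k ≤ ⨆ j, D j := by
  have hmono' : ∀ i j, i ≤ j → j ≤ k → W i ≤ W j := by
    intro i j hij
    induction j, hij using Nat.le_induction with
    | base => intro _; exact le_rfl
    | succ j hij ih =>
      intro hj
      exact le_trans (ih (by omega)) (hmono j (by omega))
  have hex : ∀ j : Fin k, ∃ X : Submodule F V, IsCompl (W j) X ∧ X.map T ≤ X := fun j =>
    exists_invariant_compl T hss (W j) (hW j (by omega)).1
  choose X hX using hex
  have hsup : ∀ j : Fin k, W (j + 1) = W j ⊔ X j ⊓ W (j + 1) := by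
    intro j
    rw [← sup_inf_assoc_of_le _ (hmono j j.2), (hX j).1.sup_eq_top, top_inf_eq]
  have hdisj : ∀ j : Fin k, W j ⊓ (X j ⊓ W (j + 1)) = ⊥ := by
    intro j
    apply le_antisymm _ bot_le
    rw [← (hX j).1.inf_eq_bot]
    exact inf_le_inf_left _ inf_le_left
  refine ⟨fun j => X j ⊓ W (j + 1), fun j => ?_, fun j => ?_, fun j => ?_, ?_⟩
  · intro v hv
    obtain ⟨w, hw, rfl⟩ := hv
    exact ⟨(hX j).2 ⟨w, hw.1, rfl⟩, (hW (j + 1) (by omega)).1 ⟨w, hw.2, rfl⟩⟩
  · show finrank F ↥(X j ⊓ W (j + 1)) = a
    have h1 := Submodule.finrank_sup_add_finrank_inf_eq (W j) (X j ⊓ W (j + 1))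
    rw [← hsup j, hdisj j, finrank_bot, (hW (j + 1) (by omega)).2, (hW j (by omega)).2] at h1
    have h2 : ((j : ℕ) + 1) * a = j * a + a := by ring
    omega
  · exact le_trans inf_le_right (hmono' _ _ (by omega) le_rfl)
  · have key : ∀ i, i ≤ k → W i ≤ ⨆ j : Fin k, X j ⊓ W (j + 1) := by
      intro i
      induction i with
      | zero =>
        intro _
        have h1 := (hW 0 (Nat.zero_le k)).2
        rw [zero_mul] at h1
        rw [Submodule.finrank_eq_zero.mp h1]
        exact bot_le
      | succ i ih =>
        intro hi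
        have h1 := hsup ⟨i, by omega⟩
        simp only at h1
        rw [h1]
        exact sup_le (ih (by omega)) (le_iSup (fun j : Fin k => X j ⊓ W (j + 1)) ⟨i, by omega⟩)
    exact key k le_rfl

end Ind

end Cfsg.Agent.Lib.Helper96.BG
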