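import Cfsg.Agent.Lib.Helper96.BGDecB

/-!
Decompositions permuted cyclically: the twisted case `T ^ r = z` (`z` not an `r`-th power) and
frames permuted by `T` when `T ^ r = 1` and `ord_r(q) = r - 1`.
-/

set_option autoImplicit false
set_option linter.unusedSectionVars false

namespace Cfsg.Agent.Lib.Helper96.BG

open Module

section DecC

variable {F : Type*} [Field F] [Fintype F] {V : Type*} [AddCommGroup V] [Module F V]
  [FiniteDimensional F V]

/-- The span of `v, T v, …, T ^ (r - 1) v` is invariant when `T ^ r` is scalar. -/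
theorem cyc_span_map_le (T : Module.End F V) (r : ℕ) (hr1 : 1 ≤ r) (z : F)
    (hT : T ^ r = z • (1 : Module.End F V)) (v : V) :
    (Submodule.span F (Set.range fun m : Fin r => (T ^ (m : ℕ)) v)).map T ≤
      Submodule.span F (Set.range fun m : Fin r => (T ^ (m : ℕ)) v) := by
  rw [Submodule.map_span, Submodule.span_le]
  rintro _ ⟨_, ⟨m, rfl⟩, rfl⟩
  have h0 : T ((T ^ (m : ℕ)) v) = (T ^ ((m : ℕ) + 1)) v := by
    rw [pow_succ']
    rfl
  show T ((T ^ (m : ℕ)) v) ∈ _
  rw [h0]
  by_cases hm : (m : ℕ) + 1 < r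
  · exact Submodule.subset_span ⟨⟨(m : ℕ) + 1, hm⟩, rfl⟩
  · have hm' : (m : ℕ) + 1 = r := by omega
    rw [hm', hT]
    show z • v ∈ _
    apply Submodule.smul_mem
    exact Submodule.subset_span ⟨⟨0, by omega⟩, by simp⟩

theorem cyc_span_mem (T : Module.End F V) (r : ℕ) (hr1 : 1 ≤ r) (v : V) :
    v ∈ Submodule.span F (Set.range fun m : Fin r => (T ^ (m : ℕ)) v) :=
  Submodule.subset_span ⟨⟨0, by omega⟩, by simp⟩

theorem map_pow_mod (T : Module.End F V) (r : ℕ) (z : F) (hz0 : z ≠ 0)
    (hT : T ^ r = z • (1 : Module.End F V)) (W : Submodule F V) (m : ℕ) :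
    W.map (T ^ m) = W.map (T ^ (m % r)) := by
  have h1 : T ^ m = (z ^ (m / r)) • T ^ (m % r) := by
    conv_lhs => rw [← Nat.div_add_mod m r, pow_add, pow_mul, hT]
    rw [smul_pow, one_pow, smul_mul_assoc, one_mul]
  rw [h1]
  exact Submodule.map_smul _ _ _ (pow_ne_zero _ hz0)

theorem finrank_span_singleton_le_one (v : V) : finrank F (Submodule.span F ({v} : Set V)) ≤ 1 := by
  classical
  have h := finrank_span_le_card (R := F) ({v} : Set V)
  simpa using h

/-- The twisted case: `T ^ r = z` with `z` not an `r`-th power.  Then `T` permutes the summands of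
a decomposition into `t` subspaces of dimension `a` whenever `dim V = t * a`. -/
theorem exists_decomp_twisted (T : Module.End F V) (r : ℕ) [Fact r.Prime] (hr0 : (r : F) ≠ 0)
    (z : F) (hz : ∀ b : F, b ^ r ≠ z) (hT : T ^ r = z • (1 : Module.End F V)) (a t : ℕ)
    (hV : finrank F V = t * a) :
    ∃ D' : Fin t → Submodule F V, (∀ j, finrank F (D' j) = a) ∧ iSupIndep D' ∧
      (⨆ j, D' j) = ⊤ ∧ ∃ σ : Equiv.Perm (Fin t), ∀ j, (D' j).map T = D' (σ j) := by
  classical
  have hrp : r.Prime := Fact.out
  have hz0 : z ≠ 0 := by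
    rintro rfl
    exact hz 0 (zero_pow hrp.ne_zero)
  have hss : T.IsSemisimple := isSemisimple_of_pow_eq_smul T r hr0 z hz0 hT
  have hinj : Function.Injective T := by
    rw [injective_iff_map_eq_zero]
    intro v hv
    have h1 : (T ^ r) v = z • v := by rw [hT]; rfl
    have h2 : (T ^ r) v = 0 := by
      obtain ⟨k, hk⟩ : ∃ k, r = k + 1 := ⟨r - 1, by have := hrp.one_le; omega⟩
      rw [hk, pow_succ]
      show (T ^ k) (T v) = 0
      rw [hv, map_zero]
    rw [h1] at h2
    rcases smul_eq_zero.mp h2 with h | h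
    · exact absurd h hz0
    · exact h
  have hbot : (⊥ : Submodule F V).map T ≤ ⊥ := by rw [Submodule.map_bot]
  have hdvd : r ∣ t * a := by
    have h1 := dvd_finrank_of_not_pow T r hrp z hz hT ⊤ le_top
    rwa [finrank_top, hV] at h1
  by_cases hra : r ∣ a
  · obtain ⟨a', rfl⟩ := hra
    obtain ⟨W, hW, hWmono⟩ := exists_chain (fun W : Submodule F V => W.map T ≤ W)
      (fun j => r * (j * a')) t ⟨⊥, hbot, by rw [finrank_bot]; simp⟩
      (fun j hj W hW hfin => by
        obtain ⟨W', h1, h2, h3⟩ := exists_inv_ge_cyclic T r hrp z hz hT W hW (j * a') hfin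
          ((j + 1) * a') (Nat.mul_le_mul_right a' (Nat.le_succ j))
          (by
            rw [hV]
            have h5 := Nat.mul_le_mul_right (r * a') (show j + 1 ≤ t from hj)
            have h6 : r * ((j + 1) * a') = (j + 1) * (r * a') := by ring
            omega)
        exact ⟨W', h1, h2, h3⟩)
    obtain ⟨D, hD1, hD2, hD3, hD4⟩ := exists_decomp_of_chain T hss (r * a') t W
      (fun j hj => ⟨(hW j hj).1, by rw [(hW j hj).2]; ring⟩) hWmono
    have htop : W t = ⊤ := by
      apply Submodule.eq_top_of_finrank_eq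
      rw [(hW t le_rfl).2, hV]
      ring
    exact decomposition_of_family T hinj D 1 (r * a') t (Fintype.card_fin t) hV
      (by rw [eq_top_iff, ← htop]; exact hD4) (fun k => (hD2 k).le) hD1
  · have hrt : r ∣ t := (hrp.dvd_mul.mp hdvd).resolve_right hra
    obtain ⟨t', rfl⟩ := hrt
    have hV' : finrank F V = r * (t' * a) := by rw [hV]; ring
    obtain ⟨W, hW, hWmono⟩ := exists_chain (fun W : Submodule F V => W.map T ≤ W)
      (fun j => r * j) (t' * a) ⟨⊥, hbot, by rw [finrank_bot]; simp⟩
      (fun j hj W hW hfin => by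
        obtain ⟨W', h1, h2, h3⟩ := exists_inv_ge_cyclic T r hrp z hz hT W hW j hfin
          (j + 1) (Nat.le_succ j)
          (by
            rw [hV']
            exact Nat.mul_le_mul_left r hj)
        exact ⟨W', h1, h2, h3⟩)
    obtain ⟨M, hM1, hM2, hM3, hM4⟩ := exists_decomp_of_chain T hss r (t' * a) W
      (fun j hj => ⟨(hW j hj).1, by rw [(hW j hj).2]; ring⟩) hWmono
    have htop : W (t' * a) = ⊤ := by
      apply Submodule.eq_top_of_finrank_eq
      rw [(hW (t' * a) le_rfl).2, hV']
    have hMne : ∀ i, ∃ v : V, v ∈ M i ∧ v ≠ 0 := by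
      intro i
      apply Submodule.exists_mem_ne_zero_of_ne_bot
      intro h
      have h1 := hM2 i
      rw [h, finrank_bot] at h1
      exact hrp.ne_zero h1.symm
    choose v hvM hv0 using hMne
    have : NeZero r := ⟨hrp.ne_zero⟩
    let Wg : Fin t' → Submodule F V := fun g =>
      Submodule.span F (Set.range fun i : Fin a => v (finProdFinEquiv (g, i)))
    let D : Fin t' × ZMod r → Submodule F V := fun k => (Wg k.1).map (T ^ k.2.val)
    have hval : ∀ j : ZMod r, (j + 1).val = (j.val + 1) % r := by
      intro j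
      rw [ZMod.val_add, ZMod.val_one_eq_one_mod, Nat.add_mod_mod]
    have hMpow : ∀ (i : Fin (t' * a)) (m : ℕ) (x : V), x ∈ M i → (T ^ m) x ∈ M i := by
      intro i m
      induction m with
      | zero => intro x hx; simpa using hx
      | succ m ih =>
        intro x hx
        rw [pow_succ']
        exact hM1 i ⟨_, ih x hx, rfl⟩
    refine decomposition_of_family T hinj D
      (Equiv.prodCongr (Equiv.refl _) (Equiv.addRight 1)) a (r * t')
      (by rw [Fintype.card_prod, Fintype.card_fin, ZMod.card, mul_comm]) hV ?_ ?_ ?_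
    · -- the family spans
      rw [eq_top_iff, ← htop]
      refine le_trans hM4 (iSup_le fun i => ?_)
      obtain ⟨⟨g, i'⟩, hgi⟩ := finProdFinEquiv.surjective i
      have hU : Submodule.span F (Set.range fun m : Fin r => (T ^ (m : ℕ)) (v i)) ≤
          ⨆ k, D k := by
        rw [Submodule.span_le]
        rintro _ ⟨m, rfl⟩
        apply Submodule.mem_iSup_of_mem ((g, ((m : ℕ) : ZMod r)) : Fin t' × ZMod r)
        show (T ^ (m : ℕ)) (v i) ∈ (Wg g).map (T ^ (((m : ℕ) : ZMod r)).val)
        rw [ZMod.val_natCast, Nat.mod_eq_of_lt m.2]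
        refine ⟨v i, Submodule.subset_span ⟨i', ?_⟩, rfl⟩
        show v (finProdFinEquiv (g, i')) = v i
        rw [hgi]
      have hUM : Submodule.span F (Set.range fun m : Fin r => (T ^ (m : ℕ)) (v i)) = M i := by
        apply Submodule.eq_of_le_of_finrank_le
        · rw [Submodule.span_le]
          rintro _ ⟨m, rfl⟩
          exact hMpow i m _ (hvM i)
        · rw [hM2 i]
          have h1 := dvd_finrank_of_not_pow T r hrp z hz hT _
            (cyc_span_map_le T r hrp.one_le z hT (v i))
          apply Nat.le_of_dvd _ h1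
          rw [Nat.pos_iff_ne_zero, Ne, Submodule.finrank_eq_zero]
          intro h
          have h3 := cyc_span_mem T r hrp.one_le (v i)
          rw [h, Submodule.mem_bot] at h3
          exact hv0 i h3
      rw [← hUM]
      exact hU
    · intro k
      show finrank F ((Wg k.1).map (T ^ k.2.val)) ≤ a
      refine le_trans (Submodule.finrank_map_le _ _) ?_
      have h1 := finrank_range_le_card (R := F) (fun i : Fin a => v (finProdFinEquiv (k.1, i)))
      rw [Fintype.card_fin] at h1
      exact h1
    · rintro ⟨g, j⟩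
      show ((Wg g).map (T ^ j.val)).map T ≤ (Wg g).map (T ^ (j + 1).val)
      have h1 : ((Wg g).map (T ^ j.val)).map T = (Wg g).map (T ^ (j.val + 1)) := by
        rw [← Submodule.map_comp, pow_succ']
        rfl
      rw [h1, map_pow_mod T r z hz0 hT (Wg g) (j.val + 1), hval]

end DecC

end Cfsg.Agent.Lib.Helper96.BG
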