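import Cfsg.Agent.Lib.Helper96.BGDecC

/-!
Frames permuted by `T` when `T ^ r = 1` and `ord_r(q) = r - 1`: each irreducible block is paired
with a fixed vector to form a copy of the regular representation.
-/

set_option autoImplicit false
set_option linter.unusedSectionVars false

namespace Cfsg.Agent.Lib.Helper96.BG

open Module

section DecD

variable {F : Type*} [Field F] [Fintype F] {V : Type*} [AddCommGroup V] [Module F V]
  [FiniteDimensional F V]

theorem exists_spanning_family (W : Submodule F V) (m : ℕ) (h : finrank F W = m) :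
    ∃ u : Fin m → V, (∀ i, u i ∈ W) ∧ W ≤ Submodule.span F (Set.range u) := by
  let b := Module.finBasisOfFinrankEq F W h
  refine ⟨fun i => (b i : V), fun i => (b i).2, ?_⟩
  intro x hx
  have h1 : (⟨x, hx⟩ : W) ∈ Submodule.span F (Set.range b) := by
    rw [b.span_eq]
    trivial
  have h2 := Submodule.apply_mem_span_image_of_mem_span W.subtype h1
  have h3 : (W.subtype '' Set.range b) = Set.range fun i => (b i : V) := by
    rw [← Set.range_comp]
    rfl
  rw [h3] at h2
  exact h2

/-- Frames: if `T ^ r = 1`, `ord_r(q) = r - 1`, and the number `s` of irreducible blocks is at most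
the dimension of the fixed space, then `T` permutes the lines of a frame. -/
theorem exists_frame_pow_one (T : Module.End F V) (r : ℕ) [Fact r.Prime]
    (hr : ¬ r ∣ Fintype.card F) (hr0 : (r : F) ≠ 0) (hT : T ^ r = 1)
    (hc : orderOf ((Fintype.card F : ℕ) : ZMod r) = r - 1) (s n : ℕ)
    (hR : finrank F (LinearMap.range (T - 1)) = (r - 1) * s)
    (hs : s ≤ finrank F (LinearMap.ker (T - 1))) (hV : finrank F V = n) :
    ∃ D' : Fin n → Submodule F V, (∀ j, finrank F (D' j) = 1) ∧ iSupIndep D' ∧
      (⨆ j, D' j) = ⊤ ∧ ∃ σ : Equiv.Perm (Fin n), ∀ j, (D' j).map T = D' (σ j) := by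
  classical
  have hrp : r.Prime := Fact.out
  obtain ⟨hi, hTq, hss, hdisj, hNinv, hCsub, hdiv, hdim, hrk⟩ := pow_one_setup T r hr hr0 hT
  rw [hc] at hi hTq hdiv
  obtain ⟨c, hcr⟩ : ∃ c, r = c + 1 := ⟨r - 1, by have := hrp.one_le; omega⟩
  have hc' : r - 1 = c := by omega
  rw [hc'] at hi hTq hdiv hR
  have hT1 : T ^ r = (1 : F) • (1 : Module.End F V) := by rw [one_smul]; exact hT
  have hinj : Function.Injective T := by
    intro x y hxy
    have h1 : ∀ x, (T ^ c) (T x) = x := by
      intro x
      have : (T ^ c) (T x) = (T ^ r) x := by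
        rw [hcr, pow_succ]
        rfl
      rw [this, hT]
      rfl
    rw [← h1 x, hxy, h1 y]
  have hbot : (⊥ : Submodule F V).map T ≤ ⊥ := by rw [Submodule.map_bot]
  have hfixpow : ∀ (m : ℕ) (x : V), x ∈ LinearMap.ker (T - 1) → (T ^ m) x = x := by
    intro m
    induction m with
    | zero => intro x _; simp
    | succ m ih =>
      intro x hx
      rw [pow_succ]
      show (T ^ m) (T x) = x
      have h1 := hx
      rw [LinearMap.mem_ker, LinearMap.sub_apply, sub_eq_zero] at h1
      rw [h1]
      exact ih x hx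
  have hinvpow : ∀ (Z : Submodule F V), Z.map T ≤ Z → ∀ (m : ℕ) (x : V), x ∈ Z →
      (T ^ m) x ∈ Z := by
    intro Z hZ m
    induction m with
    | zero => intro x hx; simpa using hx
    | succ m ih =>
      intro x hx
      rw [pow_succ']
      exact hZ ⟨_, ih x hx, rfl⟩
  -- the blocks of the range
  obtain ⟨R', hR', hR'mono⟩ := exists_chain
    (fun W : Submodule F V => W.map T ≤ W ∧ W ≤ LinearMap.range (T - 1))
    (fun j => c * j) s ⟨⊥, ⟨hbot, bot_le⟩, by rw [finrank_bot, mul_zero]⟩
    (fun j hj W hW hfin => by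
      obtain ⟨W', h1, h2, h3, h4⟩ := exists_inv_ge T c hi hTq hss (LinearMap.range (T - 1)) hNinv
        hdiv W hW.1 hW.2 j hfin (j + 1) (Nat.le_succ j)
        (by rw [hR]; exact Nat.mul_le_mul_left c hj)
      exact ⟨W', ⟨h1, h3⟩, h2, h4⟩)
  obtain ⟨M, hM1, hM2, hM3, hM4⟩ := exists_decomp_of_chain T hss c s R'
    (fun j hj => ⟨(hR' j hj).1.1, by rw [(hR' j hj).2]; ring⟩) hR'mono
  have hRs : R' s = LinearMap.range (T - 1) :=
    Submodule.eq_of_le_of_finrank_eq (hR' s le_rfl).1.2 (by rw [(hR' s le_rfl).2, hR])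
  have hMne : ∀ i, ∃ w : V, w ∈ M i ∧ w ≠ 0 := by
    intro i
    apply Submodule.exists_mem_ne_zero_of_ne_bot
    intro h
    have h1 := hM2 i
    rw [h, finrank_bot] at h1
    omega
  choose w hwM hw0 using hMne
  have hwR : ∀ i, w i ∈ LinearMap.range (T - 1) := fun i => by
    rw [← hRs]
    exact hM3 i (hwM i)
  -- the fixed space
  obtain ⟨C₁, -, hC₁, hC₁d⟩ := exists_sub_ge (LinearMap.ker (T - 1)) ⊥ bot_le 0
    (finrank_bot F V) s (Nat.zero_le _) hs
  obtain ⟨X, hX⟩ := Submodule.exists_isCompl C₁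
  have hC12 : C₁ ⊔ X ⊓ LinearMap.ker (T - 1) = LinearMap.ker (T - 1) := by
    rw [← sup_inf_assoc_of_le _ hC₁, hX.sup_eq_top, top_inf_eq]
  have hC₂d : finrank F ↥(X ⊓ LinearMap.ker (T - 1)) = finrank F (LinearMap.ker (T - 1)) - s := by
    have h1 := Submodule.finrank_sup_add_finrank_inf_eq C₁ (X ⊓ LinearMap.ker (T - 1))
    have h2 : C₁ ⊓ (X ⊓ LinearMap.ker (T - 1)) = ⊥ := by
      apply le_antisymm _ bot_le
      rw [← hX.inf_eq_bot]
      exact inf_le_inf_left _ inf_le_left
    rw [hC12, h2, finrank_bot, hC₁d] at h1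
    omega
  obtain ⟨u, hu1, hu2⟩ := exists_spanning_family C₁ s hC₁d
  obtain ⟨u', hu'1, hu'2⟩ := exists_spanning_family (X ⊓ LinearMap.ker (T - 1)) _ hC₂d
  have : NeZero r := ⟨hrp.ne_zero⟩
  let D : (Fin s × ZMod r) ⊕ Fin (finrank F (LinearMap.ker (T - 1)) - s) → Submodule F V :=
    Sum.elim (fun k => Submodule.span F {(T ^ k.2.val) (w k.1 + u k.1)})
      (fun i => Submodule.span F {u' i})
  have hval : ∀ j : ZMod r, (j + 1).val = (j.val + 1) % r := by
    intro j
    rw [ZMod.val_add, ZMod.val_one_eq_one_mod, Nat.add_mod_mod]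
  refine decomposition_of_family T hinj D
    (Equiv.sumCongr (Equiv.prodCongr (Equiv.refl _) (Equiv.addRight 1)) (Equiv.refl _)) 1 n
    ?_ (by rw [hV, mul_one]) ?_ ?_ ?_
  · rw [Fintype.card_sum, Fintype.card_prod, Fintype.card_fin, Fintype.card_fin, ZMod.card,
      ← hV, ← hrk, hR, hcr]
    have h1 : s * (c + 1) = c * s + s := by ring
    omega
  · -- the family spans
    have hy : ∀ i m, (T ^ m) (w i + u i) ∈ ⨆ k, D k := by
      intro i m
      rw [pow_eq_pow_mod m hT]
      apply Submodule.mem_iSup_of_mem (Sum.inl (i, ((m : ℕ) : ZMod r)))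
      show (T ^ (m % r)) (w i + u i) ∈
        Submodule.span F {(T ^ (((m : ℕ) : ZMod r)).val) (w i + u i)}
      rw [ZMod.val_natCast]
      exact Submodule.mem_span_singleton_self _
    have hG : ∀ x : V, (∑ m ∈ Finset.range r, T ^ m) x ∈ LinearMap.ker (T - 1) := by
      intro x
      rw [LinearMap.mem_ker]
      have h1 : (T - 1) * (∑ m ∈ Finset.range r, T ^ m) = 0 := by
        rw [mul_geom_sum, hT, sub_self]
      have h2 := LinearMap.congr_fun h1 x
      exact h2
    have hGw : ∀ i, (∑ m ∈ Finset.range r, T ^ m) (w i) = 0 := by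
      intro i
      have h1 : (∑ m ∈ Finset.range r, T ^ m) (w i) ∈ LinearMap.range (T - 1) := by
        rw [LinearMap.sum_apply]
        exact Submodule.sum_mem _ (fun m _ => hinvpow _ hNinv m _ (hwR i))
      have h2 : (∑ m ∈ Finset.range r, T ^ m) (w i) ∈
          LinearMap.ker (T - 1) ⊓ LinearMap.range (T - 1) := ⟨hG _, h1⟩
      rw [hdisj, Submodule.mem_bot] at h2
      exact h2
    have hGu : ∀ i, (∑ m ∈ Finset.range r, T ^ m) (u i) = (r : F) • u i := by
      intro i
      rw [LinearMap.sum_apply, Finset.sum_congr rfl (fun m _ => hfixpow m _ (hC₁ (hu1 i))),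
        Finset.sum_const, Finset.card_range, Nat.cast_smul_eq_nsmul]
    have huS : ∀ i, u i ∈ ⨆ k, D k := by
      intro i
      have h1 : (∑ m ∈ Finset.range r, T ^ m) (w i + u i) ∈ ⨆ k, D k := by
        rw [LinearMap.sum_apply]
        exact Submodule.sum_mem _ (fun m _ => hy i m)
      rw [map_add, hGw, zero_add, hGu] at h1
      have h2 := Submodule.smul_mem _ ((r : F)⁻¹) h1
      rwa [smul_smul, inv_mul_cancel₀ hr0, one_smul] at h2
    have hwS : ∀ i m, (T ^ m) (w i) ∈ ⨆ k, D k := by
      intro i m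
      have h1 : (T ^ m) (w i) = (T ^ m) (w i + u i) - u i := by
        rw [map_add, hfixpow m _ (hC₁ (hu1 i)), add_sub_cancel_right]
      rw [h1]
      exact Submodule.sub_mem _ (hy i m) (huS i)
    have hMS : ∀ i, M i ≤ ⨆ k, D k := by
      intro i
      have hUM : Submodule.span F (Set.range fun m : Fin r => (T ^ (m : ℕ)) (w i)) = M i := by
        apply Submodule.eq_of_le_of_finrank_le
        · rw [Submodule.span_le]
          rintro _ ⟨m, rfl⟩
          exact hinvpow _ (hM1 i) m _ (hwM i)
        · rw [hM2 i]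
          have h1 := hdiv _ (by
            rw [Submodule.span_le]
            rintro _ ⟨m, rfl⟩
            exact hinvpow _ hNinv m _ (hwR i)) (cyc_span_map_le T r hrp.one_le 1 hT1 (w i))
          apply Nat.le_of_dvd _ h1
          rw [Nat.pos_iff_ne_zero, Ne, Submodule.finrank_eq_zero]
          intro h
          have h3 := cyc_span_mem T r hrp.one_le (w i)
          rw [h, Submodule.mem_bot] at h3
          exact hw0 i h3
      rw [← hUM, Submodule.span_le]
      rintro _ ⟨m, rfl⟩
      exact hwS i m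
    have hRS : LinearMap.range (T - 1) ≤ ⨆ k, D k := by
      rw [← hRs]
      exact le_trans hM4 (iSup_le hMS)
    have hCS : LinearMap.ker (T - 1) ≤ ⨆ k, D k := by
      refine le_trans hC12.symm.le (sup_le (le_trans hu2 ?_) (le_trans hu'2 ?_))
      · rw [Submodule.span_le]
        rintro _ ⟨i, rfl⟩
        exact huS i
      · rw [Submodule.span_le]
        rintro _ ⟨i, rfl⟩
        apply Submodule.mem_iSup_of_mem (Sum.inr i)
        exact Submodule.mem_span_singleton_self _
    have htop : LinearMap.ker (T - 1) ⊔ LinearMap.range (T - 1) = ⊤ := by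
      apply Submodule.eq_top_of_finrank_eq
      rw [hdim _ _ le_rfl le_rfl, hrk]
    rw [eq_top_iff, ← htop]
    exact sup_le hCS hRS
  · rintro (k | i)
    · exact finrank_span_singleton_le_one _
    · exact finrank_span_singleton_le_one _
  · rintro (⟨i, j⟩ | i)
    · show (Submodule.span F {(T ^ j.val) (w i + u i)}).map T ≤
        Submodule.span F {(T ^ (j + 1).val) (w i + u i)}
      rw [Submodule.map_span, Set.image_singleton]
      have h1 : T ((T ^ j.val) (w i + u i)) = (T ^ (j + 1).val) (w i + u i) := by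
        have h2 : T ((T ^ j.val) (w i + u i)) = (T ^ (j.val + 1)) (w i + u i) := by
          rw [pow_succ']
          rfl
        rw [h2, pow_eq_pow_mod (j.val + 1) hT, hval]
      rw [h1]
    · show (Submodule.span F {u' i}).map T ≤ Submodule.span F {u' i}
      rw [Submodule.map_span, Set.image_singleton]
      have h1 : T (u' i) = u' i := by
        have h2 : u' i ∈ LinearMap.ker (T - 1) := (hu'1 i).2
        rw [LinearMap.mem_ker, LinearMap.sub_apply, sub_eq_zero] at h2
        exact h2
      rw [h1]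

end DecD

end Cfsg.Agent.Lib.Helper96.BG
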