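import Cfsg.Agent.Lib.Helper96.BGDecD

/-!
Obstructions: what a decomposition permuted by `T` (`T ^ r = 1`) forces on the fixed space and on
the range of `T - 1`.
-/

set_option autoImplicit false
set_option linter.unusedSectionVars false

namespace Cfsg.Agent.Lib.Helper96.BG

open Module

section Comp

variable {F : Type*} [Field F] {V : Type*} [AddCommGroup V] [Module F V] [FiniteDimensional F V]

/-- Component maps of a direct sum decomposition. -/
theorem exists_components {ι : Type*} [Fintype ι] [DecidableEq ι] (D : ι → Submodule F V)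
    (hind : iSupIndep D) (htop : ⨆ i, D i = ⊤) :
    ∃ comp : ι → V →ₗ[F] V, (∀ l v, comp l v ∈ D l) ∧
      ∀ l l' v, v ∈ D l' → comp l v = if l = l' then v else 0 := by
  have hinj := (iSupIndep_iff_piSum_injective D).mp hind
  have hsurj : Function.Surjective (piSum D) := by
    rw [← LinearMap.range_eq_top, range_piSum, htop]
  let E := LinearEquiv.ofBijective (piSum D) ⟨hinj, hsurj⟩
  refine ⟨fun l => (D l).subtype ∘ₗ LinearMap.proj l ∘ₗ E.symm.toLinearMap,
    fun l v => Submodule.coe_mem _, ?_⟩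
  intro l l' v hv
  have h1 : E.symm v = Pi.single l' ⟨v, hv⟩ := by
    rw [LinearEquiv.symm_apply_eq]
    show v = piSum D (Pi.single l' ⟨v, hv⟩)
    rw [piSum_apply, Finset.sum_eq_single l']
    · simp
    · intro j _ hj
      simp [hj]
    · intro h
      exact absurd (Finset.mem_univ _) h
  show ((E.symm v) l : V) = _
  rw [h1]
  by_cases hl : l = l'
  · subst hl
    simp
  · simp [hl]

end Comp

section Orbit

variable {F : Type*} [Field F] {V : Type*} [AddCommGroup V] [Module F V] [FiniteDimensional F V]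

/-- Basic facts on the permutation induced on the summands of a decomposition. -/
theorem perm_facts {t : ℕ} (T : Module.End F V) (r : ℕ) (hrp : r.Prime) (hT : T ^ r = 1)
    (D : Fin t → Submodule F V) (a : ℕ) (ha : 1 ≤ a) (hfin : ∀ j, finrank F (D j) = a)
    (hind : iSupIndep D) (σ : Equiv.Perm (Fin t)) (hσ : ∀ j, (D j).map T = D (σ j)) :
    (∀ (m : ℕ) (j : Fin t), (D j).map (T ^ m) = D ((σ ^ m) j)) ∧ σ ^ r = 1 ∧
    (∀ j, σ j ≠ j → ∀ m, 0 < m → m < r → (σ ^ m) j ≠ j) ∧
    (∀ j, σ j ≠ j → ∀ m₁ m₂, m₁ < r → m₂ < r → (σ ^ m₁) j = (σ ^ m₂) j → m₁ = m₂) := by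
  have hDinj : Function.Injective D := by
    apply hind.injective
    intro i h
    have h1 := hfin i
    rw [h, finrank_bot] at h1
    omega
  have hpow : ∀ (m : ℕ) (j : Fin t), (D j).map (T ^ m) = D ((σ ^ m) j) := by
    intro m
    induction m with
    | zero =>
      intro j
      rw [pow_zero, pow_zero]
      exact Submodule.map_id _
    | succ m ih =>
      intro j
      rw [pow_succ', pow_succ', Module.End.mul_eq_comp, Submodule.map_comp, ih, hσ]
      rfl
  have hσr : σ ^ r = 1 := by
    ext j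
    have h1 := hpow r j
    rw [hT] at h1
    have h2 : (D j).map (1 : Module.End F V) = D j := Submodule.map_id _
    rw [h2] at h1
    rw [← hDinj h1]
    rfl
  have hmoved : ∀ j, σ j ≠ j → ∀ m, 0 < m → m < r → (σ ^ m) j ≠ j := by
    intro j hj m hm0 hmr hfix
    have hcop : Nat.Coprime m r := by
      rw [Nat.coprime_comm]
      exact (Nat.Prime.coprime_iff_not_dvd hrp).mpr (fun h => by
        have := Nat.le_of_dvd hm0 h
        omega)
    obtain ⟨m', -, hm'⟩ := Nat.exists_mul_mod_eq_one_of_coprime hcop hrp.one_lt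
    have h1 : ∀ k : ℕ, ((σ ^ m) ^ k) j = j := by
      intro k
      induction k with
      | zero => simp
      | succ k ih =>
        rw [pow_succ]
        show ((σ ^ m) ^ k) ((σ ^ m) j) = j
        rw [hfix, ih]
    have h2 := h1 m'
    rw [← pow_mul, pow_eq_pow_mod (m * m') hσr, hm', pow_one] at h2
    exact hj h2
  refine ⟨hpow, hσr, hmoved, ?_⟩
  intro j hj
  have key : ∀ m₁ m₂, m₁ ≤ m₂ → m₂ < r → (σ ^ m₁) j = (σ ^ m₂) j → m₁ = m₂ := by
    intro m₁ m₂ hle hm₂ heq
    by_contra hne
    have h1 : (σ ^ (m₂ - m₁)) j = j := by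
      have h2 : σ ^ m₂ = σ ^ m₁ * σ ^ (m₂ - m₁) := by
        rw [← pow_add]
        congr 1
        omega
      rw [h2] at heq
      have h3 : (σ ^ m₁) j = (σ ^ m₁) ((σ ^ (m₂ - m₁)) j) := heq
      exact ((σ ^ m₁).injective h3).symm
    exact hmoved j hj (m₂ - m₁) (by omega) (by omega) h1
  intro m₁ m₂ h1 h2 heq
  rcases le_total m₁ m₂ with h | h
  · exact key m₁ m₂ h h2 heq
  · exact (key m₂ m₁ h h1 heq.symm).symm

end Orbit

end Cfsg.Agent.Lib.Helper96.BG
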