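import Cfsg.Agent.Lib.Helper96.BGDecE

/-!
Obstructions (continued): three consequences of `T` permuting the summands of a decomposition.
-/

set_option autoImplicit false
set_option linter.unusedSectionVars false

namespace Cfsg.Agent.Lib.Helper96.BG

open Module

section Obst

variable {F : Type*} [Field F] [Fintype F] {V : Type*} [AddCommGroup V] [Module F V]
  [FiniteDimensional F V]

theorem geom_mem_ker (T : Module.End F V) (r : ℕ) (hT : T ^ r = 1) (x : V) :
    (∑ m ∈ Finset.range r, T ^ m) x ∈ LinearMap.ker (T - 1) := by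
  rw [LinearMap.mem_ker]
  have h1 : (T - 1) * (∑ m ∈ Finset.range r, T ^ m) = 0 := by
    rw [mul_geom_sum, hT, sub_self]
  exact LinearMap.congr_fun h1 x

theorem comp_geom_moved {t : ℕ} (T : Module.End F V) (r : ℕ) (hrp : r.Prime) (hT : T ^ r = 1)
    (D : Fin t → Submodule F V) (a : ℕ) (ha : 1 ≤ a) (hfin : ∀ j, finrank F (D j) = a)
    (hind : iSupIndep D) (σ : Equiv.Perm (Fin t)) (hσ : ∀ j, (D j).map T = D (σ j))
    (comp : Fin t → V →ₗ[F] V)
    (hcomp : ∀ l l' v, v ∈ D l' → comp l v = if l = l' then v else 0)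
    (j : Fin t) (hj : σ j ≠ j) (v : V) (hv : v ∈ D j) :
    comp j ((∑ m ∈ Finset.range r, T ^ m) v) = v := by
  obtain ⟨hpow, hσr, hmoved, -⟩ := perm_facts T r hrp hT D a ha hfin hind σ hσ
  rw [LinearMap.sum_apply, map_sum, Finset.sum_eq_single 0]
  · rw [pow_zero]
    show comp j v = v
    rw [hcomp j j v hv, if_pos rfl]
  · intro m hm hm0
    have h1 : (T ^ m) v ∈ D ((σ ^ m) j) := by
      rw [← hpow m j]
      exact ⟨v, hv, rfl⟩
    rw [hcomp j _ _ h1, if_neg]
    intro h
    exact hmoved j hj m (Nat.pos_of_ne_zero hm0) (Finset.mem_range.mp hm) h.symm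
  · intro h
    exact absurd (Finset.mem_range.mpr hrp.pos) h

/-- If the fixed space of `T` is smaller than the summands, all summands are invariant and the
fixed space has dimension at least `t * (a mod c)`. -/
theorem fixed_ge_of_decomp {t : ℕ} (T : Module.End F V) (r : ℕ) [Fact r.Prime]
    (hr : ¬ r ∣ Fintype.card F) (hT : T ^ r = 1)
    (D : Fin t → Submodule F V) (a : ℕ) (ha : 1 ≤ a) (hfin : ∀ j, finrank F (D j) = a)
    (hind : iSupIndep D) (htop : ⨆ j, D j = ⊤) (σ : Equiv.Perm (Fin t))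
    (hσ : ∀ j, (D j).map T = D (σ j)) (hk : finrank F (LinearMap.ker (T - 1)) < a) :
    t * (a % orderOf ((Fintype.card F : ℕ) : ZMod r)) ≤ finrank F (LinearMap.ker (T - 1)) := by
  classical
  have hrp : r.Prime := Fact.out
  obtain ⟨comp, hcomp1, hcomp⟩ := exists_components D hind htop
  have hfix : ∀ j, σ j = j := by
    intro j
    by_contra hj
    let f : D j →ₗ[F] LinearMap.ker (T - 1) :=
      LinearMap.codRestrict (LinearMap.ker (T - 1))
        ((∑ m ∈ Finset.range r, T ^ m).comp (D j).subtype) (fun x => geom_mem_ker T r hT _)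
    have hf : Function.Injective f := by
      intro x y hxy
      have h1 : (∑ m ∈ Finset.range r, T ^ m) (x : V) = (∑ m ∈ Finset.range r, T ^ m) (y : V) :=
        congrArg Subtype.val hxy
      have h2 := congrArg (comp j) h1
      rw [comp_geom_moved T r hrp hT D a ha hfin hind σ hσ comp hcomp j hj _ x.2,
        comp_geom_moved T r hrp hT D a ha hfin hind σ hσ comp hcomp j hj _ y.2] at h2
      exact Subtype.ext h2
    have h3 := LinearMap.finrank_le_finrank_of_injective hf
    rw [hfin j] at h3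
    omega
  have hinv : ∀ j, (D j).map T ≤ D j := by
    intro j
    rw [hσ j, hfix j]
  have hge : ∀ j, a % orderOf ((Fintype.card F : ℕ) : ZMod r) ≤
      finrank F ↥(D j ⊓ LinearMap.ker (T - 1)) := by
    intro j
    have h1 := orderOf_dvd_sub T r hr hT (D j) (hinv j)
    have hx : finrank F ↥(D j ⊓ LinearMap.ker (T - 1)) ≤ finrank F (D j) :=
      Submodule.finrank_mono inf_le_left
    have h2 := (Nat.modEq_iff_dvd' hx).mpr h1
    rw [hfin j] at h2
    have h3 : finrank F ↥(D j ⊓ LinearMap.ker (T - 1)) %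
        orderOf ((Fintype.card F : ℕ) : ZMod r) = a % orderOf ((Fintype.card F : ℕ) : ZMod r) :=
      h2
    rw [← h3]
    exact Nat.mod_le _ _
  have hind' : iSupIndep (fun j => D j ⊓ LinearMap.ker (T - 1)) :=
    hind.mono (fun j => inf_le_left)
  have h4 := finrank_iSup_of_iSupIndep _ hind'
  have h5 : (⨆ j, D j ⊓ LinearMap.ker (T - 1)) ≤ LinearMap.ker (T - 1) :=
    iSup_le (fun j => inf_le_right)
  have h6 := Submodule.finrank_mono h5
  have h7 : ∑ _j : Fin t, a % orderOf ((Fintype.card F : ℕ) : ZMod r) ≤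
      ∑ j : Fin t, finrank F ↥(D j ⊓ LinearMap.ker (T - 1)) :=
    Finset.sum_le_sum (fun j _ => hge j)
  rw [Finset.sum_const, Finset.card_univ, Fintype.card_fin, smul_eq_mul] at h7
  omega

/-- If `T ≠ 1` has `rank (T - 1) ≤ c` and the summands have dimension `a < c`, then `a = 1` and
`c = r - 1`. -/
theorem one_block_of_decomp {t : ℕ} (T : Module.End F V) (r : ℕ) [Fact r.Prime]
    (hr : ¬ r ∣ Fintype.card F) (hT : T ^ r = 1) (hT1 : T ≠ 1)
    (D : Fin t → Submodule F V) (a : ℕ) (ha : 1 ≤ a) (hfin : ∀ j, finrank F (D j) = a)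
    (hind : iSupIndep D) (htop : ⨆ j, D j = ⊤) (σ : Equiv.Perm (Fin t))
    (hσ : ∀ j, (D j).map T = D (σ j))
    (hca : a < orderOf ((Fintype.card F : ℕ) : ZMod r))
    (hR : finrank F (LinearMap.range (T - 1)) ≤ orderOf ((Fintype.card F : ℕ) : ZMod r)) :
    a = 1 ∧ orderOf ((Fintype.card F : ℕ) : ZMod r) = r - 1 := by
  classical
  have hrp : r.Prime := Fact.out
  obtain ⟨comp, hcomp1, hcomp⟩ := exists_components D hind htop
  obtain ⟨hpow, hσr, hmoved, hinjorb⟩ := perm_facts T r hrp hT D a ha hfin hind σ hσ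
  have hq0 : ((Fintype.card F : ℕ) : ZMod r) ≠ 0 := by
    rw [Ne, ZMod.natCast_eq_zero_iff]
    exact hr
  have hcdvd := ZMod.orderOf_dvd_card_sub_one hq0
  -- a summand outside the fixed space
  obtain ⟨j, hjC⟩ : ∃ j, ¬ D j ≤ LinearMap.ker (T - 1) := by
    by_contra hcon
    push Not at hcon
    apply hT1
    have h1 : (⊤ : Submodule F V) ≤ LinearMap.ker (T - 1) := by
      rw [← htop]
      exact iSup_le hcon
    ext x
    have h2 := h1 (Submodule.mem_top : x ∈ ⊤)
    rw [LinearMap.mem_ker, LinearMap.sub_apply, sub_eq_zero] at h2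
    exact h2
  have hj : σ j ≠ j := by
    intro hfixj
    have hinv : (D j).map T ≤ D j := by rw [hσ j, hfixj]
    have h1 := orderOf_dvd_sub T r hr hT (D j) hinv
    have hx : finrank F ↥(D j ⊓ LinearMap.ker (T - 1)) ≤ finrank F (D j) :=
      Submodule.finrank_mono inf_le_left
    have h2 : finrank F (D j) - finrank F ↥(D j ⊓ LinearMap.ker (T - 1)) = 0 := by
      apply Nat.eq_zero_of_dvd_of_lt h1
      rw [hfin j]
      omega
    have h3 : D j ⊓ LinearMap.ker (T - 1) = D j :=
      Submodule.eq_of_le_of_finrank_eq inf_le_left (by omega)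
    apply hjC
    rw [← h3]
    exact inf_le_right
  have hTinj : ∀ (m : ℕ) (x : V), (T ^ m) x = 0 → x = 0 := by
    have h1 : ∀ x : V, T x = 0 → x = 0 := by
      intro x hx
      have h2 : (T ^ r) x = 0 := by
        obtain ⟨k, hk⟩ : ∃ k, r = k + 1 := ⟨r - 1, by have := hrp.one_le; omega⟩
        rw [hk, pow_succ]
        show (T ^ k) (T x) = 0
        rw [hx, map_zero]
      rw [hT] at h2
      exact h2
    intro m
    induction m with
    | zero => intro x hx; simpa using hx
    | succ m ih =>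
      intro x hx
      rw [pow_succ'] at hx
      exact ih x (h1 _ hx)
  let Ψ : (Fin (r - 1) → D j) →ₗ[F] V :=
    ∑ i : Fin (r - 1), (T ^ ((i : ℕ) + 1) - 1) ∘ₗ (D j).subtype ∘ₗ LinearMap.proj i
  have hΨ : ∀ w, Ψ w = ∑ i : Fin (r - 1), ((T ^ ((i : ℕ) + 1)) (w i : V) - (w i : V)) := by
    intro w
    simp [Ψ]
  have hΨrange : LinearMap.range Ψ ≤ LinearMap.range (T - 1) := by
    rintro _ ⟨w, rfl⟩
    rw [hΨ]
    refine Submodule.sum_mem _ (fun i _ => ?_)
    refine ⟨(∑ m ∈ Finset.range ((i : ℕ) + 1), T ^ m) (w i : V), ?_⟩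
    have h1 : (T - 1) * (∑ m ∈ Finset.range ((i : ℕ) + 1), T ^ m) = T ^ ((i : ℕ) + 1) - 1 :=
      mul_geom_sum T _
    have h2 := LinearMap.congr_fun h1 (w i : V)
    exact h2
  have hΨinj : Function.Injective Ψ := by
    rw [injective_iff_map_eq_zero]
    intro w hw
    rw [hΨ] at hw
    funext i₀
    apply Subtype.ext
    apply hTinj ((i₀ : ℕ) + 1)
    have h1 := congrArg (comp ((σ ^ ((i₀ : ℕ) + 1)) j)) hw
    rw [map_sum, map_zero, Finset.sum_eq_single i₀] at h1
    · rw [map_sub] at h1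
      have h2 : (T ^ ((i₀ : ℕ) + 1)) (w i₀ : V) ∈ D ((σ ^ ((i₀ : ℕ) + 1)) j) := by
        rw [← hpow]
        exact ⟨_, (w i₀).2, rfl⟩
      rw [hcomp _ _ _ h2, if_pos rfl, hcomp _ _ _ (w i₀).2, if_neg, sub_zero] at h1
      · exact h1
      · exact hmoved j hj _ (Nat.succ_pos _) (by have := i₀.2; omega)
    · intro i _ hi
      rw [map_sub]
      have h2 : (T ^ ((i : ℕ) + 1)) (w i : V) ∈ D ((σ ^ ((i : ℕ) + 1)) j) := by
        rw [← hpow]
        exact ⟨_, (w i).2, rfl⟩
      rw [hcomp _ _ _ h2, if_neg, hcomp _ _ _ (w i).2, if_neg, sub_zero]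
      · exact hmoved j hj _ (Nat.succ_pos _) (by have := i₀.2; omega)
      · intro h
        have h3 := hinjorb j hj _ _ (by have := i₀.2; omega) (by have := i.2; omega) h
        apply hi
        apply Fin.ext
        omega
    · intro h
      exact absurd (Finset.mem_univ _) h
  have h1 := LinearMap.finrank_range_of_inj hΨinj
  have h2 := Submodule.finrank_mono hΨrange
  rw [h1, Module.finrank_pi_fintype F] at h2
  simp only [hfin j, Finset.sum_const, Finset.card_univ, Fintype.card_fin, smul_eq_mul] at h2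
  have hr2 : 2 ≤ r := hrp.two_le
  have hcle : orderOf ((Fintype.card F : ℕ) : ZMod r) ≤ r - 1 := by
    exact Nat.le_of_dvd (by omega) hcdvd
  have h3 : (r - 1) * a ≤ r - 1 := by omega
  have ha1 : a = 1 := by
    by_contra hne
    have h4 : 2 ≤ a := by omega
    have h5 := Nat.mul_le_mul_left (r - 1) h4
    omega
  refine ⟨ha1, ?_⟩
  rw [ha1, mul_one] at h2
  omega

end Obst

end Cfsg.Agent.Lib.Helper96.BG
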