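import Cfsg.Agent.Lib.Helper96.BGDecF

/-!
Obstructions (continued): a frame permuted by `T` has at most `r * dim ker (T - 1)` lines.
-/

set_option autoImplicit false
set_option linter.unusedSectionVars false

namespace Cfsg.Agent.Lib.Helper96.BG

open Module

section Frame

variable {F : Type*} [Field F] [Fintype F] {V : Type*} [AddCommGroup V] [Module F V]
  [FiniteDimensional F V]

/-- If `T` (`T ^ r = 1`) permutes the lines of a frame and the order `c` of `q` mod `r` is at least
`2`, then the number of lines is at most `r * dim ker (T - 1)`. -/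
theorem frame_bound {t : ℕ} (T : Module.End F V) (r : ℕ) [Fact r.Prime]
    (hr : ¬ r ∣ Fintype.card F) (hr0 : (r : F) ≠ 0) (hT : T ^ r = 1)
    (D : Fin t → Submodule F V) (hfin : ∀ j, finrank F (D j) = 1)
    (hind : iSupIndep D) (htop : ⨆ j, D j = ⊤) (σ : Equiv.Perm (Fin t))
    (hσ : ∀ j, (D j).map T = D (σ j))
    (hc : 2 ≤ orderOf ((Fintype.card F : ℕ) : ZMod r)) :
    t ≤ r * finrank F (LinearMap.ker (T - 1)) := by
  classical
  have hrp : r.Prime := Fact.out
  obtain ⟨comp, hcomp1, hcomp⟩ := exists_components D hind htop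
  obtain ⟨hpow, hσr, hmoved, hinjorb⟩ := perm_facts T r hrp hT D 1 le_rfl hfin hind σ hσ
  -- nonzero vectors
  have hv : ∀ j, ∃ v : V, v ∈ D j ∧ v ≠ 0 := by
    intro j
    have h1 : D j ≠ ⊥ := by
      intro h
      have h2 := hfin j
      rw [h, finrank_bot] at h2
      omega
    obtain ⟨v, hv, hv0⟩ := (Submodule.ne_bot_iff _).mp h1
    exact ⟨v, hv, hv0⟩
  choose v hvD hv0 using hv
  -- key nonvanishing
  have hkey : ∀ j, comp j ((∑ m ∈ Finset.range r, T ^ m) (v j)) ≠ 0 := by
    intro j
    by_cases hj : σ j = j
    · have hinv : (D j).map T ≤ D j := by rw [hσ j, hj]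
      have h1 := orderOf_dvd_sub T r hr hT (D j) hinv
      have hx : finrank F ↥(D j ⊓ LinearMap.ker (T - 1)) ≤ finrank F (D j) :=
        Submodule.finrank_mono inf_le_left
      have h2 : finrank F (D j) - finrank F ↥(D j ⊓ LinearMap.ker (T - 1)) = 0 := by
        apply Nat.eq_zero_of_dvd_of_lt h1
        rw [hfin j]
        omega
      have h3 : D j ⊓ LinearMap.ker (T - 1) = D j :=
        Submodule.eq_of_le_of_finrank_eq inf_le_left (by omega)
      have h4 : v j ∈ LinearMap.ker (T - 1) := by
        have h : v j ∈ D j ⊓ LinearMap.ker (T - 1) := by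
          rw [h3]
          exact hvD j
        exact h.2
      have h5 : T (v j) = v j := by
        rw [LinearMap.mem_ker, LinearMap.sub_apply, sub_eq_zero] at h4
        exact h4
      have h6 : ∀ m : ℕ, (T ^ m) (v j) = v j := by
        intro m
        induction m with
        | zero => simp
        | succ m ih =>
          rw [pow_succ]
          show (T ^ m) (T (v j)) = v j
          rw [h5, ih]
      have h7 : (∑ m ∈ Finset.range r, T ^ m) (v j) = (r : F) • v j := by
        rw [LinearMap.sum_apply, Finset.sum_congr rfl (fun m _ => h6 m), Finset.sum_const,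
          Finset.card_range, Nat.cast_smul_eq_nsmul]
      rw [h7, map_smul, hcomp j j _ (hvD j), if_pos rfl]
      exact smul_ne_zero hr0 (hv0 j)
    · rw [comp_geom_moved T r hrp hT D 1 le_rfl hfin hind σ hσ comp hcomp j hj _ (hvD j)]
      exact hv0 j
  -- orbits
  let s : Setoid (Fin t) := Equiv.Perm.SameCycle.setoid σ
  have hrep : ∀ j : Fin t, ∃ m, m < r ∧ (σ ^ m) (Quotient.out (Quotient.mk s j)) = j := by
    intro j
    have h1 : σ.SameCycle (Quotient.out (Quotient.mk s j)) j := Quotient.mk_out (s := s) j
    obtain ⟨i, hi⟩ := h1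
    have hr0' : (0 : ℤ) < (r : ℤ) := by exact_mod_cast hrp.pos
    refine ⟨(i % (r : ℤ)).toNat, ?_, ?_⟩
    · have h2 := Int.emod_lt_of_pos i hr0'
      have h3 := Int.emod_nonneg i hr0'.ne'
      omega
    · have h3 := Int.emod_nonneg i hr0'.ne'
      have h4 : σ ^ (i % (r : ℤ)).toNat = σ ^ i := by
        rw [zpow_eq_zpow_emod' i hσr, ← zpow_natCast, Int.toNat_of_nonneg h3]
      rw [h4]
      exact hi
  -- counting
  have hcount : t ≤ Fintype.card (Quotient s) * r := by
    let f : Quotient s × Fin r → Fin t := fun x => (σ ^ (x.2 : ℕ)) (Quotient.out x.1)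
    have hf : Function.Surjective f := by
      intro j
      obtain ⟨m, hm, h⟩ := hrep j
      exact ⟨(Quotient.mk s j, ⟨m, hm⟩), h⟩
    have h1 := Fintype.card_le_of_surjective f hf
    rw [Fintype.card_prod, Fintype.card_fin, Fintype.card_fin] at h1
    exact h1
  -- independence
  have hli : LinearIndependent F (fun o : Quotient s =>
      (⟨(∑ m ∈ Finset.range r, T ^ m) (v (Quotient.out o)), geom_mem_ker T r hT _⟩ :
        LinearMap.ker (T - 1))) := by
    apply LinearIndependent.of_comp (LinearMap.ker (T - 1)).subtype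
    rw [Fintype.linearIndependent_iff]
    intro g hg o
    have h1 := congrArg (comp (Quotient.out o)) hg
    rw [map_sum, map_zero, Finset.sum_eq_single o] at h1
    · simp only [Function.comp_apply, Submodule.subtype_apply, map_smul] at h1
      rcases smul_eq_zero.mp h1 with h | h
      · exact h
      · exact absurd h (hkey _)
    · intro o' _ ho'
      simp only [Function.comp_apply, Submodule.subtype_apply, map_smul]
      rw [LinearMap.sum_apply, map_sum, Finset.sum_eq_zero, smul_zero]
      intro m hm
      have h2 : (T ^ m) (v (Quotient.out o')) ∈ D ((σ ^ m) (Quotient.out o')) := by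
        rw [← hpow]
        exact ⟨_, hvD _, rfl⟩
      rw [hcomp _ _ _ h2, if_neg]
      intro h3
      apply ho'
      have h4 : σ.SameCycle (Quotient.out o') (Quotient.out o) := ⟨(m : ℤ), by
        rw [zpow_natCast]
        exact h3.symm⟩
      have h5 : Quotient.mk s (Quotient.out o') = Quotient.mk s (Quotient.out o) :=
        Quotient.sound h4
      rw [Quotient.out_eq, Quotient.out_eq] at h5
      exact h5
    · intro h
      exact absurd (Finset.mem_univ _) h
  have h1 := hli.fintype_card_le_finrank
  calc t ≤ Fintype.card (Quotient s) * r := hcount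
    _ ≤ finrank F (LinearMap.ker (T - 1)) * r := Nat.mul_le_mul_right r h1
    _ = r * finrank F (LinearMap.ker (T - 1)) := Nat.mul_comm _ _

end Frame

end Cfsg.Agent.Lib.Helper96.BG
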