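import Cfsg.Agent.Lib.Helper96.BGDecG

/-!
An element of `SL_n` of order `r` with a single nontrivial block, and the count of ordered
decompositions (transitive action of the linear automorphisms, free action of the symmetric group).
-/

set_option autoImplicit false
set_option linter.unusedSectionVars false
set_option linter.unusedVariables false
set_option linter.style.haveILetI false
set_option warn.classDefReducibility false

namespace Cfsg.Agent.Lib.Helper96.BG

open Module

section OneBlock

variable {F : Type*} [Field F] [Fintype F]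

/-- An element of `SL_n` of order `r` with exactly one nontrivial irreducible block. -/
theorem exists_one_block_sl (p : ℕ) [Fact p.Prime] [CharP F p] (n r : ℕ) [Fact r.Prime]
    (hi2 : 2 ≤ orderOf ((Fintype.card F : ℕ) : ZMod r))
    (hin : orderOf ((Fintype.card F : ℕ) : ZMod r) ≤ n) :
    ∃ x : Matrix.SpecialLinearGroup (Fin n) F,
      ((x ^ r : Matrix.SpecialLinearGroup (Fin n) F) : Matrix (Fin n) (Fin n) F) = 1 ∧
      (∀ z : F, (x : Matrix (Fin n) (Fin n) F) ≠ z • (1 : Matrix (Fin n) (Fin n) F)) ∧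
      finrank F (LinearMap.range (Matrix.toLin' (x : Matrix (Fin n) (Fin n) F) - 1)) ≤
        orderOf ((Fintype.card F : ℕ) : ZMod r) := by
  classical
  have hr : r.Prime := Fact.out
  set i := orderOf ((Fintype.card F : ℕ) : ZMod r) with hi_def
  have hdvd : r ∣ Fintype.card F ^ i - 1 :=
    (dvd_pow_sub_one_iff _ r i Fintype.card_pos).mpr dvd_rfl
  have hr1 : ¬ r ∣ Fintype.card F - 1 := by
    intro h
    have h1 : r ∣ Fintype.card F ^ 1 - 1 := by rwa [pow_one]
    have h2 := (dvd_pow_sub_one_iff _ r 1 Fintype.card_pos).mp h1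
    have h3 := Nat.le_of_dvd one_pos h2
    omega
  have hcop : Nat.Coprime r (Fintype.card F - 1) := (Nat.Prime.coprime_iff_not_dvd hr).mpr hr1
  obtain ⟨A, hA, hA1⟩ := exists_block (F := F) p i (by omega) r hdvd
  have hdetA : A.det = 1 := by
    have h1 : A.det ^ r = 1 := by rw [← Matrix.det_pow, hA, Matrix.det_one]
    have h0 : A.det ≠ 0 := by
      intro h
      rw [h, zero_pow hr.ne_zero] at h1
      exact zero_ne_one h1
    have h2 : A.det ^ (Fintype.card F - 1) = 1 := FiniteField.pow_card_sub_one_eq_one _ h0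
    exact (pow_eq_one_iff_of_coprime hcop).mp ⟨h1, h2⟩
  have hcard : Fintype.card (Fin i ⊕ Fin (n - i)) = Fintype.card (Fin n) := by
    simp only [Fintype.card_sum, Fintype.card_fin]
    omega
  let e : Fin i ⊕ Fin (n - i) ≃ Fin n := Fintype.equivOfCardEq hcard
  let Y : Matrix (Fin i ⊕ Fin (n - i)) (Fin i ⊕ Fin (n - i)) F := Matrix.fromBlocks A 0 0 1
  have hYpow : Y ^ r = 1 := by
    change (Matrix.fromBlocks A 0 0 1) ^ r = 1
    rw [fromBlocks_pow', hA, Matrix.fromBlocks_one]
  have hYdet : Y.det = 1 := by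
    change (Matrix.fromBlocks A 0 0 1).det = 1
    rw [Matrix.det_fromBlocks_zero₂₁, Matrix.det_one, mul_one, hdetA]
  have hX : (Matrix.reindexAlgEquiv F F e Y) ^ r = 1 := by
    rw [← map_pow, hYpow, map_one]
  have hXdet : (Matrix.reindexAlgEquiv F F e Y).det = 1 := by
    rw [Matrix.det_reindexAlgEquiv, hYdet]
  have hA0 : A - 1 ≠ 0 := by
    intro h
    rw [h] at hA1
    have : NeZero i := ⟨by omega⟩
    exact not_isUnit_zero hA1
  have hY1 : Y - 1 = Matrix.fromRows (A - 1) (0 : Matrix (Fin (n - i)) (Fin i) F) *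
      Matrix.fromCols (1 : Matrix (Fin i) (Fin i) F) (0 : Matrix (Fin i) (Fin (n - i)) F) := by
    rw [Matrix.fromRows_mul_fromCols]
    change Matrix.fromBlocks A 0 0 1 - 1 = _
    rw [← Matrix.fromBlocks_one, sub_eq_add_neg, Matrix.fromBlocks_neg, Matrix.fromBlocks_add]
    simp [sub_eq_add_neg]
  have hXne : Matrix.reindexAlgEquiv F F e Y ≠ 1 := by
    intro h
    have h1 : Y = 1 := by
      have h2 : Matrix.reindexAlgEquiv F F e Y = Matrix.reindexAlgEquiv F F e 1 := by
        rw [h, map_one]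
      exact (Matrix.reindexAlgEquiv F F e).injective h2
    apply hA0
    have h3 : Matrix.fromBlocks A 0 0 (1 : Matrix (Fin (n - i)) (Fin (n - i)) F) =
        Matrix.fromBlocks 1 0 0 1 := by
      rw [Matrix.fromBlocks_one]
      exact h1
    rw [Matrix.fromBlocks_inj] at h3
    rw [h3.1, sub_self]
  refine ⟨(⟨Matrix.reindexAlgEquiv F F e Y, hXdet⟩ : Matrix.SpecialLinearGroup (Fin n) F),
    (Matrix.SpecialLinearGroup.coe_pow _ r).trans hX, ?_, ?_⟩
  · intro z hz
    change Matrix.reindexAlgEquiv F F e Y = z • (1 : Matrix (Fin n) (Fin n) F) at hz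
    have hn0 : 0 < n := by omega
    have hzr : z ^ r = 1 := by
      have h1 := hX
      rw [hz, smul_pow, one_pow] at h1
      have h2 := congrFun (congrFun h1 ⟨0, hn0⟩) ⟨0, hn0⟩
      simpa using h2
    have hz0 : z ≠ 0 := by
      rintro rfl
      rw [zero_pow hr.ne_zero] at hzr
      exact zero_ne_one hzr
    have hzq : z ^ (Fintype.card F - 1) = 1 := FiniteField.pow_card_sub_one_eq_one _ hz0
    have hz1 : z = 1 := (pow_eq_one_iff_of_coprime hcop).mp ⟨hzr, hzq⟩
    rw [hz1, one_smul] at hz
    exact hXne hz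
  · change finrank F (LinearMap.range (Matrix.toLin' (Matrix.reindexAlgEquiv F F e Y) - 1)) ≤ i
    have h1 : Matrix.toLin' (Matrix.reindexAlgEquiv F F e Y) - 1 =
        Matrix.toLin' (Matrix.reindexAlgEquiv F F e (Y - 1)) := by
      rw [map_sub, map_one, map_sub, Matrix.toLin'_one]
      rfl
    rw [h1]
    have h2 : finrank F (LinearMap.range (Matrix.toLin' (Matrix.reindexAlgEquiv F F e (Y - 1)))) =
        (Matrix.reindexAlgEquiv F F e (Y - 1)).rank := rfl
    rw [h2, Matrix.coe_reindexAlgEquiv, Matrix.rank_reindex, hY1]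
    refine le_trans (Matrix.rank_mul_le_left _ _) ?_
    have h3 := Matrix.rank_le_card_width (Matrix.fromRows (A - 1) (0 : Matrix (Fin (n - i)) (Fin i) F))
    rwa [Fintype.card_fin] at h3

end OneBlock

section Count

variable {F : Type*} [Field F] [Fintype F] {V : Type*} [AddCommGroup V] [Module F V]
  [FiniteDimensional F V]

omit [Fintype F] [FiniteDimensional F V] in
theorem injective_of_pow_eq_smul (T : Module.End F V) (r : ℕ) (hr1 : 1 ≤ r) (z : F) (hz0 : z ≠ 0)
    (hT : T ^ r = z • (1 : Module.End F V)) : Function.Injective T := by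
  rw [injective_iff_map_eq_zero]
  intro v hv
  have h1 : (T ^ r) v = z • v := by
    rw [hT]
    rfl
  obtain ⟨k, hk⟩ : ∃ k, r = k + 1 := ⟨r - 1, by omega⟩
  rw [hk, pow_succ] at h1
  have h2 : (T ^ k * T) v = (T ^ k) (T v) := rfl
  rw [h2, hv, map_zero] at h1
  rcases smul_eq_zero.mp h1.symm with h | h
  · exact absurd h hz0
  · exact h

/-- Ordered decompositions into `t` subspaces of dimension `a`. -/
def IsDec (a : ℕ) {t : ℕ} (D : Fin t → Submodule F V) : Prop :=
  (∀ j, finrank F (D j) = a) ∧ iSupIndep D ∧ (⨆ j, D j) = ⊤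

theorem isDec_comp {a t : ℕ} (D : Fin t → Submodule F V) (h : IsDec a D)
    (σ : Equiv.Perm (Fin t)) : IsDec a (fun j => D (σ j)) := by
  obtain ⟨h1, h2, h3⟩ := h
  refine ⟨fun j => h1 _, h2.comp σ.injective, ?_⟩
  rw [← h3]
  exact σ.iSup_comp (g := D)

theorem isDec_map {a t : ℕ} (D : Fin t → Submodule F V) (h : IsDec a D) (g : V ≃ₗ[F] V) :
    IsDec a (fun j => (D j).map (g : V →ₗ[F] V)) := by
  obtain ⟨h1, h2, h3⟩ := h
  have hfin : ∀ j, finrank F ((D j).map (g : V →ₗ[F] V)) = a := by
    intro j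
    rw [← h1 j]
    exact (LinearEquiv.finrank_eq (g.submoduleMap (D j))).symm
  have htop : (⨆ j, (D j).map (g : V →ₗ[F] V)) = ⊤ := by
    rw [← Submodule.map_iSup, h3, Submodule.map_top, LinearMap.range_eq_top]
    exact g.surjective
  refine ⟨hfin, ?_, htop⟩
  apply iSupIndep_of_finrank_eq
  rw [htop, finrank_top, Finset.sum_congr rfl (fun j _ => hfin j)]
  have h4 := finrank_iSup_of_iSupIndep D h2
  rw [h3, finrank_top, Finset.sum_congr rfl (fun j _ => h1 j)] at h4
  exact h4

/-- The action of the symmetric group on ordered decompositions. -/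
noncomputable def permAct (a t : ℕ) :
    MulAction (Equiv.Perm (Fin t)) {D : Fin t → Submodule F V // IsDec a D} where
  smul σ D := ⟨fun j => D.1 (σ.symm j), isDec_comp D.1 D.2 σ.symm⟩
  one_smul D := Subtype.ext rfl
  mul_smul σ τ D := Subtype.ext (funext fun j => rfl)

/-- The action of the linear automorphisms on ordered decompositions. -/
noncomputable def glAct (a t : ℕ) :
    MulAction (V ≃ₗ[F] V) {D : Fin t → Submodule F V // IsDec a D} where
  smul g D := ⟨fun j => (D.1 j).map (g : V →ₗ[F] V), isDec_map D.1 D.2 g⟩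
  one_smul D := Subtype.ext (funext fun j => Submodule.map_id _)
  mul_smul g h D := Subtype.ext (funext fun j => Submodule.map_comp _ _ _)

theorem factorial_dvd_card (a t : ℕ) (ha : 1 ≤ a) :
    t.factorial ∣ Nat.card {D : Fin t → Submodule F V // IsDec a D} := by
  classical
  letI := permAct (F := F) (V := V) a t
  have hfree : ∀ D : {D : Fin t → Submodule F V // IsDec a D},
      MulAction.stabilizer (Equiv.Perm (Fin t)) D = ⊥ := by
    intro D
    rw [eq_bot_iff]
    intro σ hσ
    rw [MulAction.mem_stabilizer_iff] at hσ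
    rw [Subgroup.mem_bot]
    have hinj : Function.Injective D.1 := by
      apply D.2.2.1.injective
      intro i h
      have h1 := D.2.1 i
      rw [h, finrank_bot] at h1
      omega
    have h1 : ∀ j, D.1 (σ.symm j) = D.1 j := fun j => congrFun (congrArg Subtype.val hσ) j
    ext j
    have h2 := hinj (h1 (σ j))
    rw [Equiv.symm_apply_apply] at h2
    rw [← h2]
    rfl
  have e := MulAction.selfEquivOrbitsQuotientProd hfree
  rw [Nat.card_congr e, Nat.card_prod, Nat.card_eq_fintype_card (α := Equiv.Perm (Fin t)),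
    Fintype.card_perm, Fintype.card_fin]
  exact dvd_mul_left _ _

theorem exists_equiv_map {a t : ℕ} (D D' : Fin t → Submodule F V) (h : IsDec a D)
    (h' : IsDec a D') : ∃ g : V ≃ₗ[F] V, ∀ j, (D j).map (g : V →ₗ[F] V) = D' j := by
  classical
  obtain ⟨h1, h2, h3⟩ := h
  obtain ⟨h1', h2', h3'⟩ := h'
  have hb : ∀ (D : Fin t → Submodule F V), iSupIndep D → (⨆ j, D j) = ⊤ →
      Function.Bijective (piSum D) := by
    intro D hi ht
    exact ⟨(iSupIndep_iff_piSum_injective D).mp hi,
      by rw [← LinearMap.range_eq_top, range_piSum, ht]⟩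
  let E := LinearEquiv.ofBijective (piSum D) (hb D h2 h3)
  let E' := LinearEquiv.ofBijective (piSum D') (hb D' h2' h3')
  let φ : ∀ j, D j ≃ₗ[F] D' j := fun j => LinearEquiv.ofFinrankEq _ _ (by rw [h1 j, h1' j])
  let g : V ≃ₗ[F] V := E.symm ≪≫ₗ (LinearEquiv.piCongrRight φ) ≪≫ₗ E'
  have hle : ∀ j, (D j).map (g : V →ₗ[F] V) ≤ D' j := by
    rintro j _ ⟨v, hv, rfl⟩
    have h4 : E.symm v = Pi.single j ⟨v, hv⟩ := by
      rw [LinearEquiv.symm_apply_eq]
      show v = piSum D (Pi.single j ⟨v, hv⟩)
      rw [piSum_apply, Finset.sum_eq_single j]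
      · simp
      · intro k _ hk
        simp [hk]
      · intro h
        exact absurd (Finset.mem_univ _) h
    have h5 : LinearEquiv.piCongrRight φ (Pi.single j ⟨v, hv⟩) = Pi.single j (φ j ⟨v, hv⟩) := by
      funext k
      rw [LinearEquiv.piCongrRight_apply]
      by_cases hk : k = j
      · subst hk
        simp
      · simp [hk]
    show g v ∈ D' j
    have h6 : g v = E' (LinearEquiv.piCongrRight φ (E.symm v)) := rfl
    rw [h6, h4, h5]
    show piSum D' _ ∈ _
    rw [piSum_apply, Finset.sum_eq_single j]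
    · simp
    · intro k _ hk
      simp [hk]
    · intro h
      exact absurd (Finset.mem_univ _) h
  refine ⟨g, fun j => ?_⟩
  apply Submodule.eq_of_le_of_finrank_eq (hle j)
  rw [h1' j, ← h1 j]
  exact (LinearEquiv.finrank_eq (g.submoduleMap (D j))).symm

theorem card_dvd_card_equiv (a t : ℕ) (D₀ : Fin t → Submodule F V) (h₀ : IsDec a D₀) :
    Nat.card {D : Fin t → Submodule F V // IsDec a D} ∣ Nat.card (V ≃ₗ[F] V) := by
  letI := glAct (F := F) (V := V) a t
  haveI : MulAction.IsPretransitive (V ≃ₗ[F] V) {D : Fin t → Submodule F V // IsDec a D} := ⟨by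
    intro D D'
    obtain ⟨g, hg⟩ := exists_equiv_map D.1 D'.1 D.2 D'.2
    exact ⟨g, Subtype.ext (funext hg)⟩⟩
  rw [← MulAction.index_stabilizer_of_transitive (V ≃ₗ[F] V)
    (⟨D₀, h₀⟩ : {D : Fin t → Submodule F V // IsDec a D})]
  exact Subgroup.index_dvd_card _

/-- A prime `r ≠ p` dividing the number of unordered decompositions has `ord_r(q) ≤ dim V`. -/
theorem order_le_of_dvd_count (p : ℕ) [Fact p.Prime] [CharP F p] (a t : ℕ) (ha : 1 ≤ a)
    (hV : finrank F V = t * a) (r : ℕ) [Fact r.Prime] (hrp : r ≠ p)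
    (hΩ : r ∣ Nat.card {D : Fin t → Submodule F V // IsDec a D} / Nat.factorial t) :
    orderOf ((Fintype.card F : ℕ) : ZMod r) ≤ finrank F V := by
  classical
  have hr : r.Prime := Fact.out
  obtain ⟨hrq, hr0, hi1⟩ := facts (F := F) p r hrp
  obtain ⟨D₀, h₀⟩ : ∃ D₀ : Fin t → Submodule F V, IsDec a D₀ := by
    have hker : LinearMap.ker ((1 : Module.End F V) - 1) = ⊤ := by
      rw [sub_self]
      exact LinearMap.ker_zero
    obtain ⟨D, -, hD2, hD3⟩ := exists_decomp_pow_one (1 : Module.End F V) r hrq hr0 (one_pow r)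
      a t hV (by
        rw [hker, finrank_top, hV]
        exact Nat.mul_le_mul_left t (Nat.mod_le _ _))
    refine ⟨D, hD2, ?_, hD3⟩
    apply iSupIndep_of_finrank_eq
    rw [hD3, finrank_top, hV, Finset.sum_congr rfl (fun j _ => hD2 j), Finset.sum_const,
      Finset.card_univ, Fintype.card_fin, smul_eq_mul]
  have h1 := factorial_dvd_card (F := F) (V := V) a t ha
  have h2 := card_dvd_card_equiv a t D₀ h₀
  have h3 : r ∣ Nat.card (V ≃ₗ[F] V) := dvd_trans hΩ (dvd_trans (Nat.div_dvd_of_dvd h1) h2)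
  haveI : Finite V := Module.finite_of_finite F
  haveI : Finite (V ≃ₗ[F] V) :=
    Finite.of_injective (fun g : V ≃ₗ[F] V => (g : V → V)) DFunLike.coe_injective
  obtain ⟨g, hg⟩ := exists_prime_orderOf_dvd_card' (G := V ≃ₗ[F] V) r h3
  have hgr : g ^ r = 1 := by
    rw [← hg]
    exact pow_orderOf_eq_one g
  have hpow : ∀ (k : ℕ) (x : V), ((g : V →ₗ[F] V) ^ k : Module.End F V) x = (g ^ k) x := by
    intro k
    induction k with
    | zero => intro x; rfl
    | succ k ih =>
      intro x
      rw [pow_succ, pow_succ]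
      show ((g : V →ₗ[F] V) ^ k : Module.End F V) (g x) = (g ^ k) (g x)
      exact ih (g x)
  have hT : ((g : V →ₗ[F] V) : Module.End F V) ^ r = 1 := by
    ext x
    rw [hpow, hgr]
    rfl
  have hT1 : ((g : V →ₗ[F] V) : Module.End F V) ≠ 1 := by
    intro h
    have hg1 : g = 1 := by
      ext x
      have := LinearMap.congr_fun h x
      exact this
    rw [hg1, orderOf_one] at hg
    exact hr.one_lt.ne hg
  have h4 := orderOf_dvd_sub ((g : V →ₗ[F] V) : Module.End F V) r hrq hT ⊤ le_top
  rw [top_inf_eq, finrank_top] at h4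
  have h5 : finrank F (LinearMap.ker (((g : V →ₗ[F] V) : Module.End F V) - 1)) < finrank F V := by
    apply Submodule.finrank_lt
    intro h
    apply hT1
    ext x
    have h6 : x ∈ LinearMap.ker (((g : V →ₗ[F] V) : Module.End F V) - 1) := by
      rw [h]
      trivial
    rw [LinearMap.mem_ker, LinearMap.sub_apply, sub_eq_zero] at h6
    exact h6
  have h7 := Nat.le_of_dvd (by omega) h4
  omega

end Count

end Cfsg.Agent.Lib.Helper96.BG
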