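import Cfsg.Agent.Lib.Helper96.BGLin

set_option autoImplicit false

namespace Cfsg.Agent.Lib.Helper96.BG

open Module

section Flag

variable {F : Type*} [Field F] [Fintype F]

/-- Subspaces of `V` inside `W` of dimension `m` are the `m`-subspaces of `W`. -/
noncomputable def subEquiv {V : Type*} [AddCommGroup V] [Module F V] [FiniteDimensional F V]
    (W : Submodule F V) (m : ℕ) :
    {U : Submodule F V // U ≤ W ∧ finrank F U = m} ≃ {U' : Submodule F W // finrank F U' = m} where
  toFun U := ⟨U.1.comap W.subtype, by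
    rw [LinearEquiv.finrank_eq (Submodule.comapSubtypeEquivOfLe U.2.1)]
    exact U.2.2⟩
  invFun U' := ⟨U'.1.map W.subtype, Submodule.map_subtype_le _ _, by
    rw [Submodule.finrank_map_subtype_eq]
    exact U'.2⟩
  left_inv U := by
    apply Subtype.ext
    change (U.1.comap W.subtype).map W.subtype = U.1
    rw [Submodule.map_comap_subtype]
    exact inf_eq_right.mpr U.2.1
  right_inv U' := by
    apply Subtype.ext
    change (U'.1.map W.subtype).comap W.subtype = U'.1
    exact Submodule.comap_map_eq_of_injective W.injective_subtype _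

/-- Flags `U ≤ W` fibre over `W`. -/
def flagEquiv {V : Type*} [AddCommGroup V] [Module F V] (m d : ℕ) :
    {P : Submodule F V × Submodule F V // P.1 ≤ P.2 ∧ finrank F P.1 = m ∧ finrank F P.2 = d} ≃
      Σ W : {W : Submodule F V // finrank F W = d}, {U : Submodule F V // U ≤ W.1 ∧ finrank F U = m} where
  toFun P := ⟨⟨P.1.2, P.2.2.2⟩, ⟨P.1.1, P.2.1, P.2.2.1⟩⟩
  invFun Q := ⟨⟨Q.2.1, Q.1.1⟩, Q.2.2.1, Q.2.2.2, Q.1.2⟩
  left_inv _ := rfl
  right_inv _ := rfl

/-- Flag count: `#Flags(m, d) · ∏_{s<m} (q^(s+1) - 1) = #Gr(d, V) · ∏_{d-m ≤ s < d} (q^(s+1) - 1)`. -/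
theorem card_flag_mul {V : Type*} [AddCommGroup V] [Module F V] [Finite V] (m d : ℕ)
    (hmd : m ≤ d) :
    Nat.card {P : Submodule F V × Submodule F V //
        P.1 ≤ P.2 ∧ finrank F P.1 = m ∧ finrank F P.2 = d} *
        ∏ s ∈ Finset.range m, (Fintype.card F ^ (s + 1) - 1)
      = Nat.card {W : Submodule F V // finrank F W = d} *
        ∏ s ∈ Finset.Ico (d - m) d, (Fintype.card F ^ (s + 1) - 1) := by
  classical
  have : Fintype V := Fintype.ofFinite V
  have : Module.Finite F V := Module.Finite.of_finite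
  have : Fintype {W : Submodule F V // finrank F W = d} := Fintype.ofFinite _
  rw [Nat.card_congr (flagEquiv m d), Nat.card_sigma, Finset.sum_mul]
  have h : ∀ W : {W : Submodule F V // finrank F W = d},
      Nat.card {U : Submodule F V // U ≤ W.1 ∧ finrank F U = m} *
        ∏ s ∈ Finset.range m, (Fintype.card F ^ (s + 1) - 1) =
      ∏ s ∈ Finset.Ico (d - m) d, (Fintype.card F ^ (s + 1) - 1) := by
    intro W
    rw [Nat.card_congr (subEquiv W.1 m)]
    have h1 := card_gr_mul' (F := F) (V := W.1) m (by rw [W.2]; exact hmd)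
    rw [W.2] at h1
    exact h1
  rw [Finset.sum_congr rfl (fun W _ => h W), Finset.sum_const, Finset.card_univ, smul_eq_mul,
    Nat.card_eq_fintype_card]

/-- A prime dividing the number of flags `(m, n - m)` divides some `q^(s+1) - 1` with
`n - 2m ≤ s < n`. -/
theorem exists_dvd_of_dvd_card_flag {V : Type*} [AddCommGroup V] [Module F V] [Finite V] (m : ℕ)
    (hm : 2 * m ≤ finrank F V) (r : ℕ) (hr : r.Prime)
    (h : r ∣ Nat.card {P : Submodule F V × Submodule F V //
        P.1 ≤ P.2 ∧ finrank F P.1 = m ∧ finrank F P.2 = finrank F V - m}) :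
    ∃ s, finrank F V - 2 * m ≤ s ∧ s < finrank F V ∧ r ∣ Fintype.card F ^ (s + 1) - 1 := by
  have h1 := card_flag_mul (F := F) (V := V) m (finrank F V - m) (by omega)
  have h2 : r ∣ Nat.card {W : Submodule F V // finrank F W = finrank F V - m} *
      ∏ s ∈ Finset.Ico (finrank F V - m - m) (finrank F V - m), (Fintype.card F ^ (s + 1) - 1) := by
    rw [← h1]
    exact Dvd.dvd.mul_right h _
  rcases (Nat.Prime.dvd_mul hr).mp h2 with h3 | h3
  · rw [card_gr_symm m (by omega)] at h3
    obtain ⟨s, hs1, hs2, hs3⟩ := exists_dvd_of_dvd_card_gr m (by omega) r hr h3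
    exact ⟨s, by omega, hs2, hs3⟩
  · obtain ⟨s, hs, hs2⟩ := (Nat.Prime.prime hr).exists_mem_finset_dvd h3
    have := Finset.mem_Ico.mp hs
    exact ⟨s, by omega, by omega, hs2⟩

/-- For `T ^ r = 1` there is an invariant flag of dimensions `(m, n - m)` whenever
`2 (m % i) ≤ n % i`. -/
theorem exists_invariant_flag_of_mod {V : Type*} [AddCommGroup V] [Module F V]
    [FiniteDimensional F V] (T : Module.End F V) (r : ℕ) [Fact r.Prime]
    (hr : ¬ r ∣ Fintype.card F) (hr0 : (r : F) ≠ 0) (hT : T ^ r = 1) (m : ℕ)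
    (hm : 2 * m ≤ finrank F V)
    (hmod : 2 * (m % orderOf ((Fintype.card F : ℕ) : ZMod r)) ≤
      finrank F V % orderOf ((Fintype.card F : ℕ) : ZMod r)) :
    ∃ U W : Submodule F V, U ≤ W ∧ finrank F U = m ∧ finrank F W = finrank F V - m ∧
      U.map T ≤ U ∧ W.map T ≤ W := by
  have hrk := LinearMap.finrank_range_add_finrank_ker (T - 1)
  obtain ⟨k, hk⟩ := orderOf_dvd_finrank_range T r hr hr0 hT
  have key := exists_invariant_flag T r hr hr0 hT
  have hi1 : 1 ≤ orderOf ((Fintype.card F : ℕ) : ZMod r) := by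
    have hq0 : ((Fintype.card F : ℕ) : ZMod r) ≠ 0 := by
      rw [Ne, ZMod.natCast_eq_zero_iff]
      exact hr
    have hu : IsUnit ((Fintype.card F : ℕ) : ZMod r) := isUnit_iff_ne_zero.mpr hq0
    exact hu.isOfFinOrder.orderOf_pos
  generalize orderOf ((Fintype.card F : ℕ) : ZMod r) = i at *
  have hnmod : finrank F V % i = finrank F (LinearMap.ker (T - 1)) % i := by
    rw [← hrk, hk, Nat.mul_add_mod]
  rw [hnmod] at hmod
  have hcm : finrank F (LinearMap.ker (T - 1)) % i ≤ finrank F (LinearMap.ker (T - 1)) :=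
    Nat.mod_le _ _
  have hmm := Nat.div_add_mod m i
  by_cases hcase : 2 * (m / i) ≤ k
  · have h1 : i * (m / i) ≤ i * (k - m / i) := Nat.mul_le_mul_left i (by omega)
    have h2 : i * (k - m / i) + i * (m / i) = i * k := by
      rw [← Nat.mul_add]
      congr 1
      omega
    obtain ⟨U, W, hUW, hUinv, hWinv, hUd, hWd⟩ := key (m % i)
      (finrank F (LinearMap.ker (T - 1)) - m % i) (m / i) (k - m / i) (by omega) (by omega)
      (by omega) (by rw [hk]; exact Nat.mul_le_mul_left _ (by omega))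
    exact ⟨U, W, hUW, by rw [hUd]; omega, by rw [hWd]; omega, hUinv, hWinv⟩
  · push Not at hcase
    obtain ⟨b, hb⟩ : ∃ b, b = m / i - (2 * (m / i) - k) / 2 := ⟨_, rfl⟩
    have hbk : b ≤ k := by omega
    have hbM : b ≤ m / i := by omega
    have hbk2 : k ≤ 2 * (m / i) - (m / i - b) := by omega
    have h1 : i * b ≤ i * (m / i) := Nat.mul_le_mul_left i hbM
    have h2 : i * b ≤ i * k := Nat.mul_le_mul_left i hbk
    have h3 : i * k ≤ i * (m / i + b) := Nat.mul_le_mul_left i (by omega)
    rw [Nat.mul_add] at h3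
    obtain ⟨U, W, hUW, hUinv, hWinv, hUd, hWd⟩ := key (m - i * b)
      (finrank F V - m - i * b) b b (by omega) le_rfl (by omega) (by rw [hk]; exact h2)
    exact ⟨U, W, hUW, by rw [hUd]; omega, by rw [hWd]; omega, hUinv, hWinv⟩

end Flag

end Cfsg.Agent.Lib.Helper96.BG
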