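import Mathlib

set_option autoImplicit false

namespace Cfsg.Agent.Lib.Helper96.BG

open Module

section Irr

universe u v

variable {F : Type u} [Field F]

/-- If `T ^ r = c` with `c` not an `r`-th power, invariant subspaces have dimension divisible
by `r`. -/
theorem dvd_finrank_of_not_pow {V : Type v} [AddCommGroup V] [Module F V] [FiniteDimensional F V]
    (T : Module.End F V) (r : ℕ) (hr : r.Prime) (c : F)
    (hc : ∀ b : F, b ^ r ≠ c) (hT : T ^ r = c • (1 : Module.End F V)) (W : Submodule F V)
    (hW : W.map T ≤ W) : r ∣ finrank F W := by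
  by_contra hnd
  have hcop : Nat.Coprime (finrank F W) r :=
    Nat.Coprime.symm ((Nat.Prime.coprime_iff_not_dvd hr).mpr hnd)
  have hW' : ∀ x ∈ W, T x ∈ W := fun x hx => hW (Submodule.mem_map_of_mem hx)
  have h1 : (T.restrict hW') ^ r = c • (1 : Module.End F W) := by
    rw [Module.End.pow_restrict]
    apply LinearMap.ext
    intro x
    apply Subtype.ext
    rw [LinearMap.restrict_apply]
    simp [hT]
  have h2 : (LinearMap.det (T.restrict hW')) ^ r = c ^ finrank F W := by
    rw [← map_pow, h1, LinearMap.det_smul, map_one, mul_one]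
  have hc0 : c ≠ 0 := by
    rintro rfl
    exact hc 0 (zero_pow hr.ne_zero)
  obtain ⟨s, -, hs⟩ := Nat.exists_mul_mod_eq_one_of_coprime hcop hr.one_lt
  obtain ⟨t, ht⟩ : ∃ t, finrank F W * s = r * t + 1 := ⟨finrank F W * s / r, by
    have := Nat.div_add_mod (finrank F W * s) r
    omega⟩
  apply hc ((LinearMap.det (T.restrict hW')) ^ s / c ^ t)
  rw [div_pow, ← pow_mul, mul_comm s r, pow_mul, h2, ← pow_mul, ht, ← pow_mul, pow_succ,
    mul_comm t r]
  field_simp

/-- Extension by a cyclic subspace. -/
theorem exists_extend_cyclic {V : Type v} [AddCommGroup V] [Module F V] [FiniteDimensional F V]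
    (T : Module.End F V) (r : ℕ) (hr : r.Prime) (c : F)
    (hc : ∀ b : F, b ^ r ≠ c) (hT : T ^ r = c • (1 : Module.End F V)) (W : Submodule F V)
    (hW : W.map T ≤ W) (hne : W ≠ ⊤) :
    ∃ W' : Submodule F V, W'.map T ≤ W' ∧ W ≤ W' ∧ finrank F W' = finrank F W + r := by
  classical
  obtain ⟨v, hv⟩ : ∃ v, v ∉ W := by
    by_contra hcon
    push Not at hcon
    exact hne (eq_top_iff.mpr fun x _ => hcon x)
  have hZinv : (Submodule.span F (Set.range fun j : Fin r => (T ^ (j : ℕ)) v)).map T ≤
      Submodule.span F (Set.range fun j : Fin r => (T ^ (j : ℕ)) v) := by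
    rw [Submodule.map_span, Submodule.span_le]
    rintro _ ⟨_, ⟨j, rfl⟩, rfl⟩
    by_cases hj : (j : ℕ) + 1 < r
    · apply Submodule.subset_span
      exact ⟨⟨j + 1, hj⟩, by simp [pow_succ']⟩
    · have hj' : (j : ℕ) + 1 = r := by have := j.2; omega
      have h1 : T ((T ^ (j : ℕ)) v) = c • v := by
        have h2 : T ((T ^ (j : ℕ)) v) = (T ^ ((j : ℕ) + 1)) v := by
          rw [pow_succ']
          rfl
        rw [h2, hj', hT]
        simp
      rw [h1]
      apply Submodule.smul_mem
      exact Submodule.subset_span ⟨⟨0, hr.pos⟩, by simp⟩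
  have hvZ : v ∈ Submodule.span F (Set.range fun j : Fin r => (T ^ (j : ℕ)) v) :=
    Submodule.subset_span ⟨⟨0, hr.pos⟩, by simp⟩
  have hinv : (W ⊔ Submodule.span F (Set.range fun j : Fin r => (T ^ (j : ℕ)) v)).map T ≤
      W ⊔ Submodule.span F (Set.range fun j : Fin r => (T ^ (j : ℕ)) v) := by
    rw [Submodule.map_sup]
    exact sup_le_sup hW hZinv
  have hlt : W < W ⊔ Submodule.span F (Set.range fun j : Fin r => (T ^ (j : ℕ)) v) := by
    apply lt_of_le_of_ne le_sup_left
    intro h
    apply hv
    rw [h]
    exact Submodule.mem_sup_right hvZ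
  have h1 := Submodule.finrank_lt_finrank_of_lt hlt
  have h2 : finrank F (W ⊔ Submodule.span F (Set.range fun j : Fin r => (T ^ (j : ℕ)) v) :
      Submodule F V) ≤ finrank F W + r := by
    refine (Submodule.finrank_add_le_finrank_add_finrank _ _).trans ?_
    have h3 : finrank F (Submodule.span F (Set.range fun j : Fin r => (T ^ (j : ℕ)) v)) ≤ r := by
      calc finrank F _ ≤ Fintype.card (Fin r) := finrank_range_le_card _
        _ = r := Fintype.card_fin _
    omega
  obtain ⟨t, ht⟩ := dvd_finrank_of_not_pow T r hr c hc hT W hW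
  obtain ⟨t', ht'⟩ := dvd_finrank_of_not_pow T r hr c hc hT _ hinv
  refine ⟨_, hinv, le_sup_left, ?_⟩
  rw [ht, ht'] at h1 h2
  rw [ht, ht']
  have h4 : t < t' := Nat.lt_of_mul_lt_mul_left h1
  have h5 : t' ≤ t + 1 := by
    have h6 : r * t' ≤ r * (t + 1) := by rw [Nat.mul_succ]; exact h2
    exact Nat.le_of_mul_le_mul_left h6 hr.pos
  have h6 : t' = t + 1 := by omega
  rw [h6, Nat.mul_succ]

/-- Chain of invariant subspaces of dimensions divisible by `r`. -/
theorem exists_inv_ge_cyclic {V : Type v} [AddCommGroup V] [Module F V] [FiniteDimensional F V]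
    (T : Module.End F V) (r : ℕ) (hr : r.Prime) (c : F)
    (hc : ∀ b : F, b ^ r ≠ c) (hT : T ^ r = c • (1 : Module.End F V)) (W : Submodule F V)
    (hW : W.map T ≤ W) (b : ℕ) (hWb : finrank F W = r * b) (b' : ℕ) (hbb : b ≤ b')
    (hb' : r * b' ≤ finrank F V) :
    ∃ W' : Submodule F V, W'.map T ≤ W' ∧ W ≤ W' ∧ finrank F W' = r * b' := by
  induction b', hbb using Nat.le_induction with
  | base => exact ⟨W, hW, le_rfl, hWb⟩
  | succ k hbk ih =>
    have hk : r * k ≤ finrank F V := by
      have : r * k ≤ r * (k + 1) := Nat.mul_le_mul_left r (by omega)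
      omega
    obtain ⟨W₁, hW₁, hWW₁, hW₁d⟩ := ih hk
    have hne : W₁ ≠ ⊤ := by
      rintro rfl
      rw [finrank_top] at hW₁d
      rw [hW₁d, Nat.mul_succ] at hb'
      have := hr.pos
      omega
    obtain ⟨W₂, hW₂, hW₁₂, hW₂d⟩ := exists_extend_cyclic T r hr c hc hT W₁ hW₁ hne
    exact ⟨W₂, hW₂, hWW₁.trans hW₁₂, by rw [hW₂d, hW₁d, Nat.mul_succ]⟩

/-- The determinant of `T` with `T ^ r = c`, `c` not an `r`-th power. -/
theorem det_of_not_pow (r : ℕ) (hr : r.Prime) (c : F) (hc : ∀ b : F, b ^ r ≠ c) :
    ∀ (n : ℕ) (V : Type v) [AddCommGroup V] [Module F V] [FiniteDimensional F V]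
      (T : Module.End F V), finrank F V = n → T ^ r = c • (1 : Module.End F V) →
      LinearMap.det T = ((-1) ^ (r + 1) * c) ^ (n / r) := by
  intro n
  induction n using Nat.strong_induction_on with
  | _ n ih =>
    intro V _ _ _ T hn hT
    rcases Nat.eq_zero_or_pos n with h0 | hpos
    · subst h0
      rw [Nat.zero_div, pow_zero]
      exact LinearMap.det_eq_one_of_finrank_eq_zero hn T
    · have hbot : (⊥ : Submodule F V) ≠ ⊤ := by
        intro h
        have h1 := congrArg (fun W : Submodule F V => finrank F W) h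
        simp only [finrank_bot, finrank_top] at h1
        omega
      obtain ⟨W, hW, -, hWd⟩ := exists_extend_cyclic T r hr c hc hT ⊥
        (by rw [Submodule.map_bot]) hbot
      rw [finrank_bot, zero_add] at hWd
      have he : W ≤ W.comap T := Submodule.map_le_iff_le_comap.mp hW
      have hdet := LinearMap.det_eq_det_mul_det W T he
      have hq : finrank F (V ⧸ W) = n - r := by
        have := Submodule.finrank_quotient_add_finrank W
        omega
      have hrn : r ≤ n := by
        have := Submodule.finrank_le W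
        omega
      have hTq : (W.mapQ W T he) ^ r = c • (1 : Module.End F (V ⧸ W)) := by
        rw [← Submodule.mapQ_pow W he r]
        apply Submodule.linearMap_qext
        apply LinearMap.ext
        intro x
        simp [hT]
      have h1 := ih (n - r) (by have := hr.pos; omega) (V ⧸ W) (W.mapQ W T he) hq hTq
      -- the restriction
      have hWnt : Nontrivial W := Module.nontrivial_of_finrank_pos (R := F) (by rw [hWd]; exact hr.pos)
      have hTW : (T.restrict he) ^ r = c • (1 : Module.End F W) := by
        rw [Module.End.pow_restrict]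
        apply LinearMap.ext
        intro x
        apply Subtype.ext
        rw [LinearMap.restrict_apply]
        simp [hT]
      have hirr : Irreducible (Polynomial.X ^ r - Polynomial.C c : Polynomial F) :=
        (X_pow_sub_C_irreducible_iff_of_prime hr).mpr hc
      have hmon : (Polynomial.X ^ r - Polynomial.C c : Polynomial F).Monic :=
        Polynomial.monic_X_pow_sub_C c hr.ne_zero
      have hdvd : minpoly F (T.restrict he) ∣ (Polynomial.X ^ r - Polynomial.C c : Polynomial F) := by
        apply minpoly.dvd
        simp [hTW, Algebra.smul_def]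
      have hint : IsIntegral F (T.restrict he) := Algebra.IsIntegral.isIntegral _
      have hmin : minpoly F (T.restrict he) = Polynomial.X ^ r - Polynomial.C c := by
        obtain ⟨h, hh⟩ := hdvd
        rcases hirr.isUnit_or_isUnit hh with hu | hu
        · exact absurd hu (minpoly.not_isUnit F _)
        · apply Polynomial.eq_of_monic_of_associated (minpoly.monic hint) hmon
          rw [hh]
          exact (associated_mul_unit_right _ _ hu)
      have hchar : (T.restrict he).charpoly = Polynomial.X ^ r - Polynomial.C c := by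
        apply Polynomial.eq_of_monic_of_dvd_of_natDegree_le hmon (LinearMap.charpoly_monic _)
        · rw [← hmin]
          exact LinearMap.minpoly_dvd_charpoly _
        · rw [LinearMap.charpoly_natDegree, hWd, Polynomial.natDegree_X_pow_sub_C]
      have hdW : LinearMap.det (T.restrict he) = (-1) ^ (r + 1) * c := by
        rw [LinearMap.det_eq_sign_charpoly_coeff, hchar, hWd]
        simp [Polynomial.coeff_X_pow, hr.ne_zero.symm, pow_succ]
      rw [hdet, hdW, h1, ← pow_succ']
      congr 1
      have h2 : n = (n - r) + r := by omega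
      conv_rhs => rw [h2]
      rw [Nat.add_div_right _ hr.pos]

end Irr

end Cfsg.Agent.Lib.Helper96.BG
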