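import Mathlib

set_option autoImplicit false

namespace Cfsg.Agent.Lib.Helper96.BG

open Module

section Semi

variable {F : Type*} [Field F] [Fintype F] {V : Type*} [AddCommGroup V] [Module F V]
  [FiniteDimensional F V]

theorem dvd_pow_sub_one_iff (q r t : ℕ) [Fact r.Prime] (hq : 1 ≤ q) :
    r ∣ q ^ t - 1 ↔ orderOf (q : ZMod r) ∣ t := by
  rw [orderOf_dvd_iff_pow_eq_one]
  have h1 : 1 ≤ q ^ t := Nat.one_le_pow _ _ hq
  rw [← ZMod.natCast_eq_zero_iff, Nat.cast_sub h1, Nat.cast_pow, Nat.cast_one, sub_eq_zero]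

/-- An endomorphism with `T ^ (q ^ i) = T` of a nonzero space has a nonzero invariant subspace
of dimension at most `i`. -/
theorem exists_small_invariant [Nontrivial V] (T : Module.End F V) (i : ℕ) (hi : 1 ≤ i)
    (hT : T ^ (Fintype.card F ^ i) = T) :
    ∃ Z : Submodule F V, Z ≠ ⊥ ∧ Z.map T ≤ Z ∧ finrank F Z ≤ i := by
  classical
  have hint : IsIntegral F T := Algebra.IsIntegral.isIntegral T
  have hμ0 : minpoly F T ≠ 0 := minpoly.ne_zero hint
  have hμu : ¬ IsUnit (minpoly F T) := minpoly.not_isUnit F T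
  obtain ⟨g, hg, hgμ⟩ := WfDvdMonoid.exists_irreducible_factor hμu hμ0
  have hdvd : minpoly F T ∣ (Polynomial.X ^ (Fintype.card F ^ i) - Polynomial.X : Polynomial F) := by
    apply minpoly.dvd
    simp [hT]
  have hgd : g.natDegree ∣ i := by
    apply hg.natDegree_dvd_of_dvd_X_pow_card_pow_sub_X
    rw [Nat.card_eq_fintype_card]
    exact hgμ.trans hdvd
  have hgle : g.natDegree ≤ i := Nat.le_of_dvd hi hgd
  have hgpos : 0 < g.natDegree := hg.natDegree_pos
  obtain ⟨h, hh⟩ := hgμ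
  have hh0 : h ≠ 0 := by
    rintro rfl
    rw [mul_zero] at hh
    exact hμ0 hh
  have hninj : ¬ Function.Injective (Polynomial.aeval T g) := by
    intro hinj
    have h0 : Polynomial.aeval T h = 0 := by
      apply LinearMap.ext
      intro v
      apply hinj
      have h1 : Polynomial.aeval T (minpoly F T) = 0 := minpoly.aeval F T
      rw [hh, map_mul] at h1
      have h2 := LinearMap.congr_fun h1 v
      simpa using h2
    have h1 : minpoly F T ∣ h := minpoly.dvd F T h0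
    rw [hh] at h1
    have h2 : g * h ∣ 1 * h := by simpa using h1
    have h3 := (mul_dvd_mul_iff_right hh0).mp h2
    exact hg.not_isUnit (isUnit_of_dvd_one h3)
  obtain ⟨u, hu0, hu⟩ : ∃ u, u ≠ 0 ∧ Polynomial.aeval T g u = 0 := by
    by_contra hcon
    push Not at hcon
    apply hninj
    rw [injective_iff_map_eq_zero]
    intro v hv
    by_contra hv0
    exact hcon v hv0 hv
  refine ⟨Submodule.span F (Set.range fun j : Fin g.natDegree => (T ^ (j : ℕ)) u), ?_, ?_, ?_⟩
  · intro hbot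
    have h1 : u ∈ Submodule.span F (Set.range fun j : Fin g.natDegree => (T ^ (j : ℕ)) u) :=
      Submodule.subset_span ⟨⟨0, hgpos⟩, by simp⟩
    rw [hbot] at h1
    exact hu0 ((Submodule.mem_bot F).mp h1)
  · rw [Submodule.map_span, Submodule.span_le]
    rintro _ ⟨_, ⟨j, rfl⟩, rfl⟩
    by_cases hj : (j : ℕ) + 1 < g.natDegree
    · apply Submodule.subset_span
      exact ⟨⟨j + 1, hj⟩, by simp [pow_succ']⟩
    · have hj' : (j : ℕ) + 1 = g.natDegree := by have := j.2; omega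
      have h1 : ∀ d : ℕ, (j : ℕ) + 1 = d → T ((T ^ (j : ℕ)) u) = (T ^ d) u := by
        rintro d rfl
        rw [pow_succ']
        rfl
      rw [h1 _ hj']
      rw [Polynomial.aeval_eq_sum_range, LinearMap.sum_apply, Finset.sum_range_succ] at hu
      have hlc : g.coeff g.natDegree ≠ 0 := by
        rw [Polynomial.coeff_natDegree]
        exact Polynomial.leadingCoeff_ne_zero.mpr hg.ne_zero
      have h2 : (T ^ g.natDegree) u = -(g.coeff g.natDegree)⁻¹ •
          ∑ k ∈ Finset.range g.natDegree, (g.coeff k • T ^ k) u := by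
        rw [LinearMap.smul_apply] at hu
        have h3 : g.coeff g.natDegree • (T ^ g.natDegree) u =
            -∑ k ∈ Finset.range g.natDegree, (g.coeff k • T ^ k) u :=
          eq_neg_of_add_eq_zero_right hu
        rw [neg_smul, ← smul_neg, ← h3, smul_smul, inv_mul_cancel₀ hlc, one_smul]
      rw [h2]
      apply Submodule.smul_mem
      apply Submodule.sum_mem
      intro k hk
      rw [LinearMap.smul_apply]
      apply Submodule.smul_mem
      exact Submodule.subset_span ⟨⟨k, Finset.mem_range.mp hk⟩, rfl⟩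
  · calc finrank F _ ≤ Fintype.card (Fin g.natDegree) := finrank_range_le_card _
      _ = g.natDegree := Fintype.card_fin _
      _ ≤ i := hgle

/-- Extension step: a semisimple `T` with `T ^ (q ^ i) = T`; any invariant `W < W₂` extends to
an invariant `W'` with `W < W' ≤ W₂` and `dim W' ≤ dim W + i`. -/
theorem exists_extend (T : Module.End F V) (i : ℕ) (hi : 1 ≤ i)
    (hT : T ^ (Fintype.card F ^ i) = T) (hss : T.IsSemisimple)
    (W W₂ : Submodule F V) (hW : W.map T ≤ W) (hW₂ : W₂.map T ≤ W₂) (hle : W ≤ W₂)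
    (hne : W ≠ W₂) :
    ∃ W' : Submodule F V, W'.map T ≤ W' ∧ W ≤ W' ∧ W' ≤ W₂ ∧ finrank F W < finrank F W' ∧
      finrank F W' ≤ finrank F W + i := by
  classical
  obtain ⟨Wc, hWc, hcompl⟩ := (Module.End.isSemisimple_iff.mp hss) W
    (by rw [Module.End.mem_invtSubmodule]; exact Submodule.map_le_iff_le_comap.mp hW)
  rw [Module.End.mem_invtSubmodule] at hWc
  have hN' : ∀ x ∈ W₂ ⊓ Wc, T x ∈ W₂ ⊓ Wc := fun x hx =>
    ⟨hW₂ (Submodule.mem_map_of_mem hx.1), hWc hx.2⟩
  have hNne : W₂ ⊓ Wc ≠ ⊥ := by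
    intro hbot
    apply hne
    have h1 := sup_inf_assoc_of_le Wc hle
    rw [hcompl.sup_eq_top, top_inf_eq, inf_comm, hbot, sup_bot_eq] at h1
    exact h1.symm
  have : Nontrivial ↥(W₂ ⊓ Wc) := (Submodule.nontrivial_iff_ne_bot).mpr hNne
  have hT' : (T.restrict hN') ^ (Fintype.card F ^ i) = T.restrict hN' := by
    rw [Module.End.pow_restrict]
    apply LinearMap.ext
    intro x
    apply Subtype.ext
    rw [LinearMap.restrict_apply, LinearMap.restrict_apply]
    simp only [hT]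
  obtain ⟨Z', hZ'0, hZ'inv, hZ'dim⟩ := exists_small_invariant (T.restrict hN') i hi hT'
  have hZdim : finrank F (Z'.map (W₂ ⊓ Wc).subtype) = finrank F Z' :=
    Submodule.finrank_map_subtype_eq _ _
  have hZpos : 0 < finrank F Z' := by
    rw [Module.finrank_pos_iff]
    exact (Submodule.nontrivial_iff_ne_bot).mpr hZ'0
  have hZle : Z'.map (W₂ ⊓ Wc).subtype ≤ W₂ ⊓ Wc := Submodule.map_subtype_le _ _
  have hdisj : W ⊓ Z'.map (W₂ ⊓ Wc).subtype = ⊥ := by
    rw [eq_bot_iff, ← hcompl.inf_eq_bot]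
    exact inf_le_inf_left _ (hZle.trans inf_le_right)
  have hdim := Submodule.finrank_sup_add_finrank_inf_eq W (Z'.map (W₂ ⊓ Wc).subtype)
  rw [hdisj, finrank_bot, add_zero, hZdim] at hdim
  refine ⟨W ⊔ Z'.map (W₂ ⊓ Wc).subtype, ?_, le_sup_left, sup_le hle (hZle.trans inf_le_left),
    by omega, by omega⟩
  rw [Submodule.map_sup]
  apply sup_le_sup hW
  rintro _ ⟨_, ⟨z, hz, rfl⟩, rfl⟩
  have h1 : (T.restrict hN') z ∈ Z' := hZ'inv (Submodule.mem_map_of_mem hz)
  exact ⟨(T.restrict hN') z, h1, rfl⟩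

/-- Orbit counting: for `T ^ r = 1` and `W` invariant,
`q ^ dim W ≡ q ^ dim (W ⊓ ker (T - 1))` modulo `r`. -/
theorem card_modEq_fixed (T : Module.End F V) (r : ℕ) [Fact r.Prime] (hT : T ^ r = 1)
    (W : Submodule F V) (hW : W.map T ≤ W) :
    Fintype.card F ^ finrank F W ≡
      Fintype.card F ^ finrank F (W ⊓ LinearMap.ker (T - 1) : Submodule F V) [MOD r] := by
  classical
  have : Finite V := Module.finite_of_finite F
  have : Fintype W := Fintype.ofFinite W
  let f : Function.End W := fun v => ⟨T v, hW (Submodule.mem_map_of_mem v.2)⟩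
  have hk : ∀ (k : ℕ) (v : W), (((f ^ k) v : W) : V) = (T ^ k) (v : V) := by
    intro k
    induction k with
    | zero => intro v; rfl
    | succ k ih =>
      intro v
      rw [pow_succ', pow_succ']
      change ((f ((f ^ k) v) : W) : V) = T ((T ^ k) (v : V))
      rw [← ih]
  have hfr : f ^ r ^ 1 = 1 := by
    rw [pow_one]
    funext v
    apply Subtype.ext
    rw [hk, hT]
    rfl
  have key := Equiv.Perm.card_fixedPoints_modEq (p := r) (n := 1) hfr
  have e : Function.fixedPoints f ≃ ↥(W ⊓ LinearMap.ker (T - 1) : Submodule F V) :=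
    { toFun := fun v => ⟨(v.1 : V), v.1.2, by
        have h1 : f v.1 = v.1 := v.2
        have h2 : T (v.1 : V) = (v.1 : V) := congrArg Subtype.val h1
        change (v.1 : V) ∈ LinearMap.ker (T - 1)
        rw [LinearMap.mem_ker, LinearMap.sub_apply, h2]
        simp⟩
      invFun := fun v => ⟨⟨v.1, v.2.1⟩, by
        have h1 : (v.1 : V) ∈ LinearMap.ker (T - 1) := v.2.2
        rw [LinearMap.mem_ker, LinearMap.sub_apply, sub_eq_zero] at h1
        apply Subtype.ext
        exact h1⟩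
      left_inv := fun v => rfl
      right_inv := fun v => rfl }
  rw [Fintype.card_eq_nat_card, Fintype.card_eq_nat_card, Nat.card_congr e,
    Module.natCard_eq_pow_finrank (K := F) (V := ↥W),
    Module.natCard_eq_pow_finrank (K := F) (V := ↥(W ⊓ LinearMap.ker (T - 1) : Submodule F V)),
    Nat.card_eq_fintype_card] at key
  exact key

/-- Consequence: `ord_r(q)` divides `dim W - dim (W ⊓ ker (T - 1))`. -/
theorem orderOf_dvd_sub (T : Module.End F V) (r : ℕ) [Fact r.Prime]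
    (hr : ¬ r ∣ Fintype.card F) (hT : T ^ r = 1)
    (W : Submodule F V) (hW : W.map T ≤ W) :
    orderOf ((Fintype.card F : ℕ) : ZMod r) ∣
      finrank F W - finrank F (W ⊓ LinearMap.ker (T - 1) : Submodule F V) := by
  have h := card_modEq_fixed T r hT W hW
  have hle : finrank F (W ⊓ LinearMap.ker (T - 1) : Submodule F V) ≤ finrank F W :=
    Submodule.finrank_mono inf_le_left
  have h2 := (ZMod.natCast_eq_natCast_iff _ _ _).mpr h
  rw [Nat.cast_pow, Nat.cast_pow] at h2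
  have hq0 : ((Fintype.card F : ℕ) : ZMod r) ≠ 0 := by
    rw [Ne, ZMod.natCast_eq_zero_iff]
    exact hr
  apply orderOf_dvd_of_pow_eq_one
  have h3 : ((Fintype.card F : ℕ) : ZMod r) ^ finrank F W =
      ((Fintype.card F : ℕ) : ZMod r) ^ (finrank F W -
        finrank F (W ⊓ LinearMap.ker (T - 1) : Submodule F V)) *
      ((Fintype.card F : ℕ) : ZMod r) ^ finrank F (W ⊓ LinearMap.ker (T - 1) : Submodule F V) := by
    rw [← pow_add, Nat.sub_add_cancel hle]
  rw [h3] at h2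
  have h4 : ((Fintype.card F : ℕ) : ZMod r) ^
      finrank F (W ⊓ LinearMap.ker (T - 1) : Submodule F V) ≠ 0 := pow_ne_zero _ hq0
  exact mul_right_cancel₀ h4 (by rw [one_mul]; exact h2)

omit [Fintype F] [FiniteDimensional F V] in
/-- `ker (T - 1) ⊓ range (T - 1) = ⊥` when `T ^ r = 1` and `r ≠ 0` in `F`. -/
theorem ker_inf_range (T : Module.End F V) (r : ℕ) (hr0 : (r : F) ≠ 0) (hT : T ^ r = 1) :
    LinearMap.ker (T - 1) ⊓ LinearMap.range (T - 1) = ⊥ := by
  rw [eq_bot_iff]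
  rintro v ⟨hv1, w, rfl⟩
  rw [SetLike.mem_coe, LinearMap.mem_ker] at hv1
  have hfix : T ((T - 1) w) = (T - 1) w := by
    have := hv1
    rw [LinearMap.sub_apply, sub_eq_zero] at this
    exact this
  have hk : ∀ k : ℕ, (T ^ k) ((T - 1) w) = (T - 1) w := by
    intro k
    induction k with
    | zero => rfl
    | succ k ih => rw [pow_succ, Module.End.mul_apply, hfix, ih]
  have hsum : (∑ k ∈ Finset.range r, T ^ k) * (T - 1) = 0 := by
    rw [geom_sum_mul, hT, sub_self]
  have h1 : (∑ k ∈ Finset.range r, T ^ k) ((T - 1) w) = 0 := by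
    have := LinearMap.congr_fun hsum w
    simpa using this
  rw [LinearMap.sum_apply, Finset.sum_congr rfl (fun k _ => hk k), Finset.sum_const,
    Finset.card_range, ← Nat.cast_smul_eq_nsmul F] at h1
  exact (smul_eq_zero.mp h1).resolve_left hr0

omit [FiniteDimensional F V] in
theorem pow_card_pow_eq (T : Module.End F V) (r : ℕ) (hT : T ^ r = 1) (i : ℕ)
    (hdvd : r ∣ Fintype.card F ^ i - 1) : T ^ (Fintype.card F ^ i) = T := by
  obtain ⟨t, ht⟩ := hdvd
  have h1 : Fintype.card F ^ i = r * t + 1 := by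
    have := Nat.one_le_pow i _ (Fintype.card_pos (α := F))
    omega
  rw [h1, pow_succ, pow_mul, hT, one_pow, one_mul]

omit [Fintype F] [FiniteDimensional F V] in
theorem isSemisimple_of_pow_eq_one (T : Module.End F V) (r : ℕ) (hr0 : (r : F) ≠ 0)
    (hT : T ^ r = 1) : T.IsSemisimple := by
  apply Module.End.isSemisimple_of_squarefree_aeval_eq_zero (p := Polynomial.X ^ r - 1)
  · have := Polynomial.separable_X_pow_sub_C (1 : F) hr0 one_ne_zero
    simpa using this.squarefree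
  · simp [hT]

/-- Chain extension inside an invariant subspace `N` all of whose invariant subspaces have
dimension divisible by `i`. -/
theorem exists_inv_ge (T : Module.End F V) (i : ℕ) (hi : 1 ≤ i)
    (hT : T ^ (Fintype.card F ^ i) = T) (hss : T.IsSemisimple)
    (N : Submodule F V) (hN : N.map T ≤ N)
    (hdiv : ∀ Z : Submodule F V, Z ≤ N → Z.map T ≤ Z → i ∣ finrank F Z)
    (W : Submodule F V) (hW : W.map T ≤ W) (hWN : W ≤ N) (b : ℕ) (hWb : finrank F W = i * b)
    (b' : ℕ) (hbb : b ≤ b') (hb' : i * b' ≤ finrank F N) :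
    ∃ W' : Submodule F V, W'.map T ≤ W' ∧ W ≤ W' ∧ W' ≤ N ∧ finrank F W' = i * b' := by
  induction b', hbb using Nat.le_induction with
  | base => exact ⟨W, hW, le_rfl, hWN, hWb⟩
  | succ c hbc ih =>
    have hc : i * c ≤ finrank F N := by
      have : i * c ≤ i * (c + 1) := Nat.mul_le_mul_left i (by omega)
      omega
    obtain ⟨W₁, hW₁, hWW₁, hW₁N, hW₁d⟩ := ih hc
    have hne : W₁ ≠ N := by
      rintro rfl
      rw [hW₁d, Nat.mul_succ] at hb'
      omega
    obtain ⟨W₂, hW₂, hW₁₂, hW₂N, hlt, hle⟩ := exists_extend T i hi hT hss W₁ N hW₁ hN hW₁N hne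
    obtain ⟨t, ht⟩ := hdiv W₂ hW₂N hW₂
    refine ⟨W₂, hW₂, hWW₁.trans hW₁₂, hW₂N, ?_⟩
    rw [ht]
    rw [ht, hW₁d] at hlt hle
    have h1 : c < t := Nat.lt_of_mul_lt_mul_left hlt
    have h2 : t ≤ c + 1 := by
      have h3 : i * t ≤ i * (c + 1) := by rw [Nat.mul_succ]; exact hle
      exact Nat.le_of_mul_le_mul_left h3 (by omega)
    have h3 : t = c + 1 := by omega
    rw [h3]

/-- Nested subspaces of given dimensions inside a subspace. -/
theorem exists_sub_ge (C : Submodule F V) (W : Submodule F V) (hWC : W ≤ C) (a : ℕ)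
    (hWa : finrank F W = a) (a' : ℕ) (haa : a ≤ a') (ha' : a' ≤ finrank F C) :
    ∃ W' : Submodule F V, W ≤ W' ∧ W' ≤ C ∧ finrank F W' = a' := by
  have h1 : (1 : Module.End F V) ^ (Fintype.card F ^ 1) = 1 := one_pow _
  have hinv : ∀ Z : Submodule F V, Z.map (1 : Module.End F V) ≤ Z := by
    intro Z
    rintro _ ⟨z, hz, rfl⟩
    exact hz
  obtain ⟨W', -, h2, h3, h4⟩ := exists_inv_ge (1 : Module.End F V) 1 le_rfl h1
    Module.End.isSemisimple_id C (hinv C) (fun Z _ _ => one_dvd _) W (hinv W) hWC a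
    (by rw [one_mul]; exact hWa) a' haa (by rw [one_mul]; exact ha')
  exact ⟨W', h2, h3, by rw [h4, one_mul]⟩

/-- Existence of invariant flags for an element of prime order `r` not dividing `q`:
with `C = ker (T - 1)`, `N = range (T - 1)`, `i = ord_r(q)`, any dimensions
`a₁ + i b₁ ≤ a₂ + i b₂` with `a₁ ≤ a₂ ≤ dim C`, `b₁ ≤ b₂`, `i b₂ ≤ dim N` are realised. -/
theorem exists_invariant_flag (T : Module.End F V) (r : ℕ) [Fact r.Prime]
    (hr : ¬ r ∣ Fintype.card F) (hr0 : (r : F) ≠ 0) (hT : T ^ r = 1)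
    (a₁ a₂ b₁ b₂ : ℕ) (ha : a₁ ≤ a₂) (hb : b₁ ≤ b₂)
    (ha₂ : a₂ ≤ finrank F (LinearMap.ker (T - 1)))
    (hb₂ : orderOf ((Fintype.card F : ℕ) : ZMod r) * b₂ ≤ finrank F (LinearMap.range (T - 1))) :
    ∃ U W : Submodule F V, U ≤ W ∧ U.map T ≤ U ∧ W.map T ≤ W ∧
      finrank F U = a₁ + orderOf ((Fintype.card F : ℕ) : ZMod r) * b₁ ∧
      finrank F W = a₂ + orderOf ((Fintype.card F : ℕ) : ZMod r) * b₂ := by
  classical
  set i := orderOf ((Fintype.card F : ℕ) : ZMod r) with hi_def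
  have hq0 : ((Fintype.card F : ℕ) : ZMod r) ≠ 0 := by
    rw [Ne, ZMod.natCast_eq_zero_iff]
    exact hr
  have hi : 1 ≤ i := by
    have h1 : IsOfFinOrder ((Fintype.card F : ℕ) : ZMod r) := by
      have hu : IsUnit ((Fintype.card F : ℕ) : ZMod r) := isUnit_iff_ne_zero.mpr hq0
      exact hu.isOfFinOrder
    exact h1.orderOf_pos
  have hdvd : r ∣ Fintype.card F ^ i - 1 :=
    (dvd_pow_sub_one_iff _ r i Fintype.card_pos).mpr dvd_rfl
  have hTq := pow_card_pow_eq T r hT i hdvd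
  have hss := isSemisimple_of_pow_eq_one T r hr0 hT
  have hdisj := ker_inf_range T r hr0 hT
  have hcomm : T * (T - 1) = (T - 1) * T := by rw [mul_sub, sub_mul, mul_one, one_mul]
  have hNinv : (LinearMap.range (T - 1)).map T ≤ LinearMap.range (T - 1) := by
    rintro _ ⟨_, ⟨w, rfl⟩, rfl⟩
    refine ⟨T w, ?_⟩
    have := LinearMap.congr_fun hcomm w
    exact this.symm
  have hCsub : ∀ Y : Submodule F V, Y ≤ LinearMap.ker (T - 1) → Y.map T ≤ Y := by
    rintro Y hY _ ⟨y, hy, rfl⟩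
    have h1 := hY hy
    rw [LinearMap.mem_ker, LinearMap.sub_apply, sub_eq_zero] at h1
    rw [h1]
    exact hy
  have hdiv : ∀ Z : Submodule F V, Z ≤ LinearMap.range (T - 1) → Z.map T ≤ Z → i ∣ finrank F Z := by
    intro Z hZ hZinv
    have h1 := orderOf_dvd_sub T r hr hT Z hZinv
    have h2 : Z ⊓ LinearMap.ker (T - 1) = ⊥ := by
      rw [eq_bot_iff, ← hdisj, inf_comm]
      exact inf_le_inf_left _ hZ
    rw [h2, finrank_bot, Nat.sub_zero] at h1
    exact h1
  obtain ⟨Y₁, -, hY₁C, hY₁d⟩ := exists_sub_ge (LinearMap.ker (T - 1)) ⊥ bot_le 0 (finrank_bot F V) a₁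
    (Nat.zero_le _) (ha.trans ha₂)
  obtain ⟨Y₂, hY₁₂, hY₂C, hY₂d⟩ := exists_sub_ge (LinearMap.ker (T - 1)) Y₁ hY₁C a₁ hY₁d a₂ ha ha₂
  have hb₁ : i * b₁ ≤ finrank F (LinearMap.range (T - 1)) :=
    (Nat.mul_le_mul_left i hb).trans hb₂
  have hbot : (⊥ : Submodule F V).map T ≤ ⊥ := by rw [Submodule.map_bot]
  obtain ⟨Z₁, hZ₁inv, -, hZ₁N, hZ₁d⟩ := exists_inv_ge T i hi hTq hss (LinearMap.range (T - 1)) hNinv
    hdiv ⊥ hbot bot_le 0 (by rw [finrank_bot, mul_zero]) b₁ (Nat.zero_le _) hb₁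
  obtain ⟨Z₂, hZ₂inv, hZ₁₂, hZ₂N, hZ₂d⟩ := exists_inv_ge T i hi hTq hss (LinearMap.range (T - 1))
    hNinv hdiv Z₁ hZ₁inv hZ₁N b₁ hZ₁d b₂ hb hb₂
  have hdim : ∀ Y Z : Submodule F V, Y ≤ LinearMap.ker (T - 1) → Z ≤ LinearMap.range (T - 1) →
      finrank F (Y ⊔ Z : Submodule F V) = finrank F Y + finrank F Z := by
    intro Y Z hY hZ
    have h1 := Submodule.finrank_sup_add_finrank_inf_eq Y Z
    have h2 : Y ⊓ Z = ⊥ := by
      rw [eq_bot_iff, ← hdisj]
      exact inf_le_inf hY hZ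
    rw [h2, finrank_bot, add_zero] at h1
    exact h1
  refine ⟨Y₁ ⊔ Z₁, Y₂ ⊔ Z₂, sup_le_sup hY₁₂ hZ₁₂, ?_, ?_, ?_, ?_⟩
  · rw [Submodule.map_sup]
    exact sup_le_sup (hCsub Y₁ hY₁C) hZ₁inv
  · rw [Submodule.map_sup]
    exact sup_le_sup (hCsub Y₂ hY₂C) hZ₂inv
  · rw [hdim Y₁ Z₁ hY₁C hZ₁N, hY₁d, hZ₁d]
  · rw [hdim Y₂ Z₂ hY₂C hZ₂N, hY₂d, hZ₂d]

/-- `ord_r(q)` divides the rank of `T - 1`. -/
theorem orderOf_dvd_finrank_range (T : Module.End F V) (r : ℕ) [Fact r.Prime]
    (hr : ¬ r ∣ Fintype.card F) (hr0 : (r : F) ≠ 0) (hT : T ^ r = 1) :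
    orderOf ((Fintype.card F : ℕ) : ZMod r) ∣ finrank F (LinearMap.range (T - 1)) := by
  have hcomm : T * (T - 1) = (T - 1) * T := by rw [mul_sub, sub_mul, mul_one, one_mul]
  have hNinv : (LinearMap.range (T - 1)).map T ≤ LinearMap.range (T - 1) := by
    rintro _ ⟨_, ⟨w, rfl⟩, rfl⟩
    refine ⟨T w, ?_⟩
    have := LinearMap.congr_fun hcomm w
    exact this.symm
  have h1 := orderOf_dvd_sub T r hr hT _ hNinv
  have h2 : LinearMap.range (T - 1) ⊓ LinearMap.ker (T - 1) = ⊥ := by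
    rw [inf_comm]
    exact ker_inf_range T r hr0 hT
  rw [h2, finrank_bot, Nat.sub_zero] at h1
  exact h1

end Semi

end Cfsg.Agent.Lib.Helper96.BG
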