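import Cfsg.Agent.Lib.Helper96.BGCount
import Cfsg.Agent.Lib.Helper96.BGSemi
import Cfsg.Agent.Lib.Helper96.BGIrr
import Cfsg.Agent.Lib.Helper96.BGCons

set_option autoImplicit false

namespace Cfsg.Agent.Lib.Helper96.BG

open Module

section Lin

variable {F : Type*} [Field F]

theorem toLin'_pow_eq (n r : ℕ) (X : Matrix (Fin n) (Fin n) F) (c : F)
    (h : X ^ r = c • (1 : Matrix (Fin n) (Fin n) F)) :
    (Matrix.toLin' X) ^ r = c • (1 : Module.End F (Fin n → F)) := by
  have h1 : Matrix.toLin' (X ^ r) = (Matrix.toLin' X) ^ r :=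
    map_pow (Matrix.toLinAlgEquiv' : Matrix (Fin n) (Fin n) F ≃ₐ[F] _) X r
  rw [← h1, h, map_smul, Matrix.toLin'_one]
  rfl

theorem scaled {V : Type*} [AddCommGroup V] [Module F V] (T : Module.End F V) (r : ℕ) (b : F)
    (hb0 : b ≠ 0) (hT : T ^ r = b ^ r • (1 : Module.End F V)) :
    (b⁻¹ • T) ^ r = 1 ∧ ∀ W : Submodule F V, W.map (b⁻¹ • T) ≤ W → W.map T ≤ W := by
  constructor
  · rw [smul_pow, hT, smul_smul, ← mul_pow, inv_mul_cancel₀ hb0, one_pow, one_smul]
  · rintro W hW _ ⟨w, hw, rfl⟩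
    have h1 : (b⁻¹ • T) w ∈ W := hW (Submodule.mem_map_of_mem hw)
    have h2 : T w = b • (b⁻¹ • T) w := by
      rw [LinearMap.smul_apply, smul_smul, mul_inv_cancel₀ hb0, one_smul]
    rw [h2]
    exact W.smul_mem b h1

variable [Fintype F]

/-- Basic facts for a prime `r` different from the characteristic. -/
theorem facts (p : ℕ) [Fact p.Prime] [CharP F p] (r : ℕ) [Fact r.Prime] (hrp : r ≠ p) :
    ¬ r ∣ Fintype.card F ∧ (r : F) ≠ 0 ∧ 1 ≤ orderOf ((Fintype.card F : ℕ) : ZMod r) := by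
  have hr : r.Prime := Fact.out
  have hrq : ¬ r ∣ Fintype.card F := by
    intro h
    obtain ⟨k, hk1, hk2⟩ := FiniteField.card F p
    rw [hk2] at h
    exact hrp ((Nat.prime_dvd_prime_iff_eq hr hk1).mp (hr.dvd_of_dvd_pow h))
  refine ⟨hrq, ?_, ?_⟩
  · rw [Ne, CharP.cast_eq_zero_iff F p]
    intro h
    exact hrp ((Nat.prime_dvd_prime_iff_eq (Fact.out : p.Prime) hr).mp h).symm
  · have hq0 : ((Fintype.card F : ℕ) : ZMod r) ≠ 0 := by
      rw [Ne, ZMod.natCast_eq_zero_iff]
      exact hrq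
    have hu : IsUnit ((Fintype.card F : ℕ) : ZMod r) := isUnit_iff_ne_zero.mpr hq0
    exact hu.isOfFinOrder.orderOf_pos

theorem p_dvd_card (p : ℕ) [Fact p.Prime] [CharP F p] : p ∣ Fintype.card F := by
  rw [← CharP.cast_eq_zero_iff F p]
  exact FiniteField.cast_card_eq_zero F

/-- `p` does not divide `q ^ (s + 1) - 1`. -/
theorem p_not_dvd (p : ℕ) [Fact p.Prime] [CharP F p] (s : ℕ) :
    ¬ p ∣ Fintype.card F ^ (s + 1) - 1 := by
  intro h
  have h1 : p ∣ Fintype.card F ^ (s + 1) := Dvd.dvd.pow (p_dvd_card p) (Nat.succ_ne_zero s)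
  have h2 : 1 ≤ Fintype.card F ^ (s + 1) := Nat.one_le_pow _ _ Fintype.card_pos
  have h3 : p ∣ 1 := by
    have := Nat.dvd_sub h1 h
    rwa [Nat.sub_sub_self h2] at this
  exact (Fact.out : p.Prime).one_lt.ne' (Nat.dvd_one.mp h3)

/-- For `T ^ r = 1` (`r` prime, not the characteristic) there is an invariant `m`-space whenever
`m % i ≤ n % i`, `i = ord_r(q)`. -/
theorem exists_invariant_of_mod {V : Type*} [AddCommGroup V] [Module F V] [FiniteDimensional F V]
    (T : Module.End F V) (r : ℕ) [Fact r.Prime]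
    (hr : ¬ r ∣ Fintype.card F) (hr0 : (r : F) ≠ 0) (hT : T ^ r = 1) (m : ℕ)
    (hm : m ≤ finrank F V)
    (hmod : m % orderOf ((Fintype.card F : ℕ) : ZMod r) ≤
      finrank F V % orderOf ((Fintype.card F : ℕ) : ZMod r)) :
    ∃ W : Submodule F V, finrank F W = m ∧ W.map T ≤ W := by
  have hrk := LinearMap.finrank_range_add_finrank_ker (T - 1)
  obtain ⟨k, hk⟩ := orderOf_dvd_finrank_range T r hr hr0 hT
  have key := exists_invariant_flag T r hr hr0 hT
  generalize orderOf ((Fintype.card F : ℕ) : ZMod r) = i at *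
  have hnmod : finrank F V % i = finrank F (LinearMap.ker (T - 1)) % i := by
    rw [← hrk, hk, Nat.mul_add_mod]
  rw [hnmod] at hmod
  have hcm : finrank F (LinearMap.ker (T - 1)) % i ≤ finrank F (LinearMap.ker (T - 1)) :=
    Nat.mod_le _ _
  by_cases hcase : m / i ≤ k
  · obtain ⟨U, W, -, -, hWinv, -, hWd⟩ := key (m % i) (m % i)
      (m / i) (m / i) le_rfl le_rfl (hmod.trans hcm)
      (by rw [hk]; exact Nat.mul_le_mul_left _ hcase)
    exact ⟨W, by rw [hWd]; exact Nat.mod_add_div m _, hWinv⟩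
  · push Not at hcase
    have h1 : i * k ≤ m := by
      have h2 : i * k ≤ i * (m / i) := Nat.mul_le_mul_left i hcase.le
      have h3 := Nat.div_add_mod m i
      omega
    obtain ⟨U, W, -, -, hWinv, -, hWd⟩ := key (m - i * k)
      (m - i * k) k k le_rfl le_rfl (by omega) (by rw [hk])
    exact ⟨W, by rw [hWd]; omega, hWinv⟩

/-- Twisted case is impossible in `SL_n` under the valuation condition. -/
theorem twisted_false (n r : ℕ) [Fact r.Prime] (hdvd : r ∣ Fintype.card F - 1)
    (T : Module.End F (Fin n → F)) (c : F) (hc : ∀ b : F, b ^ r ≠ c)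
    (hT : T ^ r = c • (1 : Module.End F (Fin n → F))) (hdet : LinearMap.det T = 1)
    (hv : padicValNat r n ≤ padicValNat r (Fintype.card F - 1))
    (h2 : r = 2 → Even n → Fintype.card F % 4 = 1) (hn : n ≠ 0) : False := by
  have hr : r.Prime := Fact.out
  have hfin : finrank F (Fin n → F) = n := Module.finrank_fin_fun F
  have hrn : r ∣ n := by
    have := dvd_finrank_of_not_pow T r hr c hc hT ⊤ le_top
    rwa [finrank_top, hfin] at this
  have hdet' := det_of_not_pow r hr c hc n (Fin n → F) T hfin hT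
  rw [hdet] at hdet'
  have hc0 : c ≠ 0 := by
    rintro rfl
    exact hc 0 (zero_pow hr.ne_zero)
  have he0 : (-1) ^ (r + 1) * c ≠ 0 := mul_ne_zero (pow_ne_zero _ (neg_ne_zero.mpr one_ne_zero)) hc0
  have heq : ((-1) ^ (r + 1) * c) ^ (Fintype.card F - 1) = 1 :=
    FiniteField.pow_card_sub_one_eq_one _ he0
  have hq1 : Fintype.card F - 1 ≠ 0 := by
    have := Fintype.one_lt_card (α := F)
    omega
  -- e ^ ((q-1)/r) = 1
  have hkey : ((-1) ^ (r + 1) * c) ^ ((Fintype.card F - 1) / r) = 1 := by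
    have ho1 : orderOf ((-1) ^ (r + 1) * c) ∣ n / r := orderOf_dvd_of_pow_eq_one hdet'.symm
    obtain ⟨t, ht⟩ : orderOf ((-1) ^ (r + 1) * c) ∣ Fintype.card F - 1 :=
      orderOf_dvd_of_pow_eq_one heq
    by_cases hrt : r ∣ t
    · obtain ⟨t', ht'⟩ := hrt
      have h3 : (Fintype.card F - 1) / r = orderOf ((-1) ^ (r + 1) * c) * t' := by
        rw [ht, ht', ← mul_assoc, mul_comm _ r, mul_assoc, Nat.mul_div_cancel_left _ hr.pos]
      rw [h3, pow_mul, pow_orderOf_eq_one, one_pow]
    · exfalso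
      have h3 : r ^ padicValNat r (Fintype.card F - 1) ∣ orderOf ((-1) ^ (r + 1) * c) * t := by
        rw [← ht]
        exact pow_padicValNat_dvd
      have h4 : Nat.Coprime (r ^ padicValNat r (Fintype.card F - 1)) t :=
        Nat.Coprime.pow_left _ ((Nat.Prime.coprime_iff_not_dvd hr).mpr hrt)
      have h5 : r ^ padicValNat r (Fintype.card F - 1) ∣ orderOf ((-1) ^ (r + 1) * c) :=
        h4.dvd_of_dvd_mul_right h3
      have h6 : r ^ (padicValNat r (Fintype.card F - 1) + 1) ∣ n := by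
        obtain ⟨u, hu⟩ := h5.trans ho1
        obtain ⟨w, hw⟩ := hrn
        rw [hw, Nat.mul_div_cancel_left _ hr.pos] at hu
        rw [hw, hu, pow_succ]
        exact Dvd.intro u (by ring)
      have h7 := (padicValNat_dvd_iff_le hn).mp h6
      omega
  obtain ⟨b, hb⟩ := exists_pow_eq r hdvd _ he0 hkey
  rcases hr.eq_two_or_odd' with h | h
  · subst h
    have hne : Even n := even_iff_two_dvd.mpr hrn
    have hq4 := h2 rfl hne
    have hsq : IsSquare (-1 : F) := FiniteField.isSquare_neg_one_iff.mpr (by omega)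
    obtain ⟨j, hj⟩ := hsq
    apply hc (j * b)
    rw [mul_pow, hb, pow_two, ← hj]
    ring
  · have h3 : (-1 : F) ^ (r + 1) = 1 := Even.neg_one_pow h.add_one
    rw [h3, one_mul] at hb
    exact hc b hb

/-- Existence of a twisted element of `SL_n`. -/
theorem exists_twisted_sl (n r : ℕ) [Fact r.Prime] (hdvd : r ∣ Fintype.card F - 1)
    (hq : ¬ r ∣ Fintype.card F)
    (hneg : ¬ (padicValNat r n ≤ padicValNat r (Fintype.card F - 1) ∧
      (r = 2 → Even n → Fintype.card F % 4 = 1))) (hn : n ≠ 0) :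
    ∃ (x : Matrix.SpecialLinearGroup (Fin n) F) (c : F), (∀ b : F, b ^ r ≠ c) ∧
      ((x ^ r : Matrix.SpecialLinearGroup (Fin n) F) : Matrix (Fin n) (Fin n) F) =
        c • (1 : Matrix (Fin n) (Fin n) F) := by
  classical
  have hr : r.Prime := Fact.out
  have hq1 : Fintype.card F - 1 ≠ 0 := by
    have := Fintype.one_lt_card (α := F)
    omega
  obtain ⟨a, ha⟩ : ∃ a, a = padicValNat r (Fintype.card F - 1) := ⟨_, rfl⟩
  rw [← ha] at hneg
  obtain ⟨c, hc, hrn, hce⟩ : ∃ c : F, (∀ b : F, b ^ r ≠ c) ∧ r ∣ n ∧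
      ((-1) ^ (r + 1) * c) ^ (n / r) = 1 := by
    have hbig : ¬ padicValNat r n ≤ a → r ∣ n ∧ r ^ a ∣ n / r := by
      intro h
      have h1 : r ^ (a + 1) ∣ n := (padicValNat_dvd_iff_le hn).mpr (by omega)
      obtain ⟨u, hu⟩ := h1
      refine ⟨⟨r ^ a * u, by rw [hu, pow_succ]; ring⟩, ?_⟩
      have h2 : n / r = r ^ a * u := by
        rw [hu, pow_succ, mul_comm (r ^ a) r, mul_assoc, Nat.mul_div_cancel_left _ hr.pos]
      rw [h2]
      exact Dvd.intro u rfl
    rcases hr.eq_two_or_odd' with h | h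
    · subst h
      have hodd : Fintype.card F % 2 = 1 := by
        have : ¬ 2 ∣ Fintype.card F := hq
        omega
      by_cases h3 : Fintype.card F % 4 = 3
      · have hne : Even n := by
          by_contra hne
          apply hneg
          refine ⟨?_, fun _ h => absurd h hne⟩
          rw [padicValNat.eq_zero_of_not_dvd (fun h => hne (even_iff_two_dvd.mpr h))]
          exact Nat.zero_le _
        refine ⟨-1, ?_, even_iff_two_dvd.mp hne, by norm_num⟩
        intro b hb
        have hsq : IsSquare (-1 : F) := ⟨b, by rw [← hb, pow_two]⟩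
        exact (FiniteField.isSquare_neg_one_iff.mp hsq) h3
      · have h1 : Fintype.card F % 4 = 1 := by omega
        have h4 : ¬ padicValNat 2 n ≤ a := fun h => hneg ⟨h, fun _ _ => h1⟩
        obtain ⟨h5, h6⟩ := hbig h4
        obtain ⟨e₀, he₀, he₀'⟩ := exists_not_pow (F := F) 2 hdvd
        rw [← ha] at he₀'
        have hsq : IsSquare (-1 : F) := FiniteField.isSquare_neg_one_iff.mpr (by omega)
        obtain ⟨j, hj⟩ := hsq
        have hj0 : j ≠ 0 := by
          rintro rfl
          rw [mul_zero] at hj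
          exact (neg_ne_zero.mpr one_ne_zero) hj
        refine ⟨-e₀, ?_, h5, ?_⟩
        · intro b hb
          apply he₀ (b / j)
          rw [div_pow, hb, pow_two, ← hj]
          field_simp
        · obtain ⟨u, hu⟩ := h6
          have h7 : (-1 : F) ^ (2 + 1) * -e₀ = e₀ := by ring
          rw [h7, hu, pow_mul, he₀', one_pow]
    · have h4 : ¬ padicValNat r n ≤ a := by
        intro h'
        apply hneg
        refine ⟨h', fun h2 => ?_⟩
        rw [h2] at h
        exact absurd h (by decide)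
      obtain ⟨h5, h6⟩ := hbig h4
      obtain ⟨c, hc, hc'⟩ := exists_not_pow (F := F) r hdvd
      rw [← ha] at hc'
      refine ⟨c, hc, h5, ?_⟩
      obtain ⟨u, hu⟩ := h6
      have h3 : (-1 : F) ^ (r + 1) = 1 := Even.neg_one_pow h.add_one
      rw [h3, one_mul, hu, pow_mul, hc', one_pow]
  obtain ⟨X, hX, hXdet⟩ := exists_twisted n r hr hrn c
  rw [hce] at hXdet
  exact ⟨(⟨X, hXdet⟩ : Matrix.SpecialLinearGroup (Fin n) F), c, hc,
    (Matrix.SpecialLinearGroup.coe_pow _ r).trans hX⟩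

/-- Existence of a semisimple element of `SL_n` of order `r` with minimal fixed space. -/
theorem exists_semisimple_sl (p : ℕ) [Fact p.Prime] [CharP F p] (n r : ℕ) [Fact r.Prime]
    (hi2 : 2 ≤ orderOf ((Fintype.card F : ℕ) : ZMod r))
    (hin : orderOf ((Fintype.card F : ℕ) : ZMod r) ≤ n) :
    ∃ x : Matrix.SpecialLinearGroup (Fin n) F,
      ((x ^ r : Matrix.SpecialLinearGroup (Fin n) F) : Matrix (Fin n) (Fin n) F) = 1 ∧
      (∀ z : F, (x : Matrix (Fin n) (Fin n) F) ≠ z • (1 : Matrix (Fin n) (Fin n) F)) ∧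
      finrank F (LinearMap.ker (Matrix.toLin' (x : Matrix (Fin n) (Fin n) F) - 1)) ≤
        n % orderOf ((Fintype.card F : ℕ) : ZMod r) := by
  classical
  have hr : r.Prime := Fact.out
  set i := orderOf ((Fintype.card F : ℕ) : ZMod r) with hi_def
  have hdvd : r ∣ Fintype.card F ^ i - 1 :=
    (dvd_pow_sub_one_iff _ r i Fintype.card_pos).mpr dvd_rfl
  have hr1 : ¬ r ∣ Fintype.card F - 1 := by
    intro h
    have h1 : r ∣ Fintype.card F ^ 1 - 1 := by rwa [pow_one]
    have h2 := (dvd_pow_sub_one_iff _ r 1 Fintype.card_pos).mp h1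
    have h3 := Nat.le_of_dvd one_pos h2
    omega
  obtain ⟨X, hX, hXdet, hXk⟩ := exists_semisimple (F := F) p n i (by omega) r hdvd hr1
  refine ⟨(⟨X, hXdet⟩ : Matrix.SpecialLinearGroup (Fin n) F),
    (Matrix.SpecialLinearGroup.coe_pow _ r).trans hX, ?_, hXk⟩
  · intro z hz
    change X = z • (1 : Matrix (Fin n) (Fin n) F) at hz
    have hn0 : 0 < n := by omega
    have hzr : z ^ r = 1 := by
      have h1 := hX
      rw [hz, smul_pow, one_pow] at h1
      have h2 := congrFun (congrFun h1 ⟨0, hn0⟩) ⟨0, hn0⟩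
      simpa using h2
    have hz0 : z ≠ 0 := by
      rintro rfl
      rw [zero_pow hr.ne_zero] at hzr
      exact zero_ne_one hzr
    have hzq : z ^ (Fintype.card F - 1) = 1 := FiniteField.pow_card_sub_one_eq_one _ hz0
    have hcop : Nat.Coprime r (Fintype.card F - 1) := (Nat.Prime.coprime_iff_not_dvd hr).mpr hr1
    have hz1 : z = 1 := (pow_eq_one_iff_of_coprime hcop).mp ⟨hzr, hzq⟩
    rw [hz1, one_smul] at hz
    rw [hz, Matrix.toLin'_one] at hXk
    have h3 : LinearMap.ker ((LinearMap.id : (Fin n → F) →ₗ[F] (Fin n → F)) - 1) = ⊤ := by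
      rw [eq_top_iff]
      intro v _
      rw [LinearMap.mem_ker]
      simp
    rw [h3, finrank_top, Module.finrank_fin_fun] at hXk
    have := Nat.mod_lt n (by omega : i > 0)
    omega

/-- If `r ∤ q - 1` every nonzero element is an `r`-th power. -/
theorem exists_root_of_not_dvd (r : ℕ) [Fact r.Prime] (hr1 : ¬ r ∣ Fintype.card F - 1) (c : F)
    (hc0 : c ≠ 0) : ∃ b : F, b ≠ 0 ∧ b ^ r = c := by
  classical
  have hr : r.Prime := Fact.out
  have hcop : (Nat.card Fˣ).Coprime r := by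
    rw [Nat.card_eq_fintype_card, Fintype.card_units]
    exact ((Nat.Prime.coprime_iff_not_dvd hr).mpr hr1).symm
  refine ⟨(((powCoprime hcop).symm (Units.mk0 c hc0) : Fˣ) : F), Units.ne_zero _, ?_⟩
  have h1 := (powCoprime hcop).apply_symm_apply (Units.mk0 c hc0)
  rw [powCoprime_apply] at h1
  have h2 := congrArg (fun u : Fˣ => (u : F)) h1
  simpa using h2

end Lin

end Cfsg.Agent.Lib.Helper96.BG
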