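import Cfsg.Agent.Lib.Helper96.BGLin

set_option autoImplicit false

namespace Cfsg.Agent.Lib.Helper96.BG

open Module

section Pair

variable {F : Type*} [Field F] [Fintype F]

/-- Linear maps `V → U` vanishing on `U` are the linear maps `V ⧸ U → U`. -/
def vanishEquiv {V : Type*} [AddCommGroup V] [Module F V] (U : Submodule F V) :
    {g : V →ₗ[F] U // ∀ x : U, g (x : V) = 0} ≃ (V ⧸ U →ₗ[F] U) where
  toFun g := U.liftQ g.1 (fun x hx => LinearMap.mem_ker.mpr (g.2 ⟨x, hx⟩))
  invFun h := ⟨h.comp U.mkQ, fun x => by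
    rw [LinearMap.comp_apply, Submodule.mkQ_apply, (Submodule.Quotient.mk_eq_zero U).mpr x.2,
      map_zero]⟩
  left_inv g := by
    apply Subtype.ext
    apply LinearMap.ext
    intro v
    simp
  right_inv h := by
    apply Submodule.linearMap_qext
    apply LinearMap.ext
    intro v
    simp

/-- Projections onto `U` form a torsor over the maps vanishing on `U`. -/
def projEquiv {V : Type*} [AddCommGroup V] [Module F V] (U : Submodule F V)
    (f₀ : V →ₗ[F] U) (hf₀ : ∀ x : U, f₀ x = x) :
    {f : V →ₗ[F] U // ∀ x : U, f x = x} ≃ {g : V →ₗ[F] U // ∀ x : U, g (x : V) = 0} where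
  toFun f := ⟨f.1 - f₀, fun x => by rw [LinearMap.sub_apply, f.2, hf₀, sub_self]⟩
  invFun g := ⟨g.1 + f₀, fun x => by rw [LinearMap.add_apply, g.2, hf₀, zero_add]⟩
  left_inv f := by
    apply Subtype.ext
    simp
  right_inv g := by
    apply Subtype.ext
    simp

/-- The number of complements of `U`. -/
theorem card_compl {V : Type*} [AddCommGroup V] [Module F V] [Finite V] (U : Submodule F V) :
    Nat.card {W : Submodule F V // IsCompl U W} =
      Fintype.card F ^ (finrank F (V ⧸ U) * finrank F U) := by
  have : Module.Finite F V := Module.Finite.of_finite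
  obtain ⟨W₀, hW₀⟩ := Submodule.exists_isCompl U
  have hf₀ := (U.isComplEquivProj ⟨W₀, hW₀⟩).2
  rw [Nat.card_congr U.isComplEquivProj, Nat.card_congr (projEquiv U _ hf₀),
    Nat.card_congr (vanishEquiv U), Module.natCard_eq_pow_finrank (K := F),
    Module.finrank_linearMap, Nat.card_eq_fintype_card]

/-- Pairs fibre over the first component. -/
def pairEquiv {V : Type*} [AddCommGroup V] [Module F V] (m : ℕ) :
    {P : Submodule F V × Submodule F V // IsCompl P.1 P.2 ∧ finrank F P.1 = m} ≃
      Σ U : {U : Submodule F V // finrank F U = m}, {W : Submodule F V // IsCompl U.1 W} where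
  toFun P := ⟨⟨P.1.1, P.2.2⟩, ⟨P.1.2, P.2.1⟩⟩
  invFun Q := ⟨⟨Q.1.1, Q.2.1⟩, Q.2.2, Q.1.2⟩
  left_inv _ := rfl
  right_inv _ := rfl

/-- The number of complementary pairs with first component of dimension `m`. -/
theorem card_pair {V : Type*} [AddCommGroup V] [Module F V] [Finite V] (m : ℕ) :
    Nat.card {P : Submodule F V × Submodule F V // IsCompl P.1 P.2 ∧ finrank F P.1 = m} =
      Nat.card {U : Submodule F V // finrank F U = m} *
        Fintype.card F ^ ((finrank F V - m) * m) := by
  classical
  have : Module.Finite F V := Module.Finite.of_finite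
  have : Fintype {U : Submodule F V // finrank F U = m} := Fintype.ofFinite _
  rw [Nat.card_congr (pairEquiv m), Nat.card_sigma]
  have h : ∀ U : {U : Submodule F V // finrank F U = m},
      Nat.card {W : Submodule F V // IsCompl U.1 W} = Fintype.card F ^ ((finrank F V - m) * m) := by
    intro U
    rw [card_compl, U.2]
    congr 2
    have := Submodule.finrank_quotient_add_finrank U.1
    omega
  rw [Finset.sum_congr rfl (fun U _ => h U), Finset.sum_const, Finset.card_univ, smul_eq_mul,
    Nat.card_eq_fintype_card]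

/-- A prime not dividing `q` and dividing the number of pairs divides some `q^(s+1) - 1`,
`n - m ≤ s < n`. -/
theorem exists_dvd_of_dvd_card_pair {V : Type*} [AddCommGroup V] [Module F V] [Finite V] (m : ℕ)
    (hm : m ≤ finrank F V) (r : ℕ) (hr : r.Prime) (hrq : ¬ r ∣ Fintype.card F)
    (h : r ∣ Nat.card {P : Submodule F V × Submodule F V //
      IsCompl P.1 P.2 ∧ finrank F P.1 = m}) :
    ∃ s, finrank F V - m ≤ s ∧ s < finrank F V ∧ r ∣ Fintype.card F ^ (s + 1) - 1 := by
  rw [card_pair] at h
  rcases (Nat.Prime.dvd_mul hr).mp h with h1 | h1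
  · exact exists_dvd_of_dvd_card_gr m hm r hr h1
  · exact absurd (hr.dvd_of_dvd_pow h1) hrq

omit [Fintype F] in
theorem isSemisimple_of_pow_eq_smul {V : Type*} [AddCommGroup V] [Module F V]
    (T : Module.End F V) (r : ℕ) (hr0 : (r : F) ≠ 0) (c : F) (hc0 : c ≠ 0)
    (hT : T ^ r = c • (1 : Module.End F V)) : T.IsSemisimple := by
  apply Module.End.isSemisimple_of_squarefree_aeval_eq_zero
    (p := Polynomial.X ^ r - Polynomial.C c)
  · exact (Polynomial.separable_X_pow_sub_C c hr0 hc0).squarefree
  · simp [hT, Algebra.smul_def]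

omit [Fintype F] in
/-- Invariant complement for a semisimple endomorphism. -/
theorem exists_invariant_compl {V : Type*} [AddCommGroup V] [Module F V]
    (T : Module.End F V) (hss : T.IsSemisimple) (U : Submodule F V) (hU : U.map T ≤ U) :
    ∃ W : Submodule F V, IsCompl U W ∧ W.map T ≤ W := by
  obtain ⟨W, hW, hc⟩ := (Module.End.isSemisimple_iff.mp hss) U
    (by rw [Module.End.mem_invtSubmodule]; exact Submodule.map_le_iff_le_comap.mp hU)
  rw [Module.End.mem_invtSubmodule] at hW
  exact ⟨W, hc, Submodule.map_le_iff_le_comap.mpr hW⟩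

end Pair

end Cfsg.Agent.Lib.Helper96.BG
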