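import Cfsg.Agent.Lib.Helper51.Jordan
import Cfsg.Agent.Lib.Helper96.BGPair

set_option autoImplicit false

namespace Cfsg.Agent.Lib.Helper96.BG

open Module Cfsg.Agent.Lib.Helper51.Jordan

universe u v

theorem kapM_add' (μ ν : Multiset ℕ) (j : ℕ) : kapM (μ + ν) j = kapM μ j + kapM ν j := by
  unfold kapM
  rw [Multiset.map_add, Multiset.sum_add]

/-- The Jordan type of a nilpotent map on an invariant direct summand is a sub-multiset. -/
theorem sub_type_of_isCompl {F : Type v} [Field F] {V : Type u} [AddCommGroup V] [Module F V]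
    [FiniteDimensional F V] (N : Module.End F V) (hnil : IsNilpotent N) (μ : Multiset ℕ)
    (hμ : ∀ c ∈ μ, 0 < c) (hk : ∀ j, kap N j = kapM μ j)
    (U W : Submodule F V) (hc : IsCompl U W) (hU : ∀ x ∈ U, N x ∈ U) (hW : ∀ x ∈ W, N x ∈ W) :
    ∃ ν : Multiset ℕ, ν ≤ μ ∧ ν.sum = finrank F U := by
  have hkap : ∀ j, kap N j = kap (N.restrict hU) j + kap (N.restrict hW) j := by
    intro j
    rw [← kap_prod]
    symm
    apply kap_conj _ _ (Submodule.prodEquivOfIsCompl U W hc)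
    rintro ⟨a, b⟩
    rw [Submodule.coe_prodEquivOfIsCompl', Submodule.coe_prodEquivOfIsCompl']
    simp [map_add]
  obtain ⟨ν, hνpos, hνsum, hνk⟩ := exists_type (finrank F U) U (N.restrict hU)
    (restrict_nil _ hnil U hU) rfl
  obtain ⟨ν', hν'pos, hν'sum, hν'k⟩ := exists_type _ W (N.restrict hW)
    (restrict_nil _ hnil _ hW) rfl
  have hμeq : μ = ν + ν' := by
    apply kapM_inj μ (ν + ν') hμ (fun c hc => by
      rcases Multiset.mem_add.mp hc with h | h
      · exact hνpos c h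
      · exact hν'pos c h)
    intro j
    rw [← hk, hkap, hνk, hν'k, kapM_add']
  exact ⟨ν, by rw [hμeq]; exact Multiset.le_add_right ν ν', hνsum⟩

/-- A nilpotent map of type `μ` has an invariant complementary pair for each sub-multiset. -/
theorem exists_pair_of_sub_type {F : Type v} [Field F] (n : ℕ) (N : Module.End F (Fin n → F))
    (hnil : IsNilpotent N) (μ ν : Multiset ℕ) (hsum : μ.sum = n)
    (hk : ∀ j, kap N j = kapM μ j) (hν : ν ≤ μ) :
    ∃ U W : Submodule F (Fin n → F), IsCompl U W ∧ finrank F U = ν.sum ∧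
      (∀ x ∈ U, N x ∈ U) ∧ (∀ x ∈ W, N x ∈ W) := by
  obtain ⟨N₁, hN₁⟩ := exists_real (F := F) ν ν.sum rfl
  obtain ⟨N₂, hN₂⟩ := exists_real (F := F) (μ - ν) (μ - ν).sum rfl
  have hadd : ν + (μ - ν) = μ := add_tsub_cancel_of_le hν
  have hsum2 : ν.sum + (μ - ν).sum = n := by rw [← Multiset.sum_add, hadd, hsum]
  have hkP : ∀ j, kap (N₁.prodMap N₂) j = kapM μ j := by
    intro j
    rw [kap_prod, hN₁, hN₂, ← kapM_add', hadd]
  have hfinP : finrank F ((Fin ν.sum → F) × (Fin (μ - ν).sum → F)) = n := by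
    rw [Module.finrank_prod, Module.finrank_fin_fun, Module.finrank_fin_fun, hsum2]
  have hnilP : IsNilpotent (N₁.prodMap N₂) := by
    refine ⟨n, ?_⟩
    apply pow_zero_of_kap
    rw [hkP, hfinP, (kapM_eq_sum_iff μ n).mpr (fun c hc => hsum ▸ Multiset.le_sum_of_mem hc), hsum]
  obtain ⟨φ, hφ⟩ := exists_iso_of_kap n (Fin n → F) ((Fin ν.sum → F) × (Fin (μ - ν).sum → F)) N
    (N₁.prodMap N₂) hnil hnilP (Module.finrank_fin_fun F) (fun j => by rw [hk, hkP])
  have hcompl : IsCompl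
      ((LinearMap.range (LinearMap.inl F (Fin ν.sum → F) (Fin (μ - ν).sum → F))).map
        (φ.symm : _ →ₗ[F] (Fin n → F)))
      ((LinearMap.range (LinearMap.inr F (Fin ν.sum → F) (Fin (μ - ν).sum → F))).map
        (φ.symm : _ →ₗ[F] (Fin n → F))) :=
    (Submodule.orderIsoMapComap φ.symm).isCompl
      (LinearMap.isCompl_range_inl_inr (R := F) (M := Fin ν.sum → F) (M₂ := Fin (μ - ν).sum → F))
  have hd : finrank F ((LinearMap.range (LinearMap.inl F (Fin ν.sum → F) (Fin (μ - ν).sum → F))).map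
      (φ.symm : _ →ₗ[F] (Fin n → F))) = ν.sum := by
    rw [LinearEquiv.finrank_map_eq, LinearMap.finrank_range_of_inj LinearMap.inl_injective,
      Module.finrank_fin_fun]
  have hU : ∀ x ∈ (LinearMap.range (LinearMap.inl F (Fin ν.sum → F) (Fin (μ - ν).sum → F))).map
      (φ.symm : _ →ₗ[F] (Fin n → F)), N x ∈
      (LinearMap.range (LinearMap.inl F (Fin ν.sum → F) (Fin (μ - ν).sum → F))).map
      (φ.symm : _ →ₗ[F] (Fin n → F)) := by
    intro x hx
    obtain ⟨y, hy, rfl⟩ := hx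
    obtain ⟨a, rfl⟩ := hy
    refine ⟨LinearMap.inl F _ _ (N₁ a), ⟨N₁ a, rfl⟩, ?_⟩
    apply φ.injective
    rw [hφ, LinearEquiv.coe_coe, LinearEquiv.apply_symm_apply, LinearEquiv.apply_symm_apply]
    ext <;> simp
  have hW : ∀ x ∈ (LinearMap.range (LinearMap.inr F (Fin ν.sum → F) (Fin (μ - ν).sum → F))).map
      (φ.symm : _ →ₗ[F] (Fin n → F)), N x ∈
      (LinearMap.range (LinearMap.inr F (Fin ν.sum → F) (Fin (μ - ν).sum → F))).map
      (φ.symm : _ →ₗ[F] (Fin n → F)) := by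
    intro x hx
    obtain ⟨y, hy, rfl⟩ := hx
    obtain ⟨a, rfl⟩ := hy
    refine ⟨LinearMap.inr F _ _ (N₂ a), ⟨N₂ a, rfl⟩, ?_⟩
    apply φ.injective
    rw [hφ, LinearEquiv.coe_coe, LinearEquiv.apply_symm_apply, LinearEquiv.apply_symm_apply]
    ext <;> simp
  exact ⟨_, _, hcompl, hd, hU, hW⟩

end Cfsg.Agent.Lib.Helper96.BG
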