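import Cfsg.Agent.Lib.Helper96.BGUnip

set_option autoImplicit false

namespace Cfsg.Agent.Lib.Helper96.BG

open Module Cfsg.Agent.Lib.Helper51.Jordan

/-- Partitions into parts `1, 2`: every such partition of `n` contains a partition of `m`
iff `n` is odd or `m` is even. -/
theorem part_two (n m : ℕ) (hmn : m ≤ n) :
    (∀ μ : Multiset ℕ, (∀ a ∈ μ, 0 < a ∧ a ≤ 2) → μ.sum = n →
      ∃ ν : Multiset ℕ, ν ≤ μ ∧ ν.sum = m) ↔ (Odd n ∨ Even m) := by
  constructor
  · intro h
    by_contra hcon
    push Not at hcon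
    obtain ⟨hn, hm⟩ := hcon
    rw [Nat.not_odd_iff_even] at hn
    obtain ⟨t, ht⟩ := hn
    obtain ⟨ν, hν, hνs⟩ := h (Multiset.replicate t 2) (fun a ha => by
      rw [Multiset.eq_of_mem_replicate ha]
      exact ⟨by norm_num, le_rfl⟩) (by rw [Multiset.sum_replicate, smul_eq_mul]; omega)
    obtain ⟨k, -, rfl⟩ := Multiset.le_replicate_iff.mp hν
    rw [Multiset.sum_replicate, smul_eq_mul] at hνs
    exact hm ⟨k, by omega⟩
  · intro h μ hμ hsum
    have hμeq : μ = Multiset.replicate (μ.count 1) 1 + Multiset.replicate (μ.count 2) 2 := by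
      ext c
      rw [Multiset.count_add, Multiset.count_replicate, Multiset.count_replicate]
      by_cases h1 : c = 1
      · subst h1
        simp
      · by_cases h2 : c = 2
        · subst h2
          simp
        · rw [if_neg (Ne.symm h1), if_neg (Ne.symm h2)]
          apply Multiset.count_eq_zero_of_notMem
          intro hc
          have := hμ c hc
          omega
    have hsum' : μ.count 1 + 2 * μ.count 2 = n := by
      rw [← hsum]
      conv_rhs => rw [hμeq]
      rw [Multiset.sum_add, Multiset.sum_replicate, Multiset.sum_replicate, smul_eq_mul,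
        smul_eq_mul]
      ring
    have hodd : n % 2 = 1 ∨ m % 2 = 0 := by
      rcases h with h | h
      · exact Or.inl (Nat.odd_iff.mp h)
      · exact Or.inr (Nat.even_iff.mp h)
    refine ⟨Multiset.replicate (m - 2 * min (μ.count 2) (m / 2)) 1 +
      Multiset.replicate (min (μ.count 2) (m / 2)) 2, ?_, ?_⟩
    · rw [hμeq]
      apply add_le_add
      · rw [← hμeq, Multiset.replicate_le_replicate]
        rcases le_total (μ.count 2) (m / 2) with h3 | h3
        · rw [min_eq_left h3]
          omega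
        · rw [min_eq_right h3]
          omega
      · rw [← hμeq, Multiset.replicate_le_replicate]
        exact min_le_left _ _
    · rw [Multiset.sum_add, Multiset.sum_replicate, Multiset.sum_replicate, smul_eq_mul,
        smul_eq_mul]
      have : min (μ.count 2) (m / 2) ≤ m / 2 := min_le_right _ _
      omega

/-- Unipotent case: every element of order `p` of `PSL_n` fixes a complementary pair with first
component of dimension `m` iff every partition of `n` with parts `≤ p` contains a partition of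
`m`. -/
theorem unip_iff {F : Type*} [Field F] [Fintype F] {p : ℕ} [Fact p.Prime] [CharP F p] (n m : ℕ)
    (hn : 1 ≤ n) (hmn : m ≤ n) :
    (∀ x : Matrix.SpecialLinearGroup (Fin n) F,
      (∃ c : F, ((x ^ p : Matrix.SpecialLinearGroup (Fin n) F) : Matrix (Fin n) (Fin n) F) =
        c • (1 : Matrix (Fin n) (Fin n) F)) →
      (∀ c : F, (x : Matrix (Fin n) (Fin n) F) ≠ c • (1 : Matrix (Fin n) (Fin n) F)) →
      ∃ U W : Submodule F (Fin n → F), IsCompl U W ∧ Module.finrank F ↥U = m ∧
        U.map (Matrix.toLin' (x : Matrix (Fin n) (Fin n) F)) ≤ U ∧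
        W.map (Matrix.toLin' (x : Matrix (Fin n) (Fin n) F)) ≤ W) ↔
    (∀ μ : Multiset ℕ, (∀ a ∈ μ, 0 < a ∧ a ≤ p) → μ.sum = n →
      ∃ ν : Multiset ℕ, ν ≤ μ ∧ ν.sum = m) := by
  classical
  have hp : p.Prime := Fact.out
  have hne : Nonempty (Fin n) := ⟨⟨0, by omega⟩⟩
  have hfin : finrank F (Fin n → F) = n := Module.finrank_fin_fun F
  constructor
  · intro hL μ hμ hsum
    by_cases hbig : ∃ a ∈ μ, 2 ≤ a
    · obtain ⟨g, hnil, hk⟩ := exists_unip (F := F) μ hsum
      have hNp : ((g : Matrix (Fin n) (Fin n) F) - 1) ^ p = 0 := by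
        apply Matrix.toLin'.injective
        rw [Matrix.toLin'_pow, map_zero]
        apply pow_zero_of_kap
        rw [hk, hfin, (kapM_eq_sum_iff μ p).mpr (fun c hc => (hμ c hc).2), hsum]
      have hGp : (g : Matrix (Fin n) (Fin n) F) ^ p = 1 := by
        have h1 := sub_pow_char_of_commute p (Commute.one_right (g : Matrix (Fin n) (Fin n) F))
        rw [hNp, one_pow] at h1
        exact (sub_eq_zero.mp h1.symm)
      have hdet : (g : Matrix (Fin n) (Fin n) F).det = 1 := by
        have h1 : (g : Matrix (Fin n) (Fin n) F).det ^ p = 1 := by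
          rw [← Matrix.det_pow, hGp, Matrix.det_one]
        have h2 := sub_pow_char (g : Matrix (Fin n) (Fin n) F).det 1 (p := p)
        rw [h1, one_pow, sub_self] at h2
        exact sub_eq_zero.mp (pow_eq_zero_iff hp.ne_zero |>.mp h2)
      have hns : ∀ z : F, (g : Matrix (Fin n) (Fin n) F) ≠ z • (1 : Matrix (Fin n) (Fin n) F) := by
        intro z hz
        have hz1 : z = 1 := by
          obtain ⟨K, hK⟩ := hnil
          rw [hz] at hK
          have h1 : (z • (1 : Matrix (Fin n) (Fin n) F) - 1) = (z - 1) • 1 := by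
            rw [sub_smul, one_smul]
          rw [h1, smul_pow, one_pow] at hK
          have h2 := congrFun (congrFun hK ⟨0, by omega⟩) ⟨0, by omega⟩
          simp only [Matrix.smul_apply, Matrix.one_apply_eq, smul_eq_mul, mul_one,
            Matrix.zero_apply] at h2
          have hK0 : K ≠ 0 := by
            rintro rfl
            rw [pow_zero] at h2
            exact one_ne_zero h2
          exact sub_eq_zero.mp ((pow_eq_zero_iff hK0).mp h2)
        rw [hz1, one_smul] at hz
        have h3 : kap (Matrix.toLin' ((g : Matrix (Fin n) (Fin n) F) - 1)) 1 = finrank F (Fin n → F) := by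
          apply kap_of_pow_zero
          rw [hz, sub_self, map_zero, pow_one]
        rw [hk, hfin, ← hsum] at h3
        obtain ⟨a, ha, ha2⟩ := hbig
        have := (kapM_eq_sum_iff μ 1).mp h3 a ha
        omega
      obtain ⟨U, W, hc, hUm, hUinv, hWinv⟩ := hL
        (⟨(g : Matrix (Fin n) (Fin n) F), hdet⟩ : Matrix.SpecialLinearGroup (Fin n) F)
        ⟨1, (Matrix.SpecialLinearGroup.coe_pow _ p).trans (hGp.trans (one_smul _ _).symm)⟩ hns
      have hN : Matrix.toLin' ((g : Matrix (Fin n) (Fin n) F) - 1) =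
          Matrix.toLin' (g : Matrix (Fin n) (Fin n) F) - 1 := by
        rw [map_sub, Matrix.toLin'_one]
        rfl
      have hinv : ∀ Z : Submodule F (Fin n → F),
          Z.map (Matrix.toLin' (g : Matrix (Fin n) (Fin n) F)) ≤ Z →
          ∀ x ∈ Z, Matrix.toLin' ((g : Matrix (Fin n) (Fin n) F) - 1) x ∈ Z := by
        intro Z hZ x hx
        rw [hN, LinearMap.sub_apply]
        exact Z.sub_mem (hZ (Submodule.mem_map_of_mem hx)) hx
      obtain ⟨ν, hν, hνs⟩ := sub_type_of_isCompl _ (toLin_nil _ hnil) μ (fun c hc => (hμ c hc).1) hk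
        U W hc (hinv U hUinv) (hinv W hWinv)
      exact ⟨ν, hν, by rw [hνs, hUm]⟩
    · have hall : ∀ b ∈ μ, b = 1 := fun b hb => by
        have h1 := (hμ b hb).1
        have h2 : ¬ 2 ≤ b := fun h => hbig ⟨b, hb, h⟩
        omega
      have hrep : μ = Multiset.replicate μ.card 1 := Multiset.eq_replicate.mpr ⟨rfl, hall⟩
      have hcard : μ.sum = μ.card := by
        conv_lhs => rw [hrep]
        simp
      refine ⟨Multiset.replicate m 1, ?_, by simp⟩
      rw [hrep, Multiset.replicate_le_replicate]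
      omega
  · intro hP x ⟨c, hxc⟩ hxns
    have hc0 : c ≠ 0 := by
      rintro rfl
      have h1 := congrArg Matrix.det hxc
      rw [Matrix.SpecialLinearGroup.det_coe, zero_smul, Matrix.det_zero] at h1
      exact one_ne_zero h1
    rw [Matrix.SpecialLinearGroup.coe_pow] at hxc
    have hp1 : ¬ p ∣ Fintype.card F - 1 := by
      intro h
      have h1 : p ∣ Fintype.card F ^ (0 + 1) - 1 := by rwa [zero_add, pow_one]
      exact p_not_dvd (F := F) p 0 h1
    obtain ⟨b, hb0, hb⟩ := exists_root_of_not_dvd (F := F) p hp1 c hc0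
    have hYp : (b⁻¹ • (x : Matrix (Fin n) (Fin n) F)) ^ p = 1 := by
      rw [smul_pow, hxc, ← hb, smul_smul, ← mul_pow, inv_mul_cancel₀ hb0, one_pow, one_smul]
    have hNp : (b⁻¹ • (x : Matrix (Fin n) (Fin n) F) - 1) ^ p = 0 := by
      have h1 := sub_pow_char_of_commute p
        (Commute.one_right (b⁻¹ • (x : Matrix (Fin n) (Fin n) F)))
      rw [h1, hYp, one_pow, sub_self]
    have hnil : IsNilpotent (Matrix.toLin' (b⁻¹ • (x : Matrix (Fin n) (Fin n) F) - 1)) :=
      toLin_nil _ ⟨p, hNp⟩
    obtain ⟨μ, hμpos, hμsum, hk⟩ := exists_type n (Fin n → F) _ hnil hfin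
    have hle : ∀ a ∈ μ, a ≤ p := by
      apply (kapM_eq_sum_iff μ p).mp
      have h1 : kap (Matrix.toLin' (b⁻¹ • (x : Matrix (Fin n) (Fin n) F) - 1)) p =
          finrank F (Fin n → F) := by
        apply kap_of_pow_zero
        rw [← Matrix.toLin'_pow, hNp, map_zero]
      rw [hμsum, ← hk]
      exact h1.trans hfin
    obtain ⟨ν, hν, hνs⟩ := hP μ (fun a ha => ⟨hμpos a ha, hle a ha⟩) hμsum
    obtain ⟨U, W, hc, hUd, hU, hW⟩ := exists_pair_of_sub_type n _ hnil μ ν hμsum hk hν
    have hinv : ∀ Z : Submodule F (Fin n → F),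
        (∀ v ∈ Z, Matrix.toLin' (b⁻¹ • (x : Matrix (Fin n) (Fin n) F) - 1) v ∈ Z) →
        Z.map (Matrix.toLin' (x : Matrix (Fin n) (Fin n) F)) ≤ Z := by
      rintro Z hZ _ ⟨v, hv, rfl⟩
      have h1 : Matrix.toLin' (x : Matrix (Fin n) (Fin n) F) v =
          b • (Matrix.toLin' (b⁻¹ • (x : Matrix (Fin n) (Fin n) F) - 1) v + v) := by
        rw [map_sub, map_smul, Matrix.toLin'_one, LinearMap.sub_apply, LinearMap.smul_apply,
          LinearMap.id_apply, sub_add_cancel, smul_smul, mul_inv_cancel₀ hb0, one_smul]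
      rw [h1]
      exact Z.smul_mem b (Z.add_mem (hZ v hv) hv)
    exact ⟨U, W, hc, by rw [hUd, hνs], hinv U hU, hinv W hW⟩

end Cfsg.Agent.Lib.Helper96.BG
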