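import Mathlib
import Cfsg.Prelude.Def_SporadicCombinatorics

set_option autoImplicit false

/-!
# The field with four elements, coded by `Fin 4`, and the hexacode

`0 ↦ 0`, `1 ↦ 1`, `2 ↦ ω`, `3 ↦ ω ^ 2`.  For any field `F` with four elements and any root `ω` of
`X ^ 2 + X + 1` the map `phi4 ω : Fin 4 → F` is a bijection turning the tables `add4`, `mul4` into the
field operations, and the hexacode is the set of the 64 words `phi4 ω ∘ hexW a b c`.
-/

namespace Cfsg.Agent.Lib.Helper96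

/-- addition table of the field with four elements -/
def add4 (a b : Fin 4) : Fin 4 :=
  match a, b with
  | 0, 0 => 0 | 0, 1 => 1 | 0, 2 => 2 | 0, 3 => 3
  | 1, 0 => 1 | 1, 1 => 0 | 1, 2 => 3 | 1, 3 => 2
  | 2, 0 => 2 | 2, 1 => 3 | 2, 2 => 0 | 2, 3 => 1
  | 3, 0 => 3 | 3, 1 => 2 | 3, 2 => 1 | 3, 3 => 0

/-- multiplication table of the field with four elements -/
def mul4 (a b : Fin 4) : Fin 4 :=
  match a, b with
  | 0, 0 => 0 | 0, 1 => 0 | 0, 2 => 0 | 0, 3 => 0
  | 1, 0 => 0 | 1, 1 => 1 | 1, 2 => 2 | 1, 3 => 3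
  | 2, 0 => 0 | 2, 1 => 2 | 2, 2 => 3 | 2, 3 => 1
  | 3, 0 => 0 | 3, 1 => 3 | 3, 2 => 1 | 3, 3 => 2

/-- the decoding map -/
def phi4 {F : Type*} [Field F] (ω : F) (a : Fin 4) : F :=
  match a with
  | 0 => 0 | 1 => 1 | 2 => ω | 3 => ω ^ 2

section
variable {F : Type*} [Field F] [Fintype F]

theorem two_eq_zero_of_card_four (hF : Fintype.card F = 4) : (2 : F) = 0 := by
  have h4 : ((4 : ℕ) : F) = 0 := by rw [← hF]; exact Nat.cast_card_eq_zero F
  have h : (2 : F) ^ 2 = 0 := by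
    have : (2 : F) ^ 2 = ((4 : ℕ) : F) := by norm_num
    rw [this, h4]
  exact pow_eq_zero_iff (two_ne_zero) |>.mp h

variable (hF : Fintype.card F = 4) {ω : F} (hω : ω ^ 2 + ω + 1 = 0)
include hF hω

theorem phi4_add (a b : Fin 4) : phi4 ω (add4 a b) = phi4 ω a + phi4 ω b := by
  have h2 := two_eq_zero_of_card_four hF
  fin_cases a <;> fin_cases b <;> simp only [phi4, add4] <;> grind

theorem phi4_mul (a b : Fin 4) : phi4 ω (mul4 a b) = phi4 ω a * phi4 ω b := by
  have h2 := two_eq_zero_of_card_four hF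
  fin_cases a <;> fin_cases b <;> simp only [phi4, mul4] <;> grind

theorem phi4_eq_zero_iff (a : Fin 4) : phi4 ω a = 0 ↔ a = 0 := by
  have h2 := two_eq_zero_of_card_four hF
  have h1 : (1 : F) ≠ 0 := one_ne_zero
  have hw : ω ≠ 0 := by
    rintro rfl
    apply h1
    simp at hω
  constructor
  · intro h
    fin_cases a
    · rfl
    · exact absurd h h1
    · exact absurd h hw
    · exact absurd (by simpa [phi4] using h) hw
  · rintro rfl
    rfl

theorem phi4_injective : Function.Injective (phi4 ω) := by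
  intro a b hab
  have h2 := two_eq_zero_of_card_four hF
  have h0 : phi4 ω (add4 a b) = 0 := by
    rw [phi4_add hF hω, hab]
    have : phi4 ω b + phi4 ω b = 2 * phi4 ω b := by ring
    rw [this, h2, zero_mul]
  have h := (phi4_eq_zero_iff hF hω _).mp h0
  have key : ∀ a b : Fin 4, add4 a b = 0 → a = b := by decide
  exact key a b h

theorem phi4_bijective : Function.Bijective (phi4 ω) := by
  rw [Fintype.bijective_iff_injective_and_card]
  exact ⟨phi4_injective hF hω, by simp [hF]⟩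

theorem phi4_surjective : Function.Surjective (phi4 ω) := (phi4_bijective hF hω).2

end

/-- first generator of the hexacode, coded -/
def hexG1 (i : Fin 6) : Fin 4 :=
  match i with
  | 0 => 2 | 1 => 3 | 2 => 3 | 3 => 2 | 4 => 3 | 5 => 2

/-- second generator of the hexacode, coded -/
def hexG2 (i : Fin 6) : Fin 4 :=
  match i with
  | 0 => 3 | 1 => 2 | 2 => 2 | 3 => 3 | 4 => 3 | 5 => 2

/-- third generator of the hexacode, coded -/
def hexG3 (i : Fin 6) : Fin 4 :=
  match i with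
  | 0 => 3 | 1 => 2 | 2 => 3 | 3 => 2 | 4 => 2 | 5 => 3

/-- the coded hexacode word with coefficients `a`, `b`, `c` -/
def hexW (a b c : Fin 4) (i : Fin 6) : Fin 4 :=
  add4 (add4 (mul4 a (hexG1 i)) (mul4 b (hexG2 i))) (mul4 c (hexG3 i))

section
variable {F : Type*} [Field F] [Fintype F]
variable (hF : Fintype.card F = 4) {ω : F} (hω : ω ^ 2 + ω + 1 = 0)
include hF hω

theorem mem_hexacode_iff (x : Fin 6 → F) :
    x ∈ Cfsg.hexacode F ω ↔ ∃ a b c : Fin 4, x = fun i => phi4 ω (hexW a b c i) := by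
  have key : ∀ a b c : Fin 4,
      phi4 ω a • ![ω, ω ^ 2, ω ^ 2, ω, ω ^ 2, ω] + phi4 ω b • ![ω ^ 2, ω, ω, ω ^ 2, ω ^ 2, ω] +
        phi4 ω c • ![ω ^ 2, ω, ω ^ 2, ω, ω, ω ^ 2] = fun i => phi4 ω (hexW a b c i) := by
    intro a b c
    funext i
    simp only [hexW, phi4_add hF hω, phi4_mul hF hω]
    fin_cases i <;> simp [hexG1, hexG2, hexG3, phi4]
  rw [Cfsg.hexacode, Submodule.mem_span_triple]
  constructor
  · rintro ⟨r, s, t, rfl⟩
    obtain ⟨a, rfl⟩ := phi4_surjective hF hω r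
    obtain ⟨b, rfl⟩ := phi4_surjective hF hω s
    obtain ⟨c, rfl⟩ := phi4_surjective hF hω t
    exact ⟨a, b, c, key a b c⟩
  · rintro ⟨a, b, c, rfl⟩
    exact ⟨phi4 ω a, phi4 ω b, phi4 ω c, key a b c⟩

end

end Cfsg.Agent.Lib.Helper96
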