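import Cfsg.Agent.Lib.Helper96.HyMain
import Cfsg.Agent.Lib.Helper16.HeFIXCNTE
import Cfsg.Agent.Lib.Helper2.HeWITTTYP
import Cfsg.Agent.Lib.Helper54.HeNECE
import Cfsg.Agent.Lib.Helper69.HeTYPMAP
import Cfsg.Agent.Lib.Helper85.HeEXISTE
import Cfsg.Agent.Lib.Helper86.HeINVSUME
import Cfsg.Agent.Lib.Helper93.HeINVHPE
import Cfsg.Agent.Lib.Helper93.HeINVOLG

/-!
Project HE (S5993, helper96): abstract assembly for ELLIPTIC subspaces (`ND B W ∧ Typ B W (-1)`)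
of a nondegenerate symmetric bilinear space of odd dimension over a finite field of odd
characteristic.
-/

set_option autoImplicit false
set_option linter.unusedSectionVars false
set_option linter.unusedVariables false

namespace Cfsg.Agent.Lib.Helper96.He

open Module Cfsg.Agent.Lib.Helper96.Sp Cfsg.Agent.Lib.Helper96.BG Cfsg.Agent.Lib.Helper47
  Cfsg.Agent.Lib.Helper96.Hy

universe u

variable {F : Type u} [Field F] [Fintype F] {V : Type u} [AddCommGroup V] [Module F V]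
  [FiniteDimensional F V] {B : LinearMap.BilinForm F V}

/-- Nondegenerate and not hyperbolic is the same as elliptic (positive even dimension). -/
theorem ell_iff (hF : Facts B) (W : Submodule F V) (k : ℕ) (hk : finrank F W = 2 * k + 2) :
    (ND B W ∧ ¬ Hyp B W) ↔ (ND B W ∧ Typ B W (-1)) := by
  constructor
  · rintro ⟨hnd, hnh⟩
    refine ⟨hnd, ?_⟩
    rcases hF.typ_ex W hnd k hk with h | h
    · exact absurd (hF.hyp_of_typ W hnd h) hnh
    · exact h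
  · rintro ⟨hnd, ht⟩
    refine ⟨hnd, fun hh => ?_⟩
    have h1 := hF.typ_of_hyp W hh (by omega)
    have := typ_unique h1 ht
    omega

theorem not_dvd_small_ell (p : ℕ) [Fact p.Prime] [CharP F p] (hS : B.IsSymm) (h2 : (2 : F) ≠ 0)
    (hN : ND B ⊤) (r : ℕ) [Fact r.Prime] (hr2 : r ≠ 2) (hrp : r ≠ p) (m : ℕ) (hme : Even m)
    (hm2 : 2 ≤ m) (hmn : m + 1 ≤ finrank F V) (hlt : finrank F V < blk (Fintype.card F) r) :
    ¬ r ∣ Nat.card {W : Submodule F V // finrank F W = m ∧ ND B W ∧ Typ B W (-1)} := by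
  obtain ⟨hrq, hr0, hi⟩ := BG.facts (F := F) p r hrp
  have hF := facts p hS h2 hN
  intro hdvd
  obtain ⟨w, hw⟩ := hme
  obtain ⟨W₀, -, hW₀nd, hW₀fin, hW₀t⟩ := hF.ell_sub (⊤ : Submodule F V) hN w (by omega)
    (by rw [finrank_top]; omega)
  obtain ⟨g, hg, hgr, hg1⟩ := Cfsg.Agent.Lib.Helper34.Hy.exists_isom_of_dvd_card hN
    (fun W : Submodule F V => finrank F W = m ∧ ND B W ∧ Typ B W (-1))
    (fun W g hg hW => by
      obtain ⟨h1, h3, h4⟩ := Cfsg.Agent.Lib.Helper69.He.typ_map W g hg (-1) hW.2.1 hW.2.2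
      exact ⟨by rw [h4, hW.1], h1, h3⟩)
    W₀ ⟨by rw [hW₀fin, hw]; ring, hW₀nd, hW₀t⟩
    (fun W W' hW hW' => Cfsg.Agent.Lib.Helper2.He.witt_typ p hS h2 hN (-1) W W' hW.2.1 hW'.2.1 hW.2.2 hW'.2.2
      (by rw [hW.1, hW'.1])) r hdvd
  have := blk_le_of_isom hS h2 hN r hr2 hrq hr0 g hg hgr hg1
  omega

theorem not_dvd_cong_ell (p : ℕ) [Fact p.Prime] [CharP F p] (hS : B.IsSymm) (h2 : (2 : F) ≠ 0)
    (hN : ND B ⊤) (r : ℕ) [Fact r.Prime] (hr2 : r ≠ 2) (hrp : r ≠ p) (m : ℕ) (hme : Even m)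
    (hm2 : 2 ≤ m) (T : Module.End F V) (hT : Isom B T) (hTr : T ^ r = 1)
    (hm : m < blk (Fintype.card F) r) (hmk : m + 1 ≤ finrank F (LinearMap.ker (T - 1)))
    (hkc : finrank F (LinearMap.ker (T - 1)) < blk (Fintype.card F) r) :
    ¬ r ∣ Nat.card {W : Submodule F V // finrank F W = m ∧ ND B W ∧ Typ B W (-1)} := by
  obtain ⟨hrq, hr0, hi⟩ := BG.facts (F := F) p r hrp
  intro hdvd
  have hcong := Cfsg.Agent.Lib.Helper16.He.card_ell_modEq hS h2 hN r hrq hr0 T hT hTr m hm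
    (fun Z hZR hZ hZnd => blk_dvd' hS h2 hN T hT r hr2 hrq hr0 hTr Z hZR hZ hZnd)
  have hKnd := Cfsg.Agent.Lib.Helper98.O72.nd_ker hS h2 hN T hT r hrq hr0 hTr
  have hS' : (B.restrict (LinearMap.ker (T - 1))).IsSymm := hS.restrict _
  have hN' : ND (B.restrict (LinearMap.ker (T - 1))) ⊤ := by
    intro u _ h
    exact Subtype.ext (hKnd (u : V) u.2 (fun v hv => h ⟨v, hv⟩ Submodule.mem_top))
  have hdvd' := (hcong.dvd_iff (dvd_refl r)).mp hdvd
  exact not_dvd_small_ell p hS' h2 hN' r hr2 hrp m hme hm2 hmk hkc hdvd'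

/-- Odd primes: the criterion for elliptic subspaces. -/
theorem main_odd_ell (p : ℕ) [Fact p.Prime] [CharP F p] (hS : B.IsSymm) (h2 : (2 : F) ≠ 0)
    (hN : ND B ⊤) (hodd : Odd (finrank F V)) (m : ℕ) (hme : Even m) (hm2 : 2 ≤ m)
    (hmn : m + 1 ≤ finrank F V) (r : ℕ) [Fact r.Prime] (hr2 : r ≠ 2) (hrp : r ≠ p)
    (hdvd : r ∣ Nat.card {W : Submodule F V // finrank F W = m ∧ ND B W ∧ Typ B W (-1)}) :
    (∀ T : Module.End F V, Isom B T → T ^ r = 1 → T ≠ 1 →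
      ∃ W : Submodule F V, finrank F W = m ∧ (ND B W ∧ Typ B W (-1)) ∧ W.map T ≤ W) ↔
    (blk (Fintype.card F) r ≤ m ∧
      m % blk (Fintype.card F) r < finrank F V % blk (Fintype.card F) r ∧
      (m % blk (Fintype.card F) r = 0 →
        Even (orderOf ((Fintype.card F : ℕ) : ZMod r)) ∧ Odd (m / blk (Fintype.card F) r))) := by
  obtain ⟨hrq, hr0, hi⟩ := BG.facts (F := F) p r hrp
  have hF := facts p hS h2 hN
  have hR := rfacts p hS h2 hN r hr2 hrp
  constructor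
  · intro hall
    exact Cfsg.Agent.Lib.Helper54.He.crit_of_all_ell hS h2 hN hF r hr2 hrq hr0 hR hodd m hme hm2 hmn hdvd
      (fun hlt => not_dvd_small_ell p hS h2 hN r hr2 hrp m hme hm2 hmn hlt)
      (fun hc => Cfsg.Agent.Lib.Helper68.Hy.exists_max_elt hS h2 hN hF r hr2 hi hodd hc
        (fun H hH b hb hfin htyp =>
          Cfsg.Agent.Lib.Helper40.Hy.exists_fpf p hS h2 r hr2 hrp H hH b hb hfin htyp)
        (fun H hH g hg hgr hfix =>
          Cfsg.Agent.Lib.Helper80.Hy.exists_ext hS h2 H hH g hg r hgr hfix))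
      (fun T hT hTr hm hmk hkc =>
        not_dvd_cong_ell p hS h2 hN r hr2 hrp m hme hm2 T hT hTr hm hmk hkc)
      hall
  · rintro ⟨-, hlt, hpar⟩ T hT hTr -
    exact Cfsg.Agent.Lib.Helper85.He.exists_fix_odd_ell hS h2 hN hF r hr2 hrq hr0 hR hodd m hme hm2 hmn hlt hpar
      T hT hTr

/-- Involutions fix elliptic subspaces. -/
theorem main_two_ell (p : ℕ) [Fact p.Prime] [CharP F p] (hS : B.IsSymm) (h2 : (2 : F) ≠ 0)
    (hN : ND B ⊤) (hq2 : ¬ 2 ∣ Fintype.card F) (hodd : Odd (finrank F V)) (m : ℕ)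
    (hme : Even m) (hm2 : 2 ≤ m) (hmn : m + 1 ≤ finrank F V) (T : Module.End F V)
    (hT : Isom B T) (hT2 : T ^ 2 = 1) :
    ∃ W : Submodule F V, finrank F W = m ∧ (ND B W ∧ Typ B W (-1)) ∧ W.map T ≤ W := by
  have hF := facts p hS h2 hN
  exact Cfsg.Agent.Lib.Helper93.He.invol_fix_gen hS h2 hN hq2 T hT hT2 hodd m hme hm2 hmn
    (fun W => ND B W ∧ Typ B W (-1))
    (fun A E hA hE hAE hAodd hsum hex =>
      Cfsg.Agent.Lib.Helper86.He.invol_sum_ell hS h2 hN hF A E hA hE hAE hAodd hsum m hme hm2 hmn hex)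
    (fun E hE h2E => Cfsg.Agent.Lib.Helper93.He.invol_hp_ell hS h2 hN hF
      (fun W g hg ε hW hT => Cfsg.Agent.Lib.Helper69.He.typ_map W g hg ε hW hT) hodd (by omega) E hE h2E)

end Cfsg.Agent.Lib.Helper96.He
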