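import Cfsg.Agent.Lib.Helper16.HyNDSUB
import Cfsg.Agent.Lib.Helper20.HySUBBLK
import Cfsg.Agent.Lib.Helper28.HyREP
import Cfsg.Agent.Lib.Helper32.HyHYPMAP
import Cfsg.Agent.Lib.Helper34.HyORBIT
import Cfsg.Agent.Lib.Helper39.HyTYPSUM
import Cfsg.Agent.Lib.Helper40.HyFPF
import Cfsg.Agent.Lib.Helper40.HyTYPR
import Cfsg.Agent.Lib.Helper46.HyINVHP
import Cfsg.Agent.Lib.Helper46.HyINVOL
import Cfsg.Agent.Lib.Helper54.HyELLSUB
import Cfsg.Agent.Lib.Helper66.HyCHARPOLY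
import Cfsg.Agent.Lib.Helper68.HyMAXELT
import Cfsg.Agent.Lib.Helper69.HyTYPB
import Cfsg.Agent.Lib.Helper75.HyINVSUM
import Cfsg.Agent.Lib.Helper77.HyNEC
import Cfsg.Agent.Lib.Helper83.HyFIXCNT
import Cfsg.Agent.Lib.Helper86.HyWITTHYP
import Cfsg.Agent.Lib.Helper89.HyBLOCK
import Cfsg.Agent.Lib.Helper90.HyHYPSUB
import Cfsg.Agent.Lib.Helper91.HyEXIST
import Cfsg.Agent.Lib.Helper95.HyTYPA
import Cfsg.Agent.Lib.Helper80.HyEXT
import Cfsg.Agent.Lib.Helper30.O72WITT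
import Cfsg.Agent.Lib.Helper95.O72EVEN
import Cfsg.Agent.Lib.Helper96.BGLin

/-!
Project HY (S5992, helper96): abstract assembly.  Isometries of prime order of a nondegenerate
symmetric bilinear space of odd dimension over a finite field of odd characteristic and the
hyperbolic subspaces they fix.
-/

set_option autoImplicit false
set_option linter.unusedSectionVars false
set_option linter.unusedVariables false

namespace Cfsg.Agent.Lib.Helper96.Hy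

open Module Cfsg.Agent.Lib.Helper96.Sp Cfsg.Agent.Lib.Helper96.BG Cfsg.Agent.Lib.Helper47

universe u

variable {F : Type u} [Field F] [Fintype F] {V : Type u} [AddCommGroup V] [Module F V]
  [FiniteDimensional F V] {B : LinearMap.BilinForm F V}

theorem facts (p : ℕ) [Fact p.Prime] [CharP F p] (hS : B.IsSymm) (h2 : (2 : F) ≠ 0)
    (hN : ND B ⊤) : Facts B where
  typ_of_hyp := fun W hW hpos => Cfsg.Agent.Lib.Helper95.Hy.typ_of_hyp p hS h2 W hW hpos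
  hyp_of_typ := fun W hW hT => Cfsg.Agent.Lib.Helper69.Hy.hyp_of_typ p hS h2 W hW hT
  typ_sup := fun X Y ε₁ ε₂ hX hY hXY h₁ h₂ => Cfsg.Agent.Lib.Helper39.Hy.typ_sup p hS h2 X Y ε₁ ε₂ hX hY hXY h₁ h₂
  typ_ex := fun W hW k hk => typ_exists p hS h2 W hW k hk
  hyp_sub := fun K hK w hw => Cfsg.Agent.Lib.Helper90.Hy.hyp_sub hS h2 K hK w hw
  ell_sub := fun K hK w hw1 hw => Cfsg.Agent.Lib.Helper54.Hy.ell_sub p hS h2
    (fun K hK w hw => Cfsg.Agent.Lib.Helper90.Hy.hyp_sub hS h2 K hK w hw)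
    (fun W hW hpos => Cfsg.Agent.Lib.Helper95.Hy.typ_of_hyp p hS h2 W hW hpos)
    (fun X Y ε₁ ε₂ hX hY hXY h₁ h₂ => Cfsg.Agent.Lib.Helper39.Hy.typ_sup p hS h2 X Y ε₁ ε₂ hX hY hXY h₁ h₂)
    (fun K hK h2K a ha => Cfsg.Agent.Lib.Helper28.Hy.rep hS h2 K hK h2K a ha) K hK w hw1 hw
  nd_sub := fun K hK t ht => Cfsg.Agent.Lib.Helper16.Hy.nd_sub hS h2 K hK t ht
  rep := fun K hK h2K a ha => Cfsg.Agent.Lib.Helper28.Hy.rep hS h2 K hK h2K a ha
  witt_ext := fun X Y φ hφ => Cfsg.Agent.Lib.Helper98.O72.witt_ext hS h2 hN X Y φ hφ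
  hyp_map := fun W g hg hW => Cfsg.Agent.Lib.Helper32.Hy.hyp_map W g hg hW

/-- The dimension of an invariant nondegenerate subspace of the commutator space. -/
theorem blk_dvd' (hS : B.IsSymm) (h2 : (2 : F) ≠ 0) (hN : ND B ⊤) (T : Module.End F V)
    (hT : Isom B T) (r : ℕ) [Fact r.Prime] (hr2 : r ≠ 2) (hrq : ¬ r ∣ Fintype.card F)
    (hr0 : (r : F) ≠ 0) (hTr : T ^ r = 1) (Z : Submodule F V)
    (hZR : Z ≤ LinearMap.range (T - 1)) (hZ : Z.map T ≤ Z) (hZnd : ND B Z) :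
    blk (Fintype.card F) r ∣ finrank F Z := by
  obtain ⟨-, -, -, -, -, -, hdiv, -, -⟩ := pow_one_setup T r hrq hr0 hTr
  have h1 := hdiv Z hZR hZ
  unfold blk
  split_ifs with hev
  · exact h1
  · have hodd : Odd (orderOf ((Fintype.card F : ℕ) : ZMod r)) := Nat.not_even_iff_odd.mp hev
    have h3 : Even (finrank F Z) :=
      Cfsg.Agent.Lib.Helper98.O72.even_finrank_of_nd_range hS h2 hN T hT r hr2 hrq hr0 hTr Z hZ
        hZnd hZR
    have hcop : Nat.Coprime 2 (orderOf ((Fintype.card F : ℕ) : ZMod r)) :=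
      (Nat.coprime_two_left).mpr hodd
    exact hcop.mul_dvd_of_dvd_of_dvd (even_iff_two_dvd.mp h3) h1

theorem rfacts (p : ℕ) [Fact p.Prime] [CharP F p] (hS : B.IsSymm) (h2 : (2 : F) ≠ 0)
    (hN : ND B ⊤) (r : ℕ) [Fact r.Prime] (hr2 : r ≠ 2) (hrp : r ≠ p) : RFacts B r := by
  obtain ⟨hrq, hr0, hi⟩ := BG.facts (F := F) p r hrp
  refine ⟨?_, ?_, ?_⟩
  · intro T hT hTr Z hZR hZ hZnd
    exact blk_dvd' hS h2 hN T hT r hr2 hrq hr0 hTr Z hZR hZ hZnd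
  · intro T hT hTr b hb
    exact Cfsg.Agent.Lib.Helper20.Hy.sub_blk hS h2 hN T hT r hrq hr0 hTr
      (fun W hW hWnd hWR hW0 =>
        Cfsg.Agent.Lib.Helper89.Hy.exists_block hS h2 hN T hT r hr2 hrq hr0 hTr W hW hWnd hWR hW0) b hb
  · intro T hT hTr W₁ hW₁R hW₁ hnd b hb hfin
    have hS' : (B.restrict W₁).IsSymm := hS.restrict W₁
    have hN' : ND (B.restrict W₁) ⊤ := by
      intro u _ h
      exact Subtype.ext (hnd (u : V) u.2 (fun v hv => h ⟨v, hv⟩ Submodule.mem_top))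
    exact Cfsg.Agent.Lib.Helper40.Hy.typ_range p hS h2 hN T hT r hr2 hrp hTr W₁ hW₁R hW₁ hnd
      (fun g hg hgr hfix hpos => Cfsg.Agent.Lib.Helper66.Hy.charpoly_fpf p hS' h2 hN' g hg r Fact.out hr2 hrp hgr
        hfix hpos) b hb hfin

/-- A nontrivial isometry of order `r` needs room. -/
theorem blk_le_of_isom (hS : B.IsSymm) (h2 : (2 : F) ≠ 0) (hN : ND B ⊤) (r : ℕ) [Fact r.Prime]
    (hr2 : r ≠ 2) (hrq : ¬ r ∣ Fintype.card F) (hr0 : (r : F) ≠ 0) (g : Module.End F V)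
    (hg : Isom B g) (hgr : g ^ r = 1) (hg1 : g ≠ 1) : blk (Fintype.card F) r ≤ finrank F V := by
  obtain ⟨-, -, -, -, hRinv, -, -, -, -⟩ := pow_one_setup g r hrq hr0 hgr
  have hRnd := Cfsg.Agent.Lib.Helper98.O72.nd_range hS h2 hN g hg r hrq hr0 hgr
  have hd := blk_dvd' hS h2 hN g hg r hr2 hrq hr0 hgr _ le_rfl hRinv hRnd
  have hpos : 0 < finrank F (LinearMap.range (g - 1)) := by
    rw [Module.finrank_pos_iff_exists_ne_zero]
    by_contra hcon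
    push Not at hcon
    apply hg1
    ext v
    have h3 := hcon ⟨(g - 1) v, LinearMap.mem_range_self _ v⟩
    have h4 : (g - 1) v = 0 := congrArg Subtype.val h3
    rw [LinearMap.sub_apply, Module.End.one_apply, sub_eq_zero] at h4
    rw [h4, Module.End.one_apply]
  exact le_trans (Nat.le_of_dvd hpos hd) (Submodule.finrank_le _)

theorem not_dvd_small (p : ℕ) [Fact p.Prime] [CharP F p] (hS : B.IsSymm) (h2 : (2 : F) ≠ 0)
    (hN : ND B ⊤) (r : ℕ) [Fact r.Prime] (hr2 : r ≠ 2) (hrp : r ≠ p) (m : ℕ) (hme : Even m)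
    (hmn : m + 1 ≤ finrank F V) (hlt : finrank F V < blk (Fintype.card F) r) :
    ¬ r ∣ Nat.card {W : Submodule F V // finrank F W = m ∧ Hyp B W} := by
  obtain ⟨hrq, hr0, hi⟩ := BG.facts (F := F) p r hrp
  intro hdvd
  obtain ⟨w, hw⟩ := hme
  obtain ⟨W₀, -, hW₀, hW₀fin⟩ := Cfsg.Agent.Lib.Helper90.Hy.hyp_sub hS h2 (⊤ : Submodule F V) hN w
    (by rw [finrank_top]; omega)
  obtain ⟨g, hg, hgr, hg1⟩ := Cfsg.Agent.Lib.Helper34.Hy.exists_isom_of_dvd_card hN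
    (fun W : Submodule F V => finrank F W = m ∧ Hyp B W)
    (fun W g hg hW => by
      obtain ⟨h1, h3⟩ := Cfsg.Agent.Lib.Helper32.Hy.hyp_map W g hg hW.2
      exact ⟨by rw [h3, hW.1], h1⟩)
    W₀ ⟨by rw [hW₀fin, hw]; ring, hW₀⟩
    (fun W W' hW hW' => Cfsg.Agent.Lib.Helper86.Hy.witt_hyp p hS h2 hN
      (fun W hW hpos => Cfsg.Agent.Lib.Helper95.Hy.typ_of_hyp p hS h2 W hW hpos) W W' hW.2 hW'.2
      (by rw [hW.1, hW'.1])) r hdvd
  have := blk_le_of_isom hS h2 hN r hr2 hrq hr0 g hg hgr hg1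
  omega

theorem not_dvd_cong (p : ℕ) [Fact p.Prime] [CharP F p] (hS : B.IsSymm) (h2 : (2 : F) ≠ 0)
    (hN : ND B ⊤) (r : ℕ) [Fact r.Prime] (hr2 : r ≠ 2) (hrp : r ≠ p) (m : ℕ) (hme : Even m)
    (T : Module.End F V) (hT : Isom B T) (hTr : T ^ r = 1)
    (hm : m < blk (Fintype.card F) r) (hmk : m + 1 ≤ finrank F (LinearMap.ker (T - 1)))
    (hkc : finrank F (LinearMap.ker (T - 1)) < blk (Fintype.card F) r) :
    ¬ r ∣ Nat.card {W : Submodule F V // finrank F W = m ∧ Hyp B W} := by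
  obtain ⟨hrq, hr0, hi⟩ := BG.facts (F := F) p r hrp
  intro hdvd
  have hcong := Cfsg.Agent.Lib.Helper83.Hy.card_hyp_modEq hS h2 hN r hrq hr0 T hT hTr m hm
    (fun Z hZR hZ hZnd => blk_dvd' hS h2 hN T hT r hr2 hrq hr0 hTr Z hZR hZ hZnd)
  have hKnd := Cfsg.Agent.Lib.Helper98.O72.nd_ker hS h2 hN T hT r hrq hr0 hTr
  have hS' : (B.restrict (LinearMap.ker (T - 1))).IsSymm := hS.restrict _
  have hN' : ND (B.restrict (LinearMap.ker (T - 1))) ⊤ := by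
    intro u _ h
    exact Subtype.ext (hKnd (u : V) u.2 (fun v hv => h ⟨v, hv⟩ Submodule.mem_top))
  have hdvd' := (hcong.dvd_iff (dvd_refl r)).mp hdvd
  exact not_dvd_small p hS' h2 hN' r hr2 hrp m hme hmk hkc hdvd'

/-- Odd primes: the criterion. -/
theorem main_odd (p : ℕ) [Fact p.Prime] [CharP F p] (hS : B.IsSymm) (h2 : (2 : F) ≠ 0)
    (hN : ND B ⊤) (hodd : Odd (finrank F V)) (m : ℕ) (hme : Even m) (hm2 : 2 ≤ m)
    (hmn : m + 1 ≤ finrank F V) (r : ℕ) [Fact r.Prime] (hr2 : r ≠ 2) (hrp : r ≠ p)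
    (hdvd : r ∣ Nat.card {W : Submodule F V // finrank F W = m ∧ Hyp B W}) :
    (∀ T : Module.End F V, Isom B T → T ^ r = 1 → T ≠ 1 →
      ∃ W : Submodule F V, finrank F W = m ∧ Hyp B W ∧ W.map T ≤ W) ↔
    (blk (Fintype.card F) r ≤ m ∧
      m % blk (Fintype.card F) r < finrank F V % blk (Fintype.card F) r ∧
      (Even (orderOf ((Fintype.card F : ℕ) : ZMod r)) → m % blk (Fintype.card F) r = 0 →
        Even (m / blk (Fintype.card F) r))) := by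
  obtain ⟨hrq, hr0, hi⟩ := BG.facts (F := F) p r hrp
  have hF := facts p hS h2 hN
  have hR := rfacts p hS h2 hN r hr2 hrp
  constructor
  · intro hall
    exact Cfsg.Agent.Lib.Helper77.Hy.crit_of_all hS h2 hN hF r hr2 hrq hr0 hR hodd m hme hm2 hmn hdvd
      (fun hlt => not_dvd_small p hS h2 hN r hr2 hrp m hme hmn hlt)
      (fun hc => Cfsg.Agent.Lib.Helper68.Hy.exists_max_elt hS h2 hN hF r hr2 hi hodd hc
        (fun H hH b hb hfin htyp => Cfsg.Agent.Lib.Helper40.Hy.exists_fpf p hS h2 r hr2 hrp H hH b hb hfin htyp)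
        (fun H hH g hg hgr hfix => Cfsg.Agent.Lib.Helper80.Hy.exists_ext hS h2 H hH g hg r hgr hfix))
      (fun T hT hTr hm hmk hkc => not_dvd_cong p hS h2 hN r hr2 hrp m hme T hT hTr hm hmk hkc)
      hall
  · rintro ⟨-, hlt, hpar⟩ T hT hTr -
    exact Cfsg.Agent.Lib.Helper91.Hy.exists_fix_odd hS h2 hN hF r hr2 hrq hr0 hR hodd m hme hm2 hmn hlt hpar T hT
      hTr

/-- Involutions. -/
theorem main_two (p : ℕ) [Fact p.Prime] [CharP F p] (hS : B.IsSymm) (h2 : (2 : F) ≠ 0)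
    (hN : ND B ⊤) (hq2 : ¬ 2 ∣ Fintype.card F) (hodd : Odd (finrank F V)) (m : ℕ)
    (hme : Even m) (hm2 : 2 ≤ m) (hmn : m + 1 ≤ finrank F V) (T : Module.End F V)
    (hT : Isom B T) (hT2 : T ^ 2 = 1) :
    ∃ W : Submodule F V, finrank F W = m ∧ Hyp B W ∧ W.map T ≤ W := by
  have hF := facts p hS h2 hN
  exact Cfsg.Agent.Lib.Helper46.Hy.invol_fix hS h2 hN hq2 T hT hT2 hodd m hme hm2 hmn
    (fun A E hA hE hAE hAodd hsum hex =>
      Cfsg.Agent.Lib.Helper75.Hy.invol_sum hS h2 hN hF A E hA hE hAE hAodd hsum m hme hm2 hmn hex)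
    (fun E hE h2E => Cfsg.Agent.Lib.Helper46.Hy.invol_hp hS h2 hN hF hodd E hE h2E)

end Cfsg.Agent.Lib.Helper96.Hy
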