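import Mathlib
import Cfsg.Agent.S0290
import Cfsg.Agent.Lib.Helper51.HypPairs

/-!
The number of non-singular points of the standard minus-type quadratic form in dimension
`2 * d` over the field with `q` elements is `q ^ (d - 1) * (q ^ d + 1)`.
-/

set_option autoImplicit false
set_option linter.unusedSectionVars false
set_option linter.unusedSimpArgs false

namespace Cfsg.Agent.Lib.Helper96.NsMinus

open Module Cfsg.Agent.Lib.Helper51

/-- Non-singular vectors fibre over non-singular points with fibres of size `q - 1`. -/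
theorem card_ns_vectors {F V : Type*} [Field F] [Fintype F] [AddCommGroup V] [Module F V]
    [Finite V] (Q : QuadraticForm F V) :
    Nat.card {v : V // Q v ≠ 0}
      = Nat.card {W : Submodule F V // finrank F ↥W = 1 ∧ ∃ v ∈ W, Q v ≠ 0}
        * (Fintype.card F - 1) := by
  classical
  have hQs : ∀ (c : F) (v : V), Q (c • v) = c * c * Q v := by
    intro c v
    rw [QuadraticMap.map_smul, smul_eq_mul]
  have hne : ∀ v : {v : V // Q v ≠ 0}, v.1 ≠ 0 := by
    rintro ⟨v, hv⟩ rfl
    exact hv (map_zero Q)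
  let f : {v : V // Q v ≠ 0} → {W : Submodule F V // finrank F ↥W = 1 ∧ ∃ v ∈ W, Q v ≠ 0} :=
    fun v => ⟨Submodule.span F {v.1}, finrank_span_singleton (hne v),
      v.1, Submodule.mem_span_singleton_self _, v.2⟩
  have hfib : ∀ W, Nat.card {a // f a = W} = Fintype.card F - 1 := by
    rintro ⟨W, hfr, v₀, hv₀W, hQv₀⟩
    have hv₀0 : v₀ ≠ 0 := hne ⟨v₀, hQv₀⟩
    have hWspan : Submodule.span F {v₀} = W := by
      apply Submodule.eq_of_le_of_finrank_eq
      · rw [Submodule.span_singleton_le_iff_mem]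
        exact hv₀W
      · rw [finrank_span_singleton hv₀0, hfr]
    have hcu : Nat.card Fˣ = Fintype.card F - 1 := by
      rw [Nat.card_units, Nat.card_eq_fintype_card]
    rw [← hcu]
    symm
    apply Nat.card_congr
    refine Equiv.ofBijective (fun c : Fˣ => ⟨⟨(c : F) • v₀, by
      rw [hQs]
      exact mul_ne_zero (mul_ne_zero c.ne_zero c.ne_zero) hQv₀⟩, by
      apply Subtype.ext
      show Submodule.span F {(c : F) • v₀} = W
      rw [← hWspan]
      exact Submodule.span_singleton_smul_eq c.isUnit v₀⟩) ⟨?_, ?_⟩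
    · intro c c' hcc
      have h1 : (c : F) • v₀ = (c' : F) • v₀ := congrArg (fun a => a.1.1) hcc
      have h3 : ((c : F) - (c' : F)) • v₀ = 0 := by rw [sub_smul, h1, sub_self]
      rcases smul_eq_zero.mp h3 with h | h
      · exact Units.ext (sub_eq_zero.mp h)
      · exact absurd h hv₀0
    · rintro ⟨⟨v, hv⟩, ha⟩
      have h1 : Submodule.span F {v} = W := congrArg Subtype.val ha
      have h3 : v ∈ Submodule.span F {v₀} := by
        rw [hWspan, ← h1]
        exact Submodule.mem_span_singleton_self v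
      obtain ⟨c, rfl⟩ := Submodule.mem_span_singleton.mp h3
      have hc0 : c ≠ 0 := by
        rintro rfl
        rw [zero_smul] at hv
        exact hv (map_zero Q)
      exact ⟨Units.mk0 c hc0, rfl⟩
  have : Fintype {W : Submodule F V // finrank F ↥W = 1 ∧ ∃ v ∈ W, Q v ≠ 0} :=
    Fintype.ofFinite _
  rw [← Nat.card_congr (Equiv.sigmaFiberEquiv f), Nat.card_sigma]
  simp only [hfib, Finset.sum_const, Finset.card_univ, smul_eq_mul, Nat.card_eq_fintype_card]

/-- The arithmetic behind the number of non-singular points (minus type). -/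
theorem ns_arith_minus (q d N : ℕ) (hq : 2 ≤ q) (hd : 1 ≤ d)
    (h : N * (q - 1) + (q ^ (2 * d - 1) + q ^ (d - 1) - q ^ d) = q ^ (2 * d)) :
    N = q ^ (d - 1) * (q ^ d + 1) := by
  obtain ⟨s, rfl⟩ : ∃ s, q = s + 1 := ⟨q - 1, by omega⟩
  obtain ⟨e, rfl⟩ : ∃ e, d = e + 1 := ⟨d - 1, by omega⟩
  have hs : 0 < s := by omega
  have e1 : (s + 1) ^ (2 * (e + 1) - 1) = (s + 1) ^ e * (s + 1) ^ e * (s + 1) := by
    rw [show 2 * (e + 1) - 1 = e + e + 1 by omega, pow_succ, pow_add]
  have e2 : (s + 1) ^ (e + 1) = (s + 1) ^ e * (s + 1) := pow_succ _ _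
  have e3 : (s + 1) ^ (2 * (e + 1)) = (s + 1) ^ e * (s + 1) ^ e * (s + 1) * (s + 1) := by
    rw [show 2 * (e + 1) = e + e + 1 + 1 by omega, pow_succ, pow_succ, pow_add]
  simp only [Nat.add_sub_cancel] at h ⊢
  rw [e1, e2, e3] at h
  rw [e2]
  have hB : 1 ≤ (s + 1) ^ e := Nat.one_le_pow _ _ (by omega)
  generalize (s + 1) ^ e = B at *
  have hx : B * (s + 1) = B * s + B := by ring
  have hle : B * s ≤ B * B * (s + 1) := by
    have h1 : s ≤ B * (s + 1) :=
      le_trans (by omega : s ≤ 1 * (s + 1)) (Nat.mul_le_mul_right _ hB)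
    have h3 := Nat.mul_le_mul_left B h1
    rw [← mul_assoc] at h3
    exact h3
  have hxx : B * B * (s + 1) * (s + 1) = B * B * (s + 1) * s + B * B * (s + 1) := by ring
  rw [hx, hxx] at h
  have h5 : N * s = B * B * (s + 1) * s + B * s := by omega
  apply Nat.eq_of_mul_eq_mul_right hs
  rw [h5]
  ring

/-- The number of non-singular points of the minus-type form in dimension `2d` over the field
with `q` elements is `q ^ (d - 1) * (q ^ d + 1)`. -/
theorem card_nonsingular_points_minus {F : Type*} [Field F] [Fintype F] {q : ℕ}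
    (hq : Fintype.card F = q) (d : ℕ) (hd : 1 ≤ d) (a b : F)
    (hab : ∀ z₁ z₂ : F, z₁ ^ 2 + a * z₁ * z₂ + b * z₂ ^ 2 = 0 → z₁ = 0 ∧ z₂ = 0) :
    Nat.card {W : Submodule F ((Fin (d - 1) ⊕ Fin (d - 1)) ⊕ Fin 2 → F) //
      Module.finrank F ↥W = 1 ∧ ∃ v ∈ W, Cfsg.quadFormMinus (d - 1) F a b v ≠ 0}
      = q ^ (d - 1) * (q ^ d + 1) := by
  classical
  have hq2 : 2 ≤ q := by rw [← hq]; exact Fintype.one_lt_card
  apply ns_arith_minus q d _ hq2 hd
  have hcard := card_ns_vectors (QMinus (d - 1) F a b)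
  rw [coe_QMinus, hq] at hcard
  rw [← hcard, ← Cfsg.Agent.S0290.result hq d hd a b hab]
  have htot : Nat.card ((Fin (d - 1) ⊕ Fin (d - 1)) ⊕ Fin 2 → F) = q ^ (2 * d) := by
    rw [Nat.card_eq_fintype_card, Fintype.card_fun, Fintype.card_sum, Fintype.card_sum,
      Fintype.card_fin, Fintype.card_fin, hq]
    congr 1
    omega
  rw [← htot, Nat.card_eq_fintype_card, Nat.card_eq_fintype_card, Nat.card_eq_fintype_card]
  have h5 := Fintype.card_subtype_compl
    (fun v : (Fin (d - 1) ⊕ Fin (d - 1)) ⊕ Fin 2 → F => Cfsg.quadFormMinus (d - 1) F a b v = 0)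
  have h6 := Fintype.card_subtype_le
    (fun v : (Fin (d - 1) ⊕ Fin (d - 1)) ⊕ Fin 2 → F => Cfsg.quadFormMinus (d - 1) F a b v = 0)
  have h7 : Fintype.card {v : (Fin (d - 1) ⊕ Fin (d - 1)) ⊕ Fin 2 → F //
        Cfsg.quadFormMinus (d - 1) F a b v ≠ 0}
      = Fintype.card {v : (Fin (d - 1) ⊕ Fin (d - 1)) ⊕ Fin 2 → F //
        ¬ Cfsg.quadFormMinus (d - 1) F a b v = 0} :=
    Fintype.card_congr (Equiv.refl _)
  omega

end Cfsg.Agent.Lib.Helper96.NsMinus
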