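import Mathlib

set_option autoImplicit false

namespace Cfsg.Agent.Lib.Helper96.NsMinus

open Module

/-- Field model of a fixed-point-free isometry of prime order `r ∣ q ^ d + 1`: on an extension
`K` of degree `2 * d` of the finite field `F` there are a quadratic form with non-degenerate
polar form and an isometry `x` with `x ^ r = 1` fixing no non-zero vector. -/
theorem exists_field_model {F K : Type*} [Field F] [Fintype F] [Field K] [Fintype K]
    [Algebra F K] (d : ℕ) (hd : d ≠ 0) (hK : Module.finrank F K = 2 * d) (r : ℕ)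
    [Fact r.Prime] (hr : r ∣ Fintype.card F ^ d + 1) :
    ∃ (Q : QuadraticForm F K) (x : K →ₗ[F] K), (QuadraticMap.polarBilin Q).Nondegenerate ∧
      (∀ v, Q (x v) = Q v) ∧ x ^ r = 1 ∧ ∀ v, x v = v → v = 0 := by
  classical
  obtain ⟨q, hq⟩ : ∃ q, q = Fintype.card F := ⟨_, rfl⟩
  rw [← hq] at hr
  have hcardK : Fintype.card K = q ^ (2 * d) := by
    rw [← hK, hq]; exact Module.card_eq_pow_finrank
  -- the Frobenius power of order two
  obtain ⟨σ, hσdef⟩ : ∃ σ : K ≃ₐ[F] K, σ = (FiniteField.frobeniusAlgEquivOfAlgebraic F K) ^ d :=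
    ⟨_, rfl⟩
  have hσ : ∀ v, σ v = v ^ (q ^ d) := by
    intro v
    rw [hσdef, AlgEquiv.coe_pow, FiniteField.coe_frobeniusAlgEquivOfAlgebraic_iterate, hq]
  have hσσ : ∀ v, σ (σ v) = v := by
    intro v
    rw [hσ, hσ, ← pow_mul, ← pow_add, ← two_mul, ← hcardK, FiniteField.pow_card]
  have hσne : σ ≠ 1 := by
    rw [hσdef]
    apply pow_ne_one_of_lt_orderOf hd
    rw [FiniteField.orderOf_frobeniusAlgEquivOfAlgebraic, hK]
    omega
  obtain ⟨c, hc⟩ : ∃ c : K, c + σ c ≠ 0 := by
    by_contra hcon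
    push Not at hcon
    have h1 := hcon 1
    rw [map_one] at h1
    apply hσne
    ext v
    have h3 := hcon v
    rw [AlgEquiv.one_apply]
    linear_combination h3 - v * h1
  -- the bilinear map
  obtain ⟨β, hβ⟩ : ∃ β : LinearMap.BilinForm F K, ∀ v w, β v w = Algebra.trace F K (c * v * σ w) :=
    ⟨LinearMap.mk₂ F (fun v w => Algebra.trace F K (c * v * σ w))
      (fun v v' w => by rw [← map_add]; congr 1; ring)
      (fun t v w => by
        rw [← map_smul]; congr 1
        rw [mul_smul_comm, smul_mul_assoc])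
      (fun v w w' => by rw [← map_add, map_add σ]; congr 1; ring)
      (fun t v w => by
        rw [← map_smul]; congr 1
        rw [map_smul, mul_smul_comm]), fun v w => rfl⟩
  have htr : ∀ v, Algebra.trace F K (σ v) = Algebra.trace F K v :=
    fun v => Algebra.trace_eq_of_algEquiv σ v
  have hpol : ∀ v w, β v w + β w v = Algebra.trace F K ((c + σ c) * v * σ w) := by
    intro v w
    have h1 : σ (c * w * σ v) = σ c * σ w * v := by rw [map_mul, map_mul, hσσ]
    rw [hβ, hβ, ← htr (c * w * σ v), h1, ← map_add]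
    congr 1
    ring
  refine ⟨LinearMap.BilinMap.toQuadraticMap β, ?_⟩
  -- the element of order r
  have hcu : Nat.card Kˣ = q ^ (2 * d) - 1 := by
    rw [Nat.card_units, Nat.card_eq_fintype_card, hcardK]
  have hdvd : r ∣ Nat.card Kˣ := by
    rw [hcu]
    have h1 : q ^ (2 * d) - 1 = (q ^ d - 1) * (q ^ d + 1) := by
      have h3 : 1 ≤ q ^ d := Nat.one_le_pow _ _ (by rw [hq]; exact Fintype.card_pos)
      obtain ⟨m, hm⟩ : ∃ m, q ^ d = m + 1 := ⟨q ^ d - 1, by omega⟩
      rw [two_mul, pow_add, hm]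
      simp only [Nat.add_sub_cancel]
      have : (m + 1) * (m + 1) = m * (m + 1 + 1) + 1 := by ring
      rw [this]
      simp
    rw [h1]
    exact Dvd.dvd.mul_left hr _
  obtain ⟨θ, hθ⟩ := exists_prime_orderOf_dvd_card' (G := Kˣ) r hdvd
  have hθ1 : (θ : K) ≠ 1 := by
    intro h
    have : θ = 1 := Units.ext h
    rw [this, orderOf_one] at hθ
    exact (Fact.out : r.Prime).one_lt.ne hθ
  have hθr : (θ : K) ^ r = 1 := by
    rw [← Units.val_pow_eq_pow_val, ← hθ, pow_orderOf_eq_one, Units.val_one]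
  have hθσ : (θ : K) * σ (θ : K) = 1 := by
    rw [hσ, ← pow_succ']
    obtain ⟨k, hk⟩ := hr
    rw [hk, pow_mul, hθr, one_pow]
  have hx : ∀ v, Algebra.lmul F K (θ : K) v = (θ : K) * v := fun v => rfl
  refine ⟨Algebra.lmul F K (θ : K), ?_, ?_, ?_, ?_⟩
  · rw [LinearMap.BilinMap.polarBilin_toQuadraticMap]
    refine LinearMap.BilinForm.nondegenerate_iff_ker_eq_bot.mpr ?_
    rw [LinearMap.ker_eq_bot']
    intro v hv
    by_contra hv0
    have hγ : (c + σ c) * v ≠ 0 := mul_ne_zero hc hv0
    have hnd := traceForm_nondegenerate F K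
    rw [LinearMap.BilinForm.nondegenerate_iff_ker_eq_bot, LinearMap.ker_eq_bot'] at hnd
    apply hγ
    apply hnd
    ext t
    rw [Algebra.traceForm_apply, LinearMap.zero_apply]
    have h3 := congrArg (fun f : K →ₗ[F] F => f (σ t)) hv
    simp only [LinearMap.add_apply, LinearMap.flip_apply, LinearMap.zero_apply] at h3
    rw [hpol, hσσ] at h3
    exact h3
  · intro v
    have h1 : c * ((θ : K) * v) * σ ((θ : K) * v) = c * v * σ v := by
      rw [map_mul]
      linear_combination (c * v * σ v) * hθσ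
    rw [LinearMap.BilinMap.toQuadraticMap_apply, LinearMap.BilinMap.toQuadraticMap_apply, hβ, hβ,
      hx, h1]
  · rw [← map_pow, hθr, map_one]
  · intro v hv
    rw [hx] at hv
    have h1 : ((θ : K) - 1) * v = 0 := by rw [sub_mul, hv, one_mul, sub_self]
    rcases mul_eq_zero.mp h1 with h | h
    · exact absurd (sub_eq_zero.mp h) hθ1
    · exact h

end Cfsg.Agent.Lib.Helper96.NsMinus
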