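import Mathlib
import Cfsg.Agent.S2616
import Cfsg.Agent.S2619
import Cfsg.Agent.Lib.Helper51.HypPairs
import Cfsg.Agent.Lib.Helper44.OrthForms

/-!
Characteristic two: a quadratic space of dimension `2 * d` over a finite field with
non-degenerate polar form is isometric to the standard hyperbolic form or to the standard
minus-type form with any prescribed anisotropic binary part.
-/

set_option autoImplicit false
set_option linter.unusedSectionVars false
set_option linter.unusedSimpArgs false

namespace Cfsg.Agent.Lib.Helper96.NsMinus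

open Module Cfsg.Agent.Lib.Helper51

/-- In characteristic two a quadratic form is determined by its values and its polar form on a
basis. -/
theorem quad_eq_of_basis {F V ι : Type*} [Field F] [Finite F] [CharP F 2] [AddCommGroup V]
    [Module F V] [Fintype ι] (b : Module.Basis ι F V) (Q₁ Q₂ : QuadraticForm F V)
    (h1 : ∀ i, Q₁ (b i) = Q₂ (b i))
    (h2 : ∀ i j, QuadraticMap.polar ⇑Q₁ (b i) (b j) = QuadraticMap.polar ⇑Q₂ (b i) (b j)) :
    Q₁ = Q₂ := by
  have h20 : (2 : F) = 0 := CharTwo.two_eq_zero
  have hAlt : (QuadraticMap.polarBilin Q₂).IsAlt := by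
    intro v
    rw [QuadraticMap.polarBilin_apply_apply, QuadraticMap.polar_self, two_smul]
    linear_combination (Q₂ v) * h20
  obtain ⟨Q, -, huniq⟩ := Cfsg.Agent.S2619.result b (QuadraticMap.polarBilin Q₂) hAlt
    (fun i => Q₂ (b i))
  have e1 := huniq Q₁ ⟨LinearMap.BilinForm.ext_basis b (fun i j => h2 i j), h1⟩
  have e2 := huniq Q₂ ⟨rfl, fun i => rfl⟩
  rw [e1, e2]

/-- The Artin–Schreier argument: two anisotropic binary forms in characteristic two are related
by a shear. -/
theorem exists_shear_param {F : Type*} [Field F] [Fintype F] [CharP F 2] (a b ζ : F)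
    (hab : ∀ x y : F, x ^ 2 + a * x * y + b * y ^ 2 = 0 → x = 0 ∧ y = 0)
    (hζ : ∀ t : F, t ^ 2 + t + ζ ≠ 0) : ∃ α : F, α ^ 2 + α * a + a ^ 2 * ζ = b := by
  have h2 : (2 : F) = 0 := CharTwo.two_eq_zero
  have ha : a ≠ 0 := Cfsg.Agent.Lib.Helper44.aniso_ne_zero a b hab
  obtain ⟨P, hP⟩ : ∃ P : F →+ F, ∀ s, P s = s ^ 2 + s :=
    ⟨{ toFun := fun s => s ^ 2 + s
       map_zero' := by simp
       map_add' := fun s t => by linear_combination (s * t) * h2 }, fun s => rfl⟩
  have hker : Nat.card P.ker = 2 := by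
    rw [Nat.card_eq_two_iff]
    refine ⟨⟨0, by rw [AddMonoidHom.mem_ker, map_zero]⟩,
      ⟨1, by rw [AddMonoidHom.mem_ker, hP]; linear_combination h2⟩, ?_, ?_⟩
    · intro h
      exact one_ne_zero (congrArg Subtype.val h).symm
    · ext ⟨s, hs⟩
      simp only [Set.mem_insert_iff, Set.mem_singleton_iff, Set.mem_univ, iff_true]
      rw [AddMonoidHom.mem_ker, hP] at hs
      have h3 : s * (s + 1) = 0 := by linear_combination hs
      rcases mul_eq_zero.mp h3 with h | h
      · left; exact Subtype.ext h
      · right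
        apply Subtype.ext
        show s = 1
        linear_combination h - h2
  have hidx : P.range.index = 2 := by
    have h1 := AddSubgroup.card_mul_index P.ker
    have h3 := AddSubgroup.card_mul_index P.range
    rw [AddSubgroup.index_ker, hker] at h1
    have hN : 0 < Nat.card P.range := Nat.card_pos
    exact Nat.eq_of_mul_eq_mul_left hN (by rw [h3, ← h1, mul_comm])
  have hζ' : ζ ∉ P.range := by
    rintro ⟨t, ht⟩
    rw [hP] at ht
    apply hζ t
    linear_combination ht + ζ * h2
  have hη : b / a ^ 2 ∉ P.range := by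
    rintro ⟨s, hs⟩
    rw [hP] at hs
    have hs' : a ^ 2 * (s ^ 2 + s) = b := by rw [hs]; field_simp
    have := (hab (a * s) 1 (by linear_combination hs' + b * h2)).2
    exact one_ne_zero this
  have h5 : ζ + b / a ^ 2 ∈ P.range :=
    (AddSubgroup.add_mem_iff_of_index_two hidx).mpr (iff_of_false hζ' hη)
  obtain ⟨s, hs⟩ := h5
  rw [hP] at hs
  have hs' : a ^ 2 * (s ^ 2 + s) = a ^ 2 * ζ + b := by rw [hs]; field_simp
  exact ⟨a * s, by linear_combination hs' + (a ^ 2 * ζ) * h2⟩

/-- Shear of the last two coordinates. -/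
noncomputable def shear {F : Type*} [Field F] (n : ℕ) (α β : F) (hβ : β ≠ 0) :
    (((Fin n ⊕ Fin n) ⊕ Fin 2) → F) ≃ₗ[F] (((Fin n ⊕ Fin n) ⊕ Fin 2) → F) where
  toFun c := Sum.elim (fun k => c (Sum.inl k))
    ![c (Sum.inr 0) - α / β * c (Sum.inr 1), c (Sum.inr 1) / β]
  invFun c := Sum.elim (fun k => c (Sum.inl k))
    ![c (Sum.inr 0) + α * c (Sum.inr 1), β * c (Sum.inr 1)]
  map_add' x y := by
    funext k
    rcases k with k | k
    · simp
    · fin_cases k
      · simp; ring
      · simp; ring
  map_smul' t x := by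
    funext k
    rcases k with k | k
    · simp
    · fin_cases k
      · simp; ring
      · simp; ring
  left_inv c := by
    funext k
    rcases k with k | k
    · simp
    · fin_cases k
      · simp; field_simp; ring
      · simp; field_simp
  right_inv c := by
    funext k
    rcases k with k | k
    · simp
    · fin_cases k
      · simp; field_simp; ring
      · simp; field_simp

theorem shear_inl {F : Type*} [Field F] (n : ℕ) (α β : F) (hβ : β ≠ 0)
    (c : ((Fin n ⊕ Fin n) ⊕ Fin 2) → F) (k : Fin n ⊕ Fin n) :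
    shear n α β hβ c (Sum.inl k) = c (Sum.inl k) := rfl

theorem shear_zero {F : Type*} [Field F] (n : ℕ) (α β : F) (hβ : β ≠ 0)
    (c : ((Fin n ⊕ Fin n) ⊕ Fin 2) → F) :
    shear n α β hβ c (Sum.inr 0) = c (Sum.inr 0) - α / β * c (Sum.inr 1) := rfl

theorem shear_one {F : Type*} [Field F] (n : ℕ) (α β : F) (hβ : β ≠ 0)
    (c : ((Fin n ⊕ Fin n) ⊕ Fin 2) → F) :
    shear n α β hβ c (Sum.inr 1) = c (Sum.inr 1) / β := rfl

/-- A quadratic space of dimension `2 * d` in characteristic two (non-degenerate polar form) is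
isometric to the standard hyperbolic space or to the standard minus-type space with the
prescribed anisotropic binary part. -/
theorem exists_equiv_std {F V : Type*} [Field F] [Fintype F] [CharP F 2] [AddCommGroup V]
    [Module F V] [FiniteDimensional F V] {d : ℕ} (hd : 1 ≤ d) (hV : finrank F V = 2 * d)
    (Q : QuadraticForm F V) (hQ : (QuadraticMap.polarBilin Q).Nondegenerate) (a b : F)
    (hab : ∀ x y : F, x ^ 2 + a * x * y + b * y ^ 2 = 0 → x = 0 ∧ y = 0) :
    (∃ e : V ≃ₗ[F] (Fin d ⊕ Fin d → F), ∀ v, Cfsg.quadFormPlus d F (e v) = Q v) ∨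
    (∃ e : V ≃ₗ[F] ((Fin (d - 1) ⊕ Fin (d - 1)) ⊕ Fin 2 → F),
      ∀ v, Cfsg.quadFormMinus (d - 1) F a b (e v) = Q v) := by
  classical
  have h20 : (2 : F) = 0 := CharTwo.two_eq_zero
  rcases Cfsg.Agent.S2616.result hd hV Q hQ with
    ⟨b₀, hb1, hb2, hb3⟩ | ⟨b₀, ζ, hζ, hb1, hb2, hb3, hb4, hx, hxy, hy⟩
  · left
    have hbk : ∀ k, b₀.equivFun (b₀ k) = Pi.single k 1 := by
      intro k
      funext j
      rw [Module.Basis.equivFun_self, Pi.single_apply]
      simp [eq_comm]
    refine ⟨b₀.equivFun, fun v => ?_⟩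
    have key := quad_eq_of_basis b₀
      ((QPlus d F).comp (b₀.equivFun : V →ₗ[F] (Fin d ⊕ Fin d → F))) Q ?_ ?_
    · rw [← coe_QPlus, ← key]
      rfl
    · intro k
      rw [QuadraticMap.comp_apply, LinearEquiv.coe_coe, hbk, QPlus_apply]
      rcases k with k | k
      · rw [(hb1 k).1]
        simp
      · rw [(hb1 k).2]
        simp
    · intro k l
      have e1 : QuadraticMap.polar
          ⇑((QPlus d F).comp (b₀.equivFun : V →ₗ[F] (Fin d ⊕ Fin d → F))) (b₀ k) (b₀ l)
          = QuadraticMap.polar ⇑(QPlus d F) (Pi.single k 1) (Pi.single l 1) := by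
        simp only [QuadraticMap.polar, QuadraticMap.comp_apply, map_add, LinearEquiv.coe_coe, hbk]
      rw [e1, polar_QPlus]
      rcases k with k | k <;> rcases l with l | l
      · rw [(hb3 k l).1]
        simp
      · rw [hb2 k l]
        by_cases hkl : k = l
        · subst hkl
          simp [Pi.single_apply]
        · simp [Pi.single_apply, hkl, Ne.symm hkl]
      · rw [QuadraticMap.polar_comm, hb2 l k]
        by_cases hkl : l = k
        · subst hkl
          simp [Pi.single_apply]
        · simp [Pi.single_apply, hkl, Ne.symm hkl]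
      · rw [(hb3 k l).2]
        simp
  · right
    have ha : a ≠ 0 := Cfsg.Agent.Lib.Helper44.aniso_ne_zero a b hab
    obtain ⟨α, hα⟩ := exists_shear_param a b ζ hab hζ
    obtain ⟨β, hββ⟩ : ∃ β : F, β = a := ⟨a, rfl⟩
    have hβ : β ≠ 0 := by rw [hββ]; exact ha
    have h1 : 2 * α + β = a := by rw [hββ]; linear_combination α * h20
    have h2' : α ^ 2 + α * β + β ^ 2 * ζ = b := by rw [hββ]; exact hα
    have hbk : ∀ k, b₀.equivFun (b₀ k) = Pi.single k 1 := by
      intro k
      funext j
      rw [Module.Basis.equivFun_self, Pi.single_apply]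
      simp [eq_comm]
    obtain ⟨T, hTdef⟩ : ∃ T : V ≃ₗ[F] (((Fin (d - 1) ⊕ Fin (d - 1)) ⊕ Fin 2) → F),
        ∀ v, T v = shear (d - 1) α β hβ (b₀.equivFun v) :=
      ⟨b₀.equivFun ≪≫ₗ shear (d - 1) α β hβ, fun v => rfl⟩
    refine ⟨T, fun v => ?_⟩
    have key := quad_eq_of_basis b₀ ((QMinus (d - 1) F a b).comp
      (T : V →ₗ[F] (((Fin (d - 1) ⊕ Fin (d - 1)) ⊕ Fin 2) → F))) Q ?_ ?_
    · rw [← coe_QMinus, ← key]
      rfl
    · intro k
      rw [QuadraticMap.comp_apply, LinearEquiv.coe_coe, hTdef, hbk, QMinus_apply]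
      simp only [shear_inl, shear_zero, shear_one]
      rcases k with (k | k) | k
      · rw [(hb1 k).1]
        simp
      · rw [(hb1 k).2]
        simp
      · revert k
        refine Fin.forall_fin_two.mpr ⟨?_, ?_⟩
        · rw [hx]
          simp
        · rw [hy]
          simp
          field_simp
          linear_combination (-1 : F) * h2' + (α * β + α ^ 2 - α * a + α ^ 2) * h20 - α * h1
    · intro k l
      have e1 : QuadraticMap.polar ⇑((QMinus (d - 1) F a b).comp
          (T : V →ₗ[F] (((Fin (d - 1) ⊕ Fin (d - 1)) ⊕ Fin 2) → F)))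
            (b₀ k) (b₀ l)
          = QuadraticMap.polar ⇑(QMinus (d - 1) F a b)
            (shear (d - 1) α β hβ (Pi.single k 1))
            (shear (d - 1) α β hβ (Pi.single l 1)) := by
        simp only [QuadraticMap.polar, QuadraticMap.comp_apply, map_add, LinearEquiv.coe_coe,
          hTdef, hbk]
      rw [e1, polar_QMinus]
      simp only [shear_inl, shear_zero, shear_one]
      rcases k with (k | k) | k <;> rcases l with (l | l) | l
      · rw [(hb3 k l).1]; simp
      · rw [hb2 k l]
        by_cases hkl : k = l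
        · subst hkl
          simp [Pi.single_apply]
        · simp [Pi.single_apply, hkl, Ne.symm hkl]
      · rw [(hb4 k l).1]; simp
      · rw [QuadraticMap.polar_comm, hb2 l k]
        by_cases hkl : l = k
        · subst hkl
          simp [Pi.single_apply]
        · simp [Pi.single_apply, hkl, Ne.symm hkl]
      · rw [(hb3 k l).2]; simp
      · rw [(hb4 k l).2]; simp
      · rw [QuadraticMap.polar_comm, (hb4 l k).1]; simp
      · rw [QuadraticMap.polar_comm, (hb4 l k).2]; simp
      · clear e1
        revert k l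
        have e00 : QuadraticMap.polar ⇑Q (b₀ (Sum.inr 0)) (b₀ (Sum.inr 0)) = 2 := by
          rw [QuadraticMap.polar_self, hx]; simp
        have e10 : QuadraticMap.polar ⇑Q (b₀ (Sum.inr 1)) (b₀ (Sum.inr 0)) = 1 := by
          rw [QuadraticMap.polar_comm, hxy]
        have e11 : QuadraticMap.polar ⇑Q (b₀ (Sum.inr 1)) (b₀ (Sum.inr 1)) = 2 * ζ := by
          rw [QuadraticMap.polar_self, hy]; simp
        refine Fin.forall_fin_two.mpr ⟨Fin.forall_fin_two.mpr ⟨?_, ?_⟩,
          Fin.forall_fin_two.mpr ⟨?_, ?_⟩⟩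
        · rw [e00]
          simp
        · rw [hxy]
          simp
          field_simp
          linear_combination (-1 : F) * h1
        · rw [e10]
          simp
          field_simp
          linear_combination (-1 : F) * h1
        · rw [e11]
          simp
          field_simp
          linear_combination (2 * α) * h1 - 2 * h2'

end Cfsg.Agent.Lib.Helper96.NsMinus
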