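import Mathlib
import Cfsg.Agent.S0289
import Cfsg.Agent.Lib.Helper96.NsMinusField
import Cfsg.Agent.Lib.Helper96.NsMinusStd

/-!
A fixed-point-free isometry of odd prime order `r ∣ q ^ d + 1` of the standard minus-type
quadratic form in dimension `2 * d` over a finite field of characteristic two.
-/

set_option autoImplicit false
set_option linter.unusedSectionVars false
set_option linter.unusedSimpArgs false

namespace Cfsg.Agent.Lib.Helper96.NsMinus

open Module

/-- The arithmetic excluding the hyperbolic type. -/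
theorem plus_arith (q d r : ℕ) (hr : r.Prime) (hr2 : r ≠ 2) (hd : 1 ≤ d) (hq : 1 ≤ q)
    (h1 : r ∣ q ^ d + 1) (h2 : q ^ (2 * d - 1) + q ^ d - q ^ (d - 1) ≡ 1 [MOD r]) : False := by
  have : Fact r.Prime := ⟨hr⟩
  obtain ⟨e, rfl⟩ : ∃ e, d = e + 1 := ⟨d - 1, by omega⟩
  have e1 : q ^ (2 * (e + 1) - 1) = q ^ e * q ^ e * q := by
    rw [show 2 * (e + 1) - 1 = e + e + 1 by omega, pow_succ, pow_add]
  have e2 : q ^ (e + 1) = q ^ e * q := pow_succ q e
  simp only [Nat.add_sub_cancel] at h2
  rw [e1, e2] at h2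
  rw [e2] at h1
  have hle : q ^ e ≤ q ^ e * q ^ e * q + q ^ e * q := by
    have : q ^ e ≤ q ^ e * q := Nat.le_mul_of_pos_right _ hq
    omega
  have hB : (q : ZMod r) ^ e * (q : ZMod r) + 1 = 0 := by
    have := (ZMod.natCast_eq_zero_iff _ r).mpr h1
    push_cast at this
    exact this
  have hA : (q : ZMod r) ^ e * (q : ZMod r) ^ e * (q : ZMod r)
      + (q : ZMod r) ^ e * (q : ZMod r) - (q : ZMod r) ^ e = 1 := by
    have := (ZMod.natCast_eq_natCast_iff _ _ r).mpr h2
    rw [Nat.cast_sub hle] at this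
    push_cast at this
    exact this
  have h20 : (2 : ZMod r) ≠ 0 := by
    intro h
    have h3 : ((2 : ℕ) : ZMod r) = 0 := by exact_mod_cast h
    rw [ZMod.natCast_eq_zero_iff] at h3
    exact hr2 ((Nat.prime_dvd_prime_iff_eq hr Nat.prime_two).mp h3)
  have hU : (q : ZMod r) ^ e = -1 := by
    have h3 : (2 : ZMod r) * ((q : ZMod r) ^ e + 1) = 0 := by
      linear_combination (-1 : ZMod r) * hA + ((q : ZMod r) ^ e + 1) * hB
    rcases mul_eq_zero.mp h3 with h | h
    · exact absurd h h20
    · linear_combination h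
  rw [hU] at hB
  have hq1 : (q : ZMod r) = 1 := by linear_combination (-1 : ZMod r) * hB
  rw [hq1, one_pow] at hU
  apply h20
  linear_combination hU

/-- A fixed-point-free isometry of order `r` of the standard minus-type form. -/
theorem exists_minus_isometry {F : Type*} [Field F] [Fintype F] [CharP F 2] (d : ℕ) (hd : 1 ≤ d)
    (a b : F) (hab : ∀ x y : F, x ^ 2 + a * x * y + b * y ^ 2 = 0 → x = 0 ∧ y = 0)
    (r : ℕ) [Fact r.Prime] (hr : r ∣ Fintype.card F ^ d + 1) (hr2 : r ≠ 2) :
    ∃ U : Matrix ((Fin (d - 1) ⊕ Fin (d - 1)) ⊕ Fin 2) ((Fin (d - 1) ⊕ Fin (d - 1)) ⊕ Fin 2) F,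
      (∀ v, Cfsg.quadFormMinus (d - 1) F a b (U.mulVec v)
        = Cfsg.quadFormMinus (d - 1) F a b v) ∧ U ^ r = 1 ∧ IsUnit (U - 1) := by
  classical
  have : Fact (Nat.Prime 2) := ⟨Nat.prime_two⟩
  have : NeZero (2 * d) := ⟨by omega⟩
  let K := FiniteField.Extension F 2 (2 * d)
  haveI : Fintype K := Fintype.ofFinite K
  have hK : finrank F K = 2 * d := FiniteField.finrank_extension F 2 (2 * d)
  obtain ⟨Q, x, hQ, hiso, hxr, hfix⟩ :=
    exists_field_model (F := F) (K := K) d (by omega) hK r hr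
  have hxk : ∀ k v, (x ^ (k + 1)) v = x ((x ^ k) v) := by
    intro k v
    rw [pow_succ']
    rfl
  rcases exists_equiv_std hd hK Q hQ a b hab with ⟨e, he⟩ | ⟨e, he⟩
  · exfalso
    have hZ : Nat.card {v : K // Q v = 0}
        = Nat.card {c : Fin d ⊕ Fin d → F // Cfsg.quadFormPlus d F c = 0} :=
      Nat.card_congr (e.toEquiv.subtypeEquiv (fun v => by
        show Q v = 0 ↔ Cfsg.quadFormPlus d F (e v) = 0
        rw [he]))
    rw [Cfsg.Agent.S0289.result rfl d hd] at hZ
    let f : Function.End {v : K // Q v = 0} := fun v => ⟨x v.1, by rw [hiso]; exact v.2⟩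
    have hk : ∀ (k : ℕ) (v : {v : K // Q v = 0}), ((f ^ k) v).1 = (x ^ k) v.1 := by
      intro k
      induction k with
      | zero => intro v; rfl
      | succ k ih =>
        intro v
        rw [pow_succ', hxk]
        change x ((f ^ k) v).1 = x ((x ^ k) v.1)
        rw [ih]
    have hfr : f ^ r ^ 1 = 1 := by
      rw [pow_one]
      funext v
      apply Subtype.ext
      rw [hk, hxr]
      rfl
    have key := Equiv.Perm.card_fixedPoints_modEq (p := r) (n := 1) hfr
    have hfp : Nat.card (Function.fixedPoints f) = 1 := by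
      rw [Nat.card_eq_one_iff_unique]
      constructor
      · constructor
        intro u v
        have hu : u.1.1 = 0 := hfix _ (congrArg Subtype.val u.2)
        have hv : v.1.1 = 0 := hfix _ (congrArg Subtype.val v.2)
        apply Subtype.ext
        apply Subtype.ext
        rw [hu, hv]
      · exact ⟨⟨⟨0, map_zero Q⟩, by
          show f ⟨0, map_zero Q⟩ = ⟨0, map_zero Q⟩
          apply Subtype.ext
          show x 0 = 0
          exact map_zero x⟩⟩
    rw [Fintype.card_eq_nat_card, Fintype.card_eq_nat_card, hfp, hZ] at key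
    exact plus_arith (Fintype.card F) d r Fact.out hr2 hd Fintype.card_pos hr key
  · obtain ⟨L, hL⟩ : ∃ L : ((Fin (d - 1) ⊕ Fin (d - 1)) ⊕ Fin 2 → F) →ₗ[F]
        ((Fin (d - 1) ⊕ Fin (d - 1)) ⊕ Fin 2 → F), ∀ v, L v = e (x (e.symm v)) :=
      ⟨(e : K →ₗ[F] _) ∘ₗ x ∘ₗ (e.symm : _ →ₗ[F] K), fun v => rfl⟩
    have e1 : ∀ v, (LinearMap.toMatrix' L).mulVec v = e (x (e.symm v)) := by
      intro v
      rw [← Matrix.toLin'_apply, Matrix.toLin'_toMatrix', hL]
    have ek : ∀ (k : ℕ) v, ((LinearMap.toMatrix' L) ^ k).mulVec v = e ((x ^ k) (e.symm v)) := by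
      intro k
      induction k with
      | zero =>
        intro v
        rw [pow_zero, Matrix.one_mulVec, pow_zero, Module.End.one_apply,
          LinearEquiv.apply_symm_apply]
      | succ k ih =>
        intro v
        rw [pow_succ', ← Matrix.mulVec_mulVec, ih, e1, LinearEquiv.symm_apply_apply, hxk]
    refine ⟨LinearMap.toMatrix' L, fun v => ?_, ?_, ?_⟩
    · rw [e1, he, hiso, ← he, LinearEquiv.apply_symm_apply]
    · apply Matrix.toLin'.injective
      apply LinearMap.ext
      intro v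
      rw [Matrix.toLin'_apply, ek, hxr, Module.End.one_apply, LinearEquiv.apply_symm_apply,
        Matrix.toLin'_one, LinearMap.id_apply]
    · rw [← Matrix.mulVec_injective_iff_isUnit]
      intro v w hvw
      have h1 : (LinearMap.toMatrix' L - 1).mulVec (v - w) = 0 := by
        rw [Matrix.mulVec_sub, hvw, sub_self]
      rw [Matrix.sub_mulVec, Matrix.one_mulVec, e1, sub_eq_zero] at h1
      have h3 : x (e.symm (v - w)) = e.symm (v - w) := by
        have h5 := congrArg e.symm h1
        rwa [LinearEquiv.symm_apply_apply] at h5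
      have h4 := hfix _ h3
      rw [LinearEquiv.map_eq_zero_iff] at h4
      exact sub_eq_zero.mp h4

end Cfsg.Agent.Lib.Helper96.NsMinus
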