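import Cfsg.Agent.Lib.Helper96.SfBase

/-!
# S5965 piece EIGENPROD: the characteristic polynomial of a matrix of order `r` when the field
contains the `r`-th roots of unity
-/

set_option autoImplicit false

namespace Cfsg.Agent.Lib.Helper96.Sf

open Polynomial

-- PIECE EIGENPROD
theorem charpoly_eq_prod_of_pow_eq_one {K : Type*} [Field K] {n : ℕ}
    (M : Matrix (Fin n) (Fin n) K) (r : ℕ) (hr : r.Prime) (ω : K) (hω : ω ^ r = 1) (hω1 : ω ≠ 1)
    (hM : M ^ r = 1) :
    ∃ m : ℕ → ℕ, M.charpoly = ∏ j ∈ Finset.range r, (X - C (ω ^ j)) ^ m j := by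
  classical
  have hprim : IsPrimitiveRoot ω r := by
    have : Fact r.Prime := ⟨hr⟩
    have h0 := IsPrimitiveRoot.orderOf ω
    rwa [orderOf_eq_prime hω hω1] at h0
  have : NeZero r := ⟨hr.ne_zero⟩
  have hdvd := charpoly_dvd_pow M r hM
  have hsp : ((X ^ r - 1 : K[X]) ^ n).Splits := by
    have h1 := X_pow_sub_one_splits hprim
    rw [C_1] at h1
    exact h1.pow n
  have hne : ((X ^ r - 1 : K[X]) ^ n) ≠ 0 := by
    apply pow_ne_zero
    have h0 := (monic_X_pow_sub_C (1 : K) hr.ne_zero).ne_zero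
    rwa [C_1] at h0
  have hfs : M.charpoly.Splits := hsp.of_dvd hne hdvd
  have h1 := hfs.eq_prod_roots_of_monic M.charpoly_monic
  rw [Finset.prod_multiset_map_count] at h1
  refine ⟨fun j => M.charpoly.roots.count (ω ^ j), ?_⟩
  have hsub : M.charpoly.roots.toFinset ⊆ (Finset.range r).image (fun j => ω ^ j) := by
    intro lam hlam
    rw [Multiset.mem_toFinset] at hlam
    have hroot : M.charpoly.IsRoot lam := (mem_roots M.charpoly_monic.ne_zero).mp hlam
    have h2 : lam ^ r = 1 := by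
      obtain ⟨g, hg⟩ := hdvd
      have h3 : ((X ^ r - 1 : K[X]) ^ n).eval lam = 0 := by
        rw [hg, eval_mul, hroot.eq_zero, zero_mul]
      rw [eval_pow, eval_sub, eval_pow, eval_X, eval_one] at h3
      exact sub_eq_zero.mp (IsReduced.eq_zero _ ⟨n, h3⟩)
    obtain ⟨i, hi, hiε⟩ := hprim.eq_pow_of_pow_eq_one h2
    exact Finset.mem_image.mpr ⟨i, Finset.mem_range.mpr hi, hiε⟩
  refine h1.trans ?_
  rw [Finset.prod_subset hsub (fun lam _ hlam => by
    rw [Multiset.mem_toFinset] at hlam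
    rw [Multiset.count_eq_zero.mpr hlam, pow_zero])]
  rw [Finset.prod_image (fun i hi j hj h =>
    hprim.pow_inj (Finset.mem_range.mp hi) (Finset.mem_range.mp hj) h)]

end Cfsg.Agent.Lib.Helper96.Sf
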