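import Mathlib
import Cfsg.Prelude.Def_GeometricClasses
import Cfsg.Prelude.Def_LieClassical
import Cfsg.Agent.Lib.Helper47.GUSim
import Cfsg.Agent.Lib.Helper47.InvSL

/-!
# S5982: basic reductions for unitary forms (standard form, conjugation)
-/

set_option autoImplicit false

namespace Cfsg.Agent.Lib.Helper96.Uf

open Polynomial Matrix
open scoped MatrixGroups

/-- The standard `σ`-hermitian form of helper47 is `hermForm`. -/
theorem uForm_eq_hermForm {F : Type*} [Field F] (q₀ n : ℕ) (σ : F →+* F)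
    (hσq : ∀ x, σ x = x ^ q₀) (u v : Fin n → F) :
    Cfsg.Agent.Lib.Helper47.uForm σ u v = Cfsg.hermForm n F q₀ u v := by
  unfold Cfsg.Agent.Lib.Helper47.uForm Cfsg.hermForm
  apply Finset.sum_congr rfl
  intro i _
  rw [hσq]

/-- `q₀ ≥ 2` when `|F| = q₀²`. -/
theorem two_le_q₀ {F : Type*} [Field F] [Fintype F] (q₀ : ℕ) (hq : Fintype.card F = q₀ ^ 2) :
    2 ≤ q₀ := by
  have h1 : 1 < Fintype.card F := Fintype.one_lt_card
  rw [hq] at h1
  by_contra h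
  have : q₀ = 0 ∨ q₀ = 1 := by omega
  rcases this with h0 | h0 <;> rw [h0] at h1 <;> norm_num at h1

/-- Membership in `specialLinear`. -/
theorem mem_sl_iff {F : Type*} [Field F] {n : ℕ} (x : GL (Fin n) F) :
    x ∈ Cfsg.Geo.specialLinear (Fin n) F ↔ (x : Matrix (Fin n) (Fin n) F).det = 1 := by
  rw [Cfsg.Geo.specialLinear, MonoidHom.mem_ker, Units.ext_iff]
  rfl

/-- A conjugate `g⁻¹ x g` which is a similarity of `f = h(Y·, Y·)` with multiplier `μ` gives a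
similarity `Z` of the standard form with the same multiplier and `Z G = G x`. -/
theorem sim_std {F : Type*} [Field F] (q₀ n : ℕ) (f : (Fin n → F) → (Fin n → F) → F)
    (Y : Matrix (Fin n) (Fin n) F) (hY : IsUnit Y.det)
    (hfY : ∀ u v, f u v = Cfsg.hermForm n F q₀ (Y *ᵥ u) (Y *ᵥ v)) (x g : GL (Fin n) F) (μ : F)
    (hc : ∀ u v, f (((g⁻¹ * x * g : GL (Fin n) F) : Matrix (Fin n) (Fin n) F) *ᵥ u)
      (((g⁻¹ * x * g : GL (Fin n) F) : Matrix (Fin n) (Fin n) F) *ᵥ v) = μ * f u v) :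
    ∃ (G Z : Matrix (Fin n) (Fin n) F), IsUnit G.det ∧
      Z * G = G * (x : Matrix (Fin n) (Fin n) F) ∧
      ∀ u v, Cfsg.hermForm n F q₀ (Z *ᵥ u) (Z *ᵥ v) = μ * Cfsg.hermForm n F q₀ u v := by
  have hYY : Y * Y⁻¹ = 1 := Matrix.mul_nonsing_inv Y hY
  have hYY' : Y⁻¹ * Y = 1 := Matrix.nonsing_inv_mul Y hY
  have hgg : (g : Matrix (Fin n) (Fin n) F) * ((g⁻¹ : GL (Fin n) F) : Matrix (Fin n) (Fin n) F)
      = 1 := by
    rw [← Units.val_mul, mul_inv_cancel, Units.val_one]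
  have hgdet : IsUnit ((g⁻¹ : GL (Fin n) F) : Matrix (Fin n) (Fin n) F).det := by
    have h1 := congrArg Matrix.det hgg
    rw [Matrix.det_mul, Matrix.det_one] at h1
    exact IsUnit.of_mul_eq_one _ (by rw [mul_comm]; exact h1)
  refine ⟨Y * ((g⁻¹ : GL (Fin n) F) : Matrix (Fin n) (Fin n) F),
    Y * ((g⁻¹ * x * g : GL (Fin n) F) : Matrix (Fin n) (Fin n) F) * Y⁻¹, ?_, ?_, ?_⟩
  · rw [Matrix.det_mul]
    exact hY.mul hgdet
  · rw [Units.val_mul, Units.val_mul]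
    calc Y * (((g⁻¹ : GL (Fin n) F) : Matrix (Fin n) (Fin n) F) * (x : Matrix (Fin n) (Fin n) F) *
          (g : Matrix (Fin n) (Fin n) F)) * Y⁻¹ *
          (Y * ((g⁻¹ : GL (Fin n) F) : Matrix (Fin n) (Fin n) F))
        = Y * (((g⁻¹ : GL (Fin n) F) : Matrix (Fin n) (Fin n) F) *
          (x : Matrix (Fin n) (Fin n) F)) * ((g : Matrix (Fin n) (Fin n) F) * ((Y⁻¹ * Y) *
          ((g⁻¹ : GL (Fin n) F) : Matrix (Fin n) (Fin n) F))) := by
          simp only [Matrix.mul_assoc]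
      _ = Y * ((g⁻¹ : GL (Fin n) F) : Matrix (Fin n) (Fin n) F) *
          (x : Matrix (Fin n) (Fin n) F) := by
          rw [hYY', Matrix.one_mul, hgg, Matrix.mul_one, Matrix.mul_assoc]
  · intro u v
    have h1 := hc (Y⁻¹ *ᵥ u) (Y⁻¹ *ᵥ v)
    rw [hfY, hfY] at h1
    simp only [Matrix.mulVec_mulVec] at h1
    rw [hYY, Matrix.one_mulVec, Matrix.one_mulVec] at h1
    simp only [Matrix.mul_assoc] at h1 ⊢
    exact h1

/-- If `y A = B y` with `B` an isometry of the standard form, then `A` is conjugate to an isometry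
of `f = h(Y·, Y·)`. -/
theorem conj_isometry {F : Type*} [Field F] (q₀ n : ℕ) (f : (Fin n → F) → (Fin n → F) → F)
    (Y : Matrix (Fin n) (Fin n) F) (hY : IsUnit Y.det)
    (hfY : ∀ u v, f u v = Cfsg.hermForm n F q₀ (Y *ᵥ u) (Y *ᵥ v))
    (A y B : Matrix (Fin n) (Fin n) F) (hy : IsUnit y.det) (hyA : y * A = B * y)
    (hB : ∀ u v, Cfsg.hermForm n F q₀ (B *ᵥ u) (B *ᵥ v) = Cfsg.hermForm n F q₀ u v) :
    ∃ T A' : Matrix (Fin n) (Fin n) F, IsUnit T.det ∧ T * A = A' * T ∧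
      ∀ u v, f (A' *ᵥ u) (A' *ᵥ v) = f u v := by
  have hYY : Y * Y⁻¹ = 1 := Matrix.mul_nonsing_inv Y hY
  have hYY' : Y⁻¹ * Y = 1 := Matrix.nonsing_inv_mul Y hY
  have hYinv : IsUnit (Y⁻¹).det := by
    have h1 := congrArg Matrix.det hYY
    rw [Matrix.det_mul, Matrix.det_one] at h1
    exact IsUnit.of_mul_eq_one _ (by rw [mul_comm]; exact h1)
  refine ⟨Y⁻¹ * y, Y⁻¹ * B * Y, ?_, ?_, ?_⟩
  · rw [Matrix.det_mul]
    exact hYinv.mul hy
  · calc Y⁻¹ * y * A = Y⁻¹ * (y * A) := by rw [Matrix.mul_assoc]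
      _ = Y⁻¹ * (B * y) := by rw [hyA]
      _ = Y⁻¹ * B * ((Y * Y⁻¹) * y) := by rw [hYY, Matrix.one_mul, Matrix.mul_assoc]
      _ = Y⁻¹ * B * Y * (Y⁻¹ * y) := by simp only [Matrix.mul_assoc]
  · intro u v
    rw [hfY, hfY]
    simp only [Matrix.mulVec_mulVec]
    have h1 : Y * (Y⁻¹ * B * Y) = B * Y := by
      rw [← Matrix.mul_assoc, ← Matrix.mul_assoc, hYY, Matrix.one_mul]
    rw [h1, ← Matrix.mulVec_mulVec, ← Matrix.mulVec_mulVec, hB]

/-- A matrix preserving a form `f' = h(Y'·, Y'·)` is conjugate to an isometry of the standard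
form. -/
theorem conj_std_of_form {F : Type*} [Field F] (q₀ n : ℕ) (f' : (Fin n → F) → (Fin n → F) → F)
    (Y' : Matrix (Fin n) (Fin n) F) (hY' : IsUnit Y'.det)
    (hfY' : ∀ u v, f' u v = Cfsg.hermForm n F q₀ (Y' *ᵥ u) (Y' *ᵥ v))
    (A : Matrix (Fin n) (Fin n) F) (hA : ∀ u v, f' (A *ᵥ u) (A *ᵥ v) = f' u v) :
    ∃ B : Matrix (Fin n) (Fin n) F, Y' * A = B * Y' ∧
      ∀ u v, Cfsg.hermForm n F q₀ (B *ᵥ u) (B *ᵥ v) = Cfsg.hermForm n F q₀ u v := by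
  have hYY : Y' * Y'⁻¹ = 1 := Matrix.mul_nonsing_inv Y' hY'
  have hYY' : Y'⁻¹ * Y' = 1 := Matrix.nonsing_inv_mul Y' hY'
  refine ⟨Y' * A * Y'⁻¹, ?_, ?_⟩
  · rw [Matrix.mul_assoc (Y' * A), hYY', Matrix.mul_one]
  · intro u v
    have h1 := hA (Y'⁻¹ *ᵥ u) (Y'⁻¹ *ᵥ v)
    rw [hfY', hfY'] at h1
    simp only [Matrix.mulVec_mulVec] at h1
    rw [hYY, Matrix.one_mulVec, Matrix.one_mulVec] at h1
    simp only [Matrix.mul_assoc] at h1 ⊢
    exact h1

/-- A nondegenerate `σ`-hermitian form (in helper47's sense) on `F^n` is a unitary form. -/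
theorem isUnitary_of_sform {F : Type*} [Field F] (q₀ n : ℕ) (σ : F →+* F)
    (hσq : ∀ x, σ x = x ^ q₀) (f : (Fin n → F) → (Fin n → F) → F)
    (hf : Cfsg.Agent.Lib.Helper47.IsSForm σ 1 f) (hnd : Cfsg.Agent.Lib.Helper47.Nondeg f) :
    Cfsg.Geo.IsUnitaryFormPow q₀ f := by
  have hsymm : ∀ v w, f v w = (f w v) ^ q₀ := by
    intro v w
    rw [hf.symm w v, one_mul, hσq]
  refine ⟨hf.add_left, hf.smul_left, hsymm, ?_⟩
  intro v hv
  have h1 : ∃ x, f v x ≠ 0 := by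
    by_contra hcon
    push Not at hcon
    exact hv (hnd v hcon)
  refine ⟨?_, h1⟩
  obtain ⟨x, hx⟩ := h1
  refine ⟨x, fun h0 => hx ?_⟩
  rw [hsymm, h0, zero_pow]
  intro hq0
  apply hx
  have h2 := hsymm v x
  rw [hq0, pow_zero] at h2
  have h3 := hsymm x v
  rw [hq0, pow_zero] at h3
  rw [h3] at h0
  exact absurd h0 one_ne_zero

end Cfsg.Agent.Lib.Helper96.Uf
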