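import Cfsg.Agent.Lib.Helper60.OqDIAGFORM
import Cfsg.Agent.Lib.Helper90.OqDIAGJ
import Cfsg.Agent.Lib.Helper56.OqCONJMODEL
import Cfsg.Agent.Lib.Helper19.OqNSQMODEL
import Cfsg.Agent.Lib.Helper49.OqSPECCENTER
import Cfsg.Agent.Lib.Helper43.OqSDMULT
import Cfsg.Agent.Lib.Helper63.OqODDMODEL
import Cfsg.Agent.Lib.Helper54.OqSIMODD
import Cfsg.Agent.Lib.Helper96.UfBase
import Cfsg.Agent.Lib.Helper96.BGLin
import Cfsg.Agent.Lib.Helper96.BGIrr
import Cfsg.Agent.Lib.Helper96.SfArith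
import Cfsg.Agent.Lib.Helper96.SfEIGENPROD
import Cfsg.Agent.Lib.Helper34.SfDEGDET
import Cfsg.Agent.Lib.Helper34.SfSCALAR
import Cfsg.Agent.Lib.Helper34.SfSYM35
import Cfsg.Agent.Lib.Helper34.SfSMULPROD
import Cfsg.Agent.Lib.Helper59.UfINVCHAR
import Cfsg.Agent.Lib.Helper47.InvSL
import Cfsg.Agent.Lib.Helper47.OrthPrime

/-!
# S5981: the backward direction
-/

set_option autoImplicit false

universe u

namespace Cfsg.Agent.Lib.Helper96.Oq

open Polynomial Matrix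
open scoped MatrixGroups
open Cfsg.Agent.Lib.Helper47

/-- The case `r = 2`. -/
theorem backward_two {F : Type u} [Field F] [Fintype F] (h2 : (2 : F) ≠ 0) (n : ℕ) (hn : 3 ≤ n)
    (Q : (Fin n → F) → F) (hQ : Cfsg.Geo.IsNondegenerateQuadraticForm Q)
    (x : GL (Fin n) F) (hx : x ∈ Cfsg.Geo.specialLinear (Fin n) F) (z : F)
    (hz : ((x ^ 2 : GL (Fin n) F) : Matrix (Fin n) (Fin n) F) =
      z • (1 : Matrix (Fin n) (Fin n) F)) :
    ∃ g ∈ Cfsg.Geo.specialLinear (Fin n) F, g⁻¹ * x * g ∈ Cfsg.Geo.quadSimilarityGroup Q := by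
  classical
  have hn0 : n ≠ 0 := by omega
  have hdet : (x : Matrix (Fin n) (Fin n) F).det = 1 := (Uf.mem_sl_iff x).mp hx
  have hxk : (x : Matrix (Fin n) (Fin n) F) ^ 2 = z • (1 : Matrix (Fin n) (Fin n) F) := by
    rw [← hz, Units.val_pow_eq_pow_val]
  have hM : (x : Matrix (Fin n) (Fin n) F) * (x : Matrix (Fin n) (Fin n) F) =
      z • (1 : Matrix (Fin n) (Fin n) F) := by
    rw [← hxk, pow_two]
  have hz0 : z ≠ 0 := by
    rintro rfl
    have h1 := congrArg Matrix.det hM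
    have hne' : Nonempty (Fin n) := ⟨⟨0, by omega⟩⟩
    rw [Matrix.det_mul, hdet, zero_smul, Matrix.det_zero] at h1
    norm_num at h1
  have h2' : ((2 : ℕ) : F) ≠ 0 := by exact_mod_cast h2
  obtain ⟨L, w, hw, hL⟩ := Cfsg.Agent.Lib.Helper60.Oq.exists_diag_form h2 n Q hQ
  rcases inv_classes (x : Matrix (Fin n) (Fin n) F) z hz0 hM with
    ⟨-, -, ⟨c, a, b, hzc, hab, hch⟩ | ⟨hnsq, m, hnm, hch⟩⟩ | ⟨h20, -⟩
  · obtain ⟨j, hj2, hjch⟩ := Cfsg.Agent.Lib.Helper90.Oq.exists_diag_charpoly n a b hab c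
    have hJ : ∀ u : Fin n → F, (∑ i, w i * ((Matrix.diagonal j *ᵥ u) i) ^ 2) =
        z * ∑ i, w i * (u i) ^ 2 := by
      intro u
      rw [Finset.mul_sum]
      apply Finset.sum_congr rfl
      intro i _
      rw [Matrix.mulVec_diagonal, mul_pow, hj2 i, ← hzc]
      ring
    have hJk : (Matrix.diagonal j) ^ 2 = z • (1 : Matrix (Fin n) (Fin n) F) := by
      rw [Matrix.diagonal_pow, Matrix.smul_one_eq_diagonal]
      congr 1
      funext i
      rw [Pi.pow_apply, hj2 i, ← hzc]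
    exact Cfsg.Agent.Lib.Helper56.Oq.conj_of_model (by omega) Q (fun u => ∑ i, w i * (u i) ^ 2) L 1 one_ne_zero hL
      (Matrix.diagonal j) z hz0 hJ 2 h2' z hz0 hJk x hx hxk (hch.trans hjch.symm)
  · obtain ⟨J, hJJ, hJQ⟩ := Cfsg.Agent.Lib.Helper19.Oq.exists_nsq_model h2 n m hnm w hw z hz0
    have hJch : J.charpoly = (X ^ 2 - C z) ^ m := by
      rcases inv_classes J z hz0 hJJ with
        ⟨-, -, ⟨c, a, b, hzc, -, -⟩ | ⟨-, m', hnm', hch'⟩⟩ | ⟨h20, -⟩
      · exact absurd hzc.symm (hnsq c)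
      · have hmm : m' = m := by omega
        rw [hch', hmm]
      · exact absurd h20 h2
    have hJk : J ^ 2 = z • (1 : Matrix (Fin n) (Fin n) F) := by
      rw [pow_two, hJJ]
    exact Cfsg.Agent.Lib.Helper56.Oq.conj_of_model (by omega) Q (fun u => ∑ i, w i * (u i) ^ 2) L 1 one_ne_zero hL
      J z hz0 hJQ 2 h2' z hz0 hJk x hx hxk (hch.trans hJch.symm)
  · exact absurd h20 h2

/-- The special case `n = r ∈ {3, 5}` and `v_r(q - 1) = 1`. -/
theorem backward_special {F : Type u} [Field F] [Fintype F] {p : ℕ} [Fact p.Prime] [CharP F p]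
    (h2 : (2 : F) ≠ 0) (r : ℕ) [Fact r.Prime]
    (hr35 : r = 3 ∨ r = 5) (hv : padicValNat r (Fintype.card F - 1) = 1)
    (Q : (Fin r → F) → F) (hQ : Cfsg.Geo.IsNondegenerateQuadraticForm Q)
    (x : GL (Fin r) F) (hx : x ∈ Cfsg.Geo.specialLinear (Fin r) F) (z : F)
    (hz : ((x ^ r : GL (Fin r) F) : Matrix (Fin r) (Fin r) F) =
      z • (1 : Matrix (Fin r) (Fin r) F))
    (hns : ∀ z : F, (x : Matrix (Fin r) (Fin r) F) ≠ z • (1 : Matrix (Fin r) (Fin r) F)) :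
    ∃ g ∈ Cfsg.Geo.specialLinear (Fin r) F, g⁻¹ * x * g ∈ Cfsg.Geo.quadSimilarityGroup Q := by
  classical
  have hr : r.Prime := Fact.out
  have hr2 : r ≠ 2 := by rcases hr35 with h | h <;> omega
  have hrodd : Odd r := hr.odd_of_ne_two hr2
  have : Nonempty (Fin r) := ⟨⟨0, hr.pos⟩⟩
  have hcard2 : 2 ≤ Fintype.card F := Fintype.one_lt_card
  have hdvdq : r ∣ Fintype.card F - 1 := dvd_of_one_le_padicValNat (by omega)
  have hrp : r ≠ p := by
    rintro rfl
    obtain ⟨k, -, hk⟩ := FiniteField.card F r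
    have h1 : r ∣ Fintype.card F := by
      rw [hk]
      exact dvd_pow_self r k.ne_zero
    have h3 : r ∣ Fintype.card F - (Fintype.card F - 1) := Nat.dvd_sub h1 hdvdq
    have h4 : Fintype.card F - (Fintype.card F - 1) = 1 := by omega
    rw [h4] at h3
    exact hr.one_lt.ne' (Nat.dvd_one.mp h3)
  obtain ⟨hrq, hr0, -⟩ := BG.facts (F := F) p r hrp
  have hdetx : (x : Matrix (Fin r) (Fin r) F).det = 1 := (Uf.mem_sl_iff x).mp hx
  obtain ⟨M, hMx⟩ : ∃ M : Matrix (Fin r) (Fin r) F, M = (x : Matrix (Fin r) (Fin r) F) :=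
    ⟨_, rfl⟩
  rw [Units.val_pow_eq_pow_val, ← hMx] at hz
  rw [← hMx] at hns hdetx
  have hzr : z ^ r = 1 := by
    have h1 := congrArg Matrix.det hz
    rw [Matrix.det_pow, hdetx, one_pow, Matrix.det_smul, Matrix.det_one, mul_one,
      Fintype.card_fin] at h1
    exact h1.symm
  have hz0 : z ≠ 0 := by
    rintro rfl
    rw [zero_pow hr.ne_zero] at hzr
    exact zero_ne_one hzr
  have hz1 : z = 1 := by
    obtain ⟨w, hw⟩ : ∃ w : F, w ^ r = z := by
      by_contra hno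
      push Not at hno
      have hT := BG.toLin'_pow_eq r r M z hz
      have hdet : LinearMap.det (Matrix.toLin' M) = 1 := by
        rw [LinearMap.det_toLin']
        exact hdetx
      have h1 := BG.det_of_not_pow r hr z hno r (Fin r → F) _ (Module.finrank_fin_fun F) hT
      rw [hdet, Nat.div_self hr.pos, pow_one, hrodd.add_one.neg_one_pow, one_mul] at h1
      exact hno 1 (by rw [one_pow]; exact h1)
    have hw0 : w ≠ 0 := by
      rintro rfl
      rw [zero_pow hr.ne_zero] at hw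
      exact hz0 hw.symm
    have h1 : w ^ (r ^ 2) = 1 := by rw [pow_two, pow_mul, hw, hzr]
    have h2 : w ^ (Fintype.card F - 1) = 1 := FiniteField.pow_card_sub_one_eq_one w hw0
    have h3 : w ^ Nat.gcd (r ^ 2) (Fintype.card F - 1) = 1 := pow_gcd_eq_one.mpr ⟨h1, h2⟩
    have h4 : Nat.gcd (r ^ 2) (Fintype.card F - 1) ∣ r := by
      obtain ⟨i, hi, hgi⟩ :=
        (Nat.dvd_prime_pow hr).mp (Nat.gcd_dvd_left (r ^ 2) (Fintype.card F - 1))
      rcases Nat.lt_or_ge i 2 with hlt | hge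
      · rw [hgi]
        have h5 : r ^ i ∣ r ^ 1 := pow_dvd_pow r (by omega)
        rwa [pow_one] at h5
      · have hi2 : i = 2 := by omega
        have h5 : r ^ 2 ∣ Fintype.card F - 1 := by
          have h6 := Nat.gcd_dvd_right (r ^ 2) (Fintype.card F - 1)
          rwa [hgi, hi2] at h6
        have h7 : Fintype.card F - 1 ≠ 0 := by omega
        have h6 := (padicValNat_dvd_iff_le h7).mp h5
        omega
    obtain ⟨t, ht⟩ := h4
    rw [← hw, ht, pow_mul, h3, one_pow]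
  have hM : M ^ r = 1 := by
    rw [hz, hz1, one_smul]
  obtain ⟨ω, hω, hω1⟩ := Sf.exists_prim_root (F := F) r hdvdq
  obtain ⟨m, hm⟩ := Sf.charpoly_eq_prod_of_pow_eq_one M r hr ω hω hω1 hM
  obtain ⟨hsum, hdet⟩ := Cfsg.Agent.Lib.Helper34.Sf.deg_det_of_prod M r ω m hm
  rw [hdetx] at hdet
  have hS : r ∣ ∑ j ∈ Finset.range r, j * m j := by
    have h1 : orderOf ω = r := orderOf_eq_prime hω hω1
    have h2 := orderOf_dvd_of_pow_eq_one hdet.symm
    rwa [h1] at h2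
  have hlt : ∀ j ∈ Finset.range r, m j < r := by
    intro j₀ hj₀
    by_contra hge
    push Not at hge
    have h1 := Finset.add_sum_erase (Finset.range r) m hj₀
    have h2 : ∑ j ∈ (Finset.range r).erase j₀, m j = 0 := by omega
    have h3 : ∀ j ∈ Finset.range r, j ≠ j₀ → m j = 0 := by
      intro j hj hne
      exact (Finset.sum_eq_zero_iff.mp h2) j (Finset.mem_erase.mpr ⟨hne, hj⟩)
    have h4 : m j₀ = r := by omega
    have h5 : M.charpoly = (X - C (ω ^ j₀)) ^ r := by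
      rw [hm, Finset.prod_eq_single j₀ (fun j hj hne => by rw [h3 j hj hne, pow_zero])
        (fun h => absurd hj₀ h), h4]
    exact hns (ω ^ j₀)
      (Cfsg.Agent.Lib.Helper34.Sf.eq_smul_one_of_charpoly _ r hr0 hM (ω ^ j₀) h5)
  obtain ⟨c, hc, hsym⟩ := Cfsg.Agent.Lib.Helper34.Sf.sym35 r hr35 m hsum hS hlt
  rw [Finset.mem_range] at hc
  have hω0 : ω ≠ 0 := by
    rintro rfl
    rw [zero_pow hr.ne_zero] at hω
    exact zero_ne_one hω
  have hu : ω ^ c ≠ 0 := pow_ne_zero _ hω0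
  obtain ⟨A, hA⟩ : ∃ A : Matrix (Fin r) (Fin r) F, A = ω ^ (r - c) • M := ⟨_, rfl⟩
  have hxA : (x : Matrix (Fin r) (Fin r) F) = ω ^ c • A := by
    rw [← hMx, hA, smul_smul, ← pow_add, Nat.add_sub_cancel' hc.le, hω, one_smul]
  have hpow : A ^ r = 1 := by
    rw [hA, _root_.smul_pow, hM, ← pow_mul, mul_comm, pow_mul, hω, one_pow, one_smul]
  have hchar : A.charpoly = ∏ j ∈ Finset.range r, (X - C (ω ^ (r - c) * ω ^ j)) ^ m j := by
    rw [hA]
    exact Cfsg.Agent.Lib.Helper34.Sf.charpoly_smul_prod M (ω ^ (r - c)) (pow_ne_zero _ hω0)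
      (Finset.range r) (fun j => ω ^ j) m hm
  have hinvchar := Cfsg.Agent.Lib.Helper59.Uf.charpoly_inv_sym A r hr.pos ω hω m c hc hsym hchar
  -- the eigenvalue `1` of `A`
  have hmc := Cfsg.Agent.Lib.Helper49.Oq.spec_center r hr35 m hsum c hc hsym
  have h1root : A.charpoly.eval 1 = 0 := by
    rw [hchar, Polynomial.eval_prod]
    apply Finset.prod_eq_zero (Finset.mem_range.mpr hc)
    rw [eval_pow, eval_sub, eval_X, eval_C, ← pow_add, Nat.sub_add_cancel hc.le, hω, sub_self,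
      zero_pow (by omega)]
  obtain ⟨c', s, hs, hch⟩ := charpoly_factors_of_pow_eq_one p hr hrp A hpow
  have hc' : 1 ≤ c' := by
    by_contra hc0
    have hc0' : c' = 0 := by omega
    rw [hc0', pow_zero, one_mul] at hch
    rw [hch] at h1root
    exact cyc_prod_eval_one_ne p hr hrp s hs h1root
  have hdual := Cfsg.Agent.Lib.Helper43.Oq.selfdual_multiset (p := p) r hr hr2 hrp A hpow hinvchar c' s hs hch
  have hord1 : orderOf ((Fintype.card F : ℕ) : ZMod r) = 1 := by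
    rw [orderOf_eq_one_iff]
    have h1 := (ZMod.natCast_eq_zero_iff (Fintype.card F - 1) r).mpr hdvdq
    rw [Nat.cast_sub (by omega), Nat.cast_one, sub_eq_zero] at h1
    exact h1
  obtain ⟨k, hk⟩ := hrodd
  have hk1 : 1 ≤ k := by omega
  have hdeg : c' + Multiset.card s = 2 * k + 1 := by
    have h1 := Matrix.charpoly_natDegree_eq_dim A
    rw [hch, natDegree_cyc_prod (i := 1) c' s (fun f hf => ⟨(hs f hf).1, by
      rw [IsCycFactor.natDegree_eq (p := p) (q := Fintype.card F) rfl hr hrp (hs f hf), hord1]⟩),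
      Fintype.card_fin, one_mul] at h1
    omega
  obtain ⟨J, hJr, hJQ, hJch⟩ := Cfsg.Agent.Lib.Helper63.Oq.exists_odd_model (p := p) h2 k hk1 r hr hr2 hrp hdvdq c' hc'
    s hs hdual hdeg
  obtain ⟨L, c₀, hc₀, hL⟩ := Cfsg.Agent.Lib.Helper54.Oq.sim_odd h2 r k hk Q hQ
  -- `A` as an element of the special linear group
  have hAdet : A.det = 1 := by
    rw [hA, Matrix.det_smul, hdetx, mul_one, Fintype.card_fin, ← pow_mul, mul_comm, pow_mul, hω,
      one_pow]
  obtain ⟨Ag, hAg⟩ : ∃ Ag : GL (Fin r) F, (Ag : Matrix (Fin r) (Fin r) F) = A :=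
    ⟨((Matrix.isUnit_iff_isUnit_det A).2 (by rw [hAdet]; exact isUnit_one)).unit, rfl⟩
  have hAgSL : Ag ∈ Cfsg.Geo.specialLinear (Fin r) F := by
    rw [Uf.mem_sl_iff, hAg]
    exact hAdet
  obtain ⟨g, hg, hmem⟩ := Cfsg.Agent.Lib.Helper56.Oq.conj_of_model hr.pos Q (Cfsg.quadFormOdd k F) L c₀ hc₀ hL J 1
    one_ne_zero (fun w => by rw [hJQ w, one_mul]) r hr0 1 one_ne_zero
    (by rw [hJr, one_smul]) Ag hAgSL (by rw [hAg, hpow, one_smul]) (by rw [hAg, hch, hJch])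
  refine ⟨g, hg, ?_⟩
  obtain ⟨κ, hκ⟩ := hmem
  refine ⟨Units.mk0 ((ω ^ c) ^ 2) (pow_ne_zero _ hu) * κ, fun v => ?_⟩
  have hmat : ((g⁻¹ * x * g : GL (Fin r) F) : Matrix (Fin r) (Fin r) F) =
      ω ^ c • ((g⁻¹ * Ag * g : GL (Fin r) F) : Matrix (Fin r) (Fin r) F) := by
    rw [Units.val_mul, Units.val_mul, Units.val_mul, Units.val_mul, hxA, hAg, Matrix.mul_smul,
      Matrix.smul_mul]
  rw [hmat, Matrix.smul_mulVec, hQ.smul, hκ, Units.val_mul, Units.val_mk0]
  ring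

end Cfsg.Agent.Lib.Helper96.Oq
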