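import Mathlib
import Cfsg.Agent.Lib.Helper47.QuadAll
import Cfsg.Agent.Lib.Helper87.OStdE
import Cfsg.Agent.Lib.Helper98.OrthNM2

/-!
S5981 piece TYPEVEN (backup by helper96): an even-dimensional nondegenerate quadratic form over a
finite field of odd order is isometric to a standard form, with its type.
-/

set_option autoImplicit false

universe u

namespace Cfsg.Agent.Lib.Helper96.Oq

open Cfsg.Agent.Lib.Helper47

theorem typ_even {F : Type u} [Field F] [Fintype F] (h2 : (2 : F) ≠ 0) (n m : ℕ) (hm : 1 ≤ m)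
    (hn : n = 2 * m) (Q : (Fin n → F) → F) (hQ : Cfsg.Geo.IsNondegenerateQuadraticForm Q) :
    (IsTyp Q (m - 1) 1 ∧
      ∃ L : (Fin n → F) ≃ₗ[F] (Fin m ⊕ Fin m → F), ∀ v, Cfsg.quadFormPlus m F (L v) = 1 * Q v) ∨
    (IsTyp Q (m - 1) (-1) ∧
      ∃ (L : (Fin n → F) ≃ₗ[F] ((Fin (m - 1) ⊕ Fin (m - 1)) ⊕ Fin 2 → F)) (ζ : F),
        (∀ z₁ z₂ : F, z₁ ^ 2 + 1 * z₁ * z₂ + ζ * z₂ ^ 2 = 0 → z₁ = 0 ∧ z₂ = 0) ∧
        ∀ v, Cfsg.quadFormMinus (m - 1) F 1 ζ (L v) = 1 * Q v) := by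
  obtain ⟨k, rfl⟩ : ∃ k, m = k + 1 := ⟨m - 1, by omega⟩
  rcases Cfsg.Agent.Lib.Helper87.OStdE.std_even h2 (Cfsg.Agent.Lib.Helper98.qfOf Q hQ)
    (Cfsg.Agent.Lib.Helper98.qfOf_nondegenerate Q hQ) (k + 1) hm
    (by simp [hn]) with ⟨L, hL⟩ | ⟨L, ζ, hζ, hL⟩
  · left
    have hL' : ∀ v, Cfsg.quadFormPlus (k + 1) F (L v) = Q v := hL
    refine ⟨?_, L, fun v => by rw [one_mul]; exact hL' v⟩
    show IsTyp Q k 1
    refine IsTyp.of_equiv L.symm.toEquiv (fun w => ?_)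
      (Cfsg.Agent.Lib.Helper23.Quad.isTyp_quadFormPlus k)
    have := hL' (L.symm w)
    rw [LinearEquiv.apply_symm_apply] at this
    exact this.symm
  · right
    have hL' : ∀ v, Cfsg.quadFormMinus (k + 1 - 1) F 1 ζ (L v) = Q v := hL
    have hab : ∀ z₁ z₂ : F, z₁ ^ 2 + 1 * z₁ * z₂ + ζ * z₂ ^ 2 = 0 → z₁ = 0 ∧ z₂ = 0 := by
      intro z₁ z₂ h
      by_cases hz : z₂ = 0
      · rw [hz] at h
        refine ⟨?_, hz⟩
        have h' : z₁ ^ 2 = 0 := by linear_combination h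
        exact pow_eq_zero_iff two_ne_zero |>.mp h'
      · exfalso
        apply hζ (z₁ / z₂)
        field_simp
        linear_combination h
    refine ⟨?_, L, ζ, hab, fun v => by rw [one_mul]; exact hL' v⟩
    refine IsTyp.of_equiv L.symm.toEquiv (fun w => ?_)
      (Cfsg.Agent.Lib.Helper2.QuadMINUSTYP.isTyp_quadFormMinus_of (k + 1 - 1) 1 ζ
        (fun Q₁ Q₂ _ _ _ _ h₁ h₂ => Cfsg.Agent.Lib.Helper78.Quad.isTyp_prod Q₁ Q₂ h₁ h₂)
        Cfsg.Agent.Lib.Helper23.Quad.isTyp_quadFormPlus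
        (Cfsg.Agent.Lib.Helper5.QuadAC.isTyp_aniso 1 ζ hab))
    have := hL' (L.symm w)
    rw [LinearEquiv.apply_symm_apply] at this
    exact this.symm

end Cfsg.Agent.Lib.Helper96.Oq
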