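import Cfsg.Agent.Lib.Helper94.OqMULTONE
import Cfsg.Agent.Lib.Helper31.OqTRANSV
import Cfsg.Agent.Lib.Helper64.OqIDX
import Cfsg.Agent.Lib.Helper28.OqARITHLE
import Cfsg.Agent.Lib.Helper20.OqORDPAR
import Cfsg.Agent.Lib.Helper8.OqEXISTSSL
import Cfsg.Agent.Lib.Helper29.OqTYPNOFIX
import Cfsg.Agent.Lib.Helper96.OqTYPEVEN
import Cfsg.Agent.Lib.Helper4.OqORDSIM
import Cfsg.Agent.Lib.Helper39.OqARITHPLUS
import Cfsg.Agent.Lib.Helper66.OqARITHMINUS
import Cfsg.Agent.Lib.Helper54.OqSIMODD
import Cfsg.Agent.Lib.Helper62.OqARITHODD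
import Cfsg.Agent.Lib.Helper61.OqSELFDUAL
import Cfsg.Agent.Lib.Helper96.OqDiag
import Cfsg.Agent.Lib.Helper96.BGLin
import Cfsg.Agent.Lib.Helper96.SfArith
import Cfsg.Agent.Lib.Helper34.SfEXISTW
import Cfsg.Agent.Lib.Helper47.SylowSL
import Cfsg.Agent.Lib.Helper47.SpPrime
import Cfsg.Agent.Lib.Helper47.OrthPrime
import Cfsg.Agent.S0286
import Cfsg.Agent.S0287
import Cfsg.Agent.S0288

/-!
# S5981: the forward direction for odd `r`
-/

set_option autoImplicit false

universe u

namespace Cfsg.Agent.Lib.Helper96.Oq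

open Polynomial Matrix
open scoped MatrixGroups
open Cfsg.Agent.Lib.Helper47

/-- The hypothesis "every element of order `r` is conjugate into the similarity group". -/
def AllFix {F : Type*} [Field F] (n r : ℕ) (Q : (Fin n → F) → F) : Prop :=
  ∀ x ∈ Cfsg.Geo.specialLinear (Fin n) F,
    (∃ z : F, ((x ^ r : GL (Fin n) F) : Matrix (Fin n) (Fin n) F) =
      z • (1 : Matrix (Fin n) (Fin n) F)) →
    (∀ z : F, (x : Matrix (Fin n) (Fin n) F) ≠ z • (1 : Matrix (Fin n) (Fin n) F)) →
    ∃ g ∈ Cfsg.Geo.specialLinear (Fin n) F, g⁻¹ * x * g ∈ Cfsg.Geo.quadSimilarityGroup Q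

/-- From `AllFix` and an element `x` of order `r` (`r ∤ q - 1`) to an isometry with the same
characteristic polynomial. -/
theorem exists_isometry_of_allFix {F : Type*} [Field F] [Fintype F] {n : ℕ} (hn : 0 < n)
    (Q : (Fin n → F) → F) (hQ : Cfsg.Geo.IsNondegenerateQuadraticForm Q)
    (r : ℕ) (hr : r.Prime) (hrq : ¬ r ∣ Fintype.card F - 1) (hall : AllFix n r Q)
    (x : GL (Fin n) F) (hx : x ∈ Cfsg.Geo.specialLinear (Fin n) F) (hxr : x ^ r = 1)
    (hns : ∀ z : F, (x : Matrix (Fin n) (Fin n) F) ≠ z • (1 : Matrix (Fin n) (Fin n) F)) :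
    ∃ y : Matrix (Fin n) (Fin n) F, (∀ v, Q (y *ᵥ v) = Q v) ∧ y ^ r = 1 ∧
      y.charpoly = (x : Matrix (Fin n) (Fin n) F).charpoly := by
  have hz1 : ((x ^ r : GL (Fin n) F) : Matrix (Fin n) (Fin n) F) =
      (1 : F) • (1 : Matrix (Fin n) (Fin n) F) := by
    rw [hxr, one_smul, Units.val_one]
  unfold AllFix at hall
  obtain ⟨g, -, hmem⟩ := hall x hx ⟨1, hz1⟩ hns
  have hyr : (g⁻¹ * x * g) ^ r = 1 := by
    have h1 := conj_pow (a := g⁻¹) (b := x) (i := r)
    rw [inv_inv] at h1
    rw [h1, hxr, mul_one, inv_mul_cancel]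
  refine ⟨((g⁻¹ * x * g : GL (Fin n) F) : Matrix (Fin n) (Fin n) F),
    Cfsg.Agent.Lib.Helper94.Oq.isometry_of_pow hn Q hQ r hr hrq _ hmem hyr, ?_, ?_⟩
  · rw [← Units.val_pow_eq_pow_val, hyr, Units.val_one]
  · rw [Units.val_mul, Units.val_mul, Matrix.mul_assoc, Matrix.charpoly_mul_comm, Matrix.mul_assoc,
      ← Units.val_mul, mul_inv_cancel, Units.val_one, Matrix.mul_one]

/-- If `r` is odd and every element of order `r` is conjugate into the similarity group of the
quadratic form, then we are in the special case. -/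
theorem forward_odd {F : Type u} [Field F] [Fintype F] {p : ℕ} [Fact p.Prime] [CharP F p]
    (hodd : Odd (Fintype.card F)) (n : ℕ) (hn : 3 ≤ n)
    (Q : (Fin n → F) → F) (hQ : Cfsg.Geo.IsNondegenerateQuadraticForm Q)
    (r : ℕ) [Fact r.Prime] (hr2 : r ≠ 2) (hgap : ¬ (n = 6 ∧ r = 3))
    (hΩ : r ∣ (Cfsg.Geo.quadSimilarityGroup Q).relIndex (Cfsg.Geo.specialLinear (Fin n) F))
    (hall : AllFix n r Q)
    (hspec : ¬ ((r = 3 ∨ r = 5) ∧ n = r ∧ padicValNat r (Fintype.card F - 1) = 1)) : False := by
  classical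
  have hr : r.Prime := Fact.out
  have hr3 : 3 ≤ r := by
    have := hr.two_le
    omega
  have h2 : (2 : F) ≠ 0 := two_ne_zero_of_odd_card' rfl hodd
  have hcard2 : 2 ≤ Fintype.card F := Fintype.one_lt_card
  by_cases hrp : r = p
  · subst hrp
    obtain ⟨x, hx, hxp, hns, hnc⟩ := Cfsg.Agent.Lib.Helper31.Oq.transv_not_conj (p := r) h2 n (by omega) Q hQ
    have hz1 : ((x ^ r : GL (Fin n) F) : Matrix (Fin n) (Fin n) F) =
        (1 : F) • (1 : Matrix (Fin n) (Fin n) F) := by
      rw [hxp, one_smul, Units.val_one]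
    obtain ⟨g, -, hmem⟩ := hall x hx ⟨1, hz1⟩ hns
    exact hnc g hmem
  obtain ⟨hrq, hr0, hi1⟩ := BG.facts (F := F) p r hrp
  have hone_iff : r ∣ Fintype.card F - 1 ↔ ((Fintype.card F : ℕ) : ZMod r) = 1 := by
    rw [← ZMod.natCast_eq_zero_iff, Nat.cast_sub (by omega), Nat.cast_one, sub_eq_zero]
  rcases Nat.lt_or_ge (orderOf ((Fintype.card F : ℕ) : ZMod r)) 2 with hlt | hge
  · -- `r ∣ q - 1`: diagonal elements
    have hi : orderOf ((Fintype.card F : ℕ) : ZMod r) = 1 := by omega
    have hdq : r ∣ Fintype.card F - 1 := by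
      rw [hone_iff]
      exact orderOf_eq_one_iff.mp hi
    obtain ⟨ω, hω, hω1⟩ := Sf.exists_prim_root (F := F) r hdq
    have h1r : 1 % r = 1 := Nat.mod_eq_of_lt hr.one_lt
    by_cases hv : padicValNat r n < padicValNat r (Fintype.card F - 1)
    · obtain ⟨w, hw, hwn⟩ := Cfsg.Agent.Lib.Helper34.Sf.exists_w n r (by omega) hv ω hω
      refine diag_contraQ' n r hr2 Q hQ ω hω hω1 hall 1 (fun _ => 1) (by omega)
        le_rfl h1r (fun t _ => ?_) w hw ?_
      · rw [h1r]
        omega
      · rw [Finset.sum_range_one, pow_one]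
        exact hwn
    · push Not at hv
      have hcard1 : Fintype.card F - 1 ≠ 0 := by omega
      have hv1 : 1 ≤ padicValNat r (Fintype.card F - 1) :=
        one_le_padicValNat_of_dvd hcard1 hdq
      have hrn : r ∣ n := dvd_of_one_le_padicValNat (by omega)
      have hrn_le : r ≤ n := Nat.le_of_dvd (by omega) hrn
      have hdet1 : ∀ S : ℕ, S = r → (1 : F) ^ n * ω ^ S = 1 := by
        intro S hS
        rw [hS, one_pow, one_mul, hω]
      have hvspec : n = r → padicValNat r (Fintype.card F - 1) = 1 := by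
        intro hnr
        have h2 : padicValNat r n = 1 := by
          rw [hnr]
          exact padicValNat_self
        omega
      by_cases hr3' : r = 3
      · have hn369 : n = 3 ∨ n = 6 ∨ 9 ≤ n := by
          obtain ⟨t', ht'⟩ := hrn
          rw [hr3'] at ht'
          omega
        rcases hn369 with h3 | h6 | h9
        · exact hspec ⟨Or.inl hr3', by omega, hvspec (by omega)⟩
        · exact hgap ⟨h6, hr3'⟩
        · refine diag_contraQ' n r hr2 Q hQ ω hω hω1 hall 3 (fun _ => 1)
            (by omega) (by omega) h1r (fun t _ => ?_) 1 one_ne_zero (hdet1 _ ?_)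
          · rw [h1r]
            omega
          · rw [Finset.sum_const, Finset.card_range, smul_eq_mul, mul_one, hr3']
      · have hr5 : 5 ≤ r := by
          have h4 : r ≠ 4 := by
            rintro rfl
            exact absurd hr (by norm_num)
          omega
        by_cases hn7 : 7 ≤ n
        · refine diag_contraQ' n r hr2 Q hQ ω hω hω1 hall 3
            (fun t => if t = 0 then 1 else if t = 1 then 2 else r - 3)
            (by omega) (by omega) ?_ (fun t _ => ?_) 1 one_ne_zero (hdet1 _ ?_)
          · rw [if_pos rfl]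
            exact h1r
          · by_cases ht0 : t = 0
            · rw [if_pos ht0, h1r]
              omega
            · rw [if_neg ht0]
              by_cases ht1 : t = 1
              · rw [if_pos ht1, Nat.mod_eq_of_lt (by omega)]
                omega
              · rw [if_neg ht1, Nat.mod_eq_of_lt (by omega)]
                omega
          · rw [Finset.sum_range_succ, Finset.sum_range_succ, Finset.sum_range_one]
            simp
            omega
        · have hn5 : n = 5 ∧ r = 5 := by
            obtain ⟨t', ht'⟩ := hrn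
            have h6 : r ≠ 6 := by
              rintro rfl
              exact absurd hr (by norm_num)
            have ht1 : t' = 1 := by
              rcases Nat.lt_or_ge t' 2 with h | h
              · rcases Nat.eq_zero_or_pos t' with h0 | h0
                · rw [h0, mul_zero] at ht'
                  omega
                · omega
              · have : r * 2 ≤ r * t' := Nat.mul_le_mul_left r h
                omega
            rw [ht1, mul_one] at ht'
            omega
          exact hspec ⟨Or.inr hn5.2, by omega, hvspec (by omega)⟩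
  · -- `r ∤ q - 1`
    have hrq1 : ¬ r ∣ Fintype.card F - 1 := by
      intro h
      rw [hone_iff] at h
      have := orderOf_eq_one_iff.mpr h
      omega
    have hrqn : ¬ r ∣ Fintype.card F := hrq
    obtain ⟨t, ht⟩ := Cfsg.Agent.Lib.Helper64.Oq.idx_mul n Q hQ
    have hS : Nat.card (Matrix.SpecialLinearGroup (Fin n) F) * (Fintype.card F - 1) =
        ∏ i : Fin n, (Fintype.card F ^ n - Fintype.card F ^ (i : ℕ)) := by
      rw [← card_GL_eq_card_SL_mul F n (by omega)]
      exact Matrix.card_GL_field n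
    have hdvd_of : ∀ j : ℕ, r ∣ Fintype.card F ^ j - 1 →
        orderOf ((Fintype.card F : ℕ) : ZMod r) ∣ j := by
      intro j hj
      apply orderOf_dvd_of_pow_eq_one
      have h1 : 1 ≤ Fintype.card F ^ j := Nat.one_le_pow _ _ (by omega)
      rw [← ZMod.natCast_eq_zero_iff, Nat.cast_sub h1, Nat.cast_one, sub_eq_zero] at hj
      exact_mod_cast hj
    obtain ⟨j, hj1, hjn, hjd⟩ := Cfsg.Agent.Lib.Helper28.Oq.arith_le (Fintype.card F) r n _ t _ _ hcard2 hr hr2 hrqn
      hS ht hΩ
    have hile : orderOf ((Fintype.card F : ℕ) : ZMod r) ≤ n :=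
      (Nat.le_of_dvd (by omega) (hdvd_of j hjd)).trans hjn
    -- a cyclotomic factor
    obtain ⟨hfin, hcardf⟩ := card_isCycFactor (F := F) (p := p) (q := Fintype.card F) rfl hr hrp
    have hq0 : ((Fintype.card F : ℕ) : ZMod r) ≠ 0 := by
      rw [Ne, ZMod.natCast_eq_zero_iff]
      exact hrqn
    have hidvd : orderOf ((Fintype.card F : ℕ) : ZMod r) ∣ r - 1 :=
      ZMod.orderOf_dvd_card_sub_one hq0
    have hposf : 0 < Nat.card {f : F[X] // IsCycFactor r f} := by
      rw [hcardf]
      exact Nat.div_pos (Nat.le_of_dvd (by omega) hidvd) (by omega)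
    obtain ⟨⟨f, hf⟩⟩ := (Nat.card_pos_iff.mp hposf).1
    have hself := dualP_id_eq_self_iff (F := F) (p := p) (q := Fintype.card F) rfl hr hr2 hrp hf
    by_cases hev : Even (orderOf ((Fintype.card F : ℕ) : ZMod r))
    · obtain ⟨hpar1, hpar2, hpar3⟩ := Cfsg.Agent.Lib.Helper20.Oq.ord_parity (Fintype.card F) r hr2 hcard2 hrqn hev
      have hfd : dualP (RingHom.id F) f = f := hself.mpr hev
      -- the common end of the two even cases
      have hend : ∀ (m : ℕ), 1 ≤ m → n = 2 * m → ∀ ε : ℤ, IsTyp Q (m - 1) ε →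
          orderOf ((Fintype.card F : ℕ) : ZMod r) ∣ 2 * m →
          ε ≠ (-1) ^ (2 * m / orderOf ((Fintype.card F : ℕ) : ZMod r)) → False := by
        intro m hm hnm ε hε hdvd hne
        obtain ⟨a, ha⟩ : ∃ a, a = 2 * m / orderOf ((Fintype.card F : ℕ) : ZMod r) := ⟨_, rfl⟩
        have hia : orderOf ((Fintype.card F : ℕ) : ZMod r) * a = n := by
          rw [ha, Nat.mul_div_cancel' hdvd, hnm]
        have ha1 : 1 ≤ a := by
          rcases Nat.eq_zero_or_pos a with h0 | h0
          · rw [h0, mul_zero] at hia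
            omega
          · exact h0
        obtain ⟨x, hx, hxr, hxch, hxns⟩ := Cfsg.Agent.Lib.Helper8.Oq.exists_sl_of_factors (F := F) (p := p) n r hr hrp
          hrq1 0 (Multiset.replicate a f) (fun g hg => by
            rw [Multiset.eq_of_mem_replicate hg]
            exact hf) (by
            intro h0
            have := congrArg Multiset.card h0
            rw [Multiset.card_replicate, Multiset.card_zero] at this
            omega) (by rw [Multiset.card_replicate, zero_add]; exact hia)
        obtain ⟨y, hyQ, hyr, hych⟩ := exists_isometry_of_allFix (by omega) Q hQ r hr hrq1 hall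
          x hx hxr hxns
        rw [hxch, pow_zero, one_mul, Multiset.prod_replicate] at hych
        have := Cfsg.Agent.Lib.Helper29.Oq.typ_of_fpf (p := p) Q hQ m hm hnm ε hε r hr hr2 hrp y hyQ hyr f hf hfd a ha1
          hych
        rw [← ha] at hne
        exact hne this
      rcases Nat.even_or_odd' n with ⟨m, hm | hm⟩
      · have hm1 : 1 ≤ m := by omega
        rcases Cfsg.Agent.Lib.Helper96.Oq.typ_even h2 n m hm1 hm Q hQ with ⟨hT, L, hL⟩ | ⟨hT, L, ζ, hζ, hL⟩
        · have hO := (Cfsg.Agent.Lib.Helper4.Oq.card_isometry_of_sim Q _ L 1 one_ne_zero hL).trans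
            (Cfsg.Agent.S0287.result (F := F) rfl m hm1)
          subst hm
          rcases Cfsg.Agent.Lib.Helper39.Oq.arith_plus (Fintype.card F) r m _ t _ _ hcard2 hm1 hr hrqn hO hS ht hΩ with
            ⟨j', hj'odd, hj'⟩ | hplus
          · exact hpar1 j' hj'odd hj'
          · obtain ⟨hd, hodd'⟩ := hpar2 m hplus
            refine hend m hm1 rfl 1 hT hd ?_
            rw [hodd'.neg_one_pow]
            norm_num
        · have hO := (Cfsg.Agent.Lib.Helper4.Oq.card_isometry_of_sim Q _ L 1 one_ne_zero hL).trans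
            (Cfsg.Agent.S0288.result (F := F) rfl m hm1 1 ζ hζ)
          subst hm
          rcases Cfsg.Agent.Lib.Helper66.Oq.arith_minus (Fintype.card F) r m _ t _ _ hcard2 hm1 hr hrqn hO hS ht hΩ with
            ⟨j', hj'odd, hj'⟩ | hminus
          · exact hpar1 j' hj'odd hj'
          · obtain ⟨hd, hev'⟩ := hpar3 m hminus
            refine hend m hm1 rfl (-1) hT hd ?_
            rw [hev'.neg_one_pow]
            norm_num
      · obtain ⟨L, c, hc, hL⟩ := Cfsg.Agent.Lib.Helper54.Oq.sim_odd h2 n m hm Q hQ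
        have hO := (Cfsg.Agent.Lib.Helper4.Oq.card_isometry_of_sim Q _ L c hc hL).trans
          (Cfsg.Agent.S0286.result (F := F) rfl hodd m)
        subst hm
        obtain ⟨j', hj'odd, hj'⟩ := Cfsg.Agent.Lib.Helper62.Oq.arith_odd (Fintype.card F) r m _ t _ _ hcard2 hr hrqn hO hS
          ht hΩ
        exact hpar1 j' hj'odd hj'
    · -- odd order at least 3: a single block
      obtain ⟨x, hx, hxr, hxch, hxns⟩ := Cfsg.Agent.Lib.Helper8.Oq.exists_sl_of_factors (F := F) (p := p) n r hr hrp
        hrq1 (n - orderOf ((Fintype.card F : ℕ) : ZMod r)) {f} (fun g hg => by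
          rw [Multiset.mem_singleton.mp hg]
          exact hf) (Multiset.singleton_ne_zero f) (by
          rw [Multiset.card_singleton, mul_one]
          omega)
      obtain ⟨y, hyQ, hyr, hych⟩ := exists_isometry_of_allFix (by omega) Q hQ r hr hrq1 hall
        x hx hxr hxns
      have hsd := Cfsg.Agent.Lib.Helper61.Oq.charpoly_selfdual_of_isometry Q hQ y hyQ
      rw [hych, hxch, Multiset.prod_singleton, dualP_mul, dualP_pow, dualP_X_sub_one] at hsd
      have hne0 : (X - 1 : F[X]) ^ (n - orderOf ((Fintype.card F : ℕ) : ZMod r)) ≠ 0 :=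
        pow_ne_zero _ (X_sub_C_ne_zero (1 : F) |> fun h => by simpa using h)
      exact hev (hself.mp (mul_left_cancel₀ hne0 hsd))

end Cfsg.Agent.Lib.Helper96.Oq
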