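import Mathlib
import Cfsg.Agent.Lib.Helper96.OrthFull

/-!
Orthogonal splittings `V = W ⟂ W'` of a quadratic space and the overgroups in `Ω` of the group
generated by the Eichler transformations of the two summands: any subgroup of the isometry group
containing these and an element mapping a singular vector of `W` outside `W ∪ W'` contains `Ω`
(`osplit_overgroup`), in every characteristic, when both summands have dimension at least 7.
-/

set_option autoImplicit false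
set_option linter.unusedSectionVars false

namespace Cfsg.Agent.Lib.Helper96

open Module QuadraticMap
open Cfsg.Agent.Lib.Helper51 Cfsg.Agent.Lib.Helper52

section Split

variable {ι : Type} [Fintype ι] [DecidableEq ι] {F : Type*} [Field F]
variable (Q : QuadraticForm F (ι → F))

local notation "mt(" g ")" => ((g : Matrix.GeneralLinearGroup ι F) : Matrix ι ι F)

/-- `V = W + W'` with `W ⟂ W'`. -/
structure OSplit (W W' : Submodule F (ι → F)) : Prop where
  orth : ∀ a ∈ W, ∀ b ∈ W', polar ⇑Q a b = 0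
  sup : W ⊔ W' = ⊤

variable {Q} {W W' : Submodule F (ι → F)}

theorem OSplit.symm (h : OSplit Q W W') : OSplit Q W' W :=
  ⟨fun a ha b hb => by rw [polar_comm]; exact h.orth b hb a ha, by rw [sup_comm]; exact h.sup⟩

theorem OSplit.decomp (h : OSplit Q W W') (x : ι → F) : ∃ a ∈ W, ∃ b ∈ W', x = a + b := by
  have : x ∈ W ⊔ W' := by rw [h.sup]; trivial
  obtain ⟨a, ha, b, hb, rfl⟩ := Submodule.mem_sup.mp this
  exact ⟨a, ha, b, hb, rfl⟩

theorem OSplit.nd (h : OSplit Q W W') (hQ : (polarBilin Q).Nondegenerate) {w : ι → F}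
    (hw : w ∈ W) (hw0 : w ≠ 0) : ∃ x ∈ W, polar ⇑Q x w ≠ 0 := by
  obtain ⟨y, hy⟩ := exists_polar_ne_zero Q hQ w hw0
  obtain ⟨a, ha, b, hb, rfl⟩ := h.decomp y
  refine ⟨a, ha, ?_⟩
  rw [polar_add_right, h.orth w hw b hb, add_zero] at hy
  rwa [polar_comm]

theorem OSplit.eq_zero_of_mem (h : OSplit Q W W') (hQ : (polarBilin Q).Nondegenerate)
    {x : ι → F} (hx : x ∈ W) (hx' : x ∈ W') : x = 0 := by
  by_contra hne
  obtain ⟨y, hy, hyx⟩ := h.nd hQ hx hne
  exact hyx (h.orth y hy x hx')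

/-- A hyperbolic partner inside `W` of a non-zero singular vector of `W`. -/
theorem OSplit.exists_partner (h : OSplit Q W W') (hQ : (polarBilin Q).Nondegenerate)
    {u : ι → F} (hu : u ∈ W) (hu0 : u ≠ 0) (hQu : Q u = 0) :
    ∃ t ∈ W, Q t = 0 ∧ polar ⇑Q u t = 1 := by
  obtain ⟨x, hx, hxu⟩ := h.nd hQ hu hu0
  obtain ⟨x', hx'W, h1⟩ : ∃ x' ∈ W, polar ⇑Q u x' = 1 := by
    have hxu' : polar ⇑Q u x ≠ 0 := by rw [polar_comm]; exact hxu
    refine ⟨(polar ⇑Q u x)⁻¹ • x, W.smul_mem _ hx, ?_⟩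
    rw [polar_smul_right, smul_eq_mul, inv_mul_cancel₀ hxu']
  refine ⟨x' - Q x' • u, W.sub_mem hx'W (W.smul_mem _ hu), ?_, ?_⟩
  · rw [Q_sub_smul', hQu, h1]; ring
  · rw [polar_sub_right, polar_smul_right, Cfsg.Agent.Lib.Helper51.polar_self, hQu, h1]; simp

/-- `dim (W ∩ S^⟂) ≥ dim W - |S|`. -/
theorem finrank_inf_orth_ge (hQ : (polarBilin Q).Nondegenerate) (W : Submodule F (ι → F))
    (S : Finset (ι → F)) :
    finrank F W ≤ finrank F ↥(W ⊓ LinearMap.BilinForm.orthogonal (polarBilin Q)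
      (Submodule.span F (S : Set (ι → F)))) + S.card := by
  have h1 := finrank_orth_span_ge Q hQ S
  have h2 := Submodule.finrank_sup_add_finrank_inf_eq W
    (LinearMap.BilinForm.orthogonal (polarBilin Q) (Submodule.span F (S : Set (ι → F))))
  have h3 := Submodule.finrank_le (W ⊔ LinearMap.BilinForm.orthogonal (polarBilin Q)
    (Submodule.span F (S : Set (ι → F))))
  rw [Module.finrank_fintype_fun_eq_card] at h3
  omega

end Split

section SplitFin

variable {ι : Type} [Fintype ι] [DecidableEq ι] {F : Type*} [Field F] [Fintype F]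
variable {Q : QuadraticForm F (ι → F)} {W W' : Submodule F (ι → F)}

local notation "mt(" g ")" => ((g : Matrix.GeneralLinearGroup ι F) : Matrix ι ι F)

/-- A non-zero singular vector of `W` orthogonal to a few given vectors. -/
theorem exists_singular_in (hQ : (polarBilin Q).Nondegenerate) (W : Submodule F (ι → F))
    (S : Finset (ι → F)) (hS : S.card + 3 ≤ finrank F W) :
    ∃ d ∈ W, d ≠ 0 ∧ Q d = 0 ∧ ∀ s ∈ S, polar ⇑Q s d = 0 := by
  have h1 := finrank_inf_orth_ge hQ W S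
  obtain ⟨d, hd, hd0, hQd⟩ := exists_singular_of_finrank Q
    (W ⊓ LinearMap.BilinForm.orthogonal (polarBilin Q) (Submodule.span F (S : Set (ι → F))))
    (by omega)
  refine ⟨d, hd.1, hd0, hQd, fun s hs => ?_⟩
  exact (mem_orth_span Q _ d).mp hd.2 s (by exact_mod_cast hs)

/-- Two non-orthogonal vectors of `W`, both orthogonal to a given vector `s` of `W`. -/
theorem OSplit.exists_pair_orth (h : OSplit Q W W') (hQ : (polarBilin Q).Nondegenerate)
    (hk : 5 ≤ finrank F W) {s : ι → F} (hs : s ∈ W) :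
    ∃ w₁ ∈ W, ∃ w₂ ∈ W, polar ⇑Q s w₁ = 0 ∧ polar ⇑Q s w₂ = 0 ∧ polar ⇑Q w₁ w₂ ≠ 0 := by
  classical
  obtain ⟨p, hpW, hp⟩ : ∃ p ∈ W, s ≠ 0 → polar ⇑Q s p = 1 := by
    by_cases hs0 : s = 0
    · exact ⟨0, W.zero_mem, fun h => absurd hs0 h⟩
    · obtain ⟨x, hx, hxs⟩ := h.nd hQ hs hs0
      have hxs' : polar ⇑Q s x ≠ 0 := by rw [polar_comm]; exact hxs
      refine ⟨(polar ⇑Q s x)⁻¹ • x, W.smul_mem _ hx, fun _ => ?_⟩
      rw [polar_smul_right, smul_eq_mul, inv_mul_cancel₀ hxs']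
  obtain ⟨d, hdW, hd0, hQd, hd⟩ := exists_singular_in hQ W {s, p}
    (by have := Finset.card_le_two (a := s) (b := p); omega)
  have hsd : polar ⇑Q s d = 0 := hd s (by simp)
  have hpd : polar ⇑Q p d = 0 := hd p (by simp)
  obtain ⟨t₀, ht₀W, ht₀⟩ := h.nd hQ hdW hd0
  refine ⟨d, hdW, t₀ - polar ⇑Q s t₀ • p, W.sub_mem ht₀W (W.smul_mem _ hpW), hsd, ?_, ?_⟩
  · by_cases hs0 : s = 0
    · subst hs0
      exact polar_zero_left _ _
    · rw [polar_sub_right, polar_smul_right, hp hs0]; simp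
  · rw [polar_sub_right, polar_smul_right, polar_comm ⇑Q d p, hpd, smul_zero, sub_zero,
      polar_comm]
    exact ht₀

/-- A non-singular vector of `W` orthogonal to a given vector `s` of `W`. -/
theorem OSplit.exists_nonsing_orth (h : OSplit Q W W') (hQ : (polarBilin Q).Nondegenerate)
    (hk : 5 ≤ finrank F W) {s : ι → F} (hs : s ∈ W) :
    ∃ w ∈ W, polar ⇑Q s w = 0 ∧ Q w ≠ 0 := by
  obtain ⟨w₁, hw₁, w₂, hw₂, h1, h2, h12⟩ := h.exists_pair_orth hQ hk hs
  by_cases e1 : Q w₁ = 0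
  · by_cases e2 : Q w₂ = 0
    · refine ⟨w₁ + w₂, W.add_mem hw₁ hw₂, by rw [polar_add_right, h1, h2, add_zero], ?_⟩
      have : Q (w₁ + w₂) = Q w₁ + Q w₂ + polar ⇑Q w₁ w₂ := by
        unfold QuadraticMap.polar; ring
      rw [this, e1, e2, zero_add, zero_add]
      exact h12
    · exact ⟨w₂, hw₂, h2, e2⟩
  · exact ⟨w₁, hw₁, h1, e1⟩

/-- Every vector of `W` is a combination of three singular vectors of `W`. -/
theorem OSplit.exists_singular_comb (h : OSplit Q W W') (hQ : (polarBilin Q).Nondegenerate)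
    (hk : 3 ≤ finrank F W) {v : ι → F} (hv : v ∈ W) :
    ∃ p ∈ W, ∃ s ∈ W, ∃ t ∈ W, Q p = 0 ∧ Q s = 0 ∧ Q t = 0 ∧ ∃ α β : F,
      v = p + α • s + β • t := by
  obtain ⟨s, hsW, hs0, hQs⟩ := exists_singular_of_finrank Q W hk
  obtain ⟨t, htW, hQt, hst⟩ := h.exists_partner hQ hsW hs0 hQs
  have hts : polar ⇑Q t s = 1 := by rw [polar_comm]; exact hst
  have hss : polar ⇑Q s s = 0 := by rw [Cfsg.Agent.Lib.Helper51.polar_self, hQs, mul_zero]
  have htt : polar ⇑Q t t = 0 := by rw [Cfsg.Agent.Lib.Helper51.polar_self, hQt, mul_zero]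
  obtain ⟨v₀, hv₀⟩ : ∃ v₀, v₀ = v - polar ⇑Q v t • s - polar ⇑Q v s • t := ⟨_, rfl⟩
  have hv₀W : v₀ ∈ W := by
    rw [hv₀]; exact W.sub_mem (W.sub_mem hv (W.smul_mem _ hsW)) (W.smul_mem _ htW)
  have h1 : polar ⇑Q v₀ s = 0 := by
    rw [hv₀, polar_sub_left, polar_sub_left, polar_smul_left, polar_smul_left, hss, hts]; simp
  have h2 : polar ⇑Q v₀ t = 0 := by
    rw [hv₀, polar_sub_left, polar_sub_left, polar_smul_left, polar_smul_left, hst, htt]; simp
  refine ⟨v₀ - Q v₀ • s + t, W.add_mem (W.sub_mem hv₀W (W.smul_mem _ hsW)) htW, s, hsW, t, htW,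
    ?_, hQs, hQt, Q v₀ + polar ⇑Q v t, polar ⇑Q v s - 1, ?_⟩
  · have e : v₀ - Q v₀ • s + t = v₀ + (- Q v₀) • s + (1 : F) • t := by module
    rw [e, Q_add_smul_add_smul, hQs, hQt, h1, h2, hst]; ring
  · rw [hv₀]; module

end SplitFin

end Cfsg.Agent.Lib.Helper96
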