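import Mathlib
import Cfsg.Agent.Lib.Helper96.OrthSplit

/-!
Maximality in `Ω(Q)` of the stabiliser of a totally singular subspace `W` (a maximal parabolic),
by Eichler root groups: `ts_stab_maximal`, valid in every characteristic, under the hypothesis
that no totally singular subspace `T` properly containing `W` has `dim T + dim W + 1 ≥ n` (this
excludes exactly the case `dim W = n/2 - 1` in a space of plus type).
-/

set_option autoImplicit false
set_option linter.unusedSectionVars false

namespace Cfsg.Agent.Lib.Helper96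

open Module QuadraticMap
open Cfsg.Agent.Lib.Helper51 Cfsg.Agent.Lib.Helper52

section Para

variable {ι : Type} [Fintype ι] [DecidableEq ι] {F : Type*} [Field F] [Fintype F]
variable (Q : QuadraticForm F (ι → F))

local notation "mt(" g ")" => ((g : Matrix.GeneralLinearGroup ι F) : Matrix ι ι F)

theorem osplit_top : OSplit Q ⊤ ⊥ :=
  ⟨fun a _ b hb => by rw [(Submodule.mem_bot F).mp hb, polar_zero_right], sup_bot_eq ⊤⟩

theorem polar_eq_zero_of_ts (W : Submodule F (ι → F)) (hW : ∀ w ∈ W, Q w = 0) {x y : ι → F}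
    (hx : x ∈ W) (hy : y ∈ W) : polar ⇑Q x y = 0 := by
  unfold QuadraticMap.polar
  rw [hW _ (W.add_mem hx hy), hW x hx, hW y hy]
  simp

/-- The stabiliser in `Ω` of a non-zero totally singular subspace `W` is a maximal subgroup of
`Ω`, provided no totally singular `T ⊋ W` has `dim T + dim W + 1 ≥ n`. -/
theorem ts_stab_maximal (hQ : (polarBilin Q).Nondegenerate) (hn : 5 ≤ Fintype.card ι)
    (W : Submodule F (ι → F)) (hW0 : W ≠ ⊥) (hW : ∀ w ∈ W, Q w = 0)
    (hex : ∀ T : Submodule F (ι → F), (∀ t ∈ T, Q t = 0) → W < T →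
      finrank F T + finrank F W + 1 < Fintype.card ι) :
    Cfsg.Geo.IsMaximalIn (Cfsg.Geo.omegaGL ⇑Q)
      (Cfsg.Geo.subspaceStabilizer W ⊓ Cfsg.Geo.omegaGL ⇑Q) := by
  -- Eichler transformations with centre in `W`, or with both parameters orthogonal to `W`
  have hmemH1 : ∀ (u w : ι → F) (hu : u ∈ W) (hQu : Q u = 0) (huw : polar ⇑Q u w = 0),
      ((eich Q u w hQu huw : ↥(Cfsg.isometryGroup F ⇑Q)) : Matrix.GeneralLinearGroup ι F)
        ∈ Cfsg.Geo.subspaceStabilizer W ⊓ Cfsg.Geo.omegaGL ⇑Q := by
    intro u w hu hQu huw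
    refine ⟨coe_mem_subspaceStabilizer Q W _ (fun x hx => ?_),
      coe_mem_omegaGL Q (eich_mem_commutator Q hQ hn u w hQu huw)⟩
    rw [coe_eich, eichMat_mulVec, polar_eq_zero_of_ts Q W hW hu hx]
    simp only [zero_smul, mul_zero, sub_zero]
    exact W.add_mem hx (W.smul_mem _ hu)
  have hmemH2 : ∀ (s w : ι → F) (hs : ∀ x ∈ W, polar ⇑Q s x = 0)
      (hw : ∀ x ∈ W, polar ⇑Q w x = 0) (hQs : Q s = 0) (hsw : polar ⇑Q s w = 0),
      ((eich Q s w hQs hsw : ↥(Cfsg.isometryGroup F ⇑Q)) : Matrix.GeneralLinearGroup ι F)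
        ∈ Cfsg.Geo.subspaceStabilizer W ⊓ Cfsg.Geo.omegaGL ⇑Q := by
    intro s w hs hw hQs hsw
    refine ⟨coe_mem_subspaceStabilizer Q W _ (fun x hx => ?_),
      coe_mem_omegaGL Q (eich_mem_commutator Q hQ hn s w hQs hsw)⟩
    rw [coe_eich, eichMat_mulVec_of_orth Q s w x (hw x hx) (hs x hx)]
    exact hx
  obtain ⟨u₀, hu₀W, hu₀0⟩ := Submodule.exists_mem_ne_zero_of_ne_bot hW0
  refine ⟨lt_of_le_of_ne inf_le_right ?_, fun M hHM hMK => ?_⟩
  · -- strictness
    intro heq
    obtain ⟨t, -, hQt, hut⟩ := (osplit_top Q).exists_partner hQ (Submodule.mem_top) hu₀0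
      (hW u₀ hu₀W)
    have ht0 : t ≠ 0 := by
      rintro rfl
      rw [polar_zero_right] at hut
      exact zero_ne_one hut
    obtain ⟨g, hg, c, hc, hgu⟩ := exists_mem_commutator_map_singular Q hQ hn u₀ t hu₀0
      (hW u₀ hu₀W) ht0 hQt
    have hmem : (g : Matrix.GeneralLinearGroup ι F) ∈ Cfsg.Geo.omegaGL ⇑Q := coe_mem_omegaGL Q hg
    rw [← heq] at hmem
    have h1 := ((mem_subspaceStabilizer_iff W _).mp hmem.1 u₀).mp hu₀W
    rw [hgu] at h1
    have h2 : t ∈ W := by
      have := W.smul_mem c⁻¹ h1
      rwa [smul_smul, inv_mul_cancel₀ hc, one_smul] at this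
    have := polar_eq_zero_of_ts Q W hW hu₀W h2
    rw [hut] at this
    exact one_ne_zero this
  · by_cases hMH : M ≤ Cfsg.Geo.subspaceStabilizer W ⊓ Cfsg.Geo.omegaGL ⇑Q
    · left
      exact le_antisymm hMH hHM
    · right
      apply le_antisymm hMK
      obtain ⟨g₀, hg₀M, hg₀H⟩ := SetLike.not_le_iff_exists.mp hMH
      obtain ⟨g, hgc, rfl⟩ := exists_of_mem_omegaGL Q (hMK hg₀M)
      have hgD : (g : Matrix.GeneralLinearGroup ι F) ∉ Cfsg.Geo.subspaceStabilizer W :=
        fun hc => hg₀H ⟨hc, hMK hg₀M⟩
      obtain ⟨M', hM'⟩ : ∃ M' : Subgroup ↥(Cfsg.isometryGroup F ⇑Q),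
          M' = M.comap (Cfsg.isometryGroup F ⇑Q).subtype := ⟨_, rfl⟩
      have hmemM' : ∀ x : ↥(Cfsg.isometryGroup F ⇑Q), x ∈ M' ↔
          (x : Matrix.GeneralLinearGroup ι F) ∈ M := by
        intro x
        rw [hM']
        rfl
      have hgM' : g ∈ M' := (hmemM' g).mpr hg₀M
      have hfullW : ∀ u ∈ W, Full Q M' u := by
        intro u hu
        exact ⟨hW u hu, fun w huw => ⟨hW u hu, huw,
          (hmemM' _).mpr (hHM (hmemH1 u w hu (hW u hu) huw))⟩⟩
      have hfin : commutator ↥(Cfsg.isometryGroup F ⇑Q) ≤ M' := by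
        obtain ⟨u, hu, hgu⟩ : ∃ u ∈ W, mt(g).mulVec u ∉ W := by
          by_contra hcon
          push Not at hcon
          exact hgD (coe_mem_subspaceStabilizer Q W g hcon)
        have hfv : Full Q M' (mt(g).mulVec u) := (hfullW u hu).conj hgM'
        obtain ⟨v, hv⟩ : ∃ v, v = mt(g).mulVec u := ⟨_, rfl⟩
        rw [← hv] at hfv hgu
        have hQv : Q v = 0 := hfv.1
        by_cases hA : ∃ u' ∈ W, polar ⇑Q v u' ≠ 0
        · obtain ⟨u', hu', hvu'⟩ := hA
          exact omega_le_of_full_pair hQ hn hfv (hfullW u' hu') hvu'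
        push Not at hA
        obtain ⟨p, hpv, hpW⟩ := exists_polar_sep Q hQ W v hgu
        have hvv : polar ⇑Q v v = 0 := by
          rw [Cfsg.Agent.Lib.Helper51.polar_self, hQv, mul_zero]
        obtain ⟨s, hs⟩ : ∃ s, s = p - Q p • v := ⟨_, rfl⟩
        have hQs : Q s = 0 := by
          rw [hs, Q_sub_smul', hQv, polar_comm ⇑Q v p, hpv]; ring
        have hsv : polar ⇑Q s v = 1 := by
          rw [hs, polar_sub_left, polar_smul_left, hvv, hpv]; simp
        have hsW : ∀ x ∈ W, polar ⇑Q s x = 0 := by
          intro x hx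
          rw [hs, polar_sub_left, polar_smul_left, hpW x hx, hA x hx]; simp
        have hss : polar ⇑Q s s = 0 := by
          rw [Cfsg.Agent.Lib.Helper51.polar_self, hQs, mul_zero]
        -- a non-singular vector orthogonal to `W` and `s`
        obtain ⟨w, hwW, hsw, hQw⟩ : ∃ w, (∀ x ∈ W, polar ⇑Q w x = 0) ∧ polar ⇑Q s w = 0 ∧
            Q w ≠ 0 := by
          by_contra hcon
          push Not at hcon
          obtain ⟨T, hT⟩ : ∃ T : Submodule F (ι → F), T = LinearMap.BilinForm.orthogonal
            (polarBilin Q) (W ⊔ Submodule.span F ({s} : Set (ι → F))) := ⟨_, rfl⟩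
          have hmemT : ∀ x, x ∈ T ↔ (∀ y ∈ W, polar ⇑Q x y = 0) ∧ polar ⇑Q s x = 0 := by
            intro x
            rw [hT, LinearMap.BilinForm.mem_orthogonal_iff]
            constructor
            · intro hx
              refine ⟨fun y hy => ?_, ?_⟩
              · have := hx y (Submodule.mem_sup_left hy)
                rw [polarBilin_apply_apply] at this
                rw [polar_comm]; exact this
              · have := hx s (Submodule.mem_sup_right (Submodule.mem_span_singleton_self s))
                rw [polarBilin_apply_apply] at this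
                exact this
            · rintro ⟨h1, h2⟩ n hn'
              rw [polarBilin_apply_apply]
              obtain ⟨y, hy, z, hz, rfl⟩ := Submodule.mem_sup.mp hn'
              obtain ⟨c, rfl⟩ := Submodule.mem_span_singleton.mp hz
              rw [polar_add_left, polar_smul_left, h2, polar_comm, h1 y hy]
              simp
          have hTts : ∀ t ∈ T, Q t = 0 := by
            intro t ht
            obtain ⟨h1, h2⟩ := (hmemT t).mp ht
            exact hcon t h1 h2
          have hWT : W < T := by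
            refine lt_of_le_of_ne (fun x hx => (hmemT x).mpr
              ⟨fun y hy => polar_eq_zero_of_ts Q W hW hx hy, hsW x hx⟩) ?_
            intro heq
            have hsT : s ∈ T := (hmemT s).mpr ⟨hsW, hss⟩
            rw [← heq] at hsT
            have := hA s hsT
            rw [polar_comm, hsv] at this
            exact one_ne_zero this
          have h3 := hex T hTts hWT
          have h4 : finrank F T = Fintype.card ι
              - finrank F ↥(W ⊔ Submodule.span F ({s} : Set (ι → F))) := by
            rw [hT, LinearMap.BilinForm.finrank_orthogonal hQ, Module.finrank_fintype_fun_eq_card]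
          have h5 : finrank F ↥(W ⊔ Submodule.span F ({s} : Set (ι → F))) ≤ finrank F W + 1 := by
            have := Submodule.finrank_add_le_finrank_add_finrank W
              (Submodule.span F ({s} : Set (ι → F)))
            have hs0 : s ≠ 0 := by
              rintro rfl
              rw [polar_zero_left] at hsv
              exact zero_ne_one hsv
            have h6 := finrank_span_singleton (K := F) hs0
            omega
          omega
        obtain ⟨_, _, hm⟩ : InM Q M' s w :=
          ⟨hQs, hsw, (hmemM' _).mpr (hHM (hmemH2 s w hsW hwW hQs hsw))⟩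
        have hfull2 := hfv.conj hm
        rw [coe_eich] at hfull2
        apply omega_le_of_full_pair hQ hn hfv hfull2
        have e : polar ⇑Q v ((eichMat Q s w).mulVec v) = - Q w := by
          rw [eichMat_mulVec]
          simp only [polar_add_right, polar_sub_right, polar_smul_right, smul_eq_mul]
          rw [hvv, hsv, polar_comm ⇑Q v s, hsv, polar_comm ⇑Q w v]
          ring
        rw [e]
        exact neg_ne_zero.mpr hQw
      intro x hx
      obtain ⟨c, hc, rfl⟩ := exists_of_mem_omegaGL Q hx
      exact (hmemM' c).mp (hfin hc)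

end Para

end Cfsg.Agent.Lib.Helper96
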