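import Mathlib
import Cfsg.Agent.Lib.Helper96.OrthSplit

set_option autoImplicit false
set_option linter.unusedSectionVars false

namespace Cfsg.Agent.Lib.Helper96

open Module QuadraticMap
open Cfsg.Agent.Lib.Helper51 Cfsg.Agent.Lib.Helper52

section Over

variable {ι : Type} [Fintype ι] [DecidableEq ι] {F : Type*} [Field F] [Fintype F]
variable {Q : QuadraticForm F (ι → F)} {W W' : Submodule F (ι → F)}
variable {M : Subgroup ↥(Cfsg.isometryGroup F ⇑Q)}

local notation "mt(" g ")" => ((g : Matrix.GeneralLinearGroup ι F) : Matrix ι ι F)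

/-- Key step: if `ρ_{u₁,z} ∈ M` and `s ∈ W'` is singular with `f(s,z) ≠ 0`, then `ρ_{u₁,w} ∈ M`
for all `w` in `F s` and in `W' ∩ s^⟂`. -/
theorem inM_key (h : OSplit Q W W') (hQ : (polarBilin Q).Nondegenerate) (hk : 5 ≤ finrank F W')
    (hM' : ∀ s w : ι → F, s ∈ W' → w ∈ W' → Q s = 0 → polar ⇑Q s w = 0 → InM Q M s w)
    {u₁ : ι → F} (hu₁ : u₁ ∈ W) {z s : ι → F} (hB : InM Q M u₁ z)
    (hs : s ∈ W') (hQs : Q s = 0) (hc : polar ⇑Q s z ≠ 0) :
    (∀ l : F, InM Q M u₁ (l • s)) ∧ ∀ w ∈ W', polar ⇑Q s w = 0 → InM Q M u₁ w := by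
  have hinv : ∀ w ∈ W', polar ⇑Q s w = 0 → ∀ v, InM Q M u₁ v →
      InM Q M u₁ ((eichMat Q s w).mulVec v) := by
    intro w hw hsw v hv
    obtain ⟨hs', hsw', hm⟩ := hM' s w hs hw hQs hsw
    have := hv.conj hm
    rw [coe_eich, eichMat_mulVec_of_orth Q s w u₁ (by rw [polar_comm]; exact h.orth u₁ hu₁ w hw)
      (by rw [polar_comm]; exact h.orth u₁ hu₁ s hs)] at this
    exact this
  have ha : ∀ w ∈ W', polar ⇑Q s w = 0 → ∀ t : F, InM Q M u₁
      ((t * polar ⇑Q w z - t * t * Q w * polar ⇑Q s z) • s - (t * polar ⇑Q s z) • w) := by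
    intro w hw hsw t
    have h1 := hinv (t • w) (W'.smul_mem _ hw) (by rw [polar_smul_right, hsw, smul_zero]) z hB
    have h2 := h1.sub hB
    have e : (eichMat Q s (t • w)).mulVec z - z
        = (t * polar ⇑Q w z - t * t * Q w * polar ⇑Q s z) • s - (t * polar ⇑Q s z) • w := by
      rw [eichMat_mulVec, polar_smul_left, QuadraticMap.map_smul]
      simp only [smul_eq_mul]
      module
    rwa [e] at h2
  obtain ⟨w₁, hw₁, w₂, hw₂, h1, h2, h12⟩ := h.symm.exists_pair_orth hQ hk hs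
  have hFs : ∀ l : F, InM Q M u₁ (l • s) := by
    intro l
    obtain ⟨t, ht⟩ : ∃ t : F, t = - l / (polar ⇑Q w₁ w₂ * polar ⇑Q s z) := ⟨_, rfl⟩
    have e1 := ha (t • w₁ + w₂) (W'.add_mem (W'.smul_mem _ hw₁) hw₂)
      (by rw [polar_add_right, polar_smul_right, h1, h2]; simp) 1
    have e2 := ha (t • w₁) (W'.smul_mem _ hw₁) (by rw [polar_smul_right, h1, smul_zero]) 1
    have e3 := ha w₂ hw₂ h2 1
    have e4 := (e1.sub e2).sub e3
    have hQ' : Q (t • w₁ + w₂) = Q (t • w₁) + Q w₂ + t * polar ⇑Q w₁ w₂ := by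
      have : Q (t • w₁ + w₂) = Q (t • w₁) + Q w₂ + polar ⇑Q (t • w₁) w₂ := by
        unfold QuadraticMap.polar; ring
      rw [this, polar_smul_left, smul_eq_mul]
    have e5 : ((1 * polar ⇑Q (t • w₁ + w₂) z - 1 * 1 * Q (t • w₁ + w₂) * polar ⇑Q s z) • s
          - (1 * polar ⇑Q s z) • (t • w₁ + w₂)
        - ((1 * polar ⇑Q (t • w₁) z - 1 * 1 * Q (t • w₁) * polar ⇑Q s z) • s
          - (1 * polar ⇑Q s z) • (t • w₁))
        - ((1 * polar ⇑Q w₂ z - 1 * 1 * Q w₂ * polar ⇑Q s z) • s - (1 * polar ⇑Q s z) • w₂))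
        = (- (t * polar ⇑Q w₁ w₂ * polar ⇑Q s z)) • s := by
      rw [hQ', polar_add_left]
      module
    rw [e5] at e4
    have e6 : - (t * polar ⇑Q w₁ w₂ * polar ⇑Q s z) = l := by
      rw [ht]; field_simp
    rwa [e6] at e4
  refine ⟨hFs, fun w hw hsw => ?_⟩
  have e1 := ha w hw hsw (polar ⇑Q s z)⁻¹
  have e2 := (hFs ((polar ⇑Q s z)⁻¹ * polar ⇑Q w z
    - (polar ⇑Q s z)⁻¹ * (polar ⇑Q s z)⁻¹ * Q w * polar ⇑Q s z)).sub e1
  have e3 : ((polar ⇑Q s z)⁻¹ * polar ⇑Q w z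
      - (polar ⇑Q s z)⁻¹ * (polar ⇑Q s z)⁻¹ * Q w * polar ⇑Q s z) • s
      - (((polar ⇑Q s z)⁻¹ * polar ⇑Q w z
      - (polar ⇑Q s z)⁻¹ * (polar ⇑Q s z)⁻¹ * Q w * polar ⇑Q s z) • s
        - ((polar ⇑Q s z)⁻¹ * polar ⇑Q s z) • w) = w := by
    rw [inv_mul_cancel₀ hc]; module
  rwa [e3] at e2

/-- If `ρ_{u₁,z} ∈ M` for one non-zero `z ∈ W'`, then for all `z ∈ W'`. -/
theorem inM_all (h : OSplit Q W W') (hQ : (polarBilin Q).Nondegenerate) (hk : 5 ≤ finrank F W')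
    (hM' : ∀ s w : ι → F, s ∈ W' → w ∈ W' → Q s = 0 → polar ⇑Q s w = 0 → InM Q M s w)
    {u₁ : ι → F} (hu₁ : u₁ ∈ W) {z : ι → F} (hz : z ∈ W') (hz0 : z ≠ 0)
    (hB : InM Q M u₁ z) : ∀ v ∈ W', InM Q M u₁ v := by
  -- a singular vector of `W'` not orthogonal to `z`
  obtain ⟨s, hs, hQs, hsz⟩ : ∃ s ∈ W', Q s = 0 ∧ polar ⇑Q s z ≠ 0 := by
    obtain ⟨x, hx, hxz⟩ := h.symm.nd hQ hz hz0
    obtain ⟨p, hp, s, hs, t, ht, hQp, hQs, hQt, α, β, rfl⟩ :=
      h.symm.exists_singular_comb hQ (by omega) hx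
    by_contra hcon
    push Not at hcon
    apply hxz
    rw [polar_add_left, polar_add_left, polar_smul_left, polar_smul_left, hcon p hp hQp,
      hcon s hs hQs, hcon t ht hQt]
    simp
  obtain ⟨hFs, hPs⟩ := inM_key h hQ hk hM' hu₁ hB hs hQs hsz
  have hs0 : s ≠ 0 := by
    rintro rfl
    exact hsz (polar_zero_left _ _)
  obtain ⟨s', hs', hQs', hss'⟩ := h.symm.exists_partner hQ hs hs0 hQs
  have hB' : InM Q M u₁ s := by
    have := hFs 1
    rwa [one_smul] at this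
  obtain ⟨hFs', -⟩ := inM_key h hQ hk hM' hu₁ hB' hs' hQs'
    (by rw [polar_comm, hss']; exact one_ne_zero)
  intro v hv
  have e : v = (v - polar ⇑Q s v • s') + polar ⇑Q s v • s' := by module
  rw [e]
  refine (hPs _ (W'.sub_mem hv (W'.smul_mem _ hs')) ?_).add (hFs' _)
  rw [polar_sub_right, polar_smul_right, hss']; simp

/-- If an isometry maps every singular vector of `W` into `W` or into `W'`, then it maps `W`
into `W` or `W` into `W'`. -/
theorem exists_mixed (h : OSplit Q W W') (hQ : (polarBilin Q).Nondegenerate)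
    (hk : 5 ≤ finrank F W) (g : ↥(Cfsg.isometryGroup F ⇑Q))
    (hg : ∀ u ∈ W, Q u = 0 → mt(g).mulVec u ∈ W ∨ mt(g).mulVec u ∈ W') :
    (∀ v ∈ W, mt(g).mulVec v ∈ W) ∨ (∀ v ∈ W, mt(g).mulVec v ∈ W') := by
  have hsub : ∀ p ∈ W, ∀ q ∈ W, Q p = 0 → Q q = 0 → polar ⇑Q p q = 0 →
      mt(g).mulVec p ∉ W → mt(g).mulVec q ∉ W' → False := by
    intro p hp q hq hQp hQq hpq h1 h2
    have hp' : mt(g).mulVec p ∈ W' := (hg p hp hQp).resolve_left h1
    have hq' : mt(g).mulVec q ∈ W := (hg q hq hQq).resolve_right h2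
    have hQ2 : Q (p + q) = 0 := by
      have : Q (p + q) = Q p + Q q + polar ⇑Q p q := by unfold QuadraticMap.polar; ring
      rw [this, hQp, hQq, hpq]; simp
    rcases hg (p + q) (W.add_mem hp hq) hQ2 with h3 | h3
    · apply h1
      have : mt(g).mulVec p = mt(g).mulVec (p + q) - mt(g).mulVec q := by
        rw [Matrix.mulVec_add]; abel
      rw [this]
      exact W.sub_mem h3 hq'
    · apply h2
      have : mt(g).mulVec q = mt(g).mulVec (p + q) - mt(g).mulVec p := by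
        rw [Matrix.mulVec_add]; abel
      rw [this]
      exact W'.sub_mem h3 hp'
  have hsing : (∀ u ∈ W, Q u = 0 → mt(g).mulVec u ∈ W) ∨
      (∀ u ∈ W, Q u = 0 → mt(g).mulVec u ∈ W') := by
    classical
    by_contra hcon
    push Not at hcon
    obtain ⟨⟨u₁, hu₁, hQu₁, hgu₁⟩, ⟨u₂, hu₂, hQu₂, hgu₂⟩⟩ := hcon
    by_cases h12 : polar ⇑Q u₁ u₂ = 0
    · exact hsub u₁ hu₁ u₂ hu₂ hQu₁ hQu₂ h12 hgu₁ hgu₂
    · obtain ⟨z, hzW, hz0, hQz, hz⟩ := exists_singular_in hQ W {u₁, u₂}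
        (by have := Finset.card_le_two (a := u₁) (b := u₂); omega)
      have h1z : polar ⇑Q u₁ z = 0 := hz u₁ (by simp)
      have h2z : polar ⇑Q u₂ z = 0 := hz u₂ (by simp)
      have hgz0 : mt(g).mulVec z ≠ 0 := by
        intro h0
        apply hz0
        apply mulVecLin_injective Q g
        rw [Matrix.mulVecLin_apply, Matrix.mulVecLin_apply, h0, Matrix.mulVec_zero]
      by_cases hzz : mt(g).mulVec z ∈ W
      · have : mt(g).mulVec z ∉ W' := fun h' => hgz0 (h.eq_zero_of_mem hQ hzz h')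
        exact hsub u₁ hu₁ z hzW hQu₁ hQz h1z hgu₁ this
      · exact hsub z hzW u₂ hu₂ hQz hQu₂ (by rw [polar_comm]; exact h2z) hzz hgu₂
  rcases hsing with h1 | h1
  · left
    intro v hv
    obtain ⟨p, hp, s, hs, t, ht, hQp, hQs, hQt, α, β, rfl⟩ :=
      h.exists_singular_comb hQ (by omega) hv
    rw [Matrix.mulVec_add, Matrix.mulVec_add, Matrix.mulVec_smul, Matrix.mulVec_smul]
    exact W.add_mem (W.add_mem (h1 p hp hQp) (W.smul_mem _ (h1 s hs hQs)))
      (W.smul_mem _ (h1 t ht hQt))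
  · right
    intro v hv
    obtain ⟨p, hp, s, hs, t, ht, hQp, hQs, hQt, α, β, rfl⟩ :=
      h.exists_singular_comb hQ (by omega) hv
    rw [Matrix.mulVec_add, Matrix.mulVec_add, Matrix.mulVec_smul, Matrix.mulVec_smul]
    exact W'.add_mem (W'.add_mem (h1 p hp hQp) (W'.smul_mem _ (h1 s hs hQs)))
      (W'.smul_mem _ (h1 t ht hQt))

/-- The overgroup step on one side: from `ρ_{x,y} ∈ M` with `x = a + b`, `y = c + d` and
`c ∉ F a`, `b ≠ 0`, the subgroup `M` contains `Ω`. -/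
theorem osplit_side (h : OSplit Q W W') (hQ : (polarBilin Q).Nondegenerate)
    (hn : 5 ≤ Fintype.card ι) (hk : 6 ≤ finrank F W) (hk' : 5 ≤ finrank F W')
    (hM : ∀ s w : ι → F, s ∈ W → w ∈ W → Q s = 0 → polar ⇑Q s w = 0 → InM Q M s w)
    (hM' : ∀ s w : ι → F, s ∈ W' → w ∈ W' → Q s = 0 → polar ⇑Q s w = 0 → InM Q M s w)
    {x y a b c d : ι → F} (ha : a ∈ W) (hb : b ∈ W') (hx : x = a + b) (hb0 : b ≠ 0)
    (hc : c ∈ W) (hd : d ∈ W') (hy : y = c + d) (hxy : InM Q M x y)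
    (hca : c ∉ Submodule.span F ({a} : Set (ι → F))) :
    commutator ↥(Cfsg.isometryGroup F ⇑Q) ≤ M := by
  classical
  obtain ⟨t, ht1, ht2⟩ := exists_polar_sep Q hQ _ c hca
  obtain ⟨w₁, hw₁, t', ht', rfl⟩ := h.decomp t
  have hw₁c : polar ⇑Q w₁ c = 1 := by
    have e : polar ⇑Q t' c = 0 := by rw [polar_comm]; exact h.orth c hc t' ht'
    rw [polar_add_left, e, add_zero] at ht1
    exact ht1
  have hw₁a : polar ⇑Q w₁ a = 0 := by
    have e : polar ⇑Q t' a = 0 := by rw [polar_comm]; exact h.orth a ha t' ht'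
    have := ht2 a (Submodule.mem_span_singleton_self a)
    rw [polar_add_left, e, add_zero] at this
    exact this
  obtain ⟨u₁, hu₁W, hu₁0, hQu₁, hu₁⟩ := exists_singular_in hQ W {a, c, w₁}
    (by have := Finset.card_le_three (a := a) (b := c) (c := w₁); omega)
  have h1a : polar ⇑Q a u₁ = 0 := hu₁ a (by simp)
  have h1c : polar ⇑Q c u₁ = 0 := hu₁ c (by simp)
  have h1w : polar ⇑Q w₁ u₁ = 0 := hu₁ w₁ (by simp)
  have h1b : polar ⇑Q b u₁ = 0 := by rw [polar_comm]; exact h.orth u₁ hu₁W b hb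
  have h1d : polar ⇑Q d u₁ = 0 := by rw [polar_comm]; exact h.orth u₁ hu₁W d hd
  have hB1 := hM u₁ w₁ hu₁W hw₁ hQu₁ (by rw [polar_comm]; exact h1w)
  obtain ⟨hQx, hxy', hm⟩ := hxy
  have hB2 := hB1.conj hm
  rw [coe_eich] at hB2
  have e1 : (eichMat Q x y).mulVec u₁ = u₁ := by
    apply eichMat_mulVec_of_orth
    · rw [hy, polar_add_left, h1c, h1d, add_zero]
    · rw [hx, polar_add_left, h1a, h1b, add_zero]
  have e2 : (eichMat Q x y).mulVec w₁ = w₁ + x := by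
    have p1 : polar ⇑Q y w₁ = 1 := by
      rw [hy, polar_add_left, polar_comm ⇑Q c w₁, hw₁c, polar_comm ⇑Q d w₁, h.orth w₁ hw₁ d hd,
        add_zero]
    have p2 : polar ⇑Q x w₁ = 0 := by
      rw [hx, polar_add_left, polar_comm ⇑Q a w₁, hw₁a, polar_comm ⇑Q b w₁, h.orth w₁ hw₁ b hb,
        add_zero]
    rw [eichMat_mulVec, p1, p2]
    module
  rw [e1, e2] at hB2
  have hB3 : InM Q M u₁ x := by
    have := hB2.sub hB1
    rwa [add_sub_cancel_left] at this
  have hB4 : InM Q M u₁ b := by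
    have := hB3.sub (hM u₁ a hu₁W ha hQu₁ (by rw [polar_comm]; exact h1a))
    rwa [hx, add_sub_cancel_left] at this
  have hall := inM_all h hQ hk' hM' hu₁W hb hb0 hB4
  have hfull : Full Q M u₁ := by
    refine ⟨hQu₁, fun w hw => ?_⟩
    obtain ⟨wa, hwa, wb, hwb, rfl⟩ := h.decomp w
    refine (hM u₁ wa hu₁W hwa hQu₁ ?_).add (hall wb hwb)
    rw [polar_add_right, h.orth u₁ hu₁W wb hwb, add_zero] at hw
    exact hw
  obtain ⟨s, hsW, hQs, hu₁s⟩ := h.exists_partner hQ hu₁W hu₁0 hQu₁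
  obtain ⟨w, hwW, hsw, hQw⟩ := h.exists_nonsing_orth hQ (by omega) hsW
  obtain ⟨_, _, hm2⟩ := hM s w hsW hwW hQs hsw
  have hfull2 := hfull.conj hm2
  rw [coe_eich] at hfull2
  apply omega_le_of_full_pair hQ hn hfull hfull2
  have e : polar ⇑Q u₁ ((eichMat Q s w).mulVec u₁) = - Q w := by
    rw [eichMat_mulVec]
    simp only [polar_add_right, polar_sub_right, polar_smul_right, smul_eq_mul]
    rw [Cfsg.Agent.Lib.Helper51.polar_self, hQu₁, polar_comm ⇑Q s u₁, hu₁s, polar_comm ⇑Q w u₁]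
    ring
  rw [e]
  exact neg_ne_zero.mpr hQw

/-- Overgroups of the Eichler transformations of the summands of an orthogonal splitting
`V = W ⟂ W'` (both of dimension at least 7, any characteristic): a subgroup `M` of the isometry
group containing them and an element mapping some singular vector of `W` outside `W ∪ W'`
contains `Ω`. -/
theorem osplit_overgroup (h : OSplit Q W W') (hQ : (polarBilin Q).Nondegenerate)
    (hn : 5 ≤ Fintype.card ι) (hk : 7 ≤ finrank F W) (hk' : 7 ≤ finrank F W')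
    (hM : ∀ s w : ι → F, s ∈ W → w ∈ W → Q s = 0 → polar ⇑Q s w = 0 → InM Q M s w)
    (hM' : ∀ s w : ι → F, s ∈ W' → w ∈ W' → Q s = 0 → polar ⇑Q s w = 0 → InM Q M s w)
    {g : ↥(Cfsg.isometryGroup F ⇑Q)} (hg : g ∈ M) {u : ι → F} (huW : u ∈ W) (hQu : Q u = 0)
    (h1 : mt(g).mulVec u ∉ W) (h2 : mt(g).mulVec u ∉ W') :
    commutator ↥(Cfsg.isometryGroup F ⇑Q) ≤ M := by
  classical
  obtain ⟨a, ha, b, hb, hx⟩ := h.decomp (mt(g).mulVec u)
  have ha0 : a ≠ 0 := by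
    rintro rfl
    rw [zero_add] at hx
    exact h2 (hx ▸ hb)
  have hb0 : b ≠ 0 := by
    rintro rfl
    rw [add_zero] at hx
    exact h1 (hx ▸ ha)
  have hY0 : 6 ≤ finrank F ↥(W ⊓ LinearMap.BilinForm.orthogonal (polarBilin Q)
      (Submodule.span F (({u} : Finset (ι → F)) : Set (ι → F)))) := by
    have := finrank_inf_orth_ge hQ W {u}
    rw [Finset.card_singleton] at this
    omega
  obtain ⟨y₀, hy₀, hgy₀⟩ : ∃ y₀ ∈ W ⊓ LinearMap.BilinForm.orthogonal (polarBilin Q)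
      (Submodule.span F (({u} : Finset (ι → F)) : Set (ι → F))),
      mt(g).mulVec y₀ ∉ Submodule.span F ({a, b} : Set (ι → F)) := by
    by_contra hcon
    push Not at hcon
    have hle : (W ⊓ LinearMap.BilinForm.orthogonal (polarBilin Q)
        (Submodule.span F (({u} : Finset (ι → F)) : Set (ι → F)))).map
        (Matrix.mulVecLin mt(g)) ≤ Submodule.span F ({a, b} : Set (ι → F)) := by
      rintro _ ⟨y, hy, rfl⟩
      exact hcon y hy
    have h3 := Submodule.finrank_mono hle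
    rw [finrank_map_isometry] at h3
    have h4 := finrank_span_pair_le (F := F) a b
    omega
  have hy₀W : y₀ ∈ W := hy₀.1
  have huy₀ : polar ⇑Q u y₀ = 0 := (mem_orth_span Q _ y₀).mp hy₀.2 u (by simp)
  have hxy : InM Q M (mt(g).mulVec u) (mt(g).mulVec y₀) := (hM u y₀ huW hy₀W hQu huy₀).conj hg
  obtain ⟨c, hc, d, hd, hy⟩ := h.decomp (mt(g).mulVec y₀)
  by_cases hca : c ∈ Submodule.span F ({a} : Set (ι → F))
  · have hdb : d ∉ Submodule.span F ({b} : Set (ι → F)) := by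
      intro hdb
      apply hgy₀
      rw [hy]
      obtain ⟨α, rfl⟩ := Submodule.mem_span_singleton.mp hca
      obtain ⟨β, rfl⟩ := Submodule.mem_span_singleton.mp hdb
      exact Submodule.mem_span_pair.mpr ⟨α, β, rfl⟩
    exact osplit_side h.symm hQ hn (by omega) (by omega) hM' hM hb ha (by rw [hx, add_comm]) ha0
      hd hc (by rw [hy, add_comm]) hxy hdb
  · exact osplit_side h hQ hn (by omega) (by omega) hM hM' ha hb hx hb0 hc hd hy hxy hca

end Over

end Cfsg.Agent.Lib.Helper96
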