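import Mathlib
import Cfsg.Agent.Lib.Helper96.OrthSplitOver

/-!
Maximality in `Ω(Q)` of the stabiliser of an orthogonal decomposition `V = D 0 ⟂ D 1` into two
subspaces of dimension at least 7 (any characteristic, any finite field): `decomp_two_maximal`.
-/

set_option autoImplicit false
set_option linter.unusedSectionVars false

namespace Cfsg.Agent.Lib.Helper96

open Module QuadraticMap
open Cfsg.Agent.Lib.Helper51 Cfsg.Agent.Lib.Helper52

section Max

variable {ι : Type} [Fintype ι] [DecidableEq ι] {F : Type*} [Field F] [Fintype F]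
variable (Q : QuadraticForm F (ι → F))

local notation "mt(" g ")" => ((g : Matrix.GeneralLinearGroup ι F) : Matrix ι ι F)

theorem mem_decompositionStabilizer_iff {t : ℕ} (D : Fin t → Submodule F (ι → F))
    (g : Matrix.GeneralLinearGroup ι F) :
    g ∈ Cfsg.Geo.decompositionStabilizer D ↔
      ∃ σ : Equiv.Perm (Fin t), ∀ i, (D i).map (Matrix.toLin' (g : Matrix ι ι F)) = D (σ i) :=
  Iff.rfl

/-- An isometry mapping `X` into `Y`, with `dim Y ≤ dim X`, maps `X` onto `Y`. -/
theorem map_eq_of_forall (g : ↥(Cfsg.isometryGroup F ⇑Q)) (X Y : Submodule F (ι → F))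
    (h : ∀ x ∈ X, mt(g).mulVec x ∈ Y) (hd : finrank F Y ≤ finrank F X) :
    X.map (Matrix.toLin' mt(g)) = Y := by
  rw [Matrix.toLin'_apply']
  apply Submodule.eq_of_le_of_finrank_le
  · rintro _ ⟨x, hx, rfl⟩
    exact h x hx
  · rw [finrank_map_isometry]
    exact hd

/-- An Eichler transformation with both parameters in `W` preserves `W` and fixes `W'`
pointwise. -/
theorem eich_mem_decomp (D : Fin 2 → Submodule F (ι → F)) (h : OSplit Q (D 0) (D 1))
    (i : Fin 2) (s w : ι → F) (hs : s ∈ D i) (hw : w ∈ D i) (hQs : Q s = 0)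
    (hsw : polar ⇑Q s w = 0) :
    ((eich Q s w hQs hsw : ↥(Cfsg.isometryGroup F ⇑Q)) : Matrix.GeneralLinearGroup ι F)
      ∈ Cfsg.Geo.decompositionStabilizer D := by
  rw [mem_decompositionStabilizer_iff]
  refine ⟨1, fun j => ?_⟩
  rw [Equiv.Perm.one_apply]
  apply map_eq_of_forall Q _ _ _ _ le_rfl
  intro x hx
  rw [coe_eich]
  by_cases hij : j = i
  · subst hij
    rw [eichMat_mulVec]
    exact (D j).sub_mem ((D j).sub_mem ((D j).add_mem hx ((D j).smul_mem _ hs))
      ((D j).smul_mem _ hw)) ((D j).smul_mem _ hs)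
  · have horth : ∀ a ∈ D i, polar ⇑Q a x = 0 := by
      intro a ha
      fin_cases i <;> fin_cases j
      · exact absurd rfl hij
      · exact h.orth a ha x hx
      · rw [polar_comm]; exact h.orth x hx a ha
      · exact absurd rfl hij
    rw [eichMat_mulVec_of_orth Q s w x (horth w hw) (horth s hs)]
    exact hx

/-- The stabiliser in `Ω` of an orthogonal decomposition `V = D 0 ⟂ D 1` into two subspaces of
dimension at least 7 is a maximal subgroup of `Ω`. -/
theorem decomp_two_maximal (hQ : (polarBilin Q).Nondegenerate) (D : Fin 2 → Submodule F (ι → F))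
    (h : OSplit Q (D 0) (D 1)) (h0 : 7 ≤ finrank F (D 0)) (h1 : 7 ≤ finrank F (D 1)) :
    Cfsg.Geo.IsMaximalIn (Cfsg.Geo.omegaGL ⇑Q)
      (Cfsg.Geo.decompositionStabilizer D ⊓ Cfsg.Geo.omegaGL ⇑Q) := by
  have hn : 5 ≤ Fintype.card ι := by
    have := Submodule.finrank_le (D 0)
    rw [Module.finrank_fintype_fun_eq_card] at this
    omega
  have hmemH : ∀ (i : Fin 2) (s w : ι → F) (hs : s ∈ D i) (hw : w ∈ D i) (hQs : Q s = 0)
      (hsw : polar ⇑Q s w = 0),
      ((eich Q s w hQs hsw : ↥(Cfsg.isometryGroup F ⇑Q)) : Matrix.GeneralLinearGroup ι F)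
        ∈ Cfsg.Geo.decompositionStabilizer D ⊓ Cfsg.Geo.omegaGL ⇑Q := by
    intro i s w hs hw hQs hsw
    exact ⟨eich_mem_decomp Q D h i s w hs hw hQs hsw,
      coe_mem_omegaGL Q (eich_mem_commutator Q hQ hn s w hQs hsw)⟩
  refine ⟨lt_of_le_of_ne inf_le_right ?_, fun M hHM hMK => ?_⟩
  · -- strictness
    intro heq
    obtain ⟨u, hu, hu0, hQu⟩ := exists_singular_of_finrank Q (D 0) (by omega)
    obtain ⟨t, ht, hQt, hut⟩ := h.exists_partner hQ hu hu0 hQu
    obtain ⟨w, hw, hw0, hQw⟩ := exists_singular_of_finrank Q (D 1) (by omega)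
    have huw : polar ⇑Q u w = 0 := h.orth u hu w hw
    have hmem : ((eich Q u w hQu huw : ↥(Cfsg.isometryGroup F ⇑Q)) :
        Matrix.GeneralLinearGroup ι F) ∈ Cfsg.Geo.omegaGL ⇑Q :=
      coe_mem_omegaGL Q (eich_mem_commutator Q hQ hn u w hQu huw)
    rw [← heq] at hmem
    obtain ⟨σ, hσ⟩ := (mem_decompositionStabilizer_iff D _).mp hmem.1
    have e : (eichMat Q u w).mulVec t = t - w := by
      rw [eichMat_mulVec, hut, hQw, polar_comm ⇑Q w t, h.orth t ht w hw]
      module
    have hmem2 : t - w ∈ D (σ 0) := by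
      rw [← hσ 0, ← e]
      exact ⟨t, ht, by rw [Matrix.toLin'_apply, coe_eich]⟩
    have ht0 : t ≠ 0 := by
      rintro rfl
      rw [polar_zero_right] at hut
      exact zero_ne_one hut
    rcases Fin.exists_fin_two.mp ⟨σ 0, rfl⟩ with h2 | h2
    · rw [h2] at hmem2
      have : w ∈ D 0 := by
        have := (D 0).sub_mem ht hmem2
        rwa [sub_sub_cancel] at this
      exact hw0 (h.eq_zero_of_mem hQ this hw)
    · rw [h2] at hmem2
      have : t ∈ D 1 := by
        have := (D 1).add_mem hmem2 hw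
        rwa [sub_add_cancel] at this
      exact ht0 (h.eq_zero_of_mem hQ ht this)
  · by_cases hMH : M ≤ Cfsg.Geo.decompositionStabilizer D ⊓ Cfsg.Geo.omegaGL ⇑Q
    · left
      exact le_antisymm hMH hHM
    · right
      apply le_antisymm hMK
      obtain ⟨g₀, hg₀M, hg₀H⟩ := SetLike.not_le_iff_exists.mp hMH
      obtain ⟨g, hgc, rfl⟩ := exists_of_mem_omegaGL Q (hMK hg₀M)
      have hgD : (g : Matrix.GeneralLinearGroup ι F) ∉ Cfsg.Geo.decompositionStabilizer D :=
        fun hc => hg₀H ⟨hc, hMK hg₀M⟩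
      -- the pulled-back subgroup
      obtain ⟨M', hM'⟩ : ∃ M' : Subgroup ↥(Cfsg.isometryGroup F ⇑Q),
          M' = M.comap (Cfsg.isometryGroup F ⇑Q).subtype := ⟨_, rfl⟩
      have hmemM' : ∀ x : ↥(Cfsg.isometryGroup F ⇑Q), x ∈ M' ↔
          (x : Matrix.GeneralLinearGroup ι F) ∈ M := by
        intro x
        rw [hM']
        rfl
      have hM0 : ∀ s w : ι → F, s ∈ D 0 → w ∈ D 0 → Q s = 0 → polar ⇑Q s w = 0 →
          InM Q M' s w := by
        intro s w hs hw hQs hsw
        exact ⟨hQs, hsw, (hmemM' _).mpr (hHM (hmemH 0 s w hs hw hQs hsw))⟩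
      have hM1 : ∀ s w : ι → F, s ∈ D 1 → w ∈ D 1 → Q s = 0 → polar ⇑Q s w = 0 →
          InM Q M' s w := by
        intro s w hs hw hQs hsw
        exact ⟨hQs, hsw, (hmemM' _).mpr (hHM (hmemH 1 s w hs hw hQs hsw))⟩
      have hgM' : g ∈ M' := (hmemM' g).mpr hg₀M
      have hfin : commutator ↥(Cfsg.isometryGroup F ⇑Q) ≤ M' := by
        by_cases hex0 : ∃ u ∈ D 0, Q u = 0 ∧ mt(g).mulVec u ∉ D 0 ∧ mt(g).mulVec u ∉ D 1
        · obtain ⟨u, hu, hQu, hn0, hn1⟩ := hex0
          exact osplit_overgroup h hQ hn h0 h1 hM0 hM1 hgM' hu hQu hn0 hn1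
        by_cases hex1 : ∃ u ∈ D 1, Q u = 0 ∧ mt(g).mulVec u ∉ D 1 ∧ mt(g).mulVec u ∉ D 0
        · obtain ⟨u, hu, hQu, hn1, hn0⟩ := hex1
          exact osplit_overgroup h.symm hQ hn h1 h0 hM1 hM0 hgM' hu hQu hn1 hn0
        exfalso
        push Not at hex0 hex1
        have hA := exists_mixed h hQ (by omega) g (fun u hu hQu => by
          by_cases hc : mt(g).mulVec u ∈ D 0
          · exact Or.inl hc
          · exact Or.inr (hex0 u hu hQu hc))
        have hB := exists_mixed h.symm hQ (by omega) g (fun u hu hQu => by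
          by_cases hc : mt(g).mulVec u ∈ D 1
          · exact Or.inl hc
          · exact Or.inr (hex1 u hu hQu hc))
        -- a surjectivity argument: `g` cannot map everything into one summand
        have hsurj : ∀ (X Y : Submodule F (ι → F)), OSplit Q X Y → 7 ≤ finrank F Y →
            (∀ v ∈ X, mt(g).mulVec v ∈ X) → (∀ v ∈ Y, mt(g).mulVec v ∈ X) → False := by
          intro X Y hXY hY hX1 hY1
          obtain ⟨w, hw, hw0, -⟩ := exists_singular_of_finrank Q Y (by omega)
          obtain ⟨a, ha, b, hb, hab⟩ := hXY.decomp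
            (mt((g⁻¹ : ↥(Cfsg.isometryGroup F ⇑Q))).mulVec w)
          have : w ∈ X := by
            have e : w = mt(g).mulVec a + mt(g).mulVec b := by
              rw [← Matrix.mulVec_add, ← hab, coe_inv_mulVec]
            rw [e]
            exact X.add_mem (hX1 a ha) (hY1 b hb)
          exact hw0 (hXY.eq_zero_of_mem hQ this hw)
        rcases hA with hA | hA
        · rcases hB with hB | hB
          · apply hgD
            rw [mem_decompositionStabilizer_iff]
            refine ⟨1, fun j => ?_⟩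
            rw [Equiv.Perm.one_apply]
            fin_cases j
            · exact map_eq_of_forall Q g _ _ hA le_rfl
            · exact map_eq_of_forall Q g _ _ hB le_rfl
          · exact hsurj _ _ h h1 hA hB
        · rcases hB with hB | hB
          · exact hsurj _ _ h.symm h0 hB hA
          · apply hgD
            have hle1 : finrank F (D 0) ≤ finrank F (D 1) := by
              have hle : (D 0).map (Matrix.mulVecLin mt(g)) ≤ D 1 := by
                rintro _ ⟨x, hx, rfl⟩
                exact hA x hx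
              have := Submodule.finrank_mono hle
              rwa [finrank_map_isometry] at this
            have hle2 : finrank F (D 1) ≤ finrank F (D 0) := by
              have hle : (D 1).map (Matrix.mulVecLin mt(g)) ≤ D 0 := by
                rintro _ ⟨x, hx, rfl⟩
                exact hB x hx
              have := Submodule.finrank_mono hle
              rwa [finrank_map_isometry] at this
            rw [mem_decompositionStabilizer_iff]
            refine ⟨Equiv.swap 0 1, fun j => ?_⟩
            fin_cases j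
            · exact map_eq_of_forall Q g _ _ hA hle2
            · exact map_eq_of_forall Q g _ _ hB hle1
      intro x hx
      obtain ⟨c, hc, rfl⟩ := exists_of_mem_omegaGL Q hx
      exact (hmemM' c).mp (hfin hc)

end Max

end Cfsg.Agent.Lib.Helper96
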