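import Cfsg.Agent.Lib.Helper96.PiDefs
import Cfsg.Agent.Lib.Helper96.PiGlueB
import Cfsg.Agent.Lib.Helper96.PiOmega
import Cfsg.Agent.Lib.Helper9.HeUNIPPOW
import Cfsg.Agent.Lib.Helper16.PiFULLTYP
import Cfsg.Agent.Lib.Helper31.PiFULLELT
import Cfsg.Agent.Lib.Helper34.PiSMALLK
import Cfsg.Agent.Lib.Helper39.PiEXSPLIT
import Cfsg.Agent.Lib.Helper46.PiISOSUM
import Cfsg.Agent.Lib.Helper66.PiNECISO
import Cfsg.Agent.Lib.Helper75.PiEXASM
import Cfsg.Agent.Lib.Helper77.PiCNTK
import Cfsg.Agent.Lib.Helper80.PiMAXELT2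
import Cfsg.Agent.Lib.Helper91.PiDERANGE
import Cfsg.Agent.Lib.Helper91.PiGENCNT

/-!
Project PI (S5989, helper96): abstract assembly for odd primes `r ≠ p`.  Isometries of prime
order of a nondegenerate symmetric bilinear space of even dimension over a finite field of odd
characteristic and the nondegenerate odd-dimensional subspaces, isometric to a fixed `W₀`, that
they fix.
-/

set_option autoImplicit false
set_option linter.unusedSectionVars false
set_option linter.unusedVariables false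

namespace Cfsg.Agent.Lib.Helper96.Pi

open Module Cfsg.Agent.Lib.Helper96.Sp Cfsg.Agent.Lib.Helper96.BG Cfsg.Agent.Lib.Helper96.Hy
  Cfsg.Agent.Lib.Helper47

universe u

variable {F : Type u} [Field F] [Fintype F] {V : Type u} [AddCommGroup V] [Module F V]
  [FiniteDimensional F V] {B : LinearMap.BilinForm F V}

theorem odd_mod_of_even {m c : ℕ} (hm : Odd m) (hc : Even c) : m % c % 2 = 1 := by
  rw [Nat.mod_mod_of_dvd m (even_iff_two_dvd.mp hc)]
  exact Nat.odd_iff.mp hm

theorem even_mod_of_even {n c : ℕ} (hn : Even n) (hc : Even c) : n % c % 2 = 0 := by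
  rw [Nat.mod_mod_of_dvd n (even_iff_two_dvd.mp hc)]
  exact Nat.even_iff.mp hn

/-- Odd primes `r ≠ p`: the criterion. -/
theorem main_odd_iso (p : ℕ) [Fact p.Prime] [CharP F p] (hS : B.IsSymm) (h2 : (2 : F) ≠ 0)
    (hN : ND B ⊤) (hev : Even (finrank F V)) (W₀ : Submodule F V) (hW₀ : ND B W₀) (m : ℕ)
    (hm : finrank F W₀ = m) (hmodd : Odd m) (hmn : m < finrank F V)
    (r : ℕ) [Fact r.Prime] (hr2 : r ≠ 2) (hrp : r ≠ p)
    (hdvd : r ∣ Nat.card {W : Submodule F V // Mem B W₀ m W}) :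
    (∀ T : Module.End F V, Isom B T → T ^ r = 1 → T ≠ 1 →
      ∃ W : Submodule F V, Mem B W₀ m W ∧ W.map T ≤ W) ↔
    ((0 < finrank F V % blk (Fintype.card F) r ∧ blk (Fintype.card F) r ≤ m ∧
        m % blk (Fintype.card F) r < finrank F V % blk (Fintype.card F) r) ∨
     (finrank F V % blk (Fintype.card F) r = 0 ∧
        ¬ Typ B ⊤ (if Even (orderOf ((Fintype.card F : ℕ) : ZMod r))
          then (-1) ^ (finrank F V / blk (Fintype.card F) r) else 1))) := by
  obtain ⟨hrq, hr0, hi⟩ := BG.facts (F := F) p r hrp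
  have hF := facts p hS h2 hN
  have hR := rfacts p hS h2 hN r hr2 hrp
  have hceven : Even (blk (Fintype.card F) r) := blk_even _ _
  have hcpos : 0 < blk (Fintype.card F) r := blk_pos _ _ hi
  have hsplit : ∀ K WR : Submodule F V, ND B K → ND B WR → Orth B K WR →
      finrank F WR < finrank F W₀ → finrank F W₀ < finrank F K + finrank F WR →
      ∃ WK : Submodule F V, WK ≤ K ∧ ND B (WK ⊔ WR) ∧
        finrank F (WK ⊔ WR : Submodule F V) = finrank F W₀ ∧ Iso B (WK ⊔ WR) W₀ :=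
    fun K WR hK hWR hKR hlt hroom => Cfsg.Agent.Lib.Helper39.Pi.exists_split hS h2 hN W₀ hW₀
      (fun X₁ Y₁ X₂ Y₂ a b c d e f => Cfsg.Agent.Lib.Helper46.Pi.iso_sup hS h2 X₁ Y₁ X₂ Y₂ a b c d e f)
      K WR hK hWR hKR hlt hroom
  have hexist : ∀ T : Module.End F V, Isom B T → T ^ r = 1 →
      m % blk (Fintype.card F) r < finrank F (LinearMap.ker (T - 1)) →
      ∃ W : Submodule F V, Mem B W₀ m W ∧ W.map T ≤ W :=
    fun T hT hTr hlt => Cfsg.Agent.Lib.Helper75.Pi.exists_fix_iso hS h2 hN r hr2 hrq hr0 hR W₀ hW₀ m hm hmodd hmn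
      hsplit T hT hTr hlt
  have hkermod : ∀ T : Module.End F V, Isom B T → T ^ r = 1 →
      finrank F (LinearMap.ker (T - 1)) % blk (Fintype.card F) r
        = finrank F V % blk (Fintype.card F) r := by
    intro T hT hTr
    obtain ⟨-, -, -, -, hRinv, -, -, -, hsum⟩ := pow_one_setup T r hrq hr0 hTr
    have hRnd := Cfsg.Agent.Lib.Helper98.O72.nd_range hS h2 hN T hT r hrq hr0 hTr
    obtain ⟨j, hj⟩ := hR.blk_dvd T hT hTr _ le_rfl hRinv hRnd
    rw [← hsum, hj, Nat.add_mul_mod_self_left]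
  have hmpar := odd_mod_of_even hmodd hceven
  have hnpar := even_mod_of_even hev hceven
  constructor
  · intro hall
    have hW₀mem : Mem B W₀ m W₀ := ⟨hm, hW₀, iso_refl W₀⟩
    obtain ⟨g, hg, hgr, hg1⟩ := Cfsg.Agent.Lib.Helper91.Pi.exists_isom_of_dvd hS h2 hN (Mem B W₀ m)
      (fun W W' h h' => mem_iso h h') (fun W g hg hW => mem_map W g hg hW) W₀ hW₀mem r hdvd
    have hcn : blk (Fintype.card F) r ≤ finrank F V :=
      blk_le_of_isom hS h2 hN r hr2 hrq hr0 g hg hgr hg1
    by_cases hk : finrank F V % blk (Fintype.card F) r = 0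
    · right
      refine ⟨hk, fun htyp => ?_⟩
      have hpos : 0 < finrank F V := lt_of_lt_of_le hcpos hcn
      obtain ⟨T, hT, hTr, hT1, hker⟩ :=
        Cfsg.Agent.Lib.Helper31.Pi.exists_full_elt p hS h2 hN r hr2 hrp hpos hk htyp
      obtain ⟨W, hW, hWT⟩ := hall T hT hTr hT1
      have hWev := Cfsg.Agent.Lib.Helper91.Pi.even_of_inv_fpf hS h2 hN r hr2 hrq hr0 T hT hTr hker W hW.2.1 hWT
      rw [hW.1] at hWev
      exact (Nat.not_even_iff_odd.mpr hmodd) hWev
    · left
      have hkpos : 0 < finrank F V % blk (Fintype.card F) r := Nat.pos_of_ne_zero hk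
      obtain ⟨T, hT, hTr, hT1, hker⟩ := Cfsg.Agent.Lib.Helper80.Pi.exists_max_elt2 hS h2 hN hF r hr2 hi hkpos hcn
        (fun H hH b hb hfin htyp =>
          Cfsg.Agent.Lib.Helper40.Hy.exists_fpf p hS h2 r hr2 hrp H hH b hb hfin htyp)
        (fun H hH g hg hgr hfix =>
          Cfsg.Agent.Lib.Helper80.Hy.exists_ext hS h2 H hH g hg r hgr hfix)
      obtain ⟨W, hW, hWT⟩ := hall T hT hTr hT1
      have h1 := Cfsg.Agent.Lib.Helper66.Pi.mod_le_ker_of_inv hS h2 hN r hr2 hrq hr0 T hT hTr W hW.2.1 hWT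
      rw [hW.1, hker] at h1
      have hlt : m % blk (Fintype.card F) r < finrank F V % blk (Fintype.card F) r := by
        omega
      refine ⟨hkpos, ?_, hlt⟩
      by_contra hcm
      push Not at hcm
      have hmm : m % blk (Fintype.card F) r = m := Nat.mod_eq_of_lt hcm
      have hcong := Cfsg.Agent.Lib.Helper77.Pi.card_modEq_ker hS h2 hN r hr2 hrq hr0 T hT hTr m hcm (Mem B W₀ m)
        (fun W hW => ⟨hW.1, hW.2.1⟩) (fun W g hg hW => mem_map W g hg hW)
      have hKnd := Cfsg.Agent.Lib.Helper98.O72.nd_ker hS h2 hN T hT r hrq hr0 hTr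
      have hsmall := Cfsg.Agent.Lib.Helper34.Pi.not_dvd_small_ker p hS h2 hN r hr2 hrp W₀ hW₀ m hm
        (LinearMap.ker (T - 1)) hKnd (by rw [hker]; omega)
        (by rw [hker]; exact Nat.mod_lt _ hcpos)
      exact hsmall ((hcong.dvd_iff (dvd_refl r)).mp hdvd)
  · rintro (⟨hkpos, hcm, hlt⟩ | ⟨hk, hntyp⟩) T hT hTr hT1
    · apply hexist T hT hTr
      have h1 := hkermod T hT hTr
      have h3 := Nat.mod_le (finrank F (LinearMap.ker (T - 1))) (blk (Fintype.card F) r)
      omega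
    · apply hexist T hT hTr
      have hmod := hkermod T hT hTr
      rw [hk] at hmod
      have hkerpos : 0 < finrank F (LinearMap.ker (T - 1)) := by
        by_contra h0
        have hker : LinearMap.ker (T - 1) = ⊥ := by
          apply Submodule.finrank_eq_zero.mp
          omega
        have hpos : 0 < finrank F V := by omega
        exact hntyp (Cfsg.Agent.Lib.Helper16.Pi.typ_top_of_fpf hN r hR hpos T hT hTr hker)
      have h3 : blk (Fintype.card F) r ≤ finrank F (LinearMap.ker (T - 1)) :=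
        Nat.le_of_dvd hkerpos (Nat.dvd_of_mod_eq_zero hmod)
      exact lt_of_lt_of_le (Nat.mod_lt _ hcpos) h3

end Cfsg.Agent.Lib.Helper96.Pi
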