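import Cfsg.Agent.Lib.Helper96.PiMain
import Cfsg.Agent.Lib.Helper54.OrthMinus

/-!
Project PM (S5991, helper96): glue for `quadFormMinus` (isometries as matrices and as
endomorphisms, isometries of odd order lie in `omegaGL`).
-/

set_option autoImplicit false
set_option linter.unusedSectionVars false
set_option linter.unusedVariables false

namespace Cfsg.Agent.Lib.Helper96.Pm

open Module Cfsg.Agent.Lib.Helper96.Sp Matrix
open scoped MatrixGroups

universe u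

variable {F : Type u} [Field F] [Fintype F]

theorem glue_nd_top_minus (h2 : (2 : F) ≠ 0) (d : ℕ) (a b : F)
    (hab : ∀ z₁ z₂ : F, z₁ ^ 2 + a * z₁ * z₂ + b * z₂ ^ 2 = 0 → z₁ = 0 ∧ z₂ = 0) :
    ND (QuadraticMap.polarBilin (Cfsg.Agent.Lib.Helper51.QMinus d F a b)) ⊤ := by
  intro u _ h
  apply Cfsg.Agent.Lib.Helper54.polarSep_minus (F := F) (m := d) h2 a b hab u
  intro y
  have := h y Submodule.mem_top
  rw [QuadraticMap.polarBilin_apply_apply] at this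
  rw [QuadraticMap.polar_comm]
  exact this

theorem glue_isom_minus (h2 : (2 : F) ≠ 0) (d : ℕ) (a b : F)
    (hab : ∀ z₁ z₂ : F, z₁ ^ 2 + a * z₁ * z₂ + b * z₂ ^ 2 = 0 → z₁ = 0 ∧ z₂ = 0) :
    (∀ x : GL ((Fin d ⊕ Fin d) ⊕ Fin 2) F, x ∈ Cfsg.Geo.omegaGL (Cfsg.quadFormMinus d F a b) →
      Isom (QuadraticMap.polarBilin (Cfsg.Agent.Lib.Helper51.QMinus d F a b))
        (Matrix.toLin' (x : Matrix ((Fin d ⊕ Fin d) ⊕ Fin 2) ((Fin d ⊕ Fin d) ⊕ Fin 2) F))) ∧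
    (∀ T : Module.End F ((Fin d ⊕ Fin d) ⊕ Fin 2 → F),
      Isom (QuadraticMap.polarBilin (Cfsg.Agent.Lib.Helper51.QMinus d F a b)) T →
      ∃ x : GL ((Fin d ⊕ Fin d) ⊕ Fin 2) F,
        Matrix.toLin' (x : Matrix ((Fin d ⊕ Fin d) ⊕ Fin 2) ((Fin d ⊕ Fin d) ⊕ Fin 2) F) = T ∧
        ∀ v, Cfsg.quadFormMinus d F a b ((x : Matrix ((Fin d ⊕ Fin d) ⊕ Fin 2)
          ((Fin d ⊕ Fin d) ⊕ Fin 2) F) *ᵥ v) = Cfsg.quadFormMinus d F a b v) := by
  have hcoe := Cfsg.Agent.Lib.Helper51.coe_QMinus d F a b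
  constructor
  · intro x hx
    obtain ⟨y, -, rfl⟩ := hx
    have hy : ∀ u, Cfsg.quadFormMinus d F a b ((((Cfsg.isometryGroup F (Cfsg.quadFormMinus d F a b)).subtype y :
        GL ((Fin d ⊕ Fin d) ⊕ Fin 2) F) :
        Matrix ((Fin d ⊕ Fin d) ⊕ Fin 2) ((Fin d ⊕ Fin d) ⊕ Fin 2) F) *ᵥ u)
        = Cfsg.quadFormMinus d F a b u := fun u => y.2 u u
    intro u v
    rw [QuadraticMap.polarBilin_apply_apply, QuadraticMap.polarBilin_apply_apply]
    unfold QuadraticMap.polar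
    rw [← map_add]
    simp only [Matrix.toLin'_apply, hcoe]
    show Cfsg.quadFormMinus d F a b (_ *ᵥ (u + v)) - Cfsg.quadFormMinus d F a b (_ *ᵥ u)
      - Cfsg.quadFormMinus d F a b (_ *ᵥ v) = _
    rw [hy, hy, hy]
  · intro T hT
    have hN := glue_nd_top_minus (F := F) h2 d a b hab
    have hinj : Function.Injective T := isom_injective hN hT
    let e := LinearEquiv.ofInjectiveEndo T hinj
    have he : ∀ v, e v = T v := fun v => rfl
    have h1 : LinearMap.toMatrix' T * LinearMap.toMatrix' (e.symm : ((Fin d ⊕ Fin d) ⊕ Fin 2 → F)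
        →ₗ[F] ((Fin d ⊕ Fin d) ⊕ Fin 2 → F)) = 1 := by
      rw [← LinearMap.toMatrix'_comp, ← LinearMap.toMatrix'_id]
      congr 1
      refine LinearMap.ext fun v => ?_
      rw [LinearMap.comp_apply, LinearMap.id_apply, LinearEquiv.coe_coe, ← he,
        LinearEquiv.apply_symm_apply]
    have h1' : LinearMap.toMatrix' (e.symm : ((Fin d ⊕ Fin d) ⊕ Fin 2 → F)
        →ₗ[F] ((Fin d ⊕ Fin d) ⊕ Fin 2 → F)) * LinearMap.toMatrix' T = 1 := by
      rw [← LinearMap.toMatrix'_comp, ← LinearMap.toMatrix'_id]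
      congr 1
      refine LinearMap.ext fun v => ?_
      rw [LinearMap.comp_apply, LinearMap.id_apply, LinearEquiv.coe_coe, ← he,
        LinearEquiv.symm_apply_apply]
    refine ⟨⟨LinearMap.toMatrix' T, _, h1, h1'⟩, ?_, ?_⟩
    · show Matrix.toLin' (LinearMap.toMatrix' T) = T
      rw [Matrix.toLin'_toMatrix']
    · intro v
      show Cfsg.quadFormMinus d F a b (LinearMap.toMatrix' T *ᵥ v) = _
      have h3 : LinearMap.toMatrix' T *ᵥ v = T v := by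
        rw [← Matrix.toLin'_apply, Matrix.toLin'_toMatrix']
      rw [h3]
      have h4 := hT v v
      rw [QuadraticMap.polarBilin_apply_apply, QuadraticMap.polarBilin_apply_apply,
        QuadraticMap.polar_self, QuadraticMap.polar_self, hcoe] at h4
      simp only [nsmul_eq_mul, Nat.cast_ofNat] at h4
      exact mul_left_cancel₀ h2 h4

/-- An isometry of `quadFormMinus` of odd order lies in `omegaGL`. -/
theorem mem_omegaGL_minus_of_odd (h2 : (2 : F) ≠ 0) (d : ℕ) (a b : F)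
    (hab : ∀ z₁ z₂ : F, z₁ ^ 2 + a * z₁ * z₂ + b * z₂ ^ 2 = 0 → z₁ = 0 ∧ z₂ = 0) (x : GL ((Fin d ⊕ Fin d) ⊕ Fin 2) F)
    (hx : ∀ v, Cfsg.quadFormMinus d F a b ((x : Matrix ((Fin d ⊕ Fin d) ⊕ Fin 2) ((Fin d ⊕ Fin d) ⊕ Fin 2) F) *ᵥ v)
      = Cfsg.quadFormMinus d F a b v)
    (r : ℕ) (hr : Odd r) (hxr : x ^ r = 1) :
    x ∈ Cfsg.Geo.omegaGL (Cfsg.quadFormMinus d F a b) := by
  classical
  rw [← Cfsg.Agent.Lib.Helper51.coe_QMinus] at hx ⊢
  have hQ := Cfsg.Agent.Lib.Helper54.polarSep_minus (F := F) (m := d) h2 a b hab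
  have hxmem : x ∈ Cfsg.isometryGroup F ⇑(Cfsg.Agent.Lib.Helper51.QMinus d F a b) := by
    intro u v
    exact hx u
  obtain ⟨k, hk⟩ := hr
  set g : ↥(Cfsg.isometryGroup F ⇑(Cfsg.Agent.Lib.Helper51.QMinus d F a b)) := ⟨x, hxmem⟩ with hg
  have hgr : g ^ r = 1 := by
    apply Subtype.ext
    rw [SubgroupClass.coe_pow]
    exact hxr
  have hsq : g = (g ^ (k + 1)) ^ 2 := by
    rw [← pow_mul]
    have : (k + 1) * 2 = r + 1 := by omega
    rw [this, pow_succ, hgr, one_mul]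
  have hmem := Cfsg.Agent.Lib.Helper96.Pi.sq_mem_commutator (Cfsg.Agent.Lib.Helper51.QMinus d F a b) h2 hQ (g ^ (k + 1))
  rw [← hsq] at hmem
  exact ⟨g, hmem, rfl⟩

/-- Membership in `omegaGL (quadFormMinus d F a b)` in terms of the commutator subgroup of the
isometry group of `QMinus d F a b`. -/
theorem mem_omegaGL_minus_iff (d : ℕ) (a b : F) (x : GL ((Fin d ⊕ Fin d) ⊕ Fin 2) F) :
    x ∈ Cfsg.Geo.omegaGL (Cfsg.quadFormMinus d F a b) ↔
      ∃ g : ↥(Cfsg.isometryGroup F ⇑(Cfsg.Agent.Lib.Helper51.QMinus d F a b)),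
        g ∈ commutator ↥(Cfsg.isometryGroup F ⇑(Cfsg.Agent.Lib.Helper51.QMinus d F a b)) ∧
        (g : GL ((Fin d ⊕ Fin d) ⊕ Fin 2) F) = x := by
  rw [← Cfsg.Agent.Lib.Helper51.coe_QMinus]
  constructor
  · rintro ⟨g, hg, rfl⟩
    exact ⟨g, hg, rfl⟩
  · rintro ⟨g, hg, rfl⟩
    exact ⟨g, hg, rfl⟩

end Cfsg.Agent.Lib.Helper96.Pm
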