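import Cfsg.Agent.Lib.Helper96.PmGlue
import Cfsg.Agent.Lib.Helper42.PiEXA
import Cfsg.Agent.Lib.Helper64.PiCONA
import Cfsg.Agent.Lib.Helper87.PiUNIC
import Cfsg.Agent.Lib.Helper53.PiU3
import Cfsg.Agent.Lib.Lead.PiU1
import Cfsg.Agent.Lib.Lead.PiU2
import Cfsg.Agent.Lib.Lead.PiU4
import Cfsg.Agent.Lib.Helper11.PmTRANSF
import Cfsg.Agent.Lib.Helper35.PmUNIDS
import Cfsg.Agent.Lib.Helper5.PmDISC
import Cfsg.Agent.Lib.Helper51.PmFINALD
import Cfsg.Agent.Lib.Helper82.PmUNIDA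

/-!
Project PM (S5991, helper96): abstract assembly of the discriminant argument.  For a fixed
nondegenerate odd-dimensional `W₀` there is a square class `c₁` such that a unipotent isometry
of Jordan type `(3, 2^k, 1)` whose block of size one has norm `c₁` fixes no nondegenerate
subspace isometric to `W₀`.
-/

set_option autoImplicit false
set_option linter.unusedSectionVars false
set_option linter.unusedVariables false

namespace Cfsg.Agent.Lib.Helper96.Pm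

open Module Cfsg.Agent.Lib.Helper96.Sp Cfsg.Agent.Lib.Helper96.BG Cfsg.Agent.Lib.Helper96.Hy
  Cfsg.Agent.Lib.Helper96.Pi Cfsg.Agent.Lib.Helper47

universe u

variable {F : Type u} [Field F] [Fintype F] {V : Type u} [AddCommGroup V] [Module F V]
  [FiniteDimensional F V] {B : LinearMap.BilinForm F V}

theorem no_member_D (p : ℕ) [Fact p.Prime] [CharP F p] (hS : B.IsSymm) (h2 : (2 : F) ≠ 0)
    (hN : ND B ⊤) (hev : Even (finrank F V)) (W₀ : Submodule F V) (hW₀ : ND B W₀) (m : ℕ)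
    (hm : finrank F W₀ = m) (hmodd : Odd m) (hroom : m + 2 ≤ finrank F V) :
    ∃ c₁ : F, c₁ ≠ 0 ∧ ∀ T : Module.End F V, Isom B T → (T - 1) ^ 3 = 0 →
      ∀ u₁ : V, (T - 1) u₁ = 0 → B u₁ u₁ = c₁ →
      LinearMap.ker (T - 1) ≤ LinearMap.range (T - 1) ⊔ Submodule.span F {u₁} →
      finrank F (LinearMap.range ((T - 1) * (T - 1))) ≤ 1 →
      ∀ W : Submodule F V, Mem B W₀ m W → W.map T ≤ W → False := by
  have hF := facts p hS h2 hN
  have hcompl : ∀ W : Submodule F V, ND B W →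
      finrank F W + finrank F (B.orthogonal W) = finrank F V := fun W hW =>
    Submodule.finrank_add_eq_of_isCompl (Cfsg.Agent.Lib.Helper98.O72.nd_isCompl hS h2 hW)
  have key : ∀ X₀ : Submodule F V, ND B X₀ → Odd (finrank F X₀) →
      2 ≤ finrank F (B.orthogonal X₀) →
      (∀ W X : Submodule F V, Mem B W₀ m W →
        ((X = W ∧ finrank F W % 4 = 1) ∨ (X = B.orthogonal W ∧ finrank F W % 4 = 3)) →
        ∀ g : V ≃ₗ[F] V, W.map (g : V →ₗ[F] V) = W₀ →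
          (B.orthogonal W).map (g : V →ₗ[F] V) = B.orthogonal W₀ →
          X.map (g : V →ₗ[F] V) = X₀) →
      ∃ c₁ : F, c₁ ≠ 0 ∧ ∀ T : Module.End F V, Isom B T → (T - 1) ^ 3 = 0 →
        ∀ u₁ : V, (T - 1) u₁ = 0 → B u₁ u₁ = c₁ →
        LinearMap.ker (T - 1) ≤ LinearMap.range (T - 1) ⊔ Submodule.span F {u₁} →
        finrank F (LinearMap.range ((T - 1) * (T - 1))) ≤ 1 →
        ∀ W : Submodule F V, Mem B W₀ m W → W.map T ≤ W → False := by
    intro X₀ hX₀ hX₀odd hroom' hsel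
    obtain ⟨c₁, hc₁, ℓ₀, hℓ₀, hℓ, htyp⟩ := Cfsg.Agent.Lib.Helper5.Pm.exists_disc hS h2 hN hF X₀ hX₀ hX₀odd hroom'
    refine ⟨c₁, hc₁, ?_⟩
    intro T hT hN3 u₁ hu₁ hBu hker hr2 W hW hWT
    obtain ⟨X, hXsel, hXnd, hXT, hX2, hXfin⟩ := Cfsg.Agent.Lib.Helper82.Pm.unip_D_arith hS h2 hN hev T hT hN3 u₁ hu₁
      hker hr2 W hW.2.1 hWT (by rw [hW.1]; exact hmodd)
    obtain ⟨w₁, hw₁X, α, hα, hw₁, hH⟩ :=
      Cfsg.Agent.Lib.Helper35.Pm.unip_D_struct hS h2 hN T hT u₁ hu₁ hker X hXnd hXT hX2 hXfin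
    obtain ⟨g, hg, hgW, hgWp, hgmap⟩ := Cfsg.Agent.Lib.Helper11.Pm.transfer_struct hS h2 hN W W₀ hW.2.2
    have hXg := hsel W X hW hXsel g hgW hgWp
    have hH' := (Cfsg.Agent.Lib.Helper32.Hy.hyp_map _ g hg hH).1
    rw [hgmap, hXg] at hH'
    have hw₀ : g w₁ ∈ X₀ := by
      rw [← hXg]
      exact Submodule.mem_map_of_mem hw₁X
    have hBw : B (g w₁) (g w₁) = α * α * c₁ := by
      rw [← hBu, ← hw₁]
      exact hg w₁ w₁
    exact Cfsg.Agent.Lib.Helper51.Pm.false_of_disc hS h2 hN hF X₀ hX₀ c₁ hc₁ ℓ₀ hℓ₀ hℓ htyp (g w₁) hw₀ α hα hBw hH'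
  have hc0 := hcompl W₀ hW₀
  by_cases h4 : m % 4 = 1
  · apply key W₀ hW₀ (by rw [hm]; exact hmodd) (by omega)
    intro W X hW hX g hgW hgWp
    rcases hX with ⟨rfl, -⟩ | ⟨-, h3⟩
    · exact hgW
    · rw [hW.1] at h3
      omega
  · have h3 : m % 4 = 3 := by
      obtain ⟨k, hk⟩ := hmodd
      omega
    have hpnd := Cfsg.Agent.Lib.Helper98.O72.nd_perp hS h2 hN hW₀
    have hc1 := hcompl (B.orthogonal W₀) hpnd
    obtain ⟨k, hk⟩ := hmodd
    obtain ⟨j, hj⟩ := hev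
    apply key (B.orthogonal W₀) hpnd (by rw [Nat.odd_iff]; omega) (by omega)
    intro W X hW hX g hgW hgWp
    rcases hX with ⟨-, h1⟩ | ⟨rfl, -⟩
    · rw [hW.1] at h1
      omega
    · exact hgWp

end Cfsg.Agent.Lib.Helper96.Pm
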