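import Cfsg.Agent.Lib.Helper96.BGSemi

/-!
# S5965 piece ARITHSAME: the index of the subfield group is prime to `r` when `q` and `q₀` have
the same order modulo `r`
-/

set_option autoImplicit false

namespace Cfsg.Agent.Lib.Helper96.Sf

theorem padicValNat_prod_congr (r : ℕ) [Fact r.Prime] {ι : Type*} (s : Finset ι) (f g : ι → ℕ)
    (hf : ∀ i ∈ s, f i ≠ 0) (hg : ∀ i ∈ s, g i ≠ 0)
    (h : ∀ i ∈ s, padicValNat r (f i) = padicValNat r (g i)) :
    padicValNat r (∏ i ∈ s, f i) = padicValNat r (∏ i ∈ s, g i) := by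
  classical
  induction s using Finset.induction_on with
  | empty => simp
  | insert a s ha ih =>
    rw [Finset.prod_insert ha, Finset.prod_insert ha,
      padicValNat.mul (hf a (Finset.mem_insert_self a s))
        (Finset.prod_ne_zero_iff.mpr (fun i hi => hf i (Finset.mem_insert_of_mem hi))),
      padicValNat.mul (hg a (Finset.mem_insert_self a s))
        (Finset.prod_ne_zero_iff.mpr (fun i hi => hg i (Finset.mem_insert_of_mem hi))),
      h a (Finset.mem_insert_self a s),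
      ih (fun i hi => hf i (Finset.mem_insert_of_mem hi))
        (fun i hi => hg i (Finset.mem_insert_of_mem hi))
        (fun i hi => h i (Finset.mem_insert_of_mem hi))]

theorem val_pow_sub_one (q₀ k r : ℕ) [Fact r.Prime] (hr2 : r ≠ 2) (hrk : r ≠ k) (hk : k.Prime)
    (hq₀ : 2 ≤ q₀) (hrq : ¬ r ∣ q₀)
    (hord : orderOf (((q₀ ^ k : ℕ)) : ZMod r) = orderOf ((q₀ : ℕ) : ZMod r)) (m : ℕ)
    (hm : m ≠ 0) :
    padicValNat r ((q₀ ^ k) ^ m - 1) = padicValNat r (q₀ ^ m - 1) := by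
  have hr : r.Prime := Fact.out
  by_cases hd : r ∣ q₀ ^ m - 1
  · have h1 : 1 < q₀ ^ m := Nat.one_lt_pow hm (by omega)
    have hx : ¬ r ∣ q₀ ^ m := fun h => hrq (hr.dvd_of_dvd_pow h)
    have h2 := padicValNat.pow_sub_pow (p := r) (hr.odd_of_ne_two hr2) h1 hd hx hk.ne_zero
    rw [one_pow] at h2
    have h3 : padicValNat r k = 0 := by
      apply padicValNat.eq_zero_of_not_dvd
      intro h
      exact hrk ((Nat.prime_dvd_prime_iff_eq hr hk).mp h)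
    rw [h3, add_zero, pow_right_comm] at h2
    exact h2
  · have h1 : ¬ r ∣ (q₀ ^ k) ^ m - 1 := by
      rw [BG.dvd_pow_sub_one_iff (q₀ ^ k) r m (Nat.one_le_pow _ _ (by omega)), hord,
        ← BG.dvd_pow_sub_one_iff q₀ r m (by omega)]
      exact hd
    rw [padicValNat.eq_zero_of_not_dvd h1, padicValNat.eq_zero_of_not_dvd hd]

-- PIECE ARITHSAME
theorem not_dvd_same_order (q₀ k r n : ℕ) (hr : r.Prime) (hr2 : r ≠ 2) (hrk : r ≠ k)
    (hk : k.Prime) (hq₀ : 2 ≤ q₀) (hrq : ¬ r ∣ q₀)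
    (hord : orderOf (((q₀ ^ k : ℕ)) : ZMod r) = orderOf ((q₀ : ℕ) : ZMod r)) (c : ℕ)
    (hc : c * ((q₀ ^ k - 1) * ∏ i : Fin n, (q₀ ^ n - q₀ ^ (i : ℕ))) =
      (q₀ - 1) * ∏ i : Fin n, ((q₀ ^ k) ^ n - (q₀ ^ k) ^ (i : ℕ))) : ¬ r ∣ c := by
  have : Fact r.Prime := ⟨hr⟩
  have hq1 : 2 ≤ q₀ ^ k := by
    calc 2 ≤ q₀ := hq₀
      _ = q₀ ^ 1 := (pow_one _).symm
      _ ≤ q₀ ^ k := Nat.pow_le_pow_right (by omega) hk.one_lt.le
  have hrq' : ¬ r ∣ q₀ ^ k := fun h => hrq (hr.dvd_of_dvd_pow h)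
  have hfac : ∀ (Q : ℕ), 2 ≤ Q → ∀ i : Fin n,
      Q ^ n - Q ^ (i : ℕ) = Q ^ (i : ℕ) * (Q ^ (n - (i : ℕ)) - 1) := by
    intro Q hQ i
    rw [Nat.mul_sub, mul_one, ← pow_add]
    congr 2
    have := i.2
    omega
  have hne : ∀ (Q : ℕ), 2 ≤ Q → ∀ i : Fin n, Q ^ n - Q ^ (i : ℕ) ≠ 0 := by
    intro Q hQ i
    have h1 : Q ^ (i : ℕ) < Q ^ n := Nat.pow_lt_pow_right (by omega) i.2
    omega
  have hval : ∀ (Q : ℕ), 2 ≤ Q → ¬ r ∣ Q → ∀ i : Fin n,
      padicValNat r (Q ^ n - Q ^ (i : ℕ)) = padicValNat r (Q ^ (n - (i : ℕ)) - 1) := by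
    intro Q hQ hrQ i
    have h1 : Q ^ (n - (i : ℕ)) - 1 ≠ 0 := by
      have : 1 < Q ^ (n - (i : ℕ)) := Nat.one_lt_pow (by have := i.2; omega) (by omega)
      omega
    rw [hfac Q hQ i, padicValNat.mul (pow_ne_zero _ (by omega)) h1,
      padicValNat.eq_zero_of_not_dvd (fun h => hrQ (hr.dvd_of_dvd_pow h)), zero_add]
  have hprod : padicValNat r (∏ i : Fin n, ((q₀ ^ k) ^ n - (q₀ ^ k) ^ (i : ℕ))) =
      padicValNat r (∏ i : Fin n, (q₀ ^ n - q₀ ^ (i : ℕ))) := by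
    apply padicValNat_prod_congr
    · intro i _
      exact hne _ hq1 i
    · intro i _
      exact hne _ hq₀ i
    · intro i _
      rw [hval _ hq1 hrq' i, hval _ hq₀ hrq i]
      exact val_pow_sub_one q₀ k r hr2 hrk hk hq₀ hrq hord _ (by have := i.2; omega)
  have h1 : padicValNat r (q₀ ^ k - 1) = padicValNat r (q₀ - 1) := by
    have := val_pow_sub_one q₀ k r hr2 hrk hk hq₀ hrq hord 1 one_ne_zero
    rwa [pow_one, pow_one] at this
  intro hdvd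
  have hA : ∏ i : Fin n, (q₀ ^ n - q₀ ^ (i : ℕ)) ≠ 0 :=
    Finset.prod_ne_zero_iff.mpr (fun i _ => hne _ hq₀ i)
  have hB : ∏ i : Fin n, ((q₀ ^ k) ^ n - (q₀ ^ k) ^ (i : ℕ)) ≠ 0 :=
    Finset.prod_ne_zero_iff.mpr (fun i _ => hne _ hq1 i)
  have hc0 : c ≠ 0 := by
    rintro rfl
    rw [zero_mul] at hc
    have : (q₀ - 1) * ∏ i : Fin n, ((q₀ ^ k) ^ n - (q₀ ^ k) ^ (i : ℕ)) ≠ 0 :=
      mul_ne_zero (by omega) hB
    exact this hc.symm
  have h2 := congrArg (padicValNat r) hc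
  rw [padicValNat.mul hc0 (mul_ne_zero (by omega) hA), padicValNat.mul (by omega) hA,
    padicValNat.mul (by omega) hB, hprod, h1] at h2
  have h3 : 1 ≤ padicValNat r c := one_le_padicValNat_of_dvd hc0 hdvd
  omega

end Cfsg.Agent.Lib.Helper96.Sf
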