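import Cfsg.Agent.Lib.Helper96.BGCons

/-!
# S5965 piece BLOCKSL: an element of order `r` with a nontrivial block of size `ord_r(q)`
-/

set_option autoImplicit false

namespace Cfsg.Agent.Lib.Helper96.Sf

open Polynomial

-- PIECE BLOCKSL
theorem exists_block_sl {F : Type*} [Field F] [Fintype F] (p : ℕ) [Fact p.Prime] [CharP F p]
    (n r : ℕ) [Fact r.Prime] (hrp : r ≠ p)
    (hi2 : 2 ≤ orderOf ((Fintype.card F : ℕ) : ZMod r))
    (hin : orderOf ((Fintype.card F : ℕ) : ZMod r) ≤ n) :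
    ∃ (x : Matrix.SpecialLinearGroup (Fin n) F) (g : F[X]),
      (x : Matrix (Fin n) (Fin n) F) ^ r = 1 ∧
      (∀ z : F, (x : Matrix (Fin n) (Fin n) F) ≠ z • (1 : Matrix (Fin n) (Fin n) F)) ∧
      (x : Matrix (Fin n) (Fin n) F).charpoly =
        (X - 1) ^ (n - orderOf ((Fintype.card F : ℕ) : ZMod r)) * g ∧ g.eval 1 ≠ 0 := by
  classical
  have hr : r.Prime := Fact.out
  obtain ⟨i, hi⟩ : ∃ i, i = orderOf ((Fintype.card F : ℕ) : ZMod r) := ⟨_, rfl⟩
  rw [← hi] at hi2 hin ⊢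
  have hq1 : 1 ≤ Fintype.card F := Fintype.card_pos
  have hdvd : r ∣ Fintype.card F ^ i - 1 := by
    rw [← ZMod.natCast_eq_zero_iff, Nat.cast_sub (Nat.one_le_pow _ _ hq1), Nat.cast_pow,
      Nat.cast_one, hi, pow_orderOf_eq_one, sub_self]
  have hr1 : ¬ r ∣ Fintype.card F - 1 := by
    intro h
    have h1 : ((Fintype.card F : ℕ) : ZMod r) = 1 := by
      have h2 : ((Fintype.card F - 1 : ℕ) : ZMod r) = 0 := (ZMod.natCast_eq_zero_iff _ _).mpr h
      rw [Nat.cast_sub hq1, Nat.cast_one, sub_eq_zero] at h2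
      exact h2
    rw [h1, orderOf_one] at hi
    omega
  obtain ⟨A, hA, hA1⟩ := BG.exists_block p i (by omega) r hdvd
  have hcop : Nat.Coprime r (Fintype.card F - 1) := (Nat.Prime.coprime_iff_not_dvd hr).mpr hr1
  have hone : ∀ z : F, z ^ r = 1 → z = 1 := by
    intro z h1
    have h0 : z ≠ 0 := by
      intro h
      rw [h, zero_pow hr.ne_zero] at h1
      exact zero_ne_one h1
    have h2 : z ^ (Fintype.card F - 1) = 1 := FiniteField.pow_card_sub_one_eq_one _ h0
    exact (pow_eq_one_iff_of_coprime hcop).mp ⟨h1, h2⟩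
  have hdetA : A.det = 1 := hone _ (by rw [← Matrix.det_pow, hA, Matrix.det_one])
  have hsum : i + (n - i) = n := by omega
  obtain ⟨Y, hY⟩ : ∃ Y : Matrix (Fin n) (Fin n) F,
      Y = Matrix.reindexAlgEquiv F F (finSumFinEquiv.trans (finCongr hsum))
        (Matrix.fromBlocks A 0 0 (1 : Matrix (Fin (n - i)) (Fin (n - i)) F)) := ⟨_, rfl⟩
  have hYpow : Y ^ r = 1 := by
    rw [hY, ← map_pow, BG.fromBlocks_pow', hA, Matrix.fromBlocks_one, map_one]
  have hYdet : Y.det = 1 := by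
    rw [hY, Matrix.det_reindexAlgEquiv, Matrix.det_fromBlocks_zero₂₁, Matrix.det_one, mul_one,
      hdetA]
  have hYchar : Y.charpoly = (X - 1) ^ (n - i) * A.charpoly := by
    rw [hY, Matrix.coe_reindexAlgEquiv, Matrix.charpoly_reindex,
      Matrix.charpoly_fromBlocks_zero₁₂, Matrix.charpoly_one, Fintype.card_fin, mul_comm]
  have hg : A.charpoly.eval 1 ≠ 0 := by
    rw [Matrix.eval_charpoly, map_one]
    have h1 : IsUnit (1 - A) := by
      have := hA1.neg
      rwa [neg_sub] at this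
    exact ((Matrix.isUnit_iff_isUnit_det _).mp h1).ne_zero
  refine ⟨⟨Y, hYdet⟩, A.charpoly, hYpow, ?_, hYchar, hg⟩
  intro z hz
  change Y = z • 1 at hz
  have hn : 0 < n := by omega
  have hz1 : z = 1 := by
    apply hone
    have h1 := hYpow
    rw [hz, _root_.smul_pow, one_pow] at h1
    have h2 := congrFun (congrFun h1 ⟨0, hn⟩) ⟨0, hn⟩
    rw [Matrix.smul_apply, Matrix.one_apply_eq, smul_eq_mul, mul_one] at h2
    exact h2
  rw [hz1, one_smul] at hz
  rw [hz, Matrix.charpoly_one, Fintype.card_fin] at hYchar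
  have h3 : (X - 1 : F[X]) ^ (n - i) * (X - 1) ^ i = (X - 1) ^ (n - i) * A.charpoly := by
    rw [← pow_add, ← hYchar]
    congr 1
    omega
  have hX : (X - 1 : F[X]) ≠ 0 := by
    rw [← C_1]
    exact X_sub_C_ne_zero 1
  have h4 := mul_left_cancel₀ (pow_ne_zero _ hX) h3
  apply hg
  rw [← h4, eval_pow, eval_sub, eval_X, eval_one, sub_self, zero_pow (by omega)]

end Cfsg.Agent.Lib.Helper96.Sf
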