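import Cfsg.Agent.Lib.Helper96.SfBase
import Cfsg.Agent.Lib.Helper47.SemiConjMat
import Cfsg.Agent.Lib.Helper47.InvSL
import Cfsg.Agent.Lib.Helper47.InvSub

/-!
# S5965 piece GOODSUFF: rational characteristic polynomial implies conjugacy into the subfield group
-/

set_option autoImplicit false

namespace Cfsg.Agent.Lib.Helper96.Sf

open Polynomial

-- PIECE GOODSUFF
theorem conj_into_subfield {F : Type*} [Field F] [Fintype F] (F₀ : Subfield F) (n : ℕ) (hn : n ≠ 0)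
    (r : ℕ) (hr0 : (r : F) ≠ 0)
    (hrat : ∀ (f : (↥F₀)[X]), f.Monic → f.natDegree = n → f ∣ (X ^ r - 1) ^ n →
      ∃ y : Matrix (Fin n) (Fin n) ↥F₀, y ^ r = 1 ∧ y.charpoly = f)
    (x : Matrix.SpecialLinearGroup (Fin n) F) (u : F) (hu : u ≠ 0)
    (hx : (u⁻¹ • (x : Matrix (Fin n) (Fin n) F)) ^ r = 1)
    (f₀ : (↥F₀)[X]) (hf : f₀.map F₀.subtype = (u⁻¹ • (x : Matrix (Fin n) (Fin n) F)).charpoly) :
    ∃ P : Matrix.SpecialLinearGroup (Fin n) F, P⁻¹ * x * P ∈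
      (Cfsg.Geo.subfieldSubgroup F₀ 1).comap
        (Matrix.SpecialLinearGroup.toGL : Matrix.SpecialLinearGroup (Fin n) F →* GL (Fin n) F) := by
  classical
  have : Nonempty (Fin n) := ⟨⟨0, Nat.pos_of_ne_zero hn⟩⟩
  obtain ⟨M, hMdef⟩ : ∃ M : Matrix (Fin n) (Fin n) F,
      M = u⁻¹ • (x : Matrix (Fin n) (Fin n) F) := ⟨_, rfl⟩
  rw [← hMdef] at hx hf
  have hinj : Function.Injective (F₀.subtype : ↥F₀ →+* F) := Subtype.val_injective
  have hf₀m : f₀.Monic := by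
    have h1 : (f₀.map F₀.subtype).Monic := by rw [hf]; exact M.charpoly_monic
    exact Polynomial.monic_of_injective hinj h1
  have hf₀d : f₀.natDegree = n := by
    have h1 : (f₀.map F₀.subtype).natDegree = n := by
      rw [hf, Matrix.charpoly_natDegree_eq_dim, Fintype.card_fin]
    rw [← h1, Polynomial.natDegree_map]
  have hf₀dvd : f₀ ∣ (X ^ r - 1) ^ n := by
    have h1 : f₀.map F₀.subtype ∣ ((X ^ r - 1) ^ n : (↥F₀)[X]).map F₀.subtype := by
      rw [hf]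
      simp only [Polynomial.map_pow, Polynomial.map_sub, Polynomial.map_X, Polynomial.map_one]
      exact charpoly_dvd_pow M r hx
    exact (Polynomial.map_dvd_map' _).mp h1
  obtain ⟨y, hy, hyc⟩ := hrat f₀ hf₀m hf₀d hf₀dvd
  obtain ⟨Ym, hYm⟩ : ∃ Ym : Matrix (Fin n) (Fin n) F, Ym = y.map (F₀.subtype) := ⟨_, rfl⟩
  have hYmpow : Ym ^ r = 1 := by
    rw [hYm]
    have h1 : (F₀.subtype : ↥F₀ →+* F).mapMatrix (y ^ r) =
        (F₀.subtype : ↥F₀ →+* F).mapMatrix 1 := by rw [hy]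
    rw [map_pow, map_one] at h1
    exact h1
  have hYmc : Ym.charpoly = M.charpoly := by
    rw [hYm, ← hf, ← hyc, Matrix.charpoly_map]
  have hMs := Cfsg.Agent.Lib.Helper47.isSemisimple_toLin'_of_pow_eq_one M r hr0 hx
  have hYs := Cfsg.Agent.Lib.Helper47.isSemisimple_toLin'_of_pow_eq_one Ym r hr0 hYmpow
  obtain ⟨P, hPu, hP⟩ := Cfsg.Agent.Lib.Helper47.exists_conj_matrix M Ym hMs hYs hYmc.symm
  obtain ⟨A, hA⟩ : ∃ A : GL (Fin n) F, (A : Matrix (Fin n) (Fin n) F) = P :=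
    ⟨Matrix.GeneralLinearGroup.mkOfDetNeZero P hPu.ne_zero, rfl⟩
  have hxM : (x : Matrix (Fin n) (Fin n) F) = u • M := by
    rw [hMdef, smul_smul, mul_inv_cancel₀ hu, one_smul]
  have hmem : A * Matrix.SpecialLinearGroup.toGL x * A⁻¹ ∈ Cfsg.Geo.subfieldSubgroup F₀ 1 := by
    refine Cfsg.Agent.Lib.Helper47.mem_subfieldSubgroup_one F₀ _ u hu Ym ?_ ?_
    · apply Cfsg.Agent.Lib.Helper47.conj_val_eq
      rw [hA]
      show P * (x : Matrix (Fin n) (Fin n) F) = u • Ym * P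
      rw [hxM, Matrix.mul_smul, hP, Matrix.smul_mul]
    · intro i j
      rw [hYm]
      exact (y i j).2
  apply Cfsg.Agent.Lib.Helper47.sl_conj_of_gl_conj x A hmem
  intro δ _
  obtain ⟨c, hc, hdet⟩ := Cfsg.Agent.Lib.Helper47.exists_commute_matrix_det M hMs δ
  refine ⟨c, ?_, hdet⟩
  rw [hxM, Matrix.mul_smul, Matrix.smul_mul, hc]

end Cfsg.Agent.Lib.Helper96.Sf
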