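import Mathlib

/-!
# S5965 piece RATFORM: a matrix of order dividing `r` with prescribed characteristic polynomial
-/

set_option autoImplicit false

namespace Cfsg.Agent.Lib.Helper96.Sf

open Polynomial

theorem fromBlocks_diag_pow {K : Type*} [Field K] {α β : Type*} [Fintype α] [Fintype β]
    [DecidableEq α] [DecidableEq β] (A : Matrix α α K) (D : Matrix β β K) (t : ℕ) :
    (Matrix.fromBlocks A 0 0 D) ^ t = Matrix.fromBlocks (A ^ t) 0 0 (D ^ t) := by
  induction t with
  | zero => rw [pow_zero, pow_zero, pow_zero, Matrix.fromBlocks_one]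
  | succ t ih =>
    rw [pow_succ, ih, Matrix.fromBlocks_multiply, pow_succ, pow_succ]
    simp

theorem exists_block_of_dvd {K : Type*} [Field K] (r : ℕ) (h : K[X]) (hm : h.Monic)
    (hdvd : h ∣ X ^ r - 1) :
    ∃ y : Matrix (Fin h.natDegree) (Fin h.natDegree) K, y ^ r = 1 ∧ y.charpoly = h := by
  classical
  have hf0 : h ≠ 0 := hm.ne_zero
  have hdim : (AdjoinRoot.powerBasis hf0).dim = h.natDegree := AdjoinRoot.powerBasis_dim hf0
  have hroot : (AdjoinRoot.root h) ^ r = 1 := by
    obtain ⟨g, hg⟩ := hdvd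
    have h1 := AdjoinRoot.eval₂_root h
    have h2 : Polynomial.eval₂ (AdjoinRoot.of h) (AdjoinRoot.root h) (X ^ r - 1) = 0 := by
      rw [hg, Polynomial.eval₂_mul, h1, zero_mul]
    rw [Polynomial.eval₂_sub, Polynomial.eval₂_pow, Polynomial.eval₂_X, Polynomial.eval₂_one,
      sub_eq_zero] at h2
    exact h2
  have hgen : (AdjoinRoot.powerBasis hf0).gen = AdjoinRoot.root h := AdjoinRoot.powerBasis_gen hf0
  have hMpow : (Algebra.leftMulMatrix (AdjoinRoot.powerBasis hf0).basis
      (AdjoinRoot.powerBasis hf0).gen) ^ r = 1 := by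
    rw [← map_pow, hgen, hroot, map_one]
  have hMchar : (Algebra.leftMulMatrix (AdjoinRoot.powerBasis hf0).basis
      (AdjoinRoot.powerBasis hf0).gen).charpoly = h := by
    rw [charpoly_leftMulMatrix, hgen, AdjoinRoot.minpoly_root hf0, hm.leadingCoeff, inv_one,
      C_1, mul_one]
  refine ⟨Matrix.reindexAlgEquiv K K (finCongr hdim) (Algebra.leftMulMatrix
    (AdjoinRoot.powerBasis hf0).basis (AdjoinRoot.powerBasis hf0).gen), ?_, ?_⟩
  · rw [← map_pow, hMpow, map_one]
  · rw [Matrix.coe_reindexAlgEquiv, Matrix.charpoly_reindex, hMchar]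

-- PIECE RATFORM
theorem exists_matrix_charpoly {K : Type*} [Field K] (r N : ℕ) :
    ∀ (n : ℕ) (f : K[X]), f.Monic → f.natDegree = n → f ∣ (X ^ r - 1) ^ N →
      ∃ y : Matrix (Fin n) (Fin n) K, y ^ r = 1 ∧ y.charpoly = f := by
  classical
  intro n
  induction n using Nat.strong_induction_on with
  | _ n ih =>
    intro f hf hdeg hdvd
    by_cases hu : IsUnit f
    · have hf1 : f = 1 := hf.eq_one_of_isUnit hu
      have hn : n = 0 := by rw [← hdeg, hf1, natDegree_one]
      subst hn
      refine ⟨1, one_pow r, ?_⟩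
      rw [hf1, Matrix.charpoly_one, Fintype.card_fin, pow_zero]
    · obtain ⟨h, hm, hirr, hdvdh⟩ := exists_monic_irreducible_factor f hu
      obtain ⟨f1, hf1⟩ := hdvdh
      have hf1m : f1.Monic := by
        rw [hf1] at hf
        exact hm.of_mul_monic_left hf
      have hsum : h.natDegree + f1.natDegree = n := by
        rw [← hdeg, hf1, hm.natDegree_mul hf1m]
      have hpos : 0 < h.natDegree := hirr.natDegree_pos
      have hh : h ∣ X ^ r - 1 := by
        apply hirr.prime.dvd_of_dvd_pow (n := N)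
        exact (Dvd.intro f1 hf1.symm).trans hdvd
      obtain ⟨yh, hyh, hyhc⟩ := exists_block_of_dvd r h hm hh
      obtain ⟨y1, hy1, hy1c⟩ := ih f1.natDegree (by omega) f1 hf1m rfl
        ((Dvd.intro_left h hf1.symm).trans hdvd)
      refine ⟨Matrix.reindexAlgEquiv K K (finSumFinEquiv.trans (finCongr hsum))
        (Matrix.fromBlocks yh 0 0 y1), ?_, ?_⟩
      · rw [← map_pow, fromBlocks_diag_pow, hyh, hy1, Matrix.fromBlocks_one, map_one]
      · rw [Matrix.coe_reindexAlgEquiv, Matrix.charpoly_reindex,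
          Matrix.charpoly_fromBlocks_zero₁₂, hyhc, hy1c, hf1]

end Cfsg.Agent.Lib.Helper96.Sf
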