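import Cfsg.Agent.Lib.Helper96.SfArith
import Cfsg.Agent.Lib.Helper96.SfRATFORM
import Cfsg.Agent.Lib.Helper96.SfGOODSUFF
import Cfsg.Agent.Lib.Helper59.SfFROBFIX
import Cfsg.Agent.Lib.Helper59.SfFROBCHAR
import Cfsg.Agent.Lib.Helper96.BGLin
import Cfsg.Agent.Lib.Helper96.BGIrr

/-!
# S5965: the case `r = k` (every element of order `r` is conjugate into the subfield group)
-/

set_option autoImplicit false

namespace Cfsg.Agent.Lib.Helper96.Sf

open Polynomial

/-- Scaling an element with scalar `r`-th power `w ^ r`. -/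
theorem scaled_pow {F : Type*} [Field F] {n : ℕ} (x : Matrix.SpecialLinearGroup (Fin n) F)
    (r : ℕ) (z w : F) (hw : w ≠ 0) (hwz : w ^ r = z)
    (hz : ((x ^ r : Matrix.SpecialLinearGroup (Fin n) F) : Matrix (Fin n) (Fin n) F) =
      z • (1 : Matrix (Fin n) (Fin n) F)) :
    (w⁻¹ • (x : Matrix (Fin n) (Fin n) F)) ^ r = 1 := by
  rw [_root_.smul_pow, ← Matrix.SpecialLinearGroup.coe_pow, hz, smul_smul, ← hwz, ← mul_pow,
    inv_mul_cancel₀ hw, one_pow, one_smul]

/-- The scalar `r`-th power of an element of `SL_n` is nonzero. -/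
theorem scalar_ne_zero {F : Type*} [Field F] {n : ℕ} (hn : n ≠ 0)
    (x : Matrix.SpecialLinearGroup (Fin n) F) (r : ℕ) (z : F)
    (hz : ((x ^ r : Matrix.SpecialLinearGroup (Fin n) F) : Matrix (Fin n) (Fin n) F) =
      z • (1 : Matrix (Fin n) (Fin n) F)) : z ≠ 0 := by
  rintro rfl
  have : Nonempty (Fin n) := ⟨⟨0, Nat.pos_of_ne_zero hn⟩⟩
  have h1 := congrArg Matrix.det hz
  rw [(x ^ r).det_coe, zero_smul, Matrix.det_zero] at h1
  exact one_ne_zero h1

/-- Rationality of the characteristic polynomial when `[F : F₀] = r`. -/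
theorem rat_k {F : Type*} [Field F] [Fintype F] {p : ℕ} [Fact p.Prime] [CharP F p] {q₀ : ℕ}
    (F₀ : Subfield F) (hF₀ : Nat.card ↥F₀ = q₀) (r : ℕ) [Fact r.Prime]
    (hq : Fintype.card F = q₀ ^ r) {n : ℕ} (M : Matrix (Fin n) (Fin n) F) (hM : M ^ r = 1) :
    ∃ f₀ : (↥F₀)[X], f₀.map F₀.subtype = M.charpoly := by
  have hr : r.Prime := Fact.out
  obtain ⟨e, he⟩ := exists_char_pow p hr.ne_zero hq
  apply Cfsg.Agent.Lib.Helper59.Sf.exists_map_eq_of_coeff_pow F₀ hF₀
  intro j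
  have h1 := Cfsg.Agent.Lib.Helper59.Sf.charpoly_pow_char_pow p M e
  have h2 : M ^ p ^ e = M ^ Fintype.card F := by
    rw [pow_eq_pow_mod (p ^ e) hM, pow_eq_pow_mod (Fintype.card F) hM, hq, ← he, pow_mod_self]
  have h3 := FiniteField.Matrix.charpoly_pow_card M
  rw [h2, h3] at h1
  have h4 := congrArg (fun f : F[X] => f.coeff j) h1
  simp only [coeff_map, iterateFrobenius_def] at h4
  rw [he]
  exact h4.symm

/-- The case `r = k`. -/
theorem backward_k {F : Type*} [Field F] [Fintype F] {p : ℕ} [Fact p.Prime] [CharP F p] {q₀ : ℕ}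
    (F₀ : Subfield F) (hF₀ : Nat.card ↥F₀ = q₀) (r : ℕ) [Fact r.Prime] (hr2 : r ≠ 2)
    (hrp : r ≠ p) (hq : Fintype.card F = q₀ ^ r) (n : ℕ) (hn : n ≠ 0)
    (hgapk : r ∣ q₀ - 1 → padicValNat r n ≤ padicValNat r (q₀ ^ r - 1))
    (x : Matrix.SpecialLinearGroup (Fin n) F) (z : F)
    (hz : ((x ^ r : Matrix.SpecialLinearGroup (Fin n) F) : Matrix (Fin n) (Fin n) F) =
      z • (1 : Matrix (Fin n) (Fin n) F)) :
    ∃ P : Matrix.SpecialLinearGroup (Fin n) F, P⁻¹ * x * P ∈
      (Cfsg.Geo.subfieldSubgroup F₀ 1).comap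
        (Matrix.SpecialLinearGroup.toGL : Matrix.SpecialLinearGroup (Fin n) F →* GL (Fin n) F) := by
  have hr : r.Prime := Fact.out
  obtain ⟨hrq, hr0, -⟩ := BG.facts (F := F) p r hrp
  have hz0 : z ≠ 0 := scalar_ne_zero hn x r z hz
  have hq₀1 : 1 ≤ q₀ := by
    rcases Nat.eq_zero_or_pos q₀ with h | h
    · rw [h, zero_pow hr.ne_zero] at hq
      exact absurd hq Fintype.card_ne_zero
    · exact h
  obtain ⟨w, hw, hwz⟩ : ∃ w : F, w ≠ 0 ∧ w ^ r = z := by
    by_cases hdvd : r ∣ Fintype.card F - 1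
    · by_contra hno
      have hc : ∀ b : F, b ^ r ≠ z := by
        intro b hb
        apply hno
        refine ⟨b, ?_, hb⟩
        rintro rfl
        rw [zero_pow hr.ne_zero] at hb
        exact hz0 hb.symm
      have hT := BG.toLin'_pow_eq n r (x : Matrix (Fin n) (Fin n) F) z
        (by rw [← Matrix.SpecialLinearGroup.coe_pow]; exact hz)
      have hdet : LinearMap.det (Matrix.toLin' (x : Matrix (Fin n) (Fin n) F)) = 1 := by
        rw [LinearMap.det_toLin']
        exact x.det_coe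
      have hd0 : r ∣ q₀ - 1 := by
        apply dvd_sub_one_of_pow r q₀ hq₀1
        rw [← hq]
        exact hdvd
      have hv : padicValNat r n ≤ padicValNat r (Fintype.card F - 1) := by
        rw [hq]
        exact hgapk hd0
      exact BG.twisted_false n r hdvd _ z hc hT hdet hv (fun h => absurd h hr2) hn
    · exact BG.exists_root_of_not_dvd r hdvd z hz0
  have hM := scaled_pow x r z w hw hwz hz
  obtain ⟨f₀, hf₀⟩ := rat_k (p := p) F₀ hF₀ r hq _ hM
  exact conj_into_subfield F₀ n hn r hr0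
    (fun f hfm hfd hfdvd => exists_matrix_charpoly r n n f hfm hfd hfdvd) x w hw hM f₀ hf₀

end Cfsg.Agent.Lib.Helper96.Sf
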