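import Cfsg.Agent.Lib.Helper96.SfBackK
import Cfsg.Agent.Lib.Helper96.SfEIGENPROD
import Cfsg.Agent.Lib.Helper34.SfDEGDET
import Cfsg.Agent.Lib.Helper34.SfSCALAR
import Cfsg.Agent.Lib.Helper34.SfSYM35
import Cfsg.Agent.Lib.Helper34.SfSMULPROD
import Cfsg.Agent.Lib.Helper94.SfSYMRAT

/-!
# S5965: the special case `k = 2`, `r = n ∈ {3, 5}`, `(q₀ + 1)_r = r`
-/

set_option autoImplicit false

namespace Cfsg.Agent.Lib.Helper96.Sf

open Polynomial

/-- The special case `k = 2`, `n = r ∈ {3, 5}` and `v_r(q₀ + 1) = 1`. -/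
theorem backward_special {F : Type*} [Field F] [Fintype F] {p : ℕ} [Fact p.Prime] [CharP F p]
    {q₀ : ℕ} (F₀ : Subfield F) (hF₀ : Nat.card ↥F₀ = q₀) (r : ℕ) [Fact r.Prime]
    (hr35 : r = 3 ∨ r = 5) (hrp : r ≠ p) (hq : Fintype.card F = q₀ ^ 2)
    (hv : padicValNat r (q₀ + 1) = 1)
    (x : Matrix.SpecialLinearGroup (Fin r) F) (z : F)
    (hz : ((x ^ r : Matrix.SpecialLinearGroup (Fin r) F) : Matrix (Fin r) (Fin r) F) =
      z • (1 : Matrix (Fin r) (Fin r) F))
    (hns : ∀ z : F, (x : Matrix (Fin r) (Fin r) F) ≠ z • (1 : Matrix (Fin r) (Fin r) F)) :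
    ∃ P : Matrix.SpecialLinearGroup (Fin r) F, P⁻¹ * x * P ∈
      (Cfsg.Geo.subfieldSubgroup F₀ 1).comap
        (Matrix.SpecialLinearGroup.toGL : Matrix.SpecialLinearGroup (Fin r) F →* GL (Fin r) F) := by
  classical
  have hr : r.Prime := Fact.out
  have hr2 : r ≠ 2 := by rcases hr35 with h | h <;> omega
  have hrodd : Odd r := hr.odd_of_ne_two hr2
  obtain ⟨hrq, hr0, -⟩ := BG.facts (F := F) p r hrp
  have hz0 : z ≠ 0 := scalar_ne_zero hr.ne_zero x r z hz
  have hq₀2 : 2 ≤ q₀ := by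
    have h1 : 1 < Fintype.card F := Fintype.one_lt_card
    rw [hq] at h1
    by_contra h
    have : q₀ = 0 ∨ q₀ = 1 := by omega
    rcases this with h0 | h0 <;> rw [h0] at h1 <;> norm_num at h1
  have hdvd1 : r ∣ q₀ + 1 := dvd_of_one_le_padicValNat (by omega)
  have hndvd : ¬ r ∣ q₀ - 1 := by
    intro h
    have h2 : r ∣ (q₀ + 1) - (q₀ - 1) := Nat.dvd_sub hdvd1 h
    have h3 : (q₀ + 1) - (q₀ - 1) = 2 := by omega
    rw [h3] at h2
    have h4 := Nat.le_of_dvd (by norm_num) h2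
    have h5 := hr.two_le
    omega
  have hfac : Fintype.card F - 1 = (q₀ - 1) * (q₀ + 1) := by
    rw [hq]
    obtain ⟨b, rfl⟩ : ∃ b, q₀ = b + 1 := ⟨q₀ - 1, by omega⟩
    simp only [Nat.add_sub_cancel]
    have : (b + 1) ^ 2 = b * (b + 1 + 1) + 1 := by ring
    omega
  have hdvdq : r ∣ Fintype.card F - 1 := by
    rw [hfac]
    exact Dvd.dvd.mul_left hdvd1 _
  have hvq : padicValNat r (Fintype.card F - 1) = 1 := by
    rw [hfac, padicValNat.mul (by omega) (by omega), padicValNat.eq_zero_of_not_dvd hndvd,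
      zero_add, hv]
  have hzr : z ^ r = 1 := by
    have h1 := congrArg Matrix.det hz
    rw [(x ^ r).det_coe, Matrix.det_smul, Matrix.det_one, mul_one, Fintype.card_fin] at h1
    exact h1.symm
  have hz1 : z = 1 := by
    obtain ⟨w, hw⟩ : ∃ w : F, w ^ r = z := by
      by_contra hno
      push Not at hno
      have hT := BG.toLin'_pow_eq r r (x : Matrix (Fin r) (Fin r) F) z
        (by rw [← Matrix.SpecialLinearGroup.coe_pow]; exact hz)
      have hdet : LinearMap.det (Matrix.toLin' (x : Matrix (Fin r) (Fin r) F)) = 1 := by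
        rw [LinearMap.det_toLin']
        exact x.det_coe
      have h1 := BG.det_of_not_pow r hr z hno r (Fin r → F) _ (Module.finrank_fin_fun F) hT
      rw [hdet, Nat.div_self hr.pos, pow_one, hrodd.add_one.neg_one_pow, one_mul] at h1
      exact hno 1 (by rw [one_pow]; exact h1)
    have hw0 : w ≠ 0 := by
      rintro rfl
      rw [zero_pow hr.ne_zero] at hw
      exact hz0 hw.symm
    have h1 : w ^ (r ^ 2) = 1 := by rw [pow_two, pow_mul, hw, hzr]
    have h2 : w ^ (Fintype.card F - 1) = 1 := FiniteField.pow_card_sub_one_eq_one w hw0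
    have h3 : w ^ Nat.gcd (r ^ 2) (Fintype.card F - 1) = 1 := pow_gcd_eq_one.mpr ⟨h1, h2⟩
    have h4 : Nat.gcd (r ^ 2) (Fintype.card F - 1) ∣ r := by
      obtain ⟨i, hi, hgi⟩ :=
        (Nat.dvd_prime_pow hr).mp (Nat.gcd_dvd_left (r ^ 2) (Fintype.card F - 1))
      rcases Nat.lt_or_ge i 2 with hlt | hge
      · rw [hgi]
        have h5 : r ^ i ∣ r ^ 1 := pow_dvd_pow r (by omega)
        rwa [pow_one] at h5
      · have hi2 : i = 2 := by omega
        have h5 : r ^ 2 ∣ Fintype.card F - 1 := by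
          have h6 := Nat.gcd_dvd_right (r ^ 2) (Fintype.card F - 1)
          rwa [hgi, hi2] at h6
        have h7 : Fintype.card F - 1 ≠ 0 := by
          have := Fintype.one_lt_card (α := F)
          omega
        have h6 := (padicValNat_dvd_iff_le h7).mp h5
        omega
    obtain ⟨t, ht⟩ := h4
    rw [← hw, ht, pow_mul, h3, one_pow]
  have hM : (x : Matrix (Fin r) (Fin r) F) ^ r = 1 := by
    rw [← Matrix.SpecialLinearGroup.coe_pow, hz, hz1, one_smul]
  obtain ⟨ω, hω, hω1⟩ := exists_prim_root (F := F) r hdvdq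
  obtain ⟨m, hm⟩ :=
    charpoly_eq_prod_of_pow_eq_one (x : Matrix (Fin r) (Fin r) F) r hr ω hω hω1 hM
  obtain ⟨hsum, hdet⟩ :=
    Cfsg.Agent.Lib.Helper34.Sf.deg_det_of_prod (x : Matrix (Fin r) (Fin r) F) r ω m hm
  rw [x.det_coe] at hdet
  have hS : r ∣ ∑ j ∈ Finset.range r, j * m j := by
    have h1 : orderOf ω = r := orderOf_eq_prime hω hω1
    have h2 := orderOf_dvd_of_pow_eq_one hdet.symm
    rwa [h1] at h2
  have hlt : ∀ j ∈ Finset.range r, m j < r := by
    intro j₀ hj₀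
    by_contra hge
    push Not at hge
    have h1 := Finset.add_sum_erase (Finset.range r) m hj₀
    have h2 : ∑ j ∈ (Finset.range r).erase j₀, m j = 0 := by omega
    have h3 : ∀ j ∈ Finset.range r, j ≠ j₀ → m j = 0 := by
      intro j hj hne
      exact (Finset.sum_eq_zero_iff.mp h2) j (Finset.mem_erase.mpr ⟨hne, hj⟩)
    have h4 : m j₀ = r := by omega
    have h5 : (x : Matrix (Fin r) (Fin r) F).charpoly = (X - C (ω ^ j₀)) ^ r := by
      rw [hm, Finset.prod_eq_single j₀ (fun j hj hne => by rw [h3 j hj hne, pow_zero])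
        (fun h => absurd hj₀ h), h4]
    exact hns (ω ^ j₀)
      (Cfsg.Agent.Lib.Helper34.Sf.eq_smul_one_of_charpoly _ r hr0 hM (ω ^ j₀) h5)
  obtain ⟨c, hc, hsym⟩ := Cfsg.Agent.Lib.Helper34.Sf.sym35 r hr35 m hsum hS hlt
  rw [Finset.mem_range] at hc
  have hω0 : ω ≠ 0 := by
    rintro rfl
    rw [zero_pow hr.ne_zero] at hω
    exact zero_ne_one hω
  have hu : ω ^ c ≠ 0 := pow_ne_zero _ hω0
  have huinv : (ω ^ c)⁻¹ = ω ^ (r - c) := by
    apply inv_eq_of_mul_eq_one_right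
    rw [← pow_add, Nat.add_sub_cancel' hc.le, hω]
  have hxu : (ω ^ c)⁻¹ • (x : Matrix (Fin r) (Fin r) F) =
      ω ^ (r - c) • (x : Matrix (Fin r) (Fin r) F) := by rw [huinv]
  have hpow : ((ω ^ c)⁻¹ • (x : Matrix (Fin r) (Fin r) F)) ^ r = 1 := by
    rw [hxu, _root_.smul_pow, hM, ← pow_mul, mul_comm, pow_mul, hω, one_pow, one_smul]
  have hchar := Cfsg.Agent.Lib.Helper34.Sf.charpoly_smul_prod (x : Matrix (Fin r) (Fin r) F)
    (ω ^ (r - c)) (pow_ne_zero _ hω0) (Finset.range r) (fun j => ω ^ j) m hm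
  obtain ⟨e, he⟩ := exists_char_pow p two_ne_zero hq
  have hω' : ω ^ (p ^ e + 1) = 1 := by
    rw [← he]
    obtain ⟨t, ht⟩ := hdvd1
    rw [ht, pow_mul, hω, one_pow]
  obtain ⟨f₀, hf₀⟩ := Cfsg.Agent.Lib.Helper59.Sf.exists_map_eq_of_coeff_pow F₀ hF₀
    ((ω ^ (r - c) • (x : Matrix (Fin r) (Fin r) F)).charpoly) (by
      intro t
      rw [hchar, he]
      exact Cfsg.Agent.Lib.Helper94.Sf.sym_coeff_fixed p e r hr.pos ω hω hω' m c hc hsym t)
  exact conj_into_subfield F₀ r hr.ne_zero r hr0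
    (fun f hfm hfd hfdvd => exists_matrix_charpoly r r r f hfm hfd hfdvd) x (ω ^ c) hu hpow f₀
    (by rw [hf₀, hxu])

end Cfsg.Agent.Lib.Helper96.Sf
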