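import Mathlib

/-!
# S5965: basic facts on matrices of finite order
-/

set_option autoImplicit false

namespace Cfsg.Agent.Lib.Helper96.Sf

open Polynomial

/-- `M ^ r = 1` forces the characteristic polynomial to divide `(X ^ r - 1) ^ n`. -/
theorem charpoly_dvd_pow {K : Type*} [Field K] {n : ℕ} (M : Matrix (Fin n) (Fin n) K) (r : ℕ)
    (hM : M ^ r = 1) : M.charpoly ∣ (X ^ r - 1) ^ n := by
  have hcomm : Commute (Matrix.scalar (Fin n) (X : K[X])) ((C : K →+* K[X]).mapMatrix M) :=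
    Matrix.scalar_commute _ (fun _ => Commute.all _ _) _
  have h1 := hcomm.mul_geom_sum₂ r
  have h2 : ((C : K →+* K[X]).mapMatrix M) ^ r = 1 := by
    rw [← map_pow, hM, map_one]
  have h3 : (Matrix.scalar (Fin n) (X : K[X])) ^ r = Matrix.scalar (Fin n) (X ^ r : K[X]) := by
    rw [← map_pow]
  rw [h2, h3] at h1
  have h4 := congrArg Matrix.det h1
  rw [Matrix.det_mul] at h4
  have h5 : (Matrix.scalar (Fin n) (X ^ r : K[X]) - 1 : Matrix (Fin n) (Fin n) K[X]) =
      Matrix.scalar (Fin n) (X ^ r - 1 : K[X]) := by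
    rw [map_sub, map_one]
  have h6 : (Matrix.scalar (Fin n) (X ^ r - 1 : K[X])).det = (X ^ r - 1) ^ n := by
    rw [Matrix.scalar_apply, Matrix.det_diagonal, Finset.prod_const, Finset.card_univ,
      Fintype.card_fin]
  rw [h5, h6] at h4
  exact ⟨_, h4.symm⟩

end Cfsg.Agent.Lib.Helper96.Sf
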