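import Mathlib
import Cfsg.Agent.Lib.Helper47.SemiConjMat

/-!
# S5965 piece MULTINV: eigenvalue multiplicities of a diagonal matrix conjugate into the
subfield group are invariant under the `q₀`-power map (up to a shift)
-/

set_option autoImplicit false

namespace Cfsg.Agent.Lib.Helper96.Sf

open Polynomial

-- PIECE MULTINV
theorem mult_invariant {F : Type*} [Field F] [Fintype F] (F₀ : Subfield F) {q₀ : ℕ}
    (hF₀ : Nat.card ↥F₀ = q₀) (n r : ℕ) [Fact r.Prime] (ω : F) (hω : ω ^ r = 1) (hω1 : ω ≠ 1)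
    (a : Fin n → ℕ) (P : Matrix (Fin n) (Fin n) F) (Y : Matrix (Fin n) (Fin n) ↥F₀) (ε : F)
    (hP : IsUnit P.det) (hε : ε ^ r = 1)
    (hxP : Matrix.diagonal (fun l => ω ^ a l) * P = P * (ε • Y.map F₀.subtype)) :
    ∃ c : ℕ, ∀ j : ℕ,
      (Finset.univ.filter (fun l : Fin n => a l % r = (c + q₀ * j) % r)).card =
        (Finset.univ.filter (fun l : Fin n => a l % r = (c + j) % r)).card := by
  classical
  have hr : r.Prime := Fact.out
  have : NeZero r := ⟨hr.ne_zero⟩
  have hord : orderOf ω = r := orderOf_eq_prime hω hω1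
  have hprim : IsPrimitiveRoot ω r := by
    have := IsPrimitiveRoot.orderOf ω
    rwa [hord] at this
  obtain ⟨c, hc, hcε⟩ := hprim.eq_pow_of_pow_eq_one hε
  have hpow_iff : ∀ x y : ℕ, ω ^ x = ω ^ y ↔ x % r = y % r := by
    intro x y
    rw [pow_eq_pow_mod x hω, pow_eq_pow_mod y hω]
    constructor
    · intro h
      exact hprim.pow_inj (Nat.mod_lt _ hr.pos) (Nat.mod_lt _ hr.pos) h
    · intro h
      rw [h]
  obtain ⟨b, hb⟩ : ∃ b : Fin n → ℕ, b = fun l => a l + (r - c) := ⟨_, rfl⟩
  have hDP : Matrix.diagonal (fun l => ω ^ b l) * P = P * Y.map F₀.subtype := by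
    have h1 : Matrix.diagonal (fun l => ω ^ b l) =
        ω ^ (r - c) • Matrix.diagonal (fun l => ω ^ a l) := by
      rw [← Matrix.diagonal_smul]
      congr 1
      funext l
      rw [hb, Pi.smul_apply, smul_eq_mul, pow_add, mul_comm]
    rw [h1, Matrix.smul_mul, hxP, Matrix.mul_smul, smul_smul, ← hcε, ← pow_add,
      Nat.sub_add_cancel hc.le, hω, one_smul]
  have hchar : (Matrix.diagonal (fun l => ω ^ b l)).charpoly = (Y.map F₀.subtype).charpoly :=
    (Cfsg.Agent.Lib.Helper47.charpoly_eq_of_mul_eq P _ _ hP hDP.symm).symm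
  rw [Matrix.charpoly_diagonal, Matrix.charpoly_map] at hchar
  have : Fintype ↥F₀ := Fintype.ofFinite _
  have hcard : Fintype.card ↥F₀ = q₀ := by rw [← Nat.card_eq_fintype_card, hF₀]
  have hψ1 : ∀ y : F, (FiniteField.frobeniusAlgHom ↥F₀ F) y = y ^ q₀ := by
    intro y
    rw [← hcard]
    rfl
  have hmapψ : (Y.charpoly.map F₀.subtype).map
      ((FiniteField.frobeniusAlgHom ↥F₀ F : F →ₐ[↥F₀] F) : F →+* F) =
      Y.charpoly.map F₀.subtype := by
    rw [Polynomial.map_map]
    congr 1
    ext y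
    exact (FiniteField.frobeniusAlgHom ↥F₀ F).commutes y
  have h2 : (∏ l : Fin n, (X - C (ω ^ b l)) : F[X]).map
      ((FiniteField.frobeniusAlgHom ↥F₀ F : F →ₐ[↥F₀] F) : F →+* F) =
      ∏ l : Fin n, (X - C (ω ^ (q₀ * b l))) := by
    rw [Polynomial.map_prod]
    apply Finset.prod_congr rfl
    intro l _
    rw [Polynomial.map_sub, Polynomial.map_X, Polynomial.map_C]
    congr 2
    show (FiniteField.frobeniusAlgHom ↥F₀ F) (ω ^ b l) = _
    rw [hψ1, ← pow_mul, mul_comm]
  have h3 : (∏ l : Fin n, (X - C (ω ^ b l)) : F[X]) =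
      ∏ l : Fin n, (X - C (ω ^ (q₀ * b l))) := by
    rw [← h2, hchar, hmapψ]
  have hroots : ∀ d : Fin n → F,
      (∏ l : Fin n, (X - C (d l)) : F[X]).roots = Finset.univ.val.map d := by
    intro d
    have h5 : (∏ l : Fin n, (X - C (d l)) : F[X]) =
        ((Finset.univ.val.map d).map (fun a => X - C a)).prod := by
      rw [Multiset.map_map]
      rfl
    rw [h5, Polynomial.roots_multiset_prod_X_sub_C]
  have h4 := congrArg Polynomial.roots h3
  rw [hroots, hroots] at h4
  have hcount : ∀ (d : Fin n → F) (y : F),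
      Multiset.count y (Finset.univ.val.map d) = (Finset.univ.filter (fun l => d l = y)).card := by
    intro d y
    rw [Multiset.count_map, Finset.card_def, Finset.filter_val]
    congr 1
    apply Multiset.filter_congr
    intro l _
    exact eq_comm
  have hmod : ∀ x y : ℕ, (x + (r - c)) % r = y % r ↔ x % r = (c + y) % r := by
    intro x y
    constructor
    · intro h
      have h1 : (x + (r - c) + c) % r = (y + c) % r := Nat.ModEq.add_right c h
      have h2 : x + (r - c) + c = x + r := by omega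
      rw [h2, Nat.add_mod_right] at h1
      rw [h1, add_comm]
    · intro h
      have h1 : (x + (r - c)) % r = (c + y + (r - c)) % r := Nat.ModEq.add_right (r - c) h
      have h2 : c + y + (r - c) = y + r := by omega
      rw [h2, Nat.add_mod_right] at h1
      exact h1
  refine ⟨c, fun j => ?_⟩
  have e1 : (Finset.univ.filter (fun l : Fin n => a l % r = (c + q₀ * j) % r)) =
      Finset.univ.filter (fun l : Fin n => ω ^ b l = ω ^ (q₀ * j)) := by
    apply Finset.filter_congr
    intro l _
    rw [hpow_iff, hb]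
    exact (hmod _ _).symm
  have e2 : (Finset.univ.filter (fun l : Fin n => a l % r = (c + j) % r)) =
      Finset.univ.filter (fun l : Fin n => ω ^ (q₀ * b l) = ω ^ (q₀ * j)) := by
    apply Finset.filter_congr
    intro l _
    have hinj : ω ^ (q₀ * b l) = ω ^ (q₀ * j) ↔ ω ^ b l = ω ^ j := by
      constructor
      · intro h
        have hi := (FiniteField.frobeniusAlgHom ↥F₀ F : F →ₐ[↥F₀] F).toRingHom.injective
        apply hi
        show (FiniteField.frobeniusAlgHom ↥F₀ F) (ω ^ b l) =
          (FiniteField.frobeniusAlgHom ↥F₀ F) (ω ^ j)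
        rw [hψ1, hψ1, ← pow_mul, ← pow_mul, mul_comm (b l), mul_comm j]
        exact h
      · intro h
        rw [mul_comm, pow_mul, h, ← pow_mul, mul_comm]
    rw [hinj, hpow_iff, hb]
    exact (hmod _ _).symm
  rw [e1, e2, ← hcount (fun l => ω ^ b l), ← hcount (fun l => ω ^ (q₀ * b l)), h4]

end Cfsg.Agent.Lib.Helper96.Sf
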