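import Cfsg.Agent.Lib.Helper96.SfREDUCE
import Cfsg.Agent.Lib.Helper96.SfMULTINV
import Cfsg.Agent.Lib.Helper34.SfMAJ

/-!
# S5965: diagonal elements of order `r` which are not conjugate into the subfield group
-/

set_option autoImplicit false

namespace Cfsg.Agent.Lib.Helper96.Sf

open Polynomial

/-- A diagonal element with more than half of its eigenvalues equal, with an eigenvalue `ω`
but without the eigenvalue `ω ^ q₀`, is not conjugate into the subfield group. -/
theorem diag_contra {F : Type*} [Field F] [Fintype F] (F₀ : Subfield F) {q₀ : ℕ}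
    (hF₀ : Nat.card ↥F₀ = q₀) (n r : ℕ) [Fact r.Prime] (hn : n ≠ 0)
    (hr₀ : ¬ r ∣ q₀ - 1) (hq₀ : 1 ≤ q₀) (ω : F) (hω : ω ^ r = 1) (hω1 : ω ≠ 1)
    (hall : ∀ x : Matrix.SpecialLinearGroup (Fin n) F,
      (∃ z : F, ((x ^ r : Matrix.SpecialLinearGroup (Fin n) F) : Matrix (Fin n) (Fin n) F) =
        z • (1 : Matrix (Fin n) (Fin n) F)) →
      (∀ z : F, (x : Matrix (Fin n) (Fin n) F) ≠ z • (1 : Matrix (Fin n) (Fin n) F)) →
      ∃ P : Matrix.SpecialLinearGroup (Fin n) F, P⁻¹ * x * P ∈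
        ((Cfsg.Geo.subfieldSubgroup F₀ 1).comap
          (Matrix.SpecialLinearGroup.toGL :
            Matrix.SpecialLinearGroup (Fin n) F →* GL (Fin n) F)))
    (a : Fin n → ℕ) (w : F) (hw : w ≠ 0) (hdet : w ^ n * ω ^ (∑ l, a l) = 1)
    (hmaj : n < 2 * (Finset.univ.filter (fun l : Fin n => a l % r = 0)).card)
    (h1 : 0 < (Finset.univ.filter (fun l : Fin n => a l % r = 1)).card)
    (hq : (Finset.univ.filter (fun l : Fin n => a l % r = q₀ % r)).card = 0) : False := by
  classical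
  have hr : r.Prime := Fact.out
  obtain ⟨D, hD⟩ : ∃ D : Matrix (Fin n) (Fin n) F,
      D = Matrix.diagonal (fun l => ω ^ a l) := ⟨_, rfl⟩
  have hDdet : (w • D).det = 1 := by
    rw [Matrix.det_smul, hD, Matrix.det_diagonal, Fintype.card_fin, Finset.prod_pow_eq_pow_sum]
    exact hdet
  have hDpow : D ^ r = 1 := by
    rw [hD, Matrix.diagonal_pow]
    have h0 : (fun l : Fin n => ω ^ a l) ^ r = 1 := by
      funext l
      rw [Pi.pow_apply, ← pow_mul, mul_comm, pow_mul, hω, one_pow]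
      rfl
    rw [h0]
    exact Matrix.diagonal_one
  obtain ⟨x, hx⟩ : ∃ x : Matrix.SpecialLinearGroup (Fin n) F,
      (x : Matrix (Fin n) (Fin n) F) = w • D := ⟨⟨w • D, hDdet⟩, rfl⟩
  have hxpow : (x : Matrix (Fin n) (Fin n) F) ^ r = w ^ r • (1 : Matrix (Fin n) (Fin n) F) := by
    rw [hx, _root_.smul_pow, hDpow]
  have hpowmod : ∀ t : ℕ, ω ^ t = ω ^ (t % r) := fun t => pow_eq_pow_mod t hω
  have hns : ∀ z : F, (x : Matrix (Fin n) (Fin n) F) ≠ z • (1 : Matrix (Fin n) (Fin n) F) := by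
    intro z hz
    obtain ⟨l₂, hl₂⟩ := Finset.card_pos.mp h1
    have hpos0 : 0 < (Finset.univ.filter (fun l : Fin n => a l % r = 0)).card := by omega
    obtain ⟨l₁, hl₁⟩ := Finset.card_pos.mp hpos0
    rw [Finset.mem_filter] at hl₁ hl₂
    rw [hx, hD] at hz
    have e1 := congrFun (congrFun hz l₁) l₁
    have e2 := congrFun (congrFun hz l₂) l₂
    rw [Matrix.smul_apply, Matrix.diagonal_apply_eq, Matrix.smul_apply, Matrix.one_apply_eq,
      smul_eq_mul, smul_eq_mul, mul_one] at e1 e2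
    rw [hpowmod, hl₁.2, pow_zero, mul_one] at e1
    rw [hpowmod, hl₂.2, pow_one, ← e1] at e2
    apply hω1
    exact mul_left_cancel₀ hw (e2.trans (mul_one w).symm)
  have hconj := hall x ⟨w ^ r, by rw [Matrix.SpecialLinearGroup.coe_pow]; exact hxpow⟩ hns
  obtain ⟨P, Y, ε, hP, hY, hε, hxP⟩ := reduce_to_subfield F₀ hF₀ n hn r hr₀ x w hw hxpow hconj
  have hDP : Matrix.diagonal (fun l => ω ^ a l) * P = P * (ε • Y.map F₀.subtype) := by
    rw [hx, hD] at hxP
    have h2 : w • (Matrix.diagonal (fun l => ω ^ a l) * P) =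
        w • (P * (ε • Y.map F₀.subtype)) := by
      rw [← Matrix.smul_mul, hxP, ← Matrix.mul_smul, smul_smul]
    have h3 := congrArg (fun A => w⁻¹ • A) h2
    simp only [smul_smul, inv_mul_cancel₀ hw, one_smul] at h3
    exact h3
  obtain ⟨c, hc⟩ := mult_invariant F₀ hF₀ n r ω hω hω1 a P Y ε hP hε hDP
  have hmajc := Cfsg.Agent.Lib.Helper34.Sf.maj_center n r q₀ hr₀ hq₀ a hmaj c hc 1
  rw [mul_one, Nat.mod_eq_of_lt hr.one_lt, hq] at hmajc
  omega

/-- The version with an explicit short list of exponents. -/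
theorem diag_contra' {F : Type*} [Field F] [Fintype F] (F₀ : Subfield F) {q₀ : ℕ}
    (hF₀ : Nat.card ↥F₀ = q₀) (n r : ℕ) [Fact r.Prime]
    (hr₀ : ¬ r ∣ q₀ - 1) (hq₀ : 1 ≤ q₀) (ω : F) (hω : ω ^ r = 1) (hω1 : ω ≠ 1)
    (hall : ∀ x : Matrix.SpecialLinearGroup (Fin n) F,
      (∃ z : F, ((x ^ r : Matrix.SpecialLinearGroup (Fin n) F) : Matrix (Fin n) (Fin n) F) =
        z • (1 : Matrix (Fin n) (Fin n) F)) →
      (∀ z : F, (x : Matrix (Fin n) (Fin n) F) ≠ z • (1 : Matrix (Fin n) (Fin n) F)) →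
      ∃ P : Matrix.SpecialLinearGroup (Fin n) F, P⁻¹ * x * P ∈
        ((Cfsg.Geo.subfieldSubgroup F₀ 1).comap
          (Matrix.SpecialLinearGroup.toGL :
            Matrix.SpecialLinearGroup (Fin n) F →* GL (Fin n) F)))
    (s : ℕ) (e : ℕ → ℕ) (hs : 2 * s < n) (hs1 : 1 ≤ s) (he0 : e 0 % r = 1)
    (heq : ∀ t < s, e t % r ≠ q₀ % r) (hq0 : q₀ % r ≠ 0)
    (w : F) (hw : w ≠ 0) (hdet : w ^ n * ω ^ (∑ t ∈ Finset.range s, e t) = 1) : False := by
  classical
  have hr : r.Prime := Fact.out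
  apply diag_contra F₀ hF₀ n r (by omega) hr₀ hq₀ ω hω hω1 hall
    (fun l => if (l : ℕ) < s then e l else 0) w hw
  · have hsum : ∑ l : Fin n, (if (l : ℕ) < s then e l else 0) = ∑ t ∈ Finset.range s, e t := by
      rw [Fin.sum_univ_eq_sum_range (fun t => if t < s then e t else 0) n, ← Finset.sum_filter]
      congr 1
      ext t
      simp only [Finset.mem_filter, Finset.mem_range]
      omega
    rw [hsum]
    exact hdet
  · have hsub : Finset.univ.filter (fun l : Fin n => ¬ (l : ℕ) < s) ⊆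
        Finset.univ.filter (fun l : Fin n => (if (l : ℕ) < s then e l else 0) % r = 0) := by
      intro l hl
      rw [Finset.mem_filter] at hl ⊢
      refine ⟨hl.1, ?_⟩
      rw [if_neg hl.2]
      exact Nat.zero_mod r
    have hlt : (Finset.univ.filter (fun l : Fin n => (l : ℕ) < s)).card = s := by
      rw [Fin.card_filter_val_lt]
      omega
    have hadd := Finset.card_filter_add_card_filter_not (s := (Finset.univ : Finset (Fin n)))
      (fun l : Fin n => (l : ℕ) < s)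
    rw [Finset.card_univ, Fintype.card_fin, hlt] at hadd
    have hle := Finset.card_le_card hsub
    omega
  · apply Finset.card_pos.mpr
    refine ⟨⟨0, by omega⟩, ?_⟩
    rw [Finset.mem_filter]
    refine ⟨Finset.mem_univ _, ?_⟩
    show (if (0 : ℕ) < s then e 0 else 0) % r = 1
    rw [if_pos (by omega)]
    exact he0
  · rw [Finset.card_eq_zero, Finset.filter_eq_empty_iff]
    intro l _
    by_cases hl : (l : ℕ) < s
    · rw [if_pos hl]
      exact heq l hl
    · rw [if_neg hl, Nat.zero_mod]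
      exact fun h => hq0 h.symm

end Cfsg.Agent.Lib.Helper96.Sf
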