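import Cfsg.Agent.Lib.Helper47.InvSub

/-!
# S5965 piece INDEX: the index of the subfield group in `SL_n(q)`
-/

set_option autoImplicit false

namespace Cfsg.Agent.Lib.Helper96.Sf

-- PIECE INDEX
theorem index_mul_eq {F : Type*} [Field F] [Fintype F] (F₀ : Subfield F) {q q₀ : ℕ}
    (hq : Fintype.card F = q) (hF₀ : Nat.card ↥F₀ = q₀) (n : ℕ) (hn : n ≠ 0) :
    ∃ t : ℕ, ((Cfsg.Geo.subfieldSubgroup F₀ 1).comap
        (Matrix.SpecialLinearGroup.toGL :
          Matrix.SpecialLinearGroup (Fin n) F →* GL (Fin n) F)).index * t *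
        ((q - 1) * ∏ i : Fin n, (q₀ ^ n - q₀ ^ (i : ℕ))) =
      (q₀ - 1) * ∏ i : Fin n, (q ^ n - q ^ (i : ℕ)) := by
  classical
  have hfin : Fintype ↥F₀ := Fintype.ofFinite _
  have hcard₀ : Fintype.card ↥F₀ = q₀ := by rw [← Nat.card_eq_fintype_card, hF₀]
  obtain ⟨f, hf⟩ : ∃ f : Matrix.SpecialLinearGroup (Fin n) ↥F₀ →*
      Matrix.SpecialLinearGroup (Fin n) F,
      f = Matrix.SpecialLinearGroup.map (F₀.subtype : F₀ →+* F) := ⟨_, rfl⟩
  have hle : f.range ≤ (Cfsg.Geo.subfieldSubgroup F₀ 1).comap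
      (Matrix.SpecialLinearGroup.toGL :
        Matrix.SpecialLinearGroup (Fin n) F →* GL (Fin n) F) := by
    rintro _ ⟨g₀, rfl⟩
    rw [Subgroup.mem_comap]
    refine Cfsg.Agent.Lib.Helper47.mem_subfieldSubgroup_one F₀ _ 1 one_ne_zero
      ((g₀ : Matrix (Fin n) (Fin n) F₀).map (F₀.subtype : F₀ →+* F)) ?_
      (fun i j => Subtype.property _)
    rw [one_smul, hf]
    rfl
  obtain ⟨t, ht⟩ := Subgroup.index_dvd_of_le hle
  have hinj : Function.Injective f := by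
    intro g g' h
    apply Subtype.ext
    ext i j
    have h1 := congrArg (fun y : Matrix.SpecialLinearGroup (Fin n) F =>
      (y : Matrix (Fin n) (Fin n) F) i j) h
    rw [hf] at h1
    exact h1
  have hcardR : Nat.card f.range = Nat.card (Matrix.SpecialLinearGroup (Fin n) ↥F₀) :=
    Nat.card_range_of_injective hinj
  have h3 := Subgroup.card_mul_index f.range
  rw [hcardR] at h3
  have hG := Cfsg.Agent.Lib.Helper47.card_GL_eq_card_SL_mul F n (Nat.pos_of_ne_zero hn)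
  have hG₀ := Cfsg.Agent.Lib.Helper47.card_GL_eq_card_SL_mul ↥F₀ n (Nat.pos_of_ne_zero hn)
  rw [Matrix.card_GL_field, hq] at hG
  rw [Matrix.card_GL_field, hcard₀] at hG₀
  refine ⟨t, ?_⟩
  rw [← ht, hG, hG₀, ← h3]
  ring

end Cfsg.Agent.Lib.Helper96.Sf
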