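import Cfsg.Agent.Lib.Helper96.BGSemi
import Cfsg.Agent.Lib.Helper96.BGLin

/-!
# S5965 piece ORDERRAT: degrees of rational characteristic polynomials of elements of order `r`
-/

set_option autoImplicit false

namespace Cfsg.Agent.Lib.Helper96.Sf

open Polynomial

-- PIECE ORDERRAT
theorem order_dvd_of_rational {K : Type*} [Field K] [Fintype K] (r : ℕ) [Fact r.Prime]
    (hrK : ¬ r ∣ Fintype.card K)
    (hrat : ∀ (N n : ℕ) (f : K[X]), f.Monic → f.natDegree = n → f ∣ (X ^ r - 1) ^ N →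
      ∃ y : Matrix (Fin n) (Fin n) K, y ^ r = 1 ∧ y.charpoly = f)
    (h : K[X]) (hm : h.Monic) (N : ℕ) (hdvd : h ∣ (X ^ r - 1) ^ N) :
    orderOf ((Fintype.card K : ℕ) : ZMod r) ∣ h.natDegree - h.rootMultiplicity 1 := by
  classical
  obtain ⟨h', hh', hnd⟩ := exists_eq_pow_rootMultiplicity_mul_and_not_dvd h hm.ne_zero 1
  obtain ⟨a, ha⟩ : ∃ a, a = h.rootMultiplicity 1 := ⟨_, rfl⟩
  rw [← ha] at hh' ⊢
  have hpm : ((X - C (1 : K)) ^ a).Monic := (monic_X_sub_C 1).pow a
  have hm' : h'.Monic := by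
    rw [hh'] at hm
    exact hpm.of_mul_monic_left hm
  have hdeg : h.natDegree = a + h'.natDegree := by
    rw [hh', hpm.natDegree_mul hm', natDegree_pow, natDegree_X_sub_C, mul_one]
  have hdvd' : h' ∣ (X ^ r - 1) ^ N := (Dvd.intro_left _ hh'.symm).trans hdvd
  obtain ⟨Y', hY, hYc⟩ := hrat N h'.natDegree h' hm' rfl hdvd'
  have heval : h'.eval 1 ≠ 0 := by
    intro h0
    exact hnd (dvd_iff_isRoot.mpr h0)
  obtain ⟨p, hp⟩ := CharP.exists K
  have hpp : p.Prime := CharP.char_is_prime K p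
  have : Fact p.Prime := ⟨hpp⟩
  have hrp : r ≠ p := by
    rintro rfl
    obtain ⟨b, -, hb⟩ := FiniteField.card K r
    apply hrK
    rw [hb]
    exact dvd_pow_self r b.ne_zero
  have hr0 : (r : K) ≠ 0 := (BG.facts (F := K) p r hrp).2.1
  have hT : (Matrix.toLin' Y') ^ r = 1 := by
    rw [← Matrix.toLin'_pow, hY, Matrix.toLin'_one]
    rfl
  have hdet : (Y' - 1).det ≠ 0 := by
    have h1 : (1 - Y').det ≠ 0 := by
      rw [← map_one (Matrix.scalar (Fin h'.natDegree)), ← Matrix.eval_charpoly, hYc]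
      exact heval
    intro h0
    apply h1
    rw [← neg_sub, Matrix.det_neg, h0, mul_zero]
  have hT1 : Matrix.toLin' Y' - 1 = Matrix.toLin' (Y' - 1) := by
    rw [map_sub, Matrix.toLin'_one]
    rfl
  have hrange : LinearMap.range (Matrix.toLin' Y' - 1) = ⊤ := by
    rw [LinearMap.range_eq_top, hT1]
    intro w
    refine ⟨Matrix.toLin' (Y' - 1)⁻¹ w, ?_⟩
    rw [← Matrix.toLin'_mul_apply, Matrix.mul_nonsing_inv _ (isUnit_iff_ne_zero.mpr hdet),
      Matrix.toLin'_one]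
    rfl
  have key := BG.orderOf_dvd_finrank_range (Matrix.toLin' Y') r hrK hr0 hT
  rw [hrange, finrank_top, Module.finrank_fin_fun] at key
  have : h.natDegree - a = h'.natDegree := by omega
  rw [this]
  exact key

end Cfsg.Agent.Lib.Helper96.Sf
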