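import Cfsg.Agent.Lib.Helper96.SfArith
import Cfsg.Agent.Lib.Helper96.SfBase
import Cfsg.Agent.Lib.Helper96.SfDiag
import Cfsg.Agent.Lib.Helper96.SfRATFORM
import Cfsg.Agent.Lib.Helper96.SfBLOCKSL
import Cfsg.Agent.Lib.Helper96.SfORDERRAT
import Cfsg.Agent.Lib.Helper96.SfINDEX
import Cfsg.Agent.Lib.Helper96.SfARITHSAME
import Cfsg.Agent.Lib.Helper34.SfARITHN2
import Cfsg.Agent.Lib.Helper34.SfORDERLE
import Cfsg.Agent.Lib.Helper34.SfEXISTW
import Cfsg.Agent.Lib.Helper30.SfBADN2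

/-!
# S5965: the forward direction (if every element of order `r` is conjugate into the subfield
group then `r = k` or we are in the special case)
-/

set_option autoImplicit false

namespace Cfsg.Agent.Lib.Helper96.Sf

open Polynomial

theorem mod_eq_pred_iff (a r : ℕ) (hr : 2 ≤ r) : a % r = r - 1 ↔ r ∣ a + 1 := by
  constructor
  · intro h
    apply Nat.dvd_of_mod_eq_zero
    rw [Nat.add_mod, h, Nat.mod_eq_of_lt (by omega : 1 < r)]
    have h1 : r - 1 + 1 = r := by omega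
    rw [h1, Nat.mod_self]
  · rintro ⟨t, ht⟩
    obtain ⟨t', rfl⟩ : ∃ t', t = t' + 1 := by
      refine ⟨t - 1, ?_⟩
      rcases Nat.eq_zero_or_pos t with h0 | h0
      · rw [h0, mul_zero] at ht
        omega
      · omega
    rw [Nat.mul_succ] at ht
    have h1 : a = r * t' + (r - 1) := by omega
    rw [h1, Nat.mul_add_mod, Nat.mod_eq_of_lt (by omega)]

theorem dvd_sub_one_of_mod_eq_one (a r : ℕ) (hr : 2 ≤ r) (ha : 1 ≤ a) (h : a % r = 1) :
    r ∣ a - 1 := by
  have h1 : 1 % r = a % r := by rw [Nat.mod_eq_of_lt (by omega : 1 < r), h]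
  exact (Nat.modEq_iff_dvd' ha).mp h1

/-- When `r ∣ q₀ ^ k - 1` but `r ∤ q₀ - 1`: `k = 2` iff `r ∣ q₀ + 1`; and `r ≠ 3` if `k ≠ 2`. -/
theorem k_two_iff (q₀ k r : ℕ) [Fact r.Prime] (hk : k.Prime) (hq₀ : 1 ≤ q₀)
    (hdvd : r ∣ q₀ ^ k - 1) (hnd : ¬ r ∣ q₀ - 1) :
    (k = 2 → r ∣ q₀ + 1) ∧ (k ≠ 2 → ¬ r ∣ q₀ + 1 ∧ r ≠ 3) := by
  have hr : r.Prime := Fact.out
  have : Fact k.Prime := ⟨hk⟩
  obtain ⟨a, ha⟩ : ∃ a : ZMod r, a = ((q₀ : ℕ) : ZMod r) := ⟨_, rfl⟩
  have hak : a ^ k = 1 := by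
    have h1 : ((q₀ ^ k - 1 : ℕ) : ZMod r) = 0 := (ZMod.natCast_eq_zero_iff _ _).mpr hdvd
    rw [Nat.cast_sub (Nat.one_le_pow _ _ hq₀), Nat.cast_pow, Nat.cast_one, sub_eq_zero] at h1
    rw [ha]
    exact h1
  have ha1 : a ≠ 1 := by
    intro h
    apply hnd
    rw [← ZMod.natCast_eq_zero_iff, Nat.cast_sub hq₀, Nat.cast_one, ← ha, h, sub_self]
  have hord : orderOf a = k := orderOf_eq_prime hak ha1
  have hplus : r ∣ q₀ + 1 ↔ a = -1 := by
    rw [← ZMod.natCast_eq_zero_iff, Nat.cast_add, Nat.cast_one, ← ha]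
    exact add_eq_zero_iff_eq_neg
  constructor
  · intro hk2
    rw [hplus]
    rw [hk2] at hak
    have h1 : (a - 1) * (a + 1) = 0 := by linear_combination hak
    rcases mul_eq_zero.mp h1 with h | h
    · exact absurd (sub_eq_zero.mp h) ha1
    · exact add_eq_zero_iff_eq_neg.mp h
  · intro hk2
    constructor
    · rw [hplus]
      intro h
      have h2 : a ^ 2 = 1 := by
        rw [h]
        ring
      have h3 : k ∣ 2 := by
        rw [← hord]
        exact orderOf_dvd_of_pow_eq_one h2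
      exact hk2 ((Nat.prime_dvd_prime_iff_eq hk Nat.prime_two).mp h3)
    · intro hr3
      have ha0 : a ≠ 0 := by
        rintro rfl
        rw [zero_pow hk.ne_zero] at hak
        exact zero_ne_one hak
      have h2 : a ^ (r - 1) = 1 := ZMod.pow_card_sub_one_eq_one ha0
      have h3 : k ∣ r - 1 := by
        rw [← hord]
        exact orderOf_dvd_of_pow_eq_one h2
      have h4 : r - 1 = 2 := by omega
      rw [h4] at h3
      exact hk2 ((Nat.prime_dvd_prime_iff_eq hk Nat.prime_two).mp h3)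

/-- If `ord_r(q) ≥ 2` and all elements of order `r` are conjugate into the subfield group then
`ord_r(q₀)` divides `ord_r(q)`. -/
theorem forward_block {F : Type*} [Field F] [Fintype F] {p : ℕ} [Fact p.Prime] [CharP F p]
    (F₀ : Subfield F) {q₀ : ℕ} (hF₀ : Nat.card ↥F₀ = q₀) (n r : ℕ) [Fact r.Prime] (hrp : r ≠ p)
    (hrq₀ : ¬ r ∣ q₀) (hr₀ : ¬ r ∣ q₀ - 1)
    (hi2 : 2 ≤ orderOf ((Fintype.card F : ℕ) : ZMod r))
    (hin : orderOf ((Fintype.card F : ℕ) : ZMod r) ≤ n)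
    (hall : ∀ x : Matrix.SpecialLinearGroup (Fin n) F,
      (∃ z : F, ((x ^ r : Matrix.SpecialLinearGroup (Fin n) F) : Matrix (Fin n) (Fin n) F) =
        z • (1 : Matrix (Fin n) (Fin n) F)) →
      (∀ z : F, (x : Matrix (Fin n) (Fin n) F) ≠ z • (1 : Matrix (Fin n) (Fin n) F)) →
      ∃ P : Matrix.SpecialLinearGroup (Fin n) F, P⁻¹ * x * P ∈
        ((Cfsg.Geo.subfieldSubgroup F₀ 1).comap
          (Matrix.SpecialLinearGroup.toGL :
            Matrix.SpecialLinearGroup (Fin n) F →* GL (Fin n) F))) :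
    orderOf ((q₀ : ℕ) : ZMod r) ∣ orderOf ((Fintype.card F : ℕ) : ZMod r) := by
  classical
  have hr : r.Prime := Fact.out
  have hn : n ≠ 0 := by omega
  obtain ⟨x, g, hxr, hns, hchar, hg⟩ := exists_block_sl p n r hrp hi2 hin
  have hconj := hall x ⟨1, by rw [Matrix.SpecialLinearGroup.coe_pow, hxr, one_smul]⟩ hns
  obtain ⟨P, Y, ε, hP, hY, hε, hxP⟩ := reduce_to_subfield F₀ hF₀ n hn r hr₀ x 1 one_ne_zero
    (by rw [one_pow, one_smul]; exact hxr) hconj
  have hr1 : ¬ r ∣ Fintype.card F - 1 := by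
    intro h
    have h1 : ((Fintype.card F : ℕ) : ZMod r) = 1 := by
      have h2 : ((Fintype.card F - 1 : ℕ) : ZMod r) = 0 := (ZMod.natCast_eq_zero_iff _ _).mpr h
      rw [Nat.cast_sub Fintype.card_pos, Nat.cast_one, sub_eq_zero] at h2
      exact h2
    rw [h1, orderOf_one] at hi2
    omega
  have hε1 : ε = 1 := by
    have h0 : ε ≠ 0 := by
      rintro rfl
      rw [zero_pow hr.ne_zero] at hε
      exact zero_ne_one hε
    have h2 : ε ^ (Fintype.card F - 1) = 1 := FiniteField.pow_card_sub_one_eq_one _ h0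
    have hcop : Nat.Coprime r (Fintype.card F - 1) :=
      (Nat.Prime.coprime_iff_not_dvd hr).mpr hr1
    exact (pow_eq_one_iff_of_coprime hcop).mp ⟨hε, h2⟩
  rw [hε1, mul_one, one_smul] at hxP
  have hc1 : (Y.map F₀.subtype).charpoly = (x : Matrix (Fin n) (Fin n) F).charpoly :=
    Cfsg.Agent.Lib.Helper47.charpoly_eq_of_mul_eq P _ _ hP hxP.symm
  rw [Matrix.charpoly_map, hchar] at hc1
  have : Fintype ↥F₀ := Fintype.ofFinite _
  have hcard : Fintype.card ↥F₀ = q₀ := by rw [← Nat.card_eq_fintype_card, hF₀]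
  have key := order_dvd_of_rational (K := ↥F₀) r (by rw [hcard]; exact hrq₀)
    (fun N n f hm hd hdvd => exists_matrix_charpoly r N n f hm hd hdvd) Y.charpoly
    Y.charpoly_monic n (charpoly_dvd_pow Y r hY)
  rw [hcard, Matrix.charpoly_natDegree_eq_dim, Fintype.card_fin] at key
  have hrm : Y.charpoly.rootMultiplicity 1 = n - orderOf ((Fintype.card F : ℕ) : ZMod r) := by
    rw [Polynomial.eq_rootMultiplicity_map (f := (F₀.subtype : ↥F₀ →+* F)) Subtype.val_injective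
      (1 : ↥F₀), hc1, map_one]
    have hne : ((X - 1 : F[X]) ^ (n - orderOf ((Fintype.card F : ℕ) : ZMod r)) * g) ≠ 0 := by
      apply mul_ne_zero
      · apply pow_ne_zero
        rw [← C_1]
        exact X_sub_C_ne_zero 1
      · rintro rfl
        simp at hg
    rw [rootMultiplicity_mul hne, rootMultiplicity_eq_zero (p := g) (fun h => hg h), add_zero]
    have h5 := rootMultiplicity_X_sub_C_pow (1 : F) (n - orderOf ((Fintype.card F : ℕ) : ZMod r))
    rw [C_1] at h5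
    exact h5
  rw [hrm] at key
  have h6 : n - (n - orderOf ((Fintype.card F : ℕ) : ZMod r)) =
      orderOf ((Fintype.card F : ℕ) : ZMod r) := by omega
  rw [h6] at key
  exact key

/-- The case `n = 2`: the element `diag(ω, ω⁻¹)`. -/
theorem forward_n2 {F : Type*} [Field F] [Fintype F] (F₀ : Subfield F) {q₀ : ℕ}
    (hF₀ : Nat.card ↥F₀ = q₀) (r : ℕ) [Fact r.Prime] (hr2 : r ≠ 2)
    (ω : F) (hω : ω ^ r = 1) (hω1 : ω ≠ 1)
    (hall : ∀ x : Matrix.SpecialLinearGroup (Fin 2) F,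
      (∃ z : F, ((x ^ r : Matrix.SpecialLinearGroup (Fin 2) F) : Matrix (Fin 2) (Fin 2) F) =
        z • (1 : Matrix (Fin 2) (Fin 2) F)) →
      (∀ z : F, (x : Matrix (Fin 2) (Fin 2) F) ≠ z • (1 : Matrix (Fin 2) (Fin 2) F)) →
      ∃ P : Matrix.SpecialLinearGroup (Fin 2) F, P⁻¹ * x * P ∈
        ((Cfsg.Geo.subfieldSubgroup F₀ 1).comap
          (Matrix.SpecialLinearGroup.toGL :
            Matrix.SpecialLinearGroup (Fin 2) F →* GL (Fin 2) F))) :
    r ∣ q₀ - 1 ∨ r ∣ q₀ + 1 := by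
  classical
  have hr : r.Prime := Fact.out
  have hω0 : ω ≠ 0 := by
    rintro rfl
    rw [zero_pow hr.ne_zero] at hω
    exact zero_ne_one hω
  have hdet : (Matrix.diagonal ![ω, ω⁻¹] : Matrix (Fin 2) (Fin 2) F).det = 1 := by
    rw [Matrix.det_diagonal, Fin.prod_univ_two]
    simp [hω0]
  obtain ⟨x, hx⟩ : ∃ x : Matrix.SpecialLinearGroup (Fin 2) F,
      (x : Matrix (Fin 2) (Fin 2) F) = Matrix.diagonal ![ω, ω⁻¹] := ⟨⟨_, hdet⟩, rfl⟩
  have hxr : (x : Matrix (Fin 2) (Fin 2) F) ^ r = 1 := by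
    rw [hx, Matrix.diagonal_pow]
    have h0 : (![ω, ω⁻¹] : Fin 2 → F) ^ r = 1 := by
      funext l
      fin_cases l
      · simp [hω]
      · simp [hω]
    rw [h0]
    exact Matrix.diagonal_one
  have hns : ∀ z : F, (x : Matrix (Fin 2) (Fin 2) F) ≠ z • (1 : Matrix (Fin 2) (Fin 2) F) := by
    intro z hz
    rw [hx] at hz
    have e1 := congrFun (congrFun hz 0) 0
    have e2 := congrFun (congrFun hz 1) 1
    simp at e1 e2
    have h2 : ω ^ 2 = 1 := by
      have h5 : ω * ω⁻¹ = 1 := mul_inv_cancel₀ hω0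
      rw [e2, ← e1] at h5
      rw [pow_two]
      exact h5
    have h3 : orderOf ω = r := orderOf_eq_prime hω hω1
    have h4 : r ∣ 2 := by
      rw [← h3]
      exact orderOf_dvd_of_pow_eq_one h2
    have h6 := Nat.le_of_dvd (by norm_num) h4
    have h7 := hr.two_le
    omega
  have hconj := hall x ⟨1, by rw [Matrix.SpecialLinearGroup.coe_pow, hxr, one_smul]⟩ hns
  exact Cfsg.Agent.Lib.Helper30.Sf.bad_n2 F₀ hF₀ r hr2 ω hω hω1 x hx hconj

end Cfsg.Agent.Lib.Helper96.Sf
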