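import Cfsg.Agent.Lib.Helper96.SfForward

/-!
# S5965: the forward direction, assembled
-/

set_option autoImplicit false

namespace Cfsg.Agent.Lib.Helper96.Sf

open Polynomial

/-- If every element of order `r` is conjugate into the subfield group, then `r = k` or we are
in the special case. -/
theorem forward {F : Type*} [Field F] [Fintype F] {p : ℕ} [Fact p.Prime] [CharP F p]
    (n : ℕ) (hn : 2 ≤ n) (F₀ : Subfield F) (k q₀ : ℕ) (hk : k.Prime)
    (hF₀ : Nat.card ↥F₀ = q₀) (hqk : Fintype.card F = q₀ ^ k) (r : ℕ) [Fact r.Prime]
    (hr2 : r ≠ 2) (hrp : r ≠ p) (hgap : ¬ (n = 6 ∧ r = 3))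
    (hΩ : r ∣ ((Cfsg.Geo.subfieldSubgroup F₀ 1).comap
      (Matrix.SpecialLinearGroup.toGL :
        Matrix.SpecialLinearGroup (Fin n) F →* GL (Fin n) F)).index)
    (hall : ∀ x : Matrix.SpecialLinearGroup (Fin n) F,
      (∃ z : F, ((x ^ r : Matrix.SpecialLinearGroup (Fin n) F) : Matrix (Fin n) (Fin n) F) =
        z • (1 : Matrix (Fin n) (Fin n) F)) →
      (∀ z : F, (x : Matrix (Fin n) (Fin n) F) ≠ z • (1 : Matrix (Fin n) (Fin n) F)) →
      ∃ P : Matrix.SpecialLinearGroup (Fin n) F, P⁻¹ * x * P ∈
        ((Cfsg.Geo.subfieldSubgroup F₀ 1).comap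
          (Matrix.SpecialLinearGroup.toGL :
            Matrix.SpecialLinearGroup (Fin n) F →* GL (Fin n) F)))
    (hrk : r ≠ k)
    (hspec : ¬ (k = 2 ∧ r = n ∧ (n = 3 ∨ n = 5) ∧ padicValNat r (q₀ + 1) = 1)) : False := by
  classical
  have hr : r.Prime := Fact.out
  obtain ⟨hrq, hr0, hi1⟩ := BG.facts (F := F) p r hrp
  have hq₀2 : 2 ≤ q₀ := by
    have hfin : Fintype ↥F₀ := Fintype.ofFinite _
    have hcard₀ : Fintype.card ↥F₀ = q₀ := by rw [← Nat.card_eq_fintype_card, hF₀]
    rw [← hcard₀]
    exact Fintype.one_lt_card
  have hrq₀ : ¬ r ∣ q₀ := by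
    intro h
    apply hrq
    rw [hqk]
    exact dvd_pow h hk.ne_zero
  obtain ⟨t, ht⟩ := index_mul_eq F₀ hqk hF₀ n (by omega)
  have hdvdc : r ∣ ((Cfsg.Geo.subfieldSubgroup F₀ 1).comap
      (Matrix.SpecialLinearGroup.toGL :
        Matrix.SpecialLinearGroup (Fin n) F →* GL (Fin n) F)).index * t :=
    Dvd.dvd.mul_right hΩ t
  have hcast : ((Fintype.card F : ℕ) : ZMod r) = ((q₀ : ℕ) : ZMod r) ^ k := by
    rw [hqk, Nat.cast_pow]
  by_cases hsame : orderOf ((Fintype.card F : ℕ) : ZMod r) = orderOf ((q₀ : ℕ) : ZMod r)
  · have hord : orderOf (((q₀ ^ k : ℕ)) : ZMod r) = orderOf ((q₀ : ℕ) : ZMod r) := by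
      rw [← hqk]
      exact hsame
    exact not_dvd_same_order q₀ k r n hr hr2 hrk hk hq₀2 hrq₀ hord _ ht hdvdc
  · have hq1 : q₀ - 1 ∣ q₀ ^ k - 1 := by
      have h := Nat.sub_dvd_pow_sub_pow q₀ 1 k
      rwa [one_pow] at h
    have hQ2 : 2 ≤ q₀ ^ k := by
      rw [← hqk]
      exact Fintype.one_lt_card
    have hile : orderOf ((Fintype.card F : ℕ) : ZMod r) ≤ n := by
      have h := Cfsg.Agent.Lib.Helper34.Sf.order_le_of_dvd (q₀ ^ k) r n hr
        (by rw [← hqk]; exact hrq) hQ2 (by omega) (q₀ - 1)
        (by rw [← ht]; exact Dvd.dvd.mul_right hdvdc _) (fun h => h.trans hq1)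
      rwa [← hqk] at h
    have hdvd_ord : orderOf ((Fintype.card F : ℕ) : ZMod r) ∣ orderOf ((q₀ : ℕ) : ZMod r) := by
      rw [hcast]
      exact orderOf_pow_dvd k
    have hr₀ : ¬ r ∣ q₀ - 1 := by
      intro h
      apply hsame
      have h1 : ((q₀ : ℕ) : ZMod r) = 1 := by
        have h2 : ((q₀ - 1 : ℕ) : ZMod r) = 0 := (ZMod.natCast_eq_zero_iff _ _).mpr h
        rw [Nat.cast_sub (by omega), Nat.cast_one, sub_eq_zero] at h2
        exact h2
      rw [hcast, h1, one_pow]
    rcases Nat.lt_or_ge (orderOf ((Fintype.card F : ℕ) : ZMod r)) 2 with hlt | hge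
    · have hi : orderOf ((Fintype.card F : ℕ) : ZMod r) = 1 := by omega
      have hdq : r ∣ Fintype.card F - 1 := by
        rw [orderOf_eq_one_iff] at hi
        rw [← ZMod.natCast_eq_zero_iff, Nat.cast_sub Fintype.card_pos, Nat.cast_one, hi, sub_self]
      obtain ⟨ω, hω, hω1⟩ := exists_prim_root (F := F) r hdq
      have hdk : r ∣ q₀ ^ k - 1 := by
        rw [← hqk]
        exact hdq
      obtain ⟨hk2, hkn2⟩ := k_two_iff q₀ k r hk (by omega) hdk hr₀
      have hq0 : q₀ % r ≠ 0 := fun h => hrq₀ (Nat.dvd_of_mod_eq_zero h)
      have hq1' : q₀ % r ≠ 1 :=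
        fun h => hr₀ (dvd_sub_one_of_mod_eq_one q₀ r hr.two_le (by omega) h)
      have h1r : 1 % r = 1 := Nat.mod_eq_of_lt hr.one_lt
      rcases Nat.lt_or_ge n 3 with hn3 | hn3
      · have hn2 : n = 2 := by omega
        subst hn2
        by_cases hk2' : k = 2
        · subst hk2'
          exact Cfsg.Agent.Lib.Helper34.Sf.not_dvd_n2 q₀ r hr hr2 hq₀2 (hk2 rfl) _ ht hdvdc
        · rcases forward_n2 F₀ hF₀ r hr2 ω hω hω1 hall with h | h
          · exact hr₀ h
          · exact (hkn2 hk2').1 h
      · by_cases hv : padicValNat r n < padicValNat r (Fintype.card F - 1)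
        · obtain ⟨w, hw, hwn⟩ := Cfsg.Agent.Lib.Helper34.Sf.exists_w n r (by omega) hv ω hω
          refine diag_contra' F₀ hF₀ n r hr₀ (by omega) ω hω hω1 hall 1 (fun _ => 1) (by omega)
            le_rfl h1r (fun t _ => ?_) hq0 w hw ?_
          · rw [h1r]
            exact fun h => hq1' h.symm
          · rw [Finset.sum_range_one, pow_one]
            exact hwn
        · push Not at hv
          have hcard1 : Fintype.card F - 1 ≠ 0 := by
            have := Fintype.one_lt_card (α := F)
            omega
          have hv1 : 1 ≤ padicValNat r (Fintype.card F - 1) :=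
            one_le_padicValNat_of_dvd hcard1 hdq
          have hrn : r ∣ n := dvd_of_one_le_padicValNat (by omega)
          have hrn_le : r ≤ n := Nat.le_of_dvd (by omega) hrn
          have hdet1 : ∀ S : ℕ, S = r → (1 : F) ^ n * ω ^ S = 1 := by
            intro S hS
            rw [hS, one_pow, one_mul, hω]
          by_cases hk2' : k = 2
          · have hplus : r ∣ q₀ + 1 := hk2 hk2'
            have hqm : q₀ % r = r - 1 := (mod_eq_pred_iff q₀ r hr.two_le).mpr hplus
            have hvspec : n = r → padicValNat r (q₀ + 1) = 1 := by
              intro hnr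
              have hfac : Fintype.card F - 1 = (q₀ - 1) * (q₀ + 1) := by
                rw [hqk, hk2']
                obtain ⟨b, rfl⟩ : ∃ b, q₀ = b + 1 := ⟨q₀ - 1, by omega⟩
                simp only [Nat.add_sub_cancel]
                have : (b + 1) ^ 2 = b * (b + 1 + 1) + 1 := by ring
                omega
              have h1 : padicValNat r (Fintype.card F - 1) = padicValNat r (q₀ + 1) := by
                rw [hfac, padicValNat.mul (by omega) (by omega),
                  padicValNat.eq_zero_of_not_dvd hr₀, zero_add]
              have h2 : padicValNat r n = 1 := by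
                rw [hnr]
                exact padicValNat_self
              omega
            by_cases hr3 : r = 3
            · have hn369 : n = 3 ∨ n = 6 ∨ 9 ≤ n := by
                obtain ⟨t', ht'⟩ := hrn
                rw [hr3] at ht'
                omega
              rcases hn369 with h3 | h6 | h9
              · exact hspec ⟨hk2', by omega, Or.inl h3, hvspec (by omega)⟩
              · exact hgap ⟨h6, hr3⟩
              · refine diag_contra' F₀ hF₀ n r hr₀ (by omega) ω hω hω1 hall 3 (fun _ => 1)
                  (by omega) (by omega) h1r (fun t _ => ?_) hq0 1 one_ne_zero (hdet1 _ ?_)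
                · rw [h1r]
                  exact fun h => hq1' h.symm
                · rw [Finset.sum_const, Finset.card_range, smul_eq_mul, mul_one, hr3]
            · have hr5 : 5 ≤ r := by
                have h2 := hr.two_le
                have h4 : r ≠ 4 := by
                  rintro rfl
                  exact absurd hr (by norm_num)
                omega
              by_cases hn7 : 7 ≤ n
              · refine diag_contra' F₀ hF₀ n r hr₀ (by omega) ω hω hω1 hall 3
                  (fun t => if t = 0 then 1 else if t = 1 then 2 else r - 3)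
                  (by omega) (by omega) ?_ (fun t _ => ?_) hq0 1 one_ne_zero (hdet1 _ ?_)
                · rw [if_pos rfl]
                  exact h1r
                · rw [hqm]
                  by_cases ht0 : t = 0
                  · rw [if_pos ht0, h1r]
                    omega
                  · rw [if_neg ht0]
                    by_cases ht1 : t = 1
                    · rw [if_pos ht1, Nat.mod_eq_of_lt (by omega)]
                      omega
                    · rw [if_neg ht1, Nat.mod_eq_of_lt (by omega)]
                      omega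
                · rw [Finset.sum_range_succ, Finset.sum_range_succ, Finset.sum_range_one]
                  simp
                  omega
              · have hn5 : n = 5 ∧ r = 5 := by
                  obtain ⟨t', ht'⟩ := hrn
                  have h6 : r ≠ 6 := by
                    rintro rfl
                    exact absurd hr (by norm_num)
                  have ht1 : t' = 1 := by
                    rcases Nat.lt_or_ge t' 2 with h | h
                    · rcases Nat.eq_zero_or_pos t' with h0 | h0
                      · rw [h0, mul_zero] at ht'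
                        omega
                      · omega
                    · have : r * 2 ≤ r * t' := Nat.mul_le_mul_left r h
                      omega
                  rw [ht1, mul_one] at ht'
                  omega
                exact hspec ⟨hk2', by omega, Or.inr hn5.1, hvspec (by omega)⟩
          · obtain ⟨hnp, hr3⟩ := hkn2 hk2'
            have hr5 : 5 ≤ r := by
              have h2 := hr.two_le
              have h4 : r ≠ 4 := by
                rintro rfl
                exact absurd hr (by norm_num)
              omega
            have hqm : q₀ % r ≠ r - 1 :=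
              fun h => hnp ((mod_eq_pred_iff q₀ r hr.two_le).mp h)
            refine diag_contra' F₀ hF₀ n r hr₀ (by omega) ω hω hω1 hall 2
              (fun t => if t = 0 then 1 else r - 1) (by omega) (by omega) ?_ (fun t _ => ?_) hq0
              1 one_ne_zero (hdet1 _ ?_)
            · rw [if_pos rfl]
              exact h1r
            · by_cases ht0 : t = 0
              · rw [if_pos ht0, h1r]
                exact fun h => hq1' h.symm
              · rw [if_neg ht0, Nat.mod_eq_of_lt (by omega)]
                exact fun h => hqm h.symm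
            · rw [Finset.sum_range_succ, Finset.sum_range_one]
              simp
              omega
    · have h := forward_block F₀ hF₀ n r hrp hrq₀ hr₀ hge hile hall
      exact hsame (Nat.dvd_antisymm hdvd_ord h)

end Cfsg.Agent.Lib.Helper96.Sf
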