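import Cfsg.Agent.Lib.Helper96.BGLin
import Cfsg.Agent.Lib.Helper47.InvSub

/-!
# S5965 piece REDUCE: a conjugate in the subfield group, normalised to order `r`
-/

set_option autoImplicit false

namespace Cfsg.Agent.Lib.Helper96.Sf

open Polynomial

-- PIECE REDUCE
theorem reduce_to_subfield {F : Type*} [Field F] [Fintype F] (F₀ : Subfield F) {q₀ : ℕ}
    (hF₀ : Nat.card ↥F₀ = q₀) (n : ℕ) (hn : n ≠ 0) (r : ℕ) [Fact r.Prime] (hr₀ : ¬ r ∣ q₀ - 1)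
    (x : Matrix.SpecialLinearGroup (Fin n) F) (w : F) (hw : w ≠ 0)
    (hx : (x : Matrix (Fin n) (Fin n) F) ^ r = w ^ r • (1 : Matrix (Fin n) (Fin n) F))
    (hconj : ∃ P : Matrix.SpecialLinearGroup (Fin n) F, P⁻¹ * x * P ∈
      (Cfsg.Geo.subfieldSubgroup F₀ 1).comap
        (Matrix.SpecialLinearGroup.toGL : Matrix.SpecialLinearGroup (Fin n) F →* GL (Fin n) F)) :
    ∃ (P : Matrix (Fin n) (Fin n) F) (Y : Matrix (Fin n) (Fin n) ↥F₀) (ε : F),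
      IsUnit P.det ∧ Y ^ r = 1 ∧ ε ^ r = 1 ∧
      (x : Matrix (Fin n) (Fin n) F) * P = P * ((w * ε) • Y.map F₀.subtype) := by
  classical
  have hr : r.Prime := Fact.out
  obtain ⟨P0, hP0⟩ := hconj
  rw [Subgroup.mem_comap] at hP0
  obtain ⟨c0, Y0, hc0, hY0⟩ :=
    Cfsg.Agent.Lib.Helper47.exists_of_mem_subfieldSubgroup_one F₀ _ hP0
  obtain ⟨Ym, hYm⟩ : ∃ Ym : Matrix (Fin n) (Fin n) F, Ym = Y0.map F₀.subtype := ⟨_, rfl⟩
  rw [← hYm] at hY0
  have hmat : ((P0⁻¹ * x * P0 : Matrix.SpecialLinearGroup (Fin n) F) :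
      Matrix (Fin n) (Fin n) F) = c0 • Ym := hY0
  have hxP : (x : Matrix (Fin n) (Fin n) F) * (P0 : Matrix (Fin n) (Fin n) F) =
      (P0 : Matrix (Fin n) (Fin n) F) * (c0 • Ym) := by
    have h0 : x * P0 = P0 * (P0⁻¹ * x * P0) := by
      rw [← mul_assoc, ← mul_assoc, mul_inv_cancel, one_mul]
    rw [← hmat, ← Matrix.SpecialLinearGroup.coe_mul, ← Matrix.SpecialLinearGroup.coe_mul, ← h0]
  have hpow : (c0 • Ym) ^ r = w ^ r • (1 : Matrix (Fin n) (Fin n) F) := by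
    rw [← hmat, ← Matrix.SpecialLinearGroup.coe_pow]
    have h1 : (P0⁻¹ * x * P0) ^ r = P0⁻¹ * x ^ r * P0 := by
      have := conj_pow (a := P0⁻¹) (b := x) (i := r)
      rwa [inv_inv] at this
    rw [h1, Matrix.SpecialLinearGroup.coe_mul, Matrix.SpecialLinearGroup.coe_mul,
      Matrix.SpecialLinearGroup.coe_pow, hx, Matrix.mul_smul, Matrix.mul_one, Matrix.smul_mul,
      ← Matrix.SpecialLinearGroup.coe_mul, inv_mul_cancel, Matrix.SpecialLinearGroup.coe_one]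
  have hYmr : Ym ^ r = (w * c0⁻¹) ^ r • (1 : Matrix (Fin n) (Fin n) F) := by
    have h2 := hpow
    rw [_root_.smul_pow] at h2
    have h3 : Ym ^ r = (c0 ^ r)⁻¹ • (c0 ^ r • Ym ^ r) := by
      rw [smul_smul, inv_mul_cancel₀ (pow_ne_zero _ hc0), one_smul]
    rw [h3, h2, smul_smul, mul_pow, inv_pow, mul_comm]
  have hYr : ∀ i j, (((Y0 ^ r) i j : ↥F₀) : F) =
      (w * c0⁻¹) ^ r * (1 : Matrix (Fin n) (Fin n) F) i j := by
    intro i j
    have h4 : Ym ^ r = (Y0 ^ r).map F₀.subtype := by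
      rw [hYm]
      exact (map_pow (F₀.subtype : ↥F₀ →+* F).mapMatrix Y0 r).symm
    have h1 := hYmr
    rw [h4] at h1
    have h5 := congrFun (congrFun h1 i) j
    rw [Matrix.map_apply, Matrix.smul_apply, smul_eq_mul] at h5
    exact h5
  obtain ⟨μ, hμdef⟩ : ∃ μ : ↥F₀, μ = (Y0 ^ r) ⟨0, Nat.pos_of_ne_zero hn⟩ ⟨0, Nat.pos_of_ne_zero hn⟩ :=
    ⟨_, rfl⟩
  have hμ : (μ : F) = (w * c0⁻¹) ^ r := by
    rw [hμdef, hYr, Matrix.one_apply_eq, mul_one]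
  have hwc : w * c0⁻¹ ≠ 0 := mul_ne_zero hw (inv_ne_zero hc0)
  have hμ0 : μ ≠ 0 := by
    intro h0
    rw [h0] at hμ
    exact pow_ne_zero r hwc hμ.symm
  have hY0r : Y0 ^ r = μ • (1 : Matrix (Fin n) (Fin n) ↥F₀) := by
    refine Matrix.ext (fun i j => Subtype.ext ?_)
    rw [hYr i j, Matrix.smul_apply, smul_eq_mul, Subfield.coe_mul, hμ]
    by_cases hij : i = j
    · subst hij
      rw [Matrix.one_apply_eq, Matrix.one_apply_eq]
      rfl
    · rw [Matrix.one_apply_ne hij, Matrix.one_apply_ne hij]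
      rfl
  have : Fintype ↥F₀ := Fintype.ofFinite _
  have hcard : Fintype.card ↥F₀ = q₀ := by rw [← Nat.card_eq_fintype_card, hF₀]
  obtain ⟨ν, hν0, hν⟩ := BG.exists_root_of_not_dvd (F := ↥F₀) r (by rw [hcard]; exact hr₀) μ hμ0
  have hνF : (ν : F) ^ r = (w * c0⁻¹) ^ r := by
    rw [← hμ, ← hν]
    rfl
  have hνF0 : (ν : F) ≠ 0 := by
    intro h
    apply hν0
    exact Subtype.ext h
  refine ⟨(P0 : Matrix (Fin n) (Fin n) F), ν⁻¹ • Y0, c0 * (ν : F) * w⁻¹, ?_, ?_, ?_, ?_⟩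
  · rw [P0.det_coe]
    exact isUnit_one
  · rw [_root_.smul_pow, hY0r, smul_smul, inv_pow, hν, inv_mul_cancel₀ hμ0, one_smul]
  · rw [mul_pow, mul_pow, hνF, ← mul_pow, ← mul_pow]
    have h1 : c0 * (w * c0⁻¹) * w⁻¹ = 1 := by
      field_simp
    rw [h1, one_pow]
  · have h1 : (ν⁻¹ • Y0).map F₀.subtype = (ν : F)⁻¹ • Ym := by
      rw [hYm]
      ext i j
      rfl
    rw [hxP, h1, smul_smul]
    congr 2
    field_simp

end Cfsg.Agent.Lib.Helper96.Sf
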