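import Cfsg.Agent.Lib.Helper96.SpBlock

/-!
Invariant orthogonal decompositions for an isometry of odd prime order of an alternating form.
-/

set_option autoImplicit false
set_option linter.unusedSectionVars false
set_option linter.unusedVariables false

namespace Cfsg.Agent.Lib.Helper96.Sp

open Module Cfsg.Agent.Lib.Helper96.BG

section Decomp

variable {F : Type*} [Field F] [Fintype F] {V : Type*} [AddCommGroup V] [Module F V]
  [FiniteDimensional F V] {B : LinearMap.BilinForm F V}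

/-- One summand: an invariant nondegenerate subspace of dimension `a` whose removal keeps the
counting condition. -/
theorem exists_summand (hA : B.IsAlt) (hN : ND B ⊤) (T : Module.End F V) (hT : Isom B T) (r : ℕ)
    [Fact r.Prime] (hr2 : r ≠ 2) (hrq : ¬ r ∣ Fintype.card F) (hr0 : (r : F) ≠ 0)
    (hTr : T ^ r = 1) (a : ℕ) (hae : Even a) (t' : ℕ) (Z : Submodule F V) (hZ : Z.map T ≤ Z)
    (hZnd : ND B Z) (hZfin : finrank F Z = (t' + 1) * a)
    (hk : (t' + 1) * (a % blk (Fintype.card F) r) ≤ finrank F ↥(Z ⊓ LinearMap.ker (T - 1))) :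
    ∃ D₀ : Submodule F V, D₀ ≤ Z ∧ D₀.map T ≤ D₀ ∧ ND B D₀ ∧ finrank F D₀ = a ∧
      t' * (a % blk (Fintype.card F) r) ≤
        finrank F ↥(Z ⊓ B.orthogonal D₀ ⊓ LinearMap.ker (T - 1)) := by
  classical
  obtain ⟨hi, -, -, -, -, hCsub, -, -, -⟩ := pow_one_setup T r hrq hr0 hTr
  have hc1 : 1 ≤ blk (Fintype.card F) r := blk_pos _ _ hi
  have hce : Even (blk (Fintype.card F) r) := blk_even _ _
  obtain ⟨hKnd, hRnd, hRinv, hsum⟩ := fix_setup hA hN T hT r hrq hr0 hTr Z hZ hZnd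
  obtain ⟨s, hs⟩ : blk (Fintype.card F) r ∣ finrank F ↥(Z ⊓ LinearMap.range (T - 1)) :=
    blk_dvd_range hA hN T hT r hr2 hrq hr0 hTr _ hRinv hRnd inf_le_right
  set c := blk (Fintype.card F) r with hc_def
  obtain ⟨a', ha'⟩ := hae
  obtain ⟨c', hc'⟩ := hce
  -- the arithmetic
  have hdm : c * (a / c) + a % c = a := Nat.div_add_mod a c
  have hmin : min s (a / c) = s ∨ min s (a / c) = a / c := min_choice _ _
  have hmin1 : c * min s (a / c) ≤ c * s := Nat.mul_le_mul_left c (min_le_left _ _)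
  have hmin2 : c * min s (a / c) ≤ c * (a / c) := Nat.mul_le_mul_left c (min_le_right _ _)
  have hX : c * min s (a / c) = 2 * (c' * min s (a / c)) := by rw [hc']; ring
  have htl : (t' + 1) * (a % c) = t' * (a % c) + a % c := by ring
  have hta : (t' + 1) * a = t' * a + a := by ring
  have htla : t' * (a % c) ≤ t' * a := Nat.mul_le_mul_left t' (Nat.mod_le a c)
  have hF1 : c * min s (a / c) + 2 * (a' - c' * min s (a / c)) = a := by omega
  have hF3 : t' * (a % c) + 2 * (a' - c' * min s (a / c)) ≤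
      finrank F ↥(Z ⊓ LinearMap.ker (T - 1)) := by
    generalize min s (a / c) = e₁ at hmin hmin1 hmin2 hX hF1 ⊢
    rcases hmin with rfl | rfl
    · omega
    · omega
  have hb2le : 2 * (a' - c' * min s (a / c)) ≤ finrank F ↥(Z ⊓ LinearMap.ker (T - 1)) := by
    omega
  -- the commutator part
  obtain ⟨R₁, hR₁le, hR₁A, hR₁fin, -⟩ := exists_sub_atoms hA c hc1
    (fun X => ND B X ∧ X.map T ≤ X ∧ X ≤ LinearMap.range (T - 1)) (fun X hX => hX.1)
    (fun X hX hX0 => block_step hA hN T hT r hr2 hrq hr0 hTr X hX hX0)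
    (fun X Y hX hY hXY => ⟨(nd_sup hA hX.1 hY.1 hXY).1,
      by rw [Submodule.map_sup]; exact sup_le_sup hX.2.1 hY.2.1, sup_le hX.2.2 hY.2.2⟩)
    ⟨nd_bot, by rw [Submodule.map_bot], bot_le⟩ _ ⟨hRnd, hRinv, inf_le_right⟩
    (min s (a / c)) (by rw [hs]; exact hmin1)
  -- the fixed part
  obtain ⟨K₁, hK₁le, hK₁nd, hK₁fin⟩ := exists_nd_sub hA _ hKnd (a' - c' * min s (a / c)) hb2le
  have hK₁ker : K₁ ≤ LinearMap.ker (T - 1) := le_trans hK₁le inf_le_right
  have horth : Orth B R₁ K₁ :=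
    orth_mono (orth_symm hA (orth_ker_range hT)) hR₁A.2.2 hK₁ker
  obtain ⟨hD₀nd, hD₀fin⟩ := nd_sup hA hR₁A.1 hK₁nd horth
  refine ⟨R₁ ⊔ K₁, sup_le (le_trans hR₁le inf_le_left) (le_trans hK₁le inf_le_left), ?_, hD₀nd,
    ?_, ?_⟩
  · rw [Submodule.map_sup]
    exact sup_le_sup hR₁A.2.1 (hCsub K₁ hK₁ker)
  · rw [hD₀fin, hR₁fin, hK₁fin]
    omega
  · obtain ⟨-, -, hfin⟩ := nd_rel hA hK₁nd hKnd hK₁le
    have hle : (Z ⊓ LinearMap.ker (T - 1)) ⊓ B.orthogonal K₁ ≤
        Z ⊓ B.orthogonal (R₁ ⊔ K₁) ⊓ LinearMap.ker (T - 1) := by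
      rintro x ⟨⟨hx1, hx2⟩, hx3⟩
      refine ⟨⟨hx1, ?_⟩, hx2⟩
      rw [perp_sup]
      refine ⟨?_, hx3⟩
      have h1 : Orth B R₁ (LinearMap.ker (T - 1)) :=
        orth_mono (orth_symm hA (orth_ker_range hT)) hR₁A.2.2 le_rfl
      exact (orth_iff_le_perp.mp h1) hx2
    have h2 := Submodule.finrank_mono hle
    rw [hK₁fin] at hfin
    omega

/-- An isometry of odd prime order whose fixed space is large enough preserves the summands of an
orthogonal decomposition into `t` nondegenerate subspaces of dimension `a`. -/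
theorem exists_sp_decomp (hA : B.IsAlt) (hN : ND B ⊤) (T : Module.End F V) (hT : Isom B T) (r : ℕ)
    [Fact r.Prime] (hr2 : r ≠ 2) (hrq : ¬ r ∣ Fintype.card F) (hr0 : (r : F) ≠ 0)
    (hTr : T ^ r = 1) (a t : ℕ) (ha : 1 ≤ a) (hae : Even a) (hV : finrank F V = t * a)
    (hk : t * (a % blk (Fintype.card F) r) ≤ finrank F (LinearMap.ker (T - 1))) :
    ∃ D : Fin t → Submodule F V, (∀ j, (D j).map T ≤ D j) ∧ IsOD B a D := by
  classical
  obtain ⟨s, P, hP, horth, hsup, hfin⟩ := orth_atoms hA a ha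
    (fun Z => ND B Z ∧ Z.map T ≤ Z ∧ ∃ t', finrank F Z = t' * a ∧
      t' * (a % blk (Fintype.card F) r) ≤ finrank F ↥(Z ⊓ LinearMap.ker (T - 1)))
    (fun Z hZ => hZ.1)
    (fun Z hZ hZ0 => by
      obtain ⟨hZnd, hZinv, t', hZfin, hZk⟩ := hZ
      obtain ⟨t'', rfl⟩ : ∃ t'', t' = t'' + 1 := by
        refine ⟨t' - 1, ?_⟩
        have : t' ≠ 0 := by
          rintro rfl
          rw [zero_mul] at hZfin
          exact hZ0 (Submodule.finrank_eq_zero.mp hZfin)
        omega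
      obtain ⟨D₀, hD₀Z, hD₀inv, hD₀nd, hD₀fin, hD₀k⟩ :=
        exists_summand hA hN T hT r hr2 hrq hr0 hTr a hae t'' Z hZinv hZnd hZfin hZk
      obtain ⟨hnd', -, hfin'⟩ := nd_rel hA hD₀nd hZnd hD₀Z
      refine ⟨D₀, hD₀Z, ⟨hD₀nd, hD₀inv, 1, by rw [one_mul, hD₀fin], ?_⟩, hD₀fin, hnd', ?_, t'', ?_,
        hD₀k⟩
      · rw [one_mul]
        have h1 := mod_le_fixed hA hN T hT r hr2 hrq hr0 hTr D₀ hD₀inv hD₀nd
        rwa [hD₀fin] at h1
      · rintro _ ⟨x, hx, rfl⟩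
        exact ⟨hZinv ⟨x, hx.1, rfl⟩, perp_invariant hN hT hD₀inv ⟨x, hx.2, rfl⟩⟩
      · have h3 : (t'' + 1) * a = t'' * a + a := by ring
        omega)
    ⊤ ⟨hN, le_top, t, by rw [finrank_top, hV], by rw [top_inf_eq]; exact hk⟩
  rw [finrank_top, hV] at hfin
  have hst : s = t := by
    have h1 : a * s = a * t := by rw [← hfin, Nat.mul_comm]
    exact Nat.eq_of_mul_eq_mul_left (by omega) h1
  subst hst
  exact ⟨P, fun j => (hP j).1.2.1, fun j => (hP j).2.1, horth, hsup⟩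

end Decomp

end Cfsg.Agent.Lib.Helper96.Sp
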