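import Cfsg.Agent.Lib.Helper96.SpElem
import Cfsg.Agent.Lib.Helper18.Symp

/-!
Transfer between symplectic matrices and isometries of the standard alternating form.
-/

set_option autoImplicit false
set_option linter.unusedSectionVars false
set_option linter.unusedVariables false

namespace Cfsg.Agent.Lib.Helper96.Sp

open Module Matrix Cfsg.Agent.Lib.Helper18

section Mat

variable {F : Type*} [Field F]

theorem sympB_nd (m : ℕ) : ND (sympB (F := F) m) ⊤ := by
  intro u _ h
  exact (sympB_nondegenerate (F := F) m).1 u (fun v => h v Submodule.mem_top)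

theorem toMatrix'_mem (m : ℕ) (T : (Fin m ⊕ Fin m → F) →ₗ[F] (Fin m ⊕ Fin m → F))
    (hT : Isom (sympB m) T) : LinearMap.toMatrix' T ∈ Matrix.symplecticGroup (Fin m) F := by
  rw [SymplecticGroup.mem_iff']
  have h1 : (Matrix.toBilin' (J (Fin m) F)).comp T T = Matrix.toBilin' (J (Fin m) F) :=
    LinearMap.ext fun x => LinearMap.ext fun y => hT x y
  have h2 := Matrix.toBilin'_comp (J (Fin m) F) (LinearMap.toMatrix' T) (LinearMap.toMatrix' T)
  rw [Matrix.toLin'_toMatrix', h1] at h2
  exact (Matrix.toBilin'.injective h2).symm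

theorem toLin'_pow' {n : Type*} [Fintype n] [DecidableEq n] (X : Matrix n n F) (k : ℕ) :
    Matrix.toLin' (X ^ k) = (Matrix.toLin' X) ^ k :=
  map_pow (Matrix.toLinAlgEquiv' : Matrix n n F ≃ₐ[F] _) X k

theorem toMatrix'_pow' {n : Type*} [Fintype n] [DecidableEq n] (T : (n → F) →ₗ[F] (n → F))
    (k : ℕ) : LinearMap.toMatrix' (T ^ k) = (LinearMap.toMatrix' T) ^ k :=
  map_pow (LinearMap.toMatrixAlgEquiv' : ((n → F) →ₗ[F] (n → F)) ≃ₐ[F] _) T k

theorem scalar_sq_of_isom {V : Type*} [AddCommGroup V] [Module F V] [Nontrivial V]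
    {B : LinearMap.BilinForm F V} (hN : ND B ⊤) (z : F)
    (h : Isom B (z • (1 : Module.End F V))) : z * z = 1 := by
  obtain ⟨u, hu⟩ := exists_ne (0 : V)
  obtain ⟨v, hv⟩ : ∃ v, B u v ≠ 0 := by
    by_contra hcon
    push Not at hcon
    exact hu (hN u Submodule.mem_top (fun v _ => hcon v))
  have h1 := h u v
  simp only [LinearMap.smul_apply, Module.End.one_apply, map_smul, smul_eq_mul] at h1
  exact mul_right_cancel₀ hv (by rw [mul_assoc, h1, one_mul])

theorem pow_eq_self_of_sq (z : F) (hz : z * z = 1) (r : ℕ) (hodd : Odd r) : z ^ r = z := by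
  obtain ⟨k, rfl⟩ := hodd
  rw [pow_succ, pow_mul, pow_two, hz, one_pow, one_mul]

end Mat

end Cfsg.Agent.Lib.Helper96.Sp
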