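import Cfsg.Agent.Lib.Helper96.SpDecomp

/-!
Obstructions: an isometry of odd prime order permuting the summands of a decomposition.
-/

set_option autoImplicit false
set_option linter.unusedSectionVars false
set_option linter.unusedVariables false

namespace Cfsg.Agent.Lib.Helper96.Sp

open Module Cfsg.Agent.Lib.Helper96.BG

section Obst

variable {F : Type*} [Field F] [Fintype F] {V : Type*} [AddCommGroup V] [Module F V]
  [FiniteDimensional F V] {B : LinearMap.BilinForm F V}

/-- If the fixed space is smaller than the summands, all summands are invariant. -/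
theorem all_fixed_of_decomp {t : ℕ} (T : Module.End F V) (r : ℕ) [Fact r.Prime] (hT : T ^ r = 1)
    (D : Fin t → Submodule F V) (a : ℕ) (ha : 1 ≤ a) (hfin : ∀ j, finrank F (D j) = a)
    (hind : iSupIndep D) (htop : ⨆ j, D j = ⊤) (σ : Equiv.Perm (Fin t))
    (hσ : ∀ j, (D j).map T = D (σ j)) (hk : finrank F (LinearMap.ker (T - 1)) < a) :
    ∀ j, σ j = j := by
  classical
  have hrp : r.Prime := Fact.out
  obtain ⟨comp, hcomp1, hcomp⟩ := exists_components D hind htop
  intro j
  by_contra hj
  let f : D j →ₗ[F] LinearMap.ker (T - 1) :=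
    LinearMap.codRestrict (LinearMap.ker (T - 1))
      ((∑ m ∈ Finset.range r, T ^ m).comp (D j).subtype) (fun x => geom_mem_ker T r hT _)
  have hf : Function.Injective f := by
    intro x y hxy
    have h1 : (∑ m ∈ Finset.range r, T ^ m) (x : V) = (∑ m ∈ Finset.range r, T ^ m) (y : V) :=
      congrArg Subtype.val hxy
    have h2 := congrArg (comp j) h1
    rw [comp_geom_moved T r hrp hT D a ha hfin hind σ hσ comp hcomp j hj _ x.2,
      comp_geom_moved T r hrp hT D a ha hfin hind σ hσ comp hcomp j hj _ y.2] at h2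
    exact Subtype.ext h2
  have h3 := LinearMap.finrank_le_finrank_of_injective hf
  rw [hfin j] at h3
  omega

/-- If a summand is moved, the commutator space has dimension at least `(r - 1) * a`. -/
theorem moved_rank_ge {t : ℕ} (T : Module.End F V) (r : ℕ) [Fact r.Prime] (hT : T ^ r = 1)
    (D : Fin t → Submodule F V) (a : ℕ) (ha : 1 ≤ a) (hfin : ∀ j, finrank F (D j) = a)
    (hind : iSupIndep D) (htop : ⨆ j, D j = ⊤) (σ : Equiv.Perm (Fin t))
    (hσ : ∀ j, (D j).map T = D (σ j)) (j : Fin t) (hj : σ j ≠ j) :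
    (r - 1) * a ≤ finrank F (LinearMap.range (T - 1)) := by
  classical
  have hrp : r.Prime := Fact.out
  obtain ⟨comp, hcomp1, hcomp⟩ := exists_components D hind htop
  obtain ⟨hpow, hσr, hmoved, hinjorb⟩ := perm_facts T r hrp hT D a ha hfin hind σ hσ
  have hTinj : ∀ (m : ℕ) (x : V), (T ^ m) x = 0 → x = 0 := by
    have h1 : ∀ x : V, T x = 0 → x = 0 := by
      intro x hx
      have h2 : (T ^ r) x = 0 := by
        obtain ⟨k, hk⟩ : ∃ k, r = k + 1 := ⟨r - 1, by have := hrp.one_le; omega⟩
        rw [hk, pow_succ]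
        show (T ^ k) (T x) = 0
        rw [hx, map_zero]
      rw [hT] at h2
      exact h2
    intro m
    induction m with
    | zero => intro x hx; simpa using hx
    | succ m ih =>
      intro x hx
      rw [pow_succ'] at hx
      exact ih x (h1 _ hx)
  let Ψ : (Fin (r - 1) → D j) →ₗ[F] V :=
    ∑ i : Fin (r - 1), (T ^ ((i : ℕ) + 1) - 1) ∘ₗ (D j).subtype ∘ₗ LinearMap.proj i
  have hΨ : ∀ w, Ψ w = ∑ i : Fin (r - 1), ((T ^ ((i : ℕ) + 1)) (w i : V) - (w i : V)) := by
    intro w
    simp [Ψ]
  have hΨrange : LinearMap.range Ψ ≤ LinearMap.range (T - 1) := by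
    rintro _ ⟨w, rfl⟩
    rw [hΨ]
    refine Submodule.sum_mem _ (fun i _ => ?_)
    refine ⟨(∑ m ∈ Finset.range ((i : ℕ) + 1), T ^ m) (w i : V), ?_⟩
    have h1 : (T - 1) * (∑ m ∈ Finset.range ((i : ℕ) + 1), T ^ m) = T ^ ((i : ℕ) + 1) - 1 :=
      mul_geom_sum T _
    have h2 := LinearMap.congr_fun h1 (w i : V)
    exact h2
  have hΨinj : Function.Injective Ψ := by
    rw [injective_iff_map_eq_zero]
    intro w hw
    rw [hΨ] at hw
    funext i₀
    apply Subtype.ext
    apply hTinj ((i₀ : ℕ) + 1)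
    have h1 := congrArg (comp ((σ ^ ((i₀ : ℕ) + 1)) j)) hw
    rw [map_sum, map_zero, Finset.sum_eq_single i₀] at h1
    · rw [map_sub] at h1
      have h2 : (T ^ ((i₀ : ℕ) + 1)) (w i₀ : V) ∈ D ((σ ^ ((i₀ : ℕ) + 1)) j) := by
        rw [← hpow]
        exact ⟨_, (w i₀).2, rfl⟩
      rw [hcomp _ _ _ h2, if_pos rfl, hcomp _ _ _ (w i₀).2, if_neg, sub_zero] at h1
      · exact h1
      · exact hmoved j hj _ (Nat.succ_pos _) (by have := i₀.2; omega)
    · intro i _ hi
      rw [map_sub]
      have h2 : (T ^ ((i : ℕ) + 1)) (w i : V) ∈ D ((σ ^ ((i : ℕ) + 1)) j) := by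
        rw [← hpow]
        exact ⟨_, (w i).2, rfl⟩
      rw [hcomp _ _ _ h2, if_neg, hcomp _ _ _ (w i).2, if_neg, sub_zero]
      · exact hmoved j hj _ (Nat.succ_pos _) (by have := i₀.2; omega)
      · intro h
        have h3 := hinjorb j hj _ _ (by have := i₀.2; omega) (by have := i.2; omega) h
        apply hi
        apply Fin.ext
        omega
    · intro h
      exact absurd (Finset.mem_univ _) h
  have h1 := LinearMap.finrank_range_of_inj hΨinj
  have h2 := Submodule.finrank_mono hΨrange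
  rw [h1, Module.finrank_pi_fintype F] at h2
  simp only [hfin j, Finset.sum_const, Finset.card_univ, Fintype.card_fin, smul_eq_mul] at h2
  exact h2

/-- An isometry with a single block cannot permute the summands of a decomposition into
nondegenerate subspaces of dimension `2 ≤ a < blk`. -/
theorem not_stab_of_lt (hA : B.IsAlt) (hN : ND B ⊤) (T : Module.End F V) (hT : Isom B T) (r : ℕ)
    [Fact r.Prime] (hr2 : r ≠ 2) (hrq : ¬ r ∣ Fintype.card F) (hr0 : (r : F) ≠ 0)
    (hTr : T ^ r = 1) (hT1 : T ≠ 1)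
    (hR : finrank F (LinearMap.range (T - 1)) ≤ blk (Fintype.card F) r)
    {t : ℕ} (D : Fin t → Submodule F V) (a : ℕ) (ha : 2 ≤ a) (hac : a < blk (Fintype.card F) r)
    (hfin : ∀ j, finrank F (D j) = a) (hind : iSupIndep D) (htop : ⨆ j, D j = ⊤)
    (hnd : ∀ j, ND B (D j)) (σ : Equiv.Perm (Fin t)) (hσ : ∀ j, (D j).map T = D (σ j)) :
    False := by
  classical
  have hrp : r.Prime := Fact.out
  by_cases hmov : ∃ j, σ j ≠ j
  · obtain ⟨j, hj⟩ := hmov
    have h1 := moved_rank_ge T r hTr D a (by omega) hfin hind htop σ hσ j hj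
    have h2 := blk_le (Fintype.card F) r hr2 hrq
    have h3 := Nat.mul_le_mul_left (r - 1) ha
    have h4 := hrp.two_le
    omega
  · push Not at hmov
    apply hT1
    have hle : ∀ j, D j ≤ LinearMap.ker (T - 1) := by
      intro j
      have hinv : (D j).map T ≤ D j := by rw [hσ j, hmov j]
      have h1 := sp_dvd hA hN T hT r hr2 hrq hr0 hTr (D j) hinv (hnd j)
      have hx : finrank F ↥(D j ⊓ LinearMap.ker (T - 1)) ≤ finrank F (D j) :=
        Submodule.finrank_mono inf_le_left
      have h2 : finrank F (D j) - finrank F ↥(D j ⊓ LinearMap.ker (T - 1)) = 0 := by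
        apply Nat.eq_zero_of_dvd_of_lt h1
        rw [hfin j]
        omega
      have h3 : D j ⊓ LinearMap.ker (T - 1) = D j :=
        Submodule.eq_of_le_of_finrank_eq inf_le_left (by omega)
      rw [← h3]
      exact inf_le_right
    have h1 : (⊤ : Submodule F V) ≤ LinearMap.ker (T - 1) := by
      rw [← htop]
      exact iSup_le hle
    ext x
    have h2 := h1 (Submodule.mem_top : x ∈ ⊤)
    rw [LinearMap.mem_ker, LinearMap.sub_apply, sub_eq_zero] at h2
    exact h2

/-- An isometry with a small fixed space which permutes the summands of a decomposition into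
nondegenerate subspaces fixes each of them, and its fixed space has dimension at least
`t * (a mod blk)`. -/
theorem fixed_ge_of_stab (hA : B.IsAlt) (hN : ND B ⊤) (T : Module.End F V) (hT : Isom B T) (r : ℕ)
    [Fact r.Prime] (hr2 : r ≠ 2) (hrq : ¬ r ∣ Fintype.card F) (hr0 : (r : F) ≠ 0)
    (hTr : T ^ r = 1) {t : ℕ} (D : Fin t → Submodule F V) (a : ℕ) (ha : 1 ≤ a)
    (hfin : ∀ j, finrank F (D j) = a) (hind : iSupIndep D) (htop : ⨆ j, D j = ⊤)
    (hnd : ∀ j, ND B (D j)) (σ : Equiv.Perm (Fin t)) (hσ : ∀ j, (D j).map T = D (σ j))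
    (hker : finrank F (LinearMap.ker (T - 1)) < a) :
    t * (a % blk (Fintype.card F) r) ≤ finrank F (LinearMap.ker (T - 1)) := by
  classical
  have hfix := all_fixed_of_decomp T r hTr D a ha hfin hind htop σ hσ hker
  have hinv : ∀ j, (D j).map T ≤ D j := by
    intro j
    rw [hσ j, hfix j]
  have hge : ∀ j, a % blk (Fintype.card F) r ≤ finrank F ↥(D j ⊓ LinearMap.ker (T - 1)) := by
    intro j
    have h1 := mod_le_fixed hA hN T hT r hr2 hrq hr0 hTr (D j) (hinv j) (hnd j)
    rwa [hfin j] at h1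
  have hind' : iSupIndep (fun j => D j ⊓ LinearMap.ker (T - 1)) :=
    hind.mono (fun j => inf_le_left)
  have h4 := finrank_iSup_of_iSupIndep _ hind'
  have h5 : (⨆ j, D j ⊓ LinearMap.ker (T - 1)) ≤ LinearMap.ker (T - 1) :=
    iSup_le (fun j => inf_le_right)
  have h6 := Submodule.finrank_mono h5
  have h7 : ∑ _j : Fin t, a % blk (Fintype.card F) r ≤
      ∑ j : Fin t, finrank F ↥(D j ⊓ LinearMap.ker (T - 1)) :=
    Finset.sum_le_sum (fun j _ => hge j)
  rw [Finset.sum_const, Finset.card_univ, Fintype.card_fin, smul_eq_mul] at h7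
  omega

end Obst

end Cfsg.Agent.Lib.Helper96.Sp
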