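import Mathlib
import Cfsg.Agent.Lib.Helper96.OrthFull
import Cfsg.Agent.Lib.Helper50.SubfMax
import Cfsg.Agent.Lib.Helper51.DicksonTwo

/-!
Rational structures for quadratic forms (helper96).

`F₀` is a subfield of the finite field `F`, and `Q` a quadratic form on `ι → F` taking values in
`F₀` on vectors with entries in `F₀` (`RatQ`).  This file provides the restricted form `ratForm`
over `F₀`, the transfer of existence statements from `F₀` to rational vectors, and the fact that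
Eichler transformations with rational parameters lie in every subgroup containing the rational
elements of `Ω`.
-/

set_option autoImplicit false
set_option linter.unusedSectionVars false

namespace Cfsg.Agent.Lib.Helper96

open Module QuadraticMap
open Cfsg.Agent.Lib.Helper51 Cfsg.Agent.Lib.Helper52
open Cfsg.Agent.Lib.Helper50 (RatV RatM H1)

section RatBase

variable {ι : Type} [Fintype ι] [DecidableEq ι] {F : Type*} [Field F]

local notation "mt(" g ")" => ((g : Matrix.GeneralLinearGroup ι F) : Matrix ι ι F)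

/-- Coercion of a vector over the subfield. -/
def rcv (F₀ : Subfield F) (v : ι → F₀) : ι → F := fun i => (v i : F)

theorem ratV_rcv (F₀ : Subfield F) (v : ι → F₀) : RatV F₀ (rcv F₀ v) := fun i => (v i).2

theorem exists_rcv {F₀ : Subfield F} {v : ι → F} (hv : RatV F₀ v) :
    ∃ v₀ : ι → F₀, rcv F₀ v₀ = v :=
  ⟨fun i => ⟨v i, hv i⟩, rfl⟩

theorem rcv_add (F₀ : Subfield F) (v w : ι → F₀) : rcv F₀ (v + w) = rcv F₀ v + rcv F₀ w := rfl

theorem rcv_smul (F₀ : Subfield F) (a : F₀) (v : ι → F₀) :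
    rcv F₀ (a • v) = (a : F) • rcv F₀ v := rfl

theorem rcv_zero (F₀ : Subfield F) : rcv F₀ (0 : ι → F₀) = 0 := rfl

theorem rcv_injective (F₀ : Subfield F) : Function.Injective (rcv (ι := ι) F₀) := by
  intro v w h
  funext i
  exact Subtype.ext (congrFun h i)

theorem rcv_eq_zero {F₀ : Subfield F} {v : ι → F₀} : rcv F₀ v = 0 ↔ v = 0 := by
  constructor
  · intro h
    exact rcv_injective F₀ (by rw [h, rcv_zero])
  · rintro rfl
    exact rcv_zero F₀

theorem ratV_sum {F₀ : Subfield F} {κ : Type*} (s : Finset κ) (f : κ → ι → F)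
    (h : ∀ k ∈ s, RatV F₀ (f k)) : RatV F₀ (∑ k ∈ s, f k) := by
  intro i
  rw [Finset.sum_apply]
  exact F₀.sum_mem (fun k hk => h k hk i)

variable (Q : QuadraticForm F (ι → F))

/-- `Q` takes values in `F₀` on vectors with entries in `F₀`. -/
def RatQ (F₀ : Subfield F) : Prop := ∀ v, RatV F₀ v → Q v ∈ F₀

variable {Q}

theorem RatQ.polar {F₀ : Subfield F} (hrat : RatQ Q F₀) {v w : ι → F} (hv : RatV F₀ v)
    (hw : RatV F₀ w) : polar ⇑Q v w ∈ F₀ := by
  unfold QuadraticMap.polar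
  exact F₀.sub_mem (F₀.sub_mem (hrat _ (Cfsg.Agent.Lib.Helper50.ratV_add hv hw)) (hrat _ hv))
    (hrat _ hw)

variable (Q)

/-- The restriction of a rational quadratic form to the subfield. -/
noncomputable def ratForm (F₀ : Subfield F) (hrat : RatQ Q F₀) : QuadraticForm F₀ (ι → F₀) :=
  QuadraticMap.ofPolar (fun v => (⟨Q (rcv F₀ v), hrat _ (ratV_rcv F₀ v)⟩ : F₀))
    (by
      intro a x
      apply Subtype.ext
      show Q (rcv F₀ (a • x)) = ((a : F) * (a : F)) * Q (rcv F₀ x)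
      rw [rcv_smul, QuadraticMap.map_smul, smul_eq_mul])
    (by
      intro x x' y
      apply Subtype.ext
      have h := polar_add_left (Q := Q) (rcv F₀ x) (rcv F₀ x') (rcv F₀ y)
      unfold QuadraticMap.polar at h ⊢
      simp only [rcv_add] at h ⊢
      push_cast
      exact h)
    (by
      intro a x y
      apply Subtype.ext
      have h := polar_smul_left (Q := Q) (a : F) (rcv F₀ x) (rcv F₀ y)
      unfold QuadraticMap.polar at h ⊢
      simp only [rcv_add, rcv_smul] at h ⊢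
      push_cast
      exact h)

theorem coe_ratForm (F₀ : Subfield F) (hrat : RatQ Q F₀) (v : ι → F₀) :
    ((ratForm Q F₀ hrat v : F₀) : F) = Q (rcv F₀ v) := rfl

theorem coe_polar_ratForm (F₀ : Subfield F) (hrat : RatQ Q F₀) (v w : ι → F₀) :
    ((polar ⇑(ratForm Q F₀ hrat) v w : F₀) : F) = polar ⇑Q (rcv F₀ v) (rcv F₀ w) := by
  unfold QuadraticMap.polar
  push_cast
  rw [coe_ratForm, coe_ratForm, coe_ratForm, rcv_add]

theorem ratForm_eq_zero_iff (F₀ : Subfield F) (hrat : RatQ Q F₀) (v : ι → F₀) :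
    ratForm Q F₀ hrat v = 0 ↔ Q (rcv F₀ v) = 0 := by
  rw [← coe_ratForm Q F₀ hrat]
  constructor
  · intro h; rw [h]; rfl
  · intro h; exact Subtype.ext h

theorem polar_ratForm_eq_zero_iff (F₀ : Subfield F) (hrat : RatQ Q F₀) (v w : ι → F₀) :
    polar ⇑(ratForm Q F₀ hrat) v w = 0 ↔ polar ⇑Q (rcv F₀ v) (rcv F₀ w) = 0 := by
  rw [← coe_polar_ratForm Q F₀ hrat]
  constructor
  · intro h; rw [h]; rfl
  · intro h; exact Subtype.ext h

theorem polar_ratForm_eq_one_iff (F₀ : Subfield F) (hrat : RatQ Q F₀) (v w : ι → F₀) :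
    polar ⇑(ratForm Q F₀ hrat) v w = 1 ↔ polar ⇑Q (rcv F₀ v) (rcv F₀ w) = 1 := by
  rw [← coe_polar_ratForm Q F₀ hrat]
  constructor
  · intro h; rw [h]; rfl
  · intro h; exact Subtype.ext h

/-- A vector pairing to zero with every standard basis vector is zero. -/
theorem eq_zero_of_polar_single (hQ : (polarBilin Q).Nondegenerate) (x : ι → F)
    (h : ∀ i, polar ⇑Q x (Pi.single i 1) = 0) : x = 0 := by
  apply hQ.1
  intro y
  rw [polarBilin_apply_apply, ← polarVec_dotProduct]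
  have : Cfsg.polarVec ⇑Q x = 0 := by
    funext j
    exact h j
  rw [this, zero_dotProduct]

theorem ratForm_nondegenerate (F₀ : Subfield F) (hrat : RatQ Q F₀)
    (hQ : (polarBilin Q).Nondegenerate) : (polarBilin (ratForm Q F₀ hrat)).Nondegenerate := by
  have key : ∀ x : ι → F₀, (∀ y, polar ⇑(ratForm Q F₀ hrat) x y = 0) → x = 0 := by
    intro x hx
    apply rcv_eq_zero.mp
    apply eq_zero_of_polar_single Q hQ
    intro i
    have h1 := hx (Pi.single i 1)
    rw [polar_ratForm_eq_zero_iff] at h1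
    have h2 : rcv F₀ (Pi.single i (1 : F₀)) = Pi.single i (1 : F) := by
      funext k
      by_cases hk : k = i
      · subst hk; simp [rcv]
      · simp [rcv, Pi.single_eq_of_ne hk]
    rwa [h2] at h1
  constructor
  · intro x hx
    apply key x
    intro y
    have := hx y
    rwa [polarBilin_apply_apply] at this
  · intro y hy
    apply key y
    intro x
    have := hy x
    rw [polarBilin_apply_apply] at this
    rw [polar_comm]
    exact this

theorem ratM_vecMulVec {F₀ : Subfield F} {u φ : ι → F} (hu : RatV F₀ u) (hφ : RatV F₀ φ) :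
    RatM F₀ (Matrix.vecMulVec u φ) := by
  intro i j
  rw [Matrix.vecMulVec_apply]
  exact F₀.mul_mem (hu i) (hφ j)

theorem ratV_polarVec {F₀ : Subfield F} (hrat : RatQ Q F₀) {u : ι → F} (hu : RatV F₀ u) :
    RatV F₀ (Cfsg.polarVec ⇑Q u) := by
  intro j
  exact hrat.polar hu (Cfsg.Agent.Lib.Helper50.ratV_single F₀ j F₀.one_mem)

theorem ratM_eichMat {F₀ : Subfield F} (hrat : RatQ Q F₀) {u w : ι → F} (hu : RatV F₀ u)
    (hw : RatV F₀ w) : RatM F₀ (eichMat Q u w) := by
  unfold eichMat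
  have h1 := ratM_vecMulVec hu (ratV_polarVec Q hrat hw)
  have h2 := ratM_vecMulVec hw (ratV_polarVec Q hrat hu)
  have h3 := ratM_vecMulVec hu (ratV_polarVec Q hrat hu)
  exact Cfsg.Agent.Lib.Helper50.ratM_sub (Cfsg.Agent.Lib.Helper50.ratM_sub
    (Cfsg.Agent.Lib.Helper50.ratM_add (Cfsg.Agent.Lib.Helper50.ratM_one F₀) h1) h2)
    (Cfsg.Agent.Lib.Helper50.ratM_smul (hrat _ hw) h3)

/-- `M` contains every element of `Ω` which is a scalar multiple of a rational matrix. -/
def ContainsRat (F₀ : Subfield F) (M : Subgroup ↥(Cfsg.isometryGroup F ⇑Q)) : Prop :=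
  ∀ g : ↥(Cfsg.isometryGroup F ⇑Q), g ∈ commutator ↥(Cfsg.isometryGroup F ⇑Q) →
    (g : Matrix.GeneralLinearGroup ι F) ∈ H1 ι F₀ → g ∈ M

variable {Q}

/-- Eichler transformations with rational parameters lie in `M`. -/
theorem inM_rat [Fintype F] (hQ : (polarBilin Q).Nondegenerate) (hn : 5 ≤ Fintype.card ι)
    {F₀ : Subfield F} (hrat : RatQ Q F₀) {M : Subgroup ↥(Cfsg.isometryGroup F ⇑Q)}
    (hH : ContainsRat Q F₀ M) {u w : ι → F} (hu : RatV F₀ u) (hw : RatV F₀ w) (hQu : Q u = 0)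
    (huw : polar ⇑Q u w = 0) : InM Q M u w := by
  refine ⟨hQu, huw, hH _ (eich_mem_commutator Q hQ hn u w hQu huw) ?_⟩
  refine Cfsg.Agent.Lib.Helper50.mem_H1_of F₀ _ 1 one_ne_zero (eichMat Q u w)
    (ratM_eichMat Q hrat hu hw) ?_
  rw [one_smul, coe_eich]

theorem polar_sum_smul_left {κ : Type*} (s : Finset κ) (c : κ → F) (v : κ → ι → F)
    (y : ι → F) : polar ⇑Q (∑ k ∈ s, c k • v k) y = ∑ k ∈ s, c k * polar ⇑Q (v k) y := by
  classical
  induction s using Finset.induction_on with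
  | empty => simp
  | insert a s ha ih =>
    rw [Finset.sum_insert ha, Finset.sum_insert ha, polar_add_left, ih, polar_smul_left,
      smul_eq_mul]

theorem polar_sum_smul_right {κ : Type*} (s : Finset κ) (c : κ → F) (v : κ → ι → F)
    (y : ι → F) : polar ⇑Q y (∑ k ∈ s, c k • v k) = ∑ k ∈ s, c k * polar ⇑Q y (v k) := by
  rw [polar_comm, polar_sum_smul_left]
  apply Finset.sum_congr rfl
  intro k _
  rw [polar_comm]

/-- Vectors of a span are orthogonal to what the generators are orthogonal to. -/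
theorem polar_eq_zero_of_mem_span {S : Set (ι → F)} {x y : ι → F}
    (hx : x ∈ Submodule.span F S) (h : ∀ s ∈ S, polar ⇑Q s y = 0) : polar ⇑Q x y = 0 := by
  induction hx using Submodule.span_induction with
  | mem s hs => exact h s hs
  | zero => exact polar_zero_left _ _
  | add a b _ _ ha hb => rw [polar_add_left, ha, hb, add_zero]
  | smul c a _ ha => rw [polar_smul_left, ha, smul_zero]

end RatBase

section Exist

variable {ι : Type} [Fintype ι] [DecidableEq ι] {F : Type*} [Field F] [Fintype F]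
variable {Q : QuadraticForm F (ι → F)}

/-- A non-zero rational singular vector orthogonal to a few given rational vectors. -/
theorem exists_rat_singular_orth (hQ : (polarBilin Q).Nondegenerate) {F₀ : Subfield F}
    (hrat : RatQ Q F₀) (S : Finset (ι → F)) (hS : ∀ s ∈ S, RatV F₀ s)
    (hcard : S.card + 3 ≤ Fintype.card ι) :
    ∃ d, RatV F₀ d ∧ d ≠ 0 ∧ Q d = 0 ∧ ∀ s ∈ S, polar ⇑Q s d = 0 := by
  classical
  let _ : Fintype F₀ := Fintype.ofFinite F₀
  set S₀ : Finset (ι → F₀) := S.attach.image (fun s => fun i => (⟨s.1 i, hS s.1 s.2 i⟩ : F₀))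
    with hS₀
  have hc : S₀.card ≤ S.card := by
    rw [hS₀]
    exact (Finset.card_image_le).trans (by rw [Finset.card_attach])
  obtain ⟨d, hd0, hQd, horth⟩ := exists_singular_orth (ratForm Q F₀ hrat)
    (ratForm_nondegenerate Q F₀ hrat hQ) S₀ (by omega)
  refine ⟨rcv F₀ d, ratV_rcv F₀ d, fun h => hd0 (rcv_eq_zero.mp h),
    (ratForm_eq_zero_iff Q F₀ hrat d).mp hQd, fun s hs => ?_⟩
  have hmem : (fun i => (⟨s i, hS s hs i⟩ : F₀)) ∈ S₀ := by
    rw [hS₀, Finset.mem_image]
    exact ⟨⟨s, hs⟩, Finset.mem_attach _ _, rfl⟩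
  have := (polar_ratForm_eq_zero_iff Q F₀ hrat _ _).mp (horth _ hmem)
  exact this

/-- A rational totally singular pair together with a rational dual pair. -/
theorem exists_rat_pair (hQ : (polarBilin Q).Nondegenerate) {F₀ : Subfield F}
    (hrat : RatQ Q F₀) (hn : 5 ≤ Fintype.card ι) :
    ∃ u w u' w' : ι → F, RatV F₀ u ∧ RatV F₀ w ∧ RatV F₀ u' ∧ RatV F₀ w' ∧ Q u = 0 ∧ Q w = 0 ∧
      polar ⇑Q u w = 0 ∧ polar ⇑Q u u' = 1 ∧ polar ⇑Q w u' = 0 ∧ polar ⇑Q u w' = 0 ∧
      polar ⇑Q w w' = 1 := by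
  classical
  let _ : Fintype F₀ := Fintype.ofFinite F₀
  set Q₀ := ratForm Q F₀ hrat with hQ₀def
  have hQ₀ := ratForm_nondegenerate Q F₀ hrat hQ
  obtain ⟨u, hu0, hQu, -⟩ := exists_singular_orth Q₀ hQ₀ ∅ (by simp; omega)
  obtain ⟨y, hy⟩ := exists_polar_ne_zero Q₀ hQ₀ u hu0
  set u' : ι → F₀ := (polar ⇑Q₀ u y)⁻¹ • y with hu'
  have huu' : polar ⇑Q₀ u u' = 1 := by
    rw [hu', polar_smul_right, smul_eq_mul, inv_mul_cancel₀ hy]
  obtain ⟨w, hw0, hQw, horth⟩ := exists_singular_orth Q₀ hQ₀ {u, u'}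
    (by have := Finset.card_le_two (a := u) (b := u'); omega)
  have huw : polar ⇑Q₀ u w = 0 := horth u (by simp)
  have hu'w : polar ⇑Q₀ u' w = 0 := horth u' (by simp)
  have hwn : w ∉ Submodule.span F₀ ({u} : Set (ι → F₀)) := by
    intro hmem
    obtain ⟨c, rfl⟩ := Submodule.mem_span_singleton.mp hmem
    rw [polar_smul_right, polar_comm, huu', smul_eq_mul, mul_one] at hu'w
    apply hw0
    rw [hu'w, zero_smul]
  obtain ⟨w', hw'w, hw'u⟩ := exists_polar_sep Q₀ hQ₀ _ w hwn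
  have hw'u' : polar ⇑Q₀ w' u = 0 := hw'u u (Submodule.mem_span_singleton_self u)
  refine ⟨rcv F₀ u, rcv F₀ w, rcv F₀ u', rcv F₀ w', ratV_rcv _ _, ratV_rcv _ _, ratV_rcv _ _,
    ratV_rcv _ _, (ratForm_eq_zero_iff Q F₀ hrat u).mp hQu,
    (ratForm_eq_zero_iff Q F₀ hrat w).mp hQw,
    (polar_ratForm_eq_zero_iff Q F₀ hrat _ _).mp huw,
    (polar_ratForm_eq_one_iff Q F₀ hrat _ _).mp huu',
    (polar_ratForm_eq_zero_iff Q F₀ hrat _ _).mp (by rw [polar_comm]; exact hu'w),
    (polar_ratForm_eq_zero_iff Q F₀ hrat _ _).mp (by rw [polar_comm]; exact hw'u'),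
    (polar_ratForm_eq_one_iff Q F₀ hrat _ _).mp (by rw [polar_comm]; exact hw'w)⟩

/-- A rational singular vector and a rational non-singular vector orthogonal to it. -/
theorem exists_rat_siegel (hQ : (polarBilin Q).Nondegenerate) {F₀ : Subfield F}
    (hrat : RatQ Q F₀) (hn : 5 ≤ Fintype.card ι) :
    ∃ u w : ι → F, RatV F₀ u ∧ RatV F₀ w ∧ u ≠ 0 ∧ Q u = 0 ∧ polar ⇑Q u w = 0 ∧ Q w ≠ 0 := by
  classical
  let _ : Fintype F₀ := Fintype.ofFinite F₀
  set Q₀ := ratForm Q F₀ hrat with hQ₀def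
  have hQ₀ := ratForm_nondegenerate Q F₀ hrat hQ
  obtain ⟨u, hu0, hQu, -⟩ := exists_singular_orth Q₀ hQ₀ ∅ (by simp; omega)
  obtain ⟨w, hw, horth⟩ := exists_nonsingular_orth_of_ts Q₀ hQ₀
    (Submodule.span F₀ ({u} : Set (ι → F₀))) (by
      intro x hx
      obtain ⟨c, rfl⟩ := Submodule.mem_span_singleton.mp hx
      rw [QuadraticMap.map_smul, hQu, smul_zero]) (by
      have h1 : finrank F₀ (Submodule.span F₀ ({u} : Set (ι → F₀))) ≤ 1 :=
        (finrank_span_le_card ({u} : Set (ι → F₀))).trans (by simp)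
      omega)
  have hwu : polar ⇑Q₀ w u = 0 := horth u (Submodule.mem_span_singleton_self u)
  refine ⟨rcv F₀ u, rcv F₀ w, ratV_rcv _ _, ratV_rcv _ _, fun h => hu0 (rcv_eq_zero.mp h),
    (ratForm_eq_zero_iff Q F₀ hrat u).mp hQu,
    (polar_ratForm_eq_zero_iff Q F₀ hrat _ _).mp (by rw [polar_comm]; exact hwu), ?_⟩
  intro h
  exact hw ((ratForm_eq_zero_iff Q F₀ hrat w).mpr h)

end Exist

end Cfsg.Agent.Lib.Helper96
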