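import Mathlib
import Cfsg.Agent.Lib.Helper52.SubfFix
import Cfsg.Agent.Lib.Helper51.NegOne

/-!
Rational involutions in `Ω` in odd characteristic (helper96, for the orthogonal subfield rows):
products of reflections in pairwise orthogonal rational vectors.  `exists_invol4` is `-1` on the
span of two orthogonal rational hyperbolic pairs; `exists_invol6` is an involution with a
six-dimensional `-1`-eigenspace, not conjugate to any isometry fixing the orthogonal complement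
of four vectors.
-/

set_option autoImplicit false
set_option linter.unusedSectionVars false
set_option linter.unusedVariables false

namespace Cfsg.Agent.Lib.Helper96

open Module QuadraticMap
open Cfsg.Agent.Lib.Helper51 Cfsg.Agent.Lib.Helper52
open Cfsg.Agent.Lib.Helper50 (RatV RatM ratV_add ratV_sub ratM_mul ratM_one ratM_sub ratM_smul)

section ReflLists

variable {ι : Type} [Fintype ι] [DecidableEq ι] {F : Type*} [Field F] [Fintype F]
variable (Q : QuadraticForm F (ι → F))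

local notation "mt(" g ")" => ((g : Matrix.GeneralLinearGroup ι F) : Matrix ι ι F)

theorem mul_self_of_comm {G : Type*} [Group G] {r R : G} (hc : r * R = R * r) (hr : r * r = 1)
    (hR : R * R = 1) : (r * R) * (r * R) = 1 := by
  calc (r * R) * (r * R) = r * (R * r) * R := by group
    _ = r * (r * R) * R := by rw [hc]
    _ = (r * r) * (R * R) := by group
    _ = 1 := by rw [hr, hR, mul_one]

/-- Reflections in orthogonal vectors commute. -/
theorem refl_comm_of_orth (v w : ι → F) (hv : Q v ≠ 0) (hw : Q w ≠ 0)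
    (h : polar ⇑Q v w = 0) : refl Q v hv * refl Q w hw = refl Q w hw * refl Q v hv := by
  apply isometry_ext
  apply matrix_ext_mulVec
  intro x
  have h' : polar ⇑Q w v = 0 := by rw [polar_comm]; exact h
  rw [coe_mul', coe_mul', coe_refl, coe_refl, ← Matrix.mulVec_mulVec, ← Matrix.mulVec_mulVec]
  simp only [reflectionMatrix_mulVec, polar_sub_right, polar_smul_right, h, h', smul_zero,
    sub_zero]
  abel

theorem refl_comm_reflList (v : ι → F) (hv : Q v ≠ 0) (vs : List (ι → F))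
    (hvs : ∀ w ∈ vs, Q w ≠ 0) (h : ∀ w ∈ vs, polar ⇑Q v w = 0) :
    refl Q v hv * reflList Q vs hvs = reflList Q vs hvs * refl Q v hv := by
  induction vs with
  | nil => rw [reflList_nil, mul_one, one_mul]
  | cons w ws ih =>
    have hw : Commute (refl Q v hv) (refl Q w (hvs w List.mem_cons_self)) :=
      refl_comm_of_orth Q v w hv (hvs w List.mem_cons_self) (h w List.mem_cons_self)
    have hR : Commute (refl Q v hv)
        (reflList Q ws (fun w' hw' => hvs w' (List.mem_cons_of_mem _ hw'))) :=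
      ih (fun w' hw' => hvs w' (List.mem_cons_of_mem _ hw'))
        (fun w' hw' => h w' (List.mem_cons_of_mem _ hw'))
    rw [reflList_cons]
    exact hw.mul_right hR

/-- A product of reflections in pairwise orthogonal vectors is an involution. -/
theorem reflList_mul_self (vs : List (ι → F)) (hvs : ∀ w ∈ vs, Q w ≠ 0)
    (hp : vs.Pairwise (fun v w => polar ⇑Q v w = 0)) :
    reflList Q vs hvs * reflList Q vs hvs = 1 := by
  induction vs with
  | nil => rw [reflList_nil, mul_one]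
  | cons v vs ih =>
    rw [List.pairwise_cons] at hp
    rw [reflList_cons]
    exact mul_self_of_comm
      (refl_comm_reflList Q v (hvs v List.mem_cons_self) vs
        (fun w hw => hvs w (List.mem_cons_of_mem _ hw)) hp.1)
      (refl_mul_self Q v (hvs v List.mem_cons_self))
      (ih (fun w hw => hvs w (List.mem_cons_of_mem _ hw)) hp.2)

/-- Pairwise orthogonal non-singular vectors are linearly independent (odd characteristic). -/
theorem linearIndependent_get_of_orth (h2 : (2 : F) ≠ 0) (vs : List (ι → F))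
    (hvs : ∀ v ∈ vs, Q v ≠ 0) (hp : vs.Pairwise (fun v w => polar ⇑Q v w = 0)) :
    LinearIndependent F (fun i : Fin vs.length => vs.get i) := by
  rw [Fintype.linearIndependent_iff]
  intro c hc j
  have horth : ∀ i : Fin vs.length, i ≠ j → polar ⇑Q (vs.get j) (vs.get i) = 0 := by
    intro i hij
    rcases lt_or_gt_of_ne hij with hlt | hgt
    · rw [polar_comm]
      exact List.pairwise_iff_get.mp hp i j hlt
    · exact List.pairwise_iff_get.mp hp j i hgt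
  have h1 : (polarBilin Q (vs.get j)) (∑ i, c i • vs.get i) = 0 := by rw [hc, map_zero]
  rw [map_sum] at h1
  simp only [map_smul, polarBilin_apply_apply, smul_eq_mul] at h1
  rw [Finset.sum_eq_single j (fun i _ hij => by rw [horth i hij, mul_zero])
    (fun h => absurd (Finset.mem_univ j) h), Helper51.polar_self] at h1
  rcases mul_eq_zero.mp h1 with h3 | h3
  · exact h3
  · rcases mul_eq_zero.mp h3 with h4 | h4
    · exact absurd h4 h2
    · exact absurd h4 (hvs _ (List.get_mem vs j))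

/-- A subspace fixed pointwise by a product of `m` reflections in pairwise orthogonal vectors has
codimension at least `m`. -/
theorem finrank_fixed_add_length_le (h2 : (2 : F) ≠ 0) (vs : List (ι → F))
    (hvs : ∀ v ∈ vs, Q v ≠ 0) (hp : vs.Pairwise (fun v w => polar ⇑Q v w = 0))
    (P : Submodule F (ι → F)) (hP : ∀ y ∈ P, mt(reflList Q vs hvs).mulVec y = y) :
    finrank F P + vs.length ≤ Fintype.card ι := by
  obtain ⟨W, hW⟩ : ∃ W : Submodule F (ι → F),
      W = Submodule.span F (Set.range (fun i : Fin vs.length => vs.get i)) := ⟨_, rfl⟩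
  have hWdim : finrank F W = vs.length := by
    rw [hW, finrank_span_eq_card (linearIndependent_get_of_orth Q h2 vs hvs hp), Fintype.card_fin]
  have hneg : ∀ y ∈ W, mt(reflList Q vs hvs).mulVec y = -y := by
    intro y hy
    rw [hW] at hy
    induction hy using Submodule.span_induction with
    | mem x hx =>
      obtain ⟨i, rfl⟩ := hx
      rw [coe_reflList]
      exact prod_refl_neg Q vs hvs hp _ (List.get_mem vs i)
    | zero => rw [Matrix.mulVec_zero, neg_zero]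
    | add a b _ _ ha hb => rw [Matrix.mulVec_add, ha, hb, neg_add]
    | smul c a _ ha => rw [Matrix.mulVec_smul, ha, smul_neg]
  have hinf : P ⊓ W = ⊥ := by
    rw [eq_bot_iff]
    intro y hy
    have h1 := hP y hy.1
    have h3 := hneg y hy.2
    rw [h1] at h3
    have h4 : (2 : F) • y = 0 := by
      rw [two_smul]
      nth_rewrite 1 [h3]
      exact neg_add_cancel y
    rcases smul_eq_zero.mp h4 with h5 | h5
    · exact absurd h5 h2
    · exact (Submodule.mem_bot F).mpr h5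
  have h6 := Submodule.finrank_sup_add_finrank_inf_eq P W
  rw [hinf, finrank_bot, add_zero] at h6
  have h7 : finrank F (P ⊔ W : Submodule F (ι → F)) ≤ finrank F (ι → F) :=
    Submodule.finrank_le _
  rw [Module.finrank_fintype_fun_eq_card] at h7
  omega

theorem mulVec_neg_of_add_sub (h2 : (2 : F) ≠ 0) (A : Matrix ι ι F) (e f : ι → F)
    (hp : A.mulVec (e + f) = -(e + f)) (hm : A.mulVec (e - f) = -(e - f)) :
    A.mulVec e = -e ∧ A.mulVec f = -f := by
  rw [Matrix.mulVec_add] at hp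
  rw [Matrix.mulVec_sub] at hm
  constructor
  · have h1 : (2 : F) • A.mulVec e = (2 : F) • (-e) := by
      rw [two_smul, two_smul]
      calc A.mulVec e + A.mulVec e = (A.mulVec e + A.mulVec f) + (A.mulVec e - A.mulVec f) := by
            abel
        _ = -(e + f) + -(e - f) := by rw [hp, hm]
        _ = -e + -e := by abel
    exact smul_right_injective (ι → F) h2 h1
  · have h1 : (2 : F) • A.mulVec f = (2 : F) • (-f) := by
      rw [two_smul, two_smul]
      calc A.mulVec f + A.mulVec f = (A.mulVec e + A.mulVec f) - (A.mulVec e - A.mulVec f) := by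
            abel
        _ = -(e + f) - -(e - f) := by rw [hp, hm]
        _ = -f + -f := by abel
    exact smul_right_injective (ι → F) h2 h1

theorem Q_hyp_add (e f : ι → F) (he : Q e = 0) (hf : Q f = 0) (hef : polar ⇑Q e f = 1) :
    Q (e + f) = 1 := by
  have h := hef
  unfold QuadraticMap.polar at h
  linear_combination h + he + hf

theorem Q_hyp_sub (e f : ι → F) (he : Q e = 0) (hf : Q f = 0) (hef : polar ⇑Q e f = 1) :
    Q (e - f) = -1 := by
  have h1 : polar ⇑Q e (-f) = -1 := by rw [polar_neg_right, hef]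
  have h3 : Q (-f) = 0 := by rw [QuadraticMap.map_neg, hf]
  rw [sub_eq_add_neg]
  unfold QuadraticMap.polar at h1
  linear_combination h1 + he + h3

theorem polar_self_pm (e f : ι → F) (he : Q e = 0) (hf : Q f = 0) :
    polar ⇑Q (e + f) (e - f) = 0 := by
  rw [polar_add_left, polar_sub_right, polar_sub_right, Helper51.polar_self,
    Helper51.polar_self, he, hf, polar_comm (⇑Q) f e]
  ring

theorem polar_pp (e f e' f' : ι → F) (X : polar ⇑Q e e' = 0 ∧ polar ⇑Q e f' = 0 ∧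
    polar ⇑Q f e' = 0 ∧ polar ⇑Q f f' = 0) : polar ⇑Q (e + f) (e' + f') = 0 := by
  obtain ⟨h1, h2', h3, h4⟩ := X
  rw [polar_add_left, polar_add_right, polar_add_right, h1, h2', h3, h4]
  simp

theorem polar_pm (e f e' f' : ι → F) (X : polar ⇑Q e e' = 0 ∧ polar ⇑Q e f' = 0 ∧
    polar ⇑Q f e' = 0 ∧ polar ⇑Q f f' = 0) : polar ⇑Q (e + f) (e' - f') = 0 := by
  obtain ⟨h1, h2', h3, h4⟩ := X
  rw [polar_add_left, polar_sub_right, polar_sub_right, h1, h2', h3, h4]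
  simp

theorem polar_mp (e f e' f' : ι → F) (X : polar ⇑Q e e' = 0 ∧ polar ⇑Q e f' = 0 ∧
    polar ⇑Q f e' = 0 ∧ polar ⇑Q f f' = 0) : polar ⇑Q (e - f) (e' + f') = 0 := by
  obtain ⟨h1, h2', h3, h4⟩ := X
  rw [polar_sub_left, polar_add_right, polar_add_right, h1, h2', h3, h4]
  simp

theorem polar_mm (e f e' f' : ι → F) (X : polar ⇑Q e e' = 0 ∧ polar ⇑Q e f' = 0 ∧
    polar ⇑Q f e' = 0 ∧ polar ⇑Q f f' = 0) : polar ⇑Q (e - f) (e' - f') = 0 := by
  obtain ⟨h1, h2', h3, h4⟩ := X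
  rw [polar_sub_left, polar_sub_right, polar_sub_right, h1, h2', h3, h4]
  simp

variable (F₀ : Subfield F) (hrat : ∀ v : ι → F₀, Q (jV F₀ v) ∈ F₀)

include hrat in
theorem ratM_reflectionMatrix (v : ι → F) (hv : RatV F₀ v) :
    RatM F₀ (Cfsg.reflectionMatrix ⇑Q v) := by
  obtain ⟨v₀, rfl⟩ := exists_jV_of_ratV F₀ hv
  unfold Cfsg.reflectionMatrix
  exact ratM_sub (ratM_one F₀) (ratM_smul (F₀.inv_mem (hrat v₀))
    (Cfsg.Agent.Lib.Helper52.ratM_vecMulVec F₀ (ratV_jV F₀ v₀) (polarVec_jV_mem F₀ Q hrat v₀)))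

include hrat in
theorem ratM_reflList (vs : List (ι → F)) (hvs : ∀ v ∈ vs, Q v ≠ 0)
    (hr : ∀ v ∈ vs, RatV F₀ v) : RatM F₀ mt(reflList Q vs hvs) := by
  rw [coe_reflList]
  clear hvs
  induction vs with
  | nil =>
    rw [List.map_nil, List.prod_nil]
    exact ratM_one F₀
  | cons v vs ih =>
    rw [List.map_cons, List.prod_cons]
    exact ratM_mul (ratM_reflectionMatrix Q F₀ hrat v (hr v List.mem_cons_self))
      (ih (fun w hw => hr w (List.mem_cons_of_mem _ hw)))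

include hrat in
/-- The involution attached to a list of pairwise orthogonal rational vectors. -/
theorem reflList_invol (h2 : (2 : F) ≠ 0) (vs : List (ι → F)) (hvs : ∀ v ∈ vs, Q v ≠ 0)
    (hp : vs.Pairwise (fun v w => polar ⇑Q v w = 0)) (hr : ∀ v ∈ vs, RatV F₀ v)
    (heven : Even vs.length) (hsq : IsSquare (vs.map (fun v => Q v)).prod) :
    reflList Q vs hvs ∈ commutator ↥(Cfsg.isometryGroup F ⇑Q) ∧
      RatM F₀ mt(reflList Q vs hvs) ∧ reflList Q vs hvs * reflList Q vs hvs = 1 ∧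
      (∀ v ∈ vs, mt(reflList Q vs hvs).mulVec v = -v) ∧
      (∀ y : ι → F, (∀ v ∈ vs, polar ⇑Q v y = 0) → mt(reflList Q vs hvs).mulVec y = y) := by
  refine ⟨(reflList_mem_commutator_iff Q h2 vs hvs).mpr ⟨heven, hsq⟩,
    ratM_reflList Q F₀ hrat vs hvs hr, reflList_mul_self Q vs hvs hp, ?_, ?_⟩
  · intro v hv
    rw [coe_reflList]
    exact prod_refl_neg Q vs hvs hp v hv
  · intro y hy
    rw [coe_reflList]
    exact prod_refl_fixed Q vs y hy

end ReflLists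

section Invol

variable {ι : Type} [Fintype ι] [DecidableEq ι] {F : Type*} [Field F] [Fintype F]
variable (F₀ : Subfield F) (Q : QuadraticForm F (ι → F))
variable (hrat : ∀ v : ι → F₀, Q (jV F₀ v) ∈ F₀)

local notation "mt(" g ")" => ((g : Matrix.GeneralLinearGroup ι F) : Matrix ι ι F)

include hrat in
/-- `-1` on the span of two orthogonal rational hyperbolic pairs, `1` on its orthogonal
complement: a rational involution in `Ω`. -/
theorem exists_invol4 (h2 : (2 : F) ≠ 0) (hn : 5 ≤ Fintype.card ι) (e₁ f₁ e₂ f₂ : ι → F₀)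
    (he₁ : Q (jV F₀ e₁) = 0) (hf₁ : Q (jV F₀ f₁) = 0)
    (hef₁ : polar ⇑Q (jV F₀ e₁) (jV F₀ f₁) = 1)
    (he₂ : Q (jV F₀ e₂) = 0) (hf₂ : Q (jV F₀ f₂) = 0)
    (hef₂ : polar ⇑Q (jV F₀ e₂) (jV F₀ f₂) = 1)
    (h11 : polar ⇑Q (jV F₀ e₁) (jV F₀ e₂) = 0) (h12 : polar ⇑Q (jV F₀ e₁) (jV F₀ f₂) = 0)
    (h21 : polar ⇑Q (jV F₀ f₁) (jV F₀ e₂) = 0) (h22 : polar ⇑Q (jV F₀ f₁) (jV F₀ f₂) = 0) :
    ∃ a : ↥(Cfsg.isometryGroup F ⇑Q), a ∈ commutator ↥(Cfsg.isometryGroup F ⇑Q) ∧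
      RatM F₀ mt(a) ∧ a * a = 1 ∧ mt(a).mulVec (jV F₀ e₁) = -jV F₀ e₁ ∧
      mt(a).mulVec (jV F₀ f₁) = -jV F₀ f₁ ∧ mt(a).mulVec (jV F₀ e₂) = -jV F₀ e₂ ∧
      mt(a).mulVec (jV F₀ f₂) = -jV F₀ f₂ ∧
      ∀ y : ι → F, polar ⇑Q (jV F₀ e₁) y = 0 → polar ⇑Q (jV F₀ f₁) y = 0 →
        polar ⇑Q (jV F₀ e₂) y = 0 → polar ⇑Q (jV F₀ f₂) y = 0 → mt(a).mulVec y = y := by
  have hq1 := Q_hyp_add Q _ _ he₁ hf₁ hef₁
  have hq2 := Q_hyp_sub Q _ _ he₁ hf₁ hef₁
  have hq3 := Q_hyp_add Q _ _ he₂ hf₂ hef₂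
  have hq4 := Q_hyp_sub Q _ _ he₂ hf₂ hef₂
  have X12 : polar ⇑Q (jV F₀ e₁) (jV F₀ e₂) = 0 ∧ polar ⇑Q (jV F₀ e₁) (jV F₀ f₂) = 0 ∧
      polar ⇑Q (jV F₀ f₁) (jV F₀ e₂) = 0 ∧ polar ⇑Q (jV F₀ f₁) (jV F₀ f₂) = 0 :=
    ⟨h11, h12, h21, h22⟩
  have hvs : ∀ v ∈ [jV F₀ e₁ + jV F₀ f₁, jV F₀ e₁ - jV F₀ f₁, jV F₀ e₂ + jV F₀ f₂,
      jV F₀ e₂ - jV F₀ f₂], Q v ≠ 0 := by
    intro v hv
    simp only [List.mem_cons, List.not_mem_nil, or_false] at hv
    rcases hv with rfl | rfl | rfl | rfl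
    · rw [hq1]; exact one_ne_zero
    · rw [hq2]; exact neg_ne_zero.mpr one_ne_zero
    · rw [hq3]; exact one_ne_zero
    · rw [hq4]; exact neg_ne_zero.mpr one_ne_zero
  have hp : List.Pairwise (fun v w => polar ⇑Q v w = 0) [jV F₀ e₁ + jV F₀ f₁,
      jV F₀ e₁ - jV F₀ f₁, jV F₀ e₂ + jV F₀ f₂, jV F₀ e₂ - jV F₀ f₂] := by
    refine List.Pairwise.cons ?_ (List.Pairwise.cons ?_ (List.Pairwise.cons ?_
      (List.Pairwise.cons ?_ List.Pairwise.nil)))
    · intro w hw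
      simp only [List.mem_cons, List.not_mem_nil, or_false] at hw
      rcases hw with rfl | rfl | rfl
      · exact polar_self_pm Q _ _ he₁ hf₁
      · exact polar_pp Q _ _ _ _ X12
      · exact polar_pm Q _ _ _ _ X12
    · intro w hw
      simp only [List.mem_cons, List.not_mem_nil, or_false] at hw
      rcases hw with rfl | rfl
      · exact polar_mp Q _ _ _ _ X12
      · exact polar_mm Q _ _ _ _ X12
    · intro w hw
      simp only [List.mem_cons, List.not_mem_nil, or_false] at hw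
      subst hw
      exact polar_self_pm Q _ _ he₂ hf₂
    · intro w hw
      simp at hw
  have hr : ∀ v ∈ [jV F₀ e₁ + jV F₀ f₁, jV F₀ e₁ - jV F₀ f₁, jV F₀ e₂ + jV F₀ f₂,
      jV F₀ e₂ - jV F₀ f₂], RatV F₀ v := by
    intro v hv
    simp only [List.mem_cons, List.not_mem_nil, or_false] at hv
    rcases hv with rfl | rfl | rfl | rfl
    · exact ratV_add (ratV_jV F₀ _) (ratV_jV F₀ _)
    · exact ratV_sub (ratV_jV F₀ _) (ratV_jV F₀ _)
    · exact ratV_add (ratV_jV F₀ _) (ratV_jV F₀ _)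
    · exact ratV_sub (ratV_jV F₀ _) (ratV_jV F₀ _)
  have hsq : IsSquare ([jV F₀ e₁ + jV F₀ f₁, jV F₀ e₁ - jV F₀ f₁, jV F₀ e₂ + jV F₀ f₂,
      jV F₀ e₂ - jV F₀ f₂].map (fun v => Q v)).prod := by
    simp only [List.map_cons, List.map_nil, List.prod_cons, List.prod_nil, hq1, hq2, hq3, hq4]
    exact ⟨1, by ring⟩
  obtain ⟨hmem, hrat', hsqa, hneg, hfix⟩ := reflList_invol Q F₀ hrat h2 _ hvs hp hr ⟨2, rfl⟩ hsq
  have n1 := mulVec_neg_of_add_sub h2 _ _ _ (hneg _ (by simp)) (hneg (jV F₀ e₁ - jV F₀ f₁) (by simp))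
  have n2 := mulVec_neg_of_add_sub h2 _ _ _ (hneg (jV F₀ e₂ + jV F₀ f₂) (by simp))
    (hneg (jV F₀ e₂ - jV F₀ f₂) (by simp))
  refine ⟨_, hmem, hrat', hsqa, n1.1, n1.2, n2.1, n2.2, ?_⟩
  intro y y1 y2 y3 y4
  apply hfix
  intro v hv
  simp only [List.mem_cons, List.not_mem_nil, or_false] at hv
  rcases hv with rfl | rfl | rfl | rfl
  · rw [polar_add_left, y1, y2, add_zero]
  · rw [polar_sub_left, y1, y2, sub_zero]
  · rw [polar_add_left, y3, y4, add_zero]
  · rw [polar_sub_left, y3, y4, sub_zero]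

include hrat in
/-- A rational involution of `Ω` with a six-dimensional `-1`-eigenspace, together with rational
singular vectors in both eigenspaces; it is not conjugate to an isometry fixing the orthogonal
complement of four vectors. -/
theorem exists_invol6 (hQ : (polarBilin Q).Nondegenerate) (h2 : (2 : F) ≠ 0)
    (hn : 13 ≤ Fintype.card ι) :
    ∃ (b₀ : ↥(Cfsg.isometryGroup F ⇑Q)) (x₀ x₁ : ι → F₀) (S : Finset (ι → F₀)),
      b₀ ∈ commutator ↥(Cfsg.isometryGroup F ⇑Q) ∧ RatM F₀ mt(b₀) ∧ b₀ * b₀ = 1 ∧ x₀ ≠ 0 ∧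
      Q (jV F₀ x₀) = 0 ∧ mt(b₀).mulVec (jV F₀ x₀) = -jV F₀ x₀ ∧ x₁ ≠ 0 ∧ Q (jV F₀ x₁) = 0 ∧
      mt(b₀).mulVec (jV F₀ x₁) = jV F₀ x₁ ∧ S.card ≤ 6 ∧
      (∀ y : ι → F, (∀ s ∈ S, polar ⇑Q (jV F₀ s) y = 0) → mt(b₀).mulVec y = y) ∧
      ∀ (a k : ↥(Cfsg.isometryGroup F ⇑Q)) (T : Finset (ι → F)), T.card ≤ 4 →
        (∀ y : ι → F, (∀ t ∈ T, polar ⇑Q t y = 0) → mt(a).mulVec y = y) →
        b₀ ≠ k * a * k⁻¹ := by
  classical
  let _ : Fintype F₀ := Fintype.ofFinite F₀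
  have hQ0 := Q0_nondeg F₀ Q hrat hQ
  have r0 : finrank F₀ (radS (Q0 F₀ Q hrat) (∅ : Finset (ι → F₀))) ≤ 0 := by
    have h := finrank_radS_le (Q0 F₀ Q hrat) hQ0 ∅
    rwa [Finset.card_empty] at h
  obtain ⟨d1, d1', a1, a1', q1, q1', p1, r1⟩ :=
    hyp_step (Q0 F₀ Q hrat) hQ0 ∅ 0 r0 (by rw [Finset.card_empty]; omega)
  have c1 := card_insert_insert_le (∅ : Finset (ι → F₀)) d1 d1'
  rw [Finset.card_empty] at c1
  obtain ⟨d2, d2', a2, a2', q2, q2', p2, r2⟩ :=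
    hyp_step (Q0 F₀ Q hrat) hQ0 _ 0 r1 (by omega)
  have c2 := card_insert_insert_le (insert d1 (insert d1' (∅ : Finset (ι → F₀)))) d2 d2'
  obtain ⟨d3, d3', a3, a3', q3, q3', p3, r3⟩ :=
    hyp_step (Q0 F₀ Q hrat) hQ0 _ 0 r2 (by omega)
  have c3 := card_insert_insert_le
    (insert d2 (insert d2' (insert d1 (insert d1' (∅ : Finset (ι → F₀)))))) d3 d3'
  obtain ⟨d4, d4', a4, a4', q4, q4', p4, r4⟩ :=
    hyp_step (Q0 F₀ Q hrat) hQ0 _ 0 r3 (by omega)
  have c4 := card_insert_insert_le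
    (insert d3 (insert d3' (insert d2 (insert d2' (insert d1 (insert d1'
      (∅ : Finset (ι → F₀)))))))) d4 d4'
  obtain ⟨d5, d5', a5, a5', q5, q5', p5, -⟩ :=
    hyp_step (Q0 F₀ Q hrat) hQ0 _ 0 r4 (by omega)
  rw [mem_perpS] at a2 a2' a3 a3' a4 a4' a5
  have T : ∀ s x : ι → F₀, polar ⇑(Q0 F₀ Q hrat) s x = 0 →
      polar ⇑Q (jV F₀ s) (jV F₀ x) = 0 :=
    fun s x h => (polar_Q0_eq_zero_iff F₀ Q hrat s x).mp h
  -- the hyperbolic pairs over `F`
  have e1 : Q (jV F₀ d1) = 0 := (Q0_eq_zero_iff F₀ Q hrat d1).mp q1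
  have f1 : Q (jV F₀ d1') = 0 := (Q0_eq_zero_iff F₀ Q hrat d1').mp q1'
  have g1 : polar ⇑Q (jV F₀ d1) (jV F₀ d1') = 1 := (polar_Q0_eq_one_iff F₀ Q hrat d1 d1').mp p1
  have e2 : Q (jV F₀ d2) = 0 := (Q0_eq_zero_iff F₀ Q hrat d2).mp q2
  have f2 : Q (jV F₀ d2') = 0 := (Q0_eq_zero_iff F₀ Q hrat d2').mp q2'
  have g2 : polar ⇑Q (jV F₀ d2) (jV F₀ d2') = 1 := (polar_Q0_eq_one_iff F₀ Q hrat d2 d2').mp p2
  have e3 : Q (jV F₀ d3) = 0 := (Q0_eq_zero_iff F₀ Q hrat d3).mp q3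
  have f3 : Q (jV F₀ d3') = 0 := (Q0_eq_zero_iff F₀ Q hrat d3').mp q3'
  have g3 : polar ⇑Q (jV F₀ d3) (jV F₀ d3') = 1 := (polar_Q0_eq_one_iff F₀ Q hrat d3 d3').mp p3
  have e4 : Q (jV F₀ d4) = 0 := (Q0_eq_zero_iff F₀ Q hrat d4).mp q4
  have f4 : Q (jV F₀ d4') = 0 := (Q0_eq_zero_iff F₀ Q hrat d4').mp q4'
  have g4 : polar ⇑Q (jV F₀ d4) (jV F₀ d4') = 1 := (polar_Q0_eq_one_iff F₀ Q hrat d4 d4').mp p4
  have e5 : Q (jV F₀ d5) = 0 := (Q0_eq_zero_iff F₀ Q hrat d5).mp q5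
  -- cross relations
  have X12 : polar ⇑Q (jV F₀ d1) (jV F₀ d2) = 0 ∧ polar ⇑Q (jV F₀ d1) (jV F₀ d2') = 0 ∧
      polar ⇑Q (jV F₀ d1') (jV F₀ d2) = 0 ∧ polar ⇑Q (jV F₀ d1') (jV F₀ d2') = 0 :=
    ⟨T _ _ (a2 d1 (by simp)), T _ _ (a2' d1 (by simp)), T _ _ (a2 d1' (by simp)),
      T _ _ (a2' d1' (by simp))⟩
  have X13 : polar ⇑Q (jV F₀ d1) (jV F₀ d3) = 0 ∧ polar ⇑Q (jV F₀ d1) (jV F₀ d3') = 0 ∧
      polar ⇑Q (jV F₀ d1') (jV F₀ d3) = 0 ∧ polar ⇑Q (jV F₀ d1') (jV F₀ d3') = 0 :=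
    ⟨T _ _ (a3 d1 (by simp)), T _ _ (a3' d1 (by simp)), T _ _ (a3 d1' (by simp)),
      T _ _ (a3' d1' (by simp))⟩
  have X23 : polar ⇑Q (jV F₀ d2) (jV F₀ d3) = 0 ∧ polar ⇑Q (jV F₀ d2) (jV F₀ d3') = 0 ∧
      polar ⇑Q (jV F₀ d2') (jV F₀ d3) = 0 ∧ polar ⇑Q (jV F₀ d2') (jV F₀ d3') = 0 :=
    ⟨T _ _ (a3 d2 (by simp)), T _ _ (a3' d2 (by simp)), T _ _ (a3 d2' (by simp)),
      T _ _ (a3' d2' (by simp))⟩
  have X14 : polar ⇑Q (jV F₀ d1) (jV F₀ d4) = 0 ∧ polar ⇑Q (jV F₀ d1) (jV F₀ d4') = 0 ∧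
      polar ⇑Q (jV F₀ d1') (jV F₀ d4) = 0 ∧ polar ⇑Q (jV F₀ d1') (jV F₀ d4') = 0 :=
    ⟨T _ _ (a4 d1 (by simp)), T _ _ (a4' d1 (by simp)), T _ _ (a4 d1' (by simp)),
      T _ _ (a4' d1' (by simp))⟩
  have X24 : polar ⇑Q (jV F₀ d2) (jV F₀ d4) = 0 ∧ polar ⇑Q (jV F₀ d2) (jV F₀ d4') = 0 ∧
      polar ⇑Q (jV F₀ d2') (jV F₀ d4) = 0 ∧ polar ⇑Q (jV F₀ d2') (jV F₀ d4') = 0 :=
    ⟨T _ _ (a4 d2 (by simp)), T _ _ (a4' d2 (by simp)), T _ _ (a4 d2' (by simp)),
      T _ _ (a4' d2' (by simp))⟩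
  have X34 : polar ⇑Q (jV F₀ d3) (jV F₀ d4) = 0 ∧ polar ⇑Q (jV F₀ d3) (jV F₀ d4') = 0 ∧
      polar ⇑Q (jV F₀ d3') (jV F₀ d4) = 0 ∧ polar ⇑Q (jV F₀ d3') (jV F₀ d4') = 0 :=
    ⟨T _ _ (a4 d3 (by simp)), T _ _ (a4' d3 (by simp)), T _ _ (a4 d3' (by simp)),
      T _ _ (a4' d3' (by simp))⟩
  have hq1 := Q_hyp_add Q _ _ e1 f1 g1
  have hq2 := Q_hyp_sub Q _ _ e1 f1 g1
  have hq3 := Q_hyp_add Q _ _ e2 f2 g2
  have hq4 := Q_hyp_sub Q _ _ e2 f2 g2
  have hq5 := Q_hyp_add Q _ _ e3 f3 g3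
  have hq6 := Q_hyp_add Q _ _ e4 f4 g4
  have hvs : ∀ v ∈ [jV F₀ d1 + jV F₀ d1', jV F₀ d1 - jV F₀ d1', jV F₀ d2 + jV F₀ d2',
      jV F₀ d2 - jV F₀ d2', jV F₀ d3 + jV F₀ d3', jV F₀ d4 + jV F₀ d4'], Q v ≠ 0 := by
    intro v hv
    simp only [List.mem_cons, List.not_mem_nil, or_false] at hv
    rcases hv with rfl | rfl | rfl | rfl | rfl | rfl
    · rw [hq1]; exact one_ne_zero
    · rw [hq2]; exact neg_ne_zero.mpr one_ne_zero
    · rw [hq3]; exact one_ne_zero
    · rw [hq4]; exact neg_ne_zero.mpr one_ne_zero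
    · rw [hq5]; exact one_ne_zero
    · rw [hq6]; exact one_ne_zero
  have hp : List.Pairwise (fun v w => polar ⇑Q v w = 0) [jV F₀ d1 + jV F₀ d1',
      jV F₀ d1 - jV F₀ d1', jV F₀ d2 + jV F₀ d2', jV F₀ d2 - jV F₀ d2', jV F₀ d3 + jV F₀ d3',
      jV F₀ d4 + jV F₀ d4'] := by
    refine List.Pairwise.cons ?_ (List.Pairwise.cons ?_ (List.Pairwise.cons ?_
      (List.Pairwise.cons ?_ (List.Pairwise.cons ?_ (List.Pairwise.cons ?_
        List.Pairwise.nil)))))
    · intro w hw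
      simp only [List.mem_cons, List.not_mem_nil, or_false] at hw
      rcases hw with rfl | rfl | rfl | rfl | rfl
      · exact polar_self_pm Q _ _ e1 f1
      · exact polar_pp Q _ _ _ _ X12
      · exact polar_pm Q _ _ _ _ X12
      · exact polar_pp Q _ _ _ _ X13
      · exact polar_pp Q _ _ _ _ X14
    · intro w hw
      simp only [List.mem_cons, List.not_mem_nil, or_false] at hw
      rcases hw with rfl | rfl | rfl | rfl
      · exact polar_mp Q _ _ _ _ X12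
      · exact polar_mm Q _ _ _ _ X12
      · exact polar_mp Q _ _ _ _ X13
      · exact polar_mp Q _ _ _ _ X14
    · intro w hw
      simp only [List.mem_cons, List.not_mem_nil, or_false] at hw
      rcases hw with rfl | rfl | rfl
      · exact polar_self_pm Q _ _ e2 f2
      · exact polar_pp Q _ _ _ _ X23
      · exact polar_pp Q _ _ _ _ X24
    · intro w hw
      simp only [List.mem_cons, List.not_mem_nil, or_false] at hw
      rcases hw with rfl | rfl
      · exact polar_mp Q _ _ _ _ X23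
      · exact polar_mp Q _ _ _ _ X24
    · intro w hw
      simp only [List.mem_cons, List.not_mem_nil, or_false] at hw
      subst hw
      exact polar_pp Q _ _ _ _ X34
    · intro w hw
      simp at hw
  have hr : ∀ v ∈ [jV F₀ d1 + jV F₀ d1', jV F₀ d1 - jV F₀ d1', jV F₀ d2 + jV F₀ d2',
      jV F₀ d2 - jV F₀ d2', jV F₀ d3 + jV F₀ d3', jV F₀ d4 + jV F₀ d4'], RatV F₀ v := by
    intro v hv
    simp only [List.mem_cons, List.not_mem_nil, or_false] at hv
    rcases hv with rfl | rfl | rfl | rfl | rfl | rfl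
    · exact ratV_add (ratV_jV F₀ _) (ratV_jV F₀ _)
    · exact ratV_sub (ratV_jV F₀ _) (ratV_jV F₀ _)
    · exact ratV_add (ratV_jV F₀ _) (ratV_jV F₀ _)
    · exact ratV_sub (ratV_jV F₀ _) (ratV_jV F₀ _)
    · exact ratV_add (ratV_jV F₀ _) (ratV_jV F₀ _)
    · exact ratV_add (ratV_jV F₀ _) (ratV_jV F₀ _)
  have hsq : IsSquare ([jV F₀ d1 + jV F₀ d1', jV F₀ d1 - jV F₀ d1', jV F₀ d2 + jV F₀ d2',
      jV F₀ d2 - jV F₀ d2', jV F₀ d3 + jV F₀ d3', jV F₀ d4 + jV F₀ d4'].map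
      (fun v => Q v)).prod := by
    simp only [List.map_cons, List.map_nil, List.prod_cons, List.prod_nil, hq1, hq2, hq3, hq4,
      hq5, hq6]
    exact ⟨1, by ring⟩
  obtain ⟨hmem, hrat', hsqa, hneg, hfix⟩ :=
    reflList_invol Q F₀ hrat h2 _ hvs hp hr ⟨3, rfl⟩ hsq
  have n1 := mulVec_neg_of_add_sub h2 _ _ _ (hneg (jV F₀ d1 + jV F₀ d1') (by simp))
    (hneg (jV F₀ d1 - jV F₀ d1') (by simp))
  have hd1 : d1 ≠ 0 := by
    rintro rfl
    rw [polar_zero_left] at p1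
    exact zero_ne_one p1
  have hd5 : d5 ≠ 0 := by
    rintro rfl
    rw [polar_zero_left] at p5
    exact zero_ne_one p5
  have hfix5 : ((reflList Q _ hvs : ↥(Cfsg.isometryGroup F ⇑Q)) :
      Matrix.GeneralLinearGroup ι F).1.mulVec (jV F₀ d5) = jV F₀ d5 := by
    apply hfix
    intro v hv
    simp only [List.mem_cons, List.not_mem_nil, or_false] at hv
    rcases hv with rfl | rfl | rfl | rfl | rfl | rfl
    · rw [polar_add_left, T _ _ (a5 d1 (by simp)), T _ _ (a5 d1' (by simp)), add_zero]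
    · rw [polar_sub_left, T _ _ (a5 d1 (by simp)), T _ _ (a5 d1' (by simp)), sub_zero]
    · rw [polar_add_left, T _ _ (a5 d2 (by simp)), T _ _ (a5 d2' (by simp)), add_zero]
    · rw [polar_sub_left, T _ _ (a5 d2 (by simp)), T _ _ (a5 d2' (by simp)), sub_zero]
    · rw [polar_add_left, T _ _ (a5 d3 (by simp)), T _ _ (a5 d3' (by simp)), add_zero]
    · rw [polar_add_left, T _ _ (a5 d4 (by simp)), T _ _ (a5 d4' (by simp)), add_zero]
  refine ⟨reflList Q _ hvs, d1, d5,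
    {d1 + d1', d1 - d1', d2 + d2', d2 - d2', d3 + d3', d4 + d4'}, hmem, hrat', hsqa, hd1, e1,
    n1.1, hd5, e5, hfix5, Finset.card_le_six, ?_, ?_⟩
  · intro y hy
    apply hfix
    intro v hv
    simp only [List.mem_cons, List.not_mem_nil, or_false] at hv
    rcases hv with rfl | rfl | rfl | rfl | rfl | rfl
    · exact hy (d1 + d1') (by simp)
    · exact hy (d1 - d1') (by simp)
    · exact hy (d2 + d2') (by simp)
    · exact hy (d2 - d2') (by simp)
    · exact hy (d3 + d3') (by simp)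
    · exact hy (d4 + d4') (by simp)
  · intro a k Tset hT hfixT hconj
    have hPdim := finrank_perpS_ge Q hQ Tset
    have hinj : Function.Injective (Matrix.mulVecLin mt(k)) := by
      intro x y hxy
      rw [Matrix.mulVecLin_apply, Matrix.mulVecLin_apply] at hxy
      have h3 := congrArg (fun z => mt((k⁻¹ : ↥(Cfsg.isometryGroup F ⇑Q))).mulVec z) hxy
      simp only [coe_inv_mulVec'] at h3
      exact h3
    have hdim' : finrank F ((perpS Q Tset).map (Matrix.mulVecLin mt(k))) =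
        finrank F (perpS Q Tset) :=
      (Submodule.equivMapOfInjective (Matrix.mulVecLin mt(k)) hinj (perpS Q Tset)).finrank_eq.symm
    have hfix' : ∀ y ∈ (perpS Q Tset).map (Matrix.mulVecLin mt(k)),
        ((reflList Q _ hvs : ↥(Cfsg.isometryGroup F ⇑Q)) :
          Matrix.GeneralLinearGroup ι F).1.mulVec y = y := by
      rintro _ ⟨x, hx, rfl⟩
      rw [hconj, coe_mul', coe_mul', ← Matrix.mulVec_mulVec, ← Matrix.mulVec_mulVec,
        Matrix.mulVecLin_apply, coe_inv_mulVec', hfixT x ((mem_perpS Q Tset x).mp hx)]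
    have hfin := finrank_fixed_add_length_le Q h2 _ hvs hp _ hfix'
    simp only [List.length_cons, List.length_nil] at hfin
    omega

end Invol

end Cfsg.Agent.Lib.Helper96
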