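import Mathlib
import Cfsg.Agent.Lib.Helper96.SubfBase

/-!
Overgroups of rational orthogonal groups: elements stabilising a rational totally singular
subspace (helper96).

`HypZ` and `HypFix` are the two basic properties of an overgroup `M` with only rational long
root elements: Eichler elements of `M` at rational singular vectors have rational direction, and
an element of `M` mapping a rational singular point to a rational point is a scalar multiple of
a rational matrix.  From them `ts_mem_H1`: an element of `M` stabilising a totally singular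
subspace spanned by at least two rational vectors is a scalar multiple of a rational matrix.
-/

set_option autoImplicit false
set_option linter.unusedSectionVars false

namespace Cfsg.Agent.Lib.Helper96

open Module QuadraticMap
open Cfsg.Agent.Lib.Helper51 Cfsg.Agent.Lib.Helper52
open Cfsg.Agent.Lib.Helper50 (RatV RatM H1 ratV_add ratV_sub ratV_neg ratV_smul ratV_single)

section TS

variable {ι : Type} [Fintype ι] [DecidableEq ι] {F : Type*} [Field F]
variable (Q : QuadraticForm F (ι → F))

local notation "mt(" g ")" => ((g : Matrix.GeneralLinearGroup ι F) : Matrix ι ι F)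

/-- Eichler elements of `M` at rational singular vectors have rational direction modulo the
centre. -/
def HypZ (F₀ : Subfield F) (M : Subgroup ↥(Cfsg.isometryGroup F ⇑Q)) : Prop :=
  ∀ u x : ι → F, RatV F₀ u → u ≠ 0 → InM Q M u x → ∃ c : F, RatV F₀ (x - c • u)

/-- An element of `M` mapping a rational singular point to a rational point is a scalar multiple
of a rational matrix. -/
def HypFix (F₀ : Subfield F) (M : Subgroup ↥(Cfsg.isometryGroup F ⇑Q)) : Prop :=
  ∀ m ∈ M, ∀ u : ι → F, RatV F₀ u → u ≠ 0 → Q u = 0 →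
    (∃ c : F, c ≠ 0 ∧ RatV F₀ (c • mt(m).mulVec u)) →
    (m : Matrix.GeneralLinearGroup ι F) ∈ H1 ι F₀

variable {Q}

/-- An element of `M` stabilising a totally singular subspace spanned by rational vectors
`u k` (with a rational dual family `u' k`), at least two of them, is a scalar multiple of a
rational matrix. -/
theorem ts_mem_H1 [Fintype F] (hQ : (polarBilin Q).Nondegenerate) {F₀ : Subfield F}
    (hrat : RatQ Q F₀) {M : Subgroup ↥(Cfsg.isometryGroup F ⇑Q)} (hH : ContainsRat Q F₀ M)
    (hZ : HypZ Q F₀ M) (hFIX : HypFix Q F₀ M)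
    {κ : Type*} [Fintype κ] [DecidableEq κ] (u u' : κ → ι → F)
    (hu : ∀ k, RatV F₀ (u k)) (hu' : ∀ k, RatV F₀ (u' k)) (hQu : ∀ k, Q (u k) = 0)
    (horth : ∀ k l, polar ⇑Q (u k) (u l) = 0)
    (hdual : ∀ k l, polar ⇑Q (u k) (u' l) = if k = l then 1 else 0)
    (hcard : 2 * Fintype.card κ + 3 ≤ Fintype.card ι) (k₁ k₂ : κ) (hk : k₁ ≠ k₂)
    (g : ↥(Cfsg.isometryGroup F ⇑Q)) (hg : g ∈ M)
    (hgu : mt(g).mulVec (u k₁) ∈ Submodule.span F (Set.range u))
    (hginv : ∀ k, mt((g⁻¹ : ↥(Cfsg.isometryGroup F ⇑Q))).mulVec (u k) ∈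
      Submodule.span F (Set.range u)) :
    (g : Matrix.GeneralLinearGroup ι F) ∈ H1 ι F₀ := by
  classical
  have hκ : 1 < Fintype.card κ := Fintype.one_lt_card_iff.mpr ⟨k₁, k₂, hk⟩
  have hn : 5 ≤ Fintype.card ι := by omega
  set U := Submodule.span F (Set.range u) with hU
  have hUorth : ∀ x ∈ U, ∀ y, (∀ k, polar ⇑Q (u k) y = 0) → polar ⇑Q x y = 0 := by
    intro x hx y hy
    apply polar_eq_zero_of_mem_span hx
    rintro _ ⟨k, rfl⟩
    exact hy k
  -- a rational singular vector orthogonal to the `u k` and the `u' k`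
  obtain ⟨t, htr, ht0, hQt, htorth⟩ := exists_rat_singular_orth hQ hrat
    (Finset.univ.image u ∪ Finset.univ.image u') (by
      intro s hs
      rw [Finset.mem_union, Finset.mem_image, Finset.mem_image] at hs
      rcases hs with ⟨k, -, rfl⟩ | ⟨k, -, rfl⟩
      · exact hu k
      · exact hu' k) (by
      have h1 : (Finset.univ.image u ∪ Finset.univ.image u').card ≤
          Fintype.card κ + Fintype.card κ :=
        (Finset.card_union_le _ _).trans (add_le_add Finset.card_image_le Finset.card_image_le)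
      omega)
  have htu : ∀ k, polar ⇑Q (u k) t = 0 := fun k =>
    htorth _ (Finset.mem_union_left _ (Finset.mem_image_of_mem u (Finset.mem_univ k)))
  have htu' : ∀ k, polar ⇑Q (u' k) t = 0 := fun k =>
    htorth _ (Finset.mem_union_right _ (Finset.mem_image_of_mem u' (Finset.mem_univ k)))
  have hginvU : ∀ x ∈ U, mt((g⁻¹ : ↥(Cfsg.isometryGroup F ⇑Q))).mulVec x ∈ U := by
    intro x hx
    induction hx using Submodule.span_induction with
    | mem s hs => obtain ⟨k, rfl⟩ := hs; exact hginv k
    | zero => rw [Matrix.mulVec_zero]; exact U.zero_mem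
    | add a b _ _ ha hb => rw [Matrix.mulVec_add]; exact U.add_mem ha hb
    | smul c a _ ha => rw [Matrix.mulVec_smul]; exact U.smul_mem c ha
  obtain ⟨gt, hgt⟩ : ∃ gt, gt = mt(g).mulVec t := ⟨_, rfl⟩
  have hgtU : gt ∉ U := by
    intro hmem
    have h1 := hginvU gt hmem
    rw [hgt, coe_inv_mulVec'] at h1
    obtain ⟨c, hc⟩ := (Submodule.mem_span_range_iff_exists_fun F).mp h1
    apply ht0
    have hc0 : ∀ l, c l = 0 := by
      intro l
      have h2 : polar ⇑Q t (u' l) = c l := by
        rw [← hc, polar_sum_smul_left, Finset.sum_eq_single l]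
        · rw [hdual, if_pos rfl, mul_one]
        · intro k _ hkl
          rw [hdual, if_neg hkl, mul_zero]
        · intro h
          exact absurd (Finset.mem_univ l) h
      rw [← h2, polar_comm]
      exact htu' l
    rw [← hc]
    apply Finset.sum_eq_zero
    intro k _
    rw [hc0 k, zero_smul]
  have hugt : ∀ k, polar ⇑Q (u k) gt = 0 := by
    intro k
    have h1 : polar ⇑Q (mt((g⁻¹ : ↥(Cfsg.isometryGroup F ⇑Q))).mulVec (u k)) t = 0 :=
      hUorth _ (hginv k) t htu
    rw [← isometry_polar Q g, coe_inv_mulVec] at h1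
    rw [hgt]
    exact h1
  -- a rational vector orthogonal to the `u k` and not to `g t`
  obtain ⟨s, hsr, hsu, hsgt⟩ : ∃ s, RatV F₀ s ∧ (∀ k, polar ⇑Q (u k) s = 0) ∧
      polar ⇑Q s gt ≠ 0 := by
    by_contra hcon
    push Not at hcon
    apply hgtU
    have key : gt = ∑ k, polar ⇑Q (u' k) gt • u k := by
      rw [← sub_eq_zero]
      apply eq_zero_of_polar_single Q hQ
      intro i
      obtain ⟨e, he⟩ : ∃ e : ι → F, e = Pi.single i 1 := ⟨_, rfl⟩
      have her : RatV F₀ e := by rw [he]; exact ratV_single F₀ i F₀.one_mem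
      rw [← he]
      obtain ⟨s, hs⟩ : ∃ s : ι → F, s = e - ∑ k, polar ⇑Q e (u k) • u' k := ⟨_, rfl⟩
      have hsr : RatV F₀ s := by
        rw [hs]
        exact ratV_sub her (ratV_sum _ _ (fun k _ => ratV_smul (hrat.polar her (hu k)) (hu' k)))
      have hsu : ∀ l, polar ⇑Q (u l) s = 0 := by
        intro l
        rw [hs, polar_sub_right, polar_sum_smul_right, Finset.sum_eq_single l]
        · rw [hdual, if_pos rfl, mul_one, polar_comm ⇑Q (u l) e, sub_self]
        · intro k _ hkl
          rw [hdual, if_neg (Ne.symm hkl), mul_zero]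
        · intro h
          exact absurd (Finset.mem_univ l) h
      have h1 := hcon s hsr hsu
      rw [hs, polar_sub_left, polar_sum_smul_left, sub_eq_zero] at h1
      rw [polar_sub_left, polar_sum_smul_left, polar_comm ⇑Q gt e, h1, sub_eq_zero]
      apply Finset.sum_congr rfl
      intro k _
      rw [mul_comm, polar_comm ⇑Q e (u k)]
    rw [key]
    exact U.sum_mem (fun k _ => U.smul_mem _ (Submodule.subset_span ⟨k, rfl⟩))
  obtain ⟨c, hcdef⟩ : ∃ c, c = polar ⇑Q s gt := ⟨_, rfl⟩
  have hc : c ≠ 0 := by rw [hcdef]; exact hsgt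
  obtain ⟨x, hx⟩ : ∃ x, x = mt(g).mulVec (u k₁) := ⟨_, rfl⟩
  have hxU : x ∈ U := by rw [hx]; exact hgu
  have h0 : InM Q M (u k₁) t := inM_rat hQ hn hrat hH (hu k₁) htr (hQu k₁) (htu k₁)
  have h1 : InM Q M x gt := by
    rw [hx, hgt]
    exact h0.conj hg
  have hk0 : ∀ k, u k ≠ 0 := by
    intro k h
    have := hdual k k
    rw [if_pos rfl, h, polar_zero_left] at this
    exact zero_ne_one this
  have hmain : ∀ k, ∃ μ : F, RatV F₀ (c • (-x) - μ • u k) := by
    intro k
    obtain ⟨hQk, hks, hm⟩ := inM_rat hQ hn hrat hH (hu k) hsr (hQu k) (hsu k)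
    have h2 := h1.conj hm
    rw [coe_eich] at h2
    have e1 : (eichMat Q (u k) s).mulVec x = x := by
      apply eichMat_mulVec_of_orth
      · rw [polar_comm]
        exact hUorth x hxU s hsu
      · rw [polar_comm]
        exact hUorth x hxU (u k) (fun l => horth l k)
    have e2 : (eichMat Q (u k) s).mulVec gt = gt + c • u k := by
      rw [eichMat_mulVec, hugt k, ← hcdef]
      simp
    rw [e1, e2] at h2
    have h3 := h2.sub h1
    rw [add_sub_cancel_left] at h3
    have h4 := h3.swap (by rw [QuadraticMap.map_smul, hQk, smul_zero])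
    have h5 := h4.smul_left hQk
    exact hZ (u k) _ (hu k) (hk0 k) h5
  obtain ⟨μ₁, h1r⟩ := hmain k₁
  obtain ⟨μ₂, h2r⟩ := hmain k₂
  have hμ : μ₁ ∈ F₀ := by
    have h3 : RatV F₀ (μ₁ • u k₁ - μ₂ • u k₂) := by
      have := ratV_sub h2r h1r
      have e : c • -x - μ₂ • u k₂ - (c • -x - μ₁ • u k₁) = μ₁ • u k₁ - μ₂ • u k₂ := by abel
      rwa [e] at this
    have h4 := hrat.polar h3 (hu' k₁)
    rw [polar_sub_left, polar_smul_left, polar_smul_left, hdual, hdual, if_pos rfl,
      if_neg (Ne.symm hk)] at h4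
    simpa using h4
  have hcx : RatV F₀ (c • x) := by
    have h3 := ratV_neg (ratV_add h1r (ratV_smul hμ (hu k₁)))
    have e : -(c • -x - μ₁ • u k₁ + μ₁ • u k₁) = c • x := by
      rw [smul_neg]; abel
    rwa [e] at h3
  rw [hx] at hcx
  exact hFIX g hg (u k₁) (hu k₁) (hk0 k₁) (hQu k₁) ⟨c, hc, hcx⟩

end TS

end Cfsg.Agent.Lib.Helper96
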