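import Mathlib
import Cfsg.Agent.Lib.Helper96.SubfTS

/-!
Rational involutions of an orthogonal group in characteristic two (helper96).

For an involution `z` of the isometry group in characteristic two, the image `U` of `z - 1` is
totally isotropic for the polar form and `Q` is additive on it.  If `z` is a rational matrix,
the singular vectors of `U` are spanned by rational singular vectors of `U` (`sing_mem_span`).
-/

set_option autoImplicit false
set_option linter.unusedSectionVars false

namespace Cfsg.Agent.Lib.Helper96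

open Module QuadraticMap
open Cfsg.Agent.Lib.Helper51 Cfsg.Agent.Lib.Helper52
open Cfsg.Agent.Lib.Helper50 (RatV RatM H1 ratV_add ratV_sub ratV_neg ratV_smul ratV_single)

section Sing

variable {ι : Type} [Fintype ι] [DecidableEq ι] {F : Type*} [Field F]
variable {Q : QuadraticForm F (ι → F)}

local notation "mt(" g ")" => ((g : Matrix.GeneralLinearGroup ι F) : Matrix ι ι F)

theorem sum_sq_char_two (h2 : (2 : F) = 0) {κ : Type*} (s : Finset κ) (f : κ → F) :
    (∑ i ∈ s, f i) ^ 2 = ∑ i ∈ s, f i ^ 2 := by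
  classical
  induction s using Finset.induction_on with
  | empty => simp
  | insert a s ha ih =>
    rw [Finset.sum_insert ha, Finset.sum_insert ha, add_sq, ih]
    linear_combination (f a * ∑ i ∈ s, f i) * h2

/-- `Q` of a combination of pairwise orthogonal vectors. -/
theorem Q_sum_orth {κ : Type*} (s : Finset κ) (c : κ → F) (x : κ → ι → F)
    (h : ∀ i j, i ≠ j → polar ⇑Q (x i) (x j) = 0) :
    Q (∑ i ∈ s, c i • x i) = ∑ i ∈ s, c i ^ 2 * Q (x i) := by
  classical
  induction s using Finset.induction_on with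
  | empty => simp
  | insert a s ha ih =>
    rw [Finset.sum_insert ha, Finset.sum_insert ha]
    have h1 : Q (c a • x a + ∑ i ∈ s, c i • x i) = Q (c a • x a) + Q (∑ i ∈ s, c i • x i)
        + polar ⇑Q (c a • x a) (∑ i ∈ s, c i • x i) := by
      unfold QuadraticMap.polar; ring
    have h2 : polar ⇑Q (c a • x a) (∑ i ∈ s, c i • x i) = 0 := by
      rw [polar_sum_smul_right]
      apply Finset.sum_eq_zero
      intro i hi
      have hne : a ≠ i := by
        rintro rfl
        exact ha hi
      rw [polar_smul_left, h a i hne, smul_zero, mul_zero]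
    rw [h1, h2, ih, QuadraticMap.map_smul, add_zero, smul_eq_mul]
    ring

theorem invol_mat_sq (z : ↥(Cfsg.isometryGroup F ⇑Q)) (hzz : z * z = 1) :
    mt(z) * mt(z) = 1 := by
  rw [← coe_mul', hzz]
  rfl

/-- In characteristic two, `(z - 1)^2 = 0` for an involution `z`. -/
theorem invol_sub_one_sq (h2 : (2 : F) = 0) (z : ↥(Cfsg.isometryGroup F ⇑Q)) (hzz : z * z = 1) :
    (mt(z) - 1) * (mt(z) - 1) = 0 := by
  have h1 : (mt(z) - 1) * (mt(z) - 1) = mt(z) * mt(z) - (2 : F) • mt(z) + 1 := by
    rw [two_smul]; noncomm_ring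
  have h3 : (1 : Matrix ι ι F) + 1 = (2 : F) • (1 : Matrix ι ι F) := by rw [two_smul]
  rw [h1, invol_mat_sq z hzz, h2, zero_smul, sub_zero, h3, h2, zero_smul]

/-- `f((z-1)v, y) = f(v, (z-1)y)` for an involution `z`. -/
theorem polar_invol_sub_one (z : ↥(Cfsg.isometryGroup F ⇑Q)) (hzz : z * z = 1) (v y : ι → F) :
    polar ⇑Q ((mt(z) - 1).mulVec v) y = polar ⇑Q v ((mt(z) - 1).mulVec y) := by
  rw [Matrix.sub_mulVec, Matrix.sub_mulVec, Matrix.one_mulVec, Matrix.one_mulVec,
    polar_sub_left, polar_sub_right]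
  congr 1
  have h1 := isometry_polar Q z v (mt(z).mulVec y)
  rw [Matrix.mulVec_mulVec, invol_mat_sq z hzz, Matrix.one_mulVec] at h1
  exact h1

/-- The image of `z - 1` is totally isotropic. -/
theorem polar_invol_range (h2 : (2 : F) = 0) (z : ↥(Cfsg.isometryGroup F ⇑Q)) (hzz : z * z = 1)
    (v v' : ι → F) :
    polar ⇑Q ((mt(z) - 1).mulVec v) ((mt(z) - 1).mulVec v') = 0 := by
  rw [polar_invol_sub_one z hzz, Matrix.mulVec_mulVec, invol_sub_one_sq h2 z hzz,
    Matrix.zero_mulVec, polar_zero_right]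

theorem mulVec_eq_sum_single (A : Matrix ι ι F) (v : ι → F) :
    A.mulVec v = ∑ i, v i • A.mulVec (Pi.single i 1) := by
  conv_lhs => rw [pi_eq_sum_univ' v]
  rw [Matrix.mulVec_sum]
  apply Finset.sum_congr rfl
  intro i _
  rw [Matrix.mulVec_smul]

/-- The singular vectors in the image of `z - 1`, for a rational involution `z` in
characteristic two, are combinations of rational singular vectors in the image. -/
theorem sing_mem_span [Fintype F] (h2 : (2 : F) = 0) {F₀ : Subfield F} (hrat : RatQ Q F₀)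
    (z : ↥(Cfsg.isometryGroup F ⇑Q)) (hzz : z * z = 1) (hzr : RatM F₀ mt(z))
    (x : ι → F) (hx : x ∈ LinearMap.range (mt(z) - 1).mulVecLin) (hQx : Q x = 0) :
    x ∈ Submodule.span F {y | RatV F₀ y ∧ y ∈ LinearMap.range (mt(z) - 1).mulVecLin ∧
      Q y = 0} := by
  classical
  obtain ⟨v, rfl⟩ := hx
  rw [Matrix.mulVecLin_apply] at hQx ⊢
  obtain ⟨col, hcol⟩ : ∃ col : ι → ι → F, col = fun i => (mt(z) - 1).mulVec (Pi.single i 1) :=
    ⟨_, rfl⟩
  have hcolr : ∀ i, RatV F₀ (col i) := by
    intro i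
    rw [hcol]
    exact Cfsg.Agent.Lib.Helper50.ratM_mulVec
      (Cfsg.Agent.Lib.Helper50.ratM_sub hzr (Cfsg.Agent.Lib.Helper50.ratM_one F₀))
      (ratV_single F₀ i F₀.one_mem)
  have hcolU : ∀ i, col i ∈ LinearMap.range (mt(z) - 1).mulVecLin := by
    intro i
    rw [hcol]
    exact ⟨Pi.single i 1, Matrix.mulVecLin_apply _ _⟩
  have horth : ∀ i j, polar ⇑Q (col i) (col j) = 0 := by
    intro i j
    rw [hcol]
    exact polar_invol_range h2 z hzz _ _
  have hsum : (mt(z) - 1).mulVec v = ∑ i, v i • col i := by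
    rw [hcol]
    exact mulVec_eq_sum_single _ v
  have hQsum : ∀ c : ι → F, Q (∑ i, c i • col i) = ∑ i, c i ^ 2 * Q (col i) :=
    fun c => Q_sum_orth Finset.univ c col (fun i j _ => horth i j)
  by_cases hall : ∀ i, Q (col i) = 0
  · rw [hsum]
    exact Submodule.sum_mem _ (fun i _ => Submodule.smul_mem _ _
      (Submodule.subset_span ⟨hcolr i, hcolU i, hall i⟩))
  · push Not at hall
    obtain ⟨i₀, hi₀⟩ := hall
    obtain ⟨q₀, hq₀⟩ : ∃ q₀, q₀ = Q (col i₀) := ⟨_, rfl⟩
    rw [← hq₀] at hi₀
    have hq₀r : q₀ ∈ F₀ := by rw [hq₀]; exact hrat _ (hcolr i₀)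
    -- square roots in the subfield
    have hsq : ∀ a : F, a ∈ F₀ → ∃ r : F, r ∈ F₀ ∧ r * r = a := by
      intro a ha
      have h20 : (2 : F₀) = 0 := Subtype.ext (by push_cast; exact h2)
      have : CharP F₀ 2 := CharTwo.of_one_ne_zero_of_two_eq_zero one_ne_zero h20
      obtain ⟨r, hr⟩ := FiniteField.isSquare_of_char_two (ringChar.eq F₀ 2) (⟨a, ha⟩ : F₀)
      refine ⟨(r : F), r.2, ?_⟩
      have := congrArg (fun t : F₀ => (t : F)) hr
      simp only [Subfield.coe_mul] at this
      exact this.symm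
    have hex : ∀ i, ∃ r : F, r ∈ F₀ ∧ r * r = Q (col i) / q₀ :=
      fun i => hsq _ (F₀.div_mem (hrat _ (hcolr i)) hq₀r)
    choose r hrr hr using hex
    obtain ⟨y, hy⟩ : ∃ y : ι → ι → F, y = fun i => col i + r i • col i₀ := ⟨_, rfl⟩
    have hyR : ∀ i, y i ∈ {y | RatV F₀ y ∧ y ∈ LinearMap.range (mt(z) - 1).mulVecLin ∧
        Q y = 0} := by
      intro i
      refine ⟨?_, ?_, ?_⟩
      · rw [hy]
        exact ratV_add (hcolr i) (ratV_smul (hrr i) (hcolr i₀))
      · rw [hy]
        exact Submodule.add_mem _ (hcolU i) (Submodule.smul_mem _ _ (hcolU i₀))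
      · rw [hy]
        show Q (col i + r i • col i₀) = 0
        rw [Q_add_smul, horth i i₀, mul_zero, add_zero, hr i, ← hq₀]
        field_simp
        linear_combination Q (col i) * h2
    have hσ : ∑ i, v i * r i = 0 := by
      have h1 : Q (∑ i, v i • col i) = q₀ * (∑ i, v i * r i) ^ 2 := by
        rw [hQsum, sum_sq_char_two h2, Finset.mul_sum]
        apply Finset.sum_congr rfl
        intro i _
        have := hr i
        rw [mul_pow, pow_two (r i), this]
        field_simp
      rw [← hsum, hQx] at h1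
      rcases mul_eq_zero.mp h1.symm with h | h
      · exact absurd h hi₀
      · exact pow_eq_zero_iff (two_ne_zero) |>.mp h
    have hx2 : (mt(z) - 1).mulVec v = ∑ i, v i • y i := by
      rw [hsum, hy]
      simp only [smul_add, Finset.sum_add_distrib, smul_smul]
      rw [← Finset.sum_smul, hσ, zero_smul, add_zero]
    rw [hx2]
    exact Submodule.sum_mem _ (fun i _ => Submodule.smul_mem _ _ (Submodule.subset_span (hyR i)))

end Sing

end Cfsg.Agent.Lib.Helper96
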