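import Mathlib
import Cfsg.Agent.Lib.Helper96.SubfSing

/-!
Centralisers of rational involutions in characteristic two (helper96): an element of an
overgroup `M` (with `HypZ`, `HypFix`) commuting with a rational involution `z ≠ 1` of `M` is a
scalar multiple of a rational matrix (`comm_invol_mem_H1`).
-/

set_option autoImplicit false
set_option linter.unusedSectionVars false

namespace Cfsg.Agent.Lib.Helper96

open Module QuadraticMap
open Cfsg.Agent.Lib.Helper51 Cfsg.Agent.Lib.Helper52
open Cfsg.Agent.Lib.Helper50 (RatV RatM H1 ratV_add ratV_sub ratV_neg ratV_smul ratV_single)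

section TwoC

variable {ι : Type} [Fintype ι] [DecidableEq ι] {F : Type*} [Field F] [Fintype F]
variable {Q : QuadraticForm F (ι → F)}

local notation "mt(" g ")" => ((g : Matrix.GeneralLinearGroup ι F) : Matrix ι ι F)

/-- Square roots in a finite field of characteristic two. -/
theorem exists_sqrt_two (h2 : (2 : F) = 0) (a : F) : ∃ r : F, r * r = a := by
  have : CharP F 2 := CharTwo.of_one_ne_zero_of_two_eq_zero one_ne_zero h2
  obtain ⟨r, hr⟩ := FiniteField.isSquare_of_char_two (ringChar.eq F 2) a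
  exact ⟨r, hr.symm⟩

/-- A totally isotropic subspace without non-zero singular vectors has dimension at most one
(characteristic two). -/
theorem finrank_le_one_of_anisotropic (h2 : (2 : F) = 0) (U : Submodule F (ι → F))
    (hti : ∀ x ∈ U, ∀ y ∈ U, polar ⇑Q x y = 0) (hns : ∀ x ∈ U, Q x = 0 → x = 0) :
    finrank F U ≤ 1 := by
  by_contra hlt
  push Not at hlt
  have : Nontrivial U := Module.nontrivial_of_finrank_pos (R := F) (by omega)
  obtain ⟨x, hx0⟩ := exists_ne (0 : U)
  obtain ⟨y, hxy⟩ := exists_linearIndependent_pair_of_one_lt_finrank hlt hx0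
  obtain ⟨α, hα⟩ := exists_sqrt_two h2 (Q (y : ι → F))
  obtain ⟨β, hβ⟩ := exists_sqrt_two h2 (Q (x : ι → F))
  have hw : Q (α • (x : ι → F) + β • (y : ι → F)) = 0 := by
    rw [Q_add_smul, polar_smul_left, hti x x.2 y y.2, QuadraticMap.map_smul, hα, hβ]
    simp only [smul_eq_mul, mul_zero, add_zero]
    linear_combination (Q (x : ι → F) * Q (y : ι → F)) * h2
  have hw0 := hns _ (U.add_mem (U.smul_mem α x.2) (U.smul_mem β y.2)) hw
  have hw0' : α • x + β • y = 0 := Subtype.ext hw0
  have h3 := (LinearIndependent.pair_iff.mp hxy) α β hw0'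
  have hQx : Q (x : ι → F) = 0 := by rw [← hβ, h3.2, mul_zero]
  exact hx0 (Subtype.ext (hns _ x.2 hQx))

/-- An element of `M` commuting with a rational involution `z ≠ 1` of `M` is a scalar multiple
of a rational matrix (characteristic two). -/
theorem comm_invol_mem_H1 (h2 : (2 : F) = 0) (hQ : (polarBilin Q).Nondegenerate)
    (hn : 14 ≤ Fintype.card ι) {F₀ : Subfield F} (hrat : RatQ Q F₀)
    {M : Subgroup ↥(Cfsg.isometryGroup F ⇑Q)} (hH : ContainsRat Q F₀ M)
    (hMO : M ≤ commutator ↥(Cfsg.isometryGroup F ⇑Q)) (hZ : HypZ Q F₀ M)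
    (hFIX : HypFix Q F₀ M) (z : ↥(Cfsg.isometryGroup F ⇑Q)) (hzM : z ∈ M) (hzz : z * z = 1)
    (hz1 : z ≠ 1) (hzr : RatM F₀ mt(z)) (S4 : Finset (ι → F)) (hS4 : S4.card ≤ 4)
    (hzS : ∀ v, (mt(z) - 1).mulVec v ∈ Submodule.span F (S4 : Set (ι → F)))
    (b : ↥(Cfsg.isometryGroup F ⇑Q)) (hbM : b ∈ M) (hbz : b * z = z * b) :
    (b : Matrix.GeneralLinearGroup ι F) ∈ H1 ι F₀ := by
  classical
  have hsing : ∀ x ∈ LinearMap.range (mt(z) - 1).mulVecLin, Q x = 0 →
      x ∈ Submodule.span F {y | RatV F₀ y ∧ y ∈ LinearMap.range (mt(z) - 1).mulVecLin ∧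
        Q y = 0} := fun x hx hQx => sing_mem_span h2 hrat z hzz hzr x hx hQx
  have hUmem : ∀ x, x ∈ LinearMap.range (mt(z) - 1).mulVecLin ↔
      ∃ v, (mt(z) - 1).mulVec v = x := by
    intro x
    constructor
    · rintro ⟨v, hv⟩
      exact ⟨v, by rw [← hv, Matrix.mulVecLin_apply]⟩
    · rintro ⟨v, hv⟩
      exact ⟨v, by rw [← hv, Matrix.mulVecLin_apply]⟩
  have hrank : (mt(z) - 1).rank = finrank F (LinearMap.range (mt(z) - 1).mulVecLin) := rfl
  generalize LinearMap.range (mt(z) - 1).mulVecLin = U at hsing hUmem hrank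
  obtain ⟨R, hRdef⟩ : ∃ R : Set (ι → F), R = {y | RatV F₀ y ∧ y ∈ U ∧ Q y = 0} := ⟨_, rfl⟩
  rw [← hRdef] at hsing
  have hRmem : ∀ y, y ∈ R → RatV F₀ y ∧ y ∈ U ∧ Q y = 0 := by
    intro y hy
    rw [hRdef] at hy
    exact hy
  have hti : ∀ x ∈ U, ∀ y ∈ U, polar ⇑Q x y = 0 := by
    intro x hx y hy
    obtain ⟨v, rfl⟩ := (hUmem x).mp hx
    obtain ⟨v', rfl⟩ := (hUmem y).mp hy
    exact polar_invol_range h2 z hzz v v'
  -- elements commuting with `z` preserve `U` and the span of `R`
  have hcomm : ∀ c : ↥(Cfsg.isometryGroup F ⇑Q), c * z = z * c → ∀ x ∈ U,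
      mt(c).mulVec x ∈ U := by
    intro c hc x hx
    obtain ⟨v, rfl⟩ := (hUmem x).mp hx
    rw [hUmem]
    refine ⟨mt(c).mulVec v, ?_⟩
    rw [Matrix.mulVec_mulVec, Matrix.mulVec_mulVec]
    congr 1
    have h1 : mt(c) * mt(z) = mt(z) * mt(c) := by rw [← coe_mul', ← coe_mul', hc]
    rw [Matrix.sub_mul, Matrix.mul_sub, h1, Matrix.one_mul, Matrix.mul_one]
  have hspan : ∀ c : ↥(Cfsg.isometryGroup F ⇑Q), c * z = z * c →
      ∀ x ∈ Submodule.span F R, mt(c).mulVec x ∈ Submodule.span F R := by
    intro c hc x hx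
    induction hx using Submodule.span_induction with
    | mem y hy =>
      obtain ⟨-, hyU, hQy⟩ := hRmem y hy
      exact hsing _ (hcomm c hc y hyU) (by rw [isometry_apply]; exact hQy)
    | zero => rw [Matrix.mulVec_zero]; exact Submodule.zero_mem _
    | add a b' _ _ ha hb' => rw [Matrix.mulVec_add]; exact Submodule.add_mem _ ha hb'
    | smul c' a _ ha => rw [Matrix.mulVec_smul]; exact Submodule.smul_mem _ c' ha
  have hbinv : b⁻¹ * z = z * b⁻¹ := by
    have h1 : b⁻¹ * (b * z) * b⁻¹ = b⁻¹ * (z * b) * b⁻¹ := by rw [hbz]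
    rw [← mul_assoc, inv_mul_cancel, one_mul, mul_assoc, mul_assoc, mul_inv_cancel, mul_one]
      at h1
    exact h1.symm
  obtain ⟨bs, hbsR, hbsspan, hbsli⟩ := exists_linearIndependent F R
  have : Finite ↥bs := hbsli.finite
  let _ : Fintype ↥bs := Fintype.ofFinite ↥bs
  obtain ⟨u, hudef⟩ : ∃ u : ↥bs → ι → F, u = Subtype.val := ⟨_, rfl⟩
  have hrange : Set.range u = bs := by rw [hudef]; exact Subtype.range_coe
  have huli : LinearIndependent F u := by rw [hudef]; exact hbsli
  have huR : ∀ k, u k ∈ R := fun k => by rw [hudef]; exact hbsR k.2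
  have hur : ∀ k, RatV F₀ (u k) := fun k => (hRmem _ (huR k)).1
  have huU : ∀ k, u k ∈ U := fun k => (hRmem _ (huR k)).2.1
  have hQu : ∀ k, Q (u k) = 0 := fun k => (hRmem _ (huR k)).2.2
  have horth : ∀ k l, polar ⇑Q (u k) (u l) = 0 := fun k l => hti _ (huU k) _ (huU l)
  have hspanu : Submodule.span F (Set.range u) = Submodule.span F R := by
    rw [hrange, hbsspan]
  have hcardκ : Fintype.card ↥bs ≤ 4 := by
    have h1 := finrank_span_eq_card huli
    have h2' : Submodule.span F (Set.range u) ≤ Submodule.span F (S4 : Set (ι → F)) := by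
      rw [Submodule.span_le]
      rintro _ ⟨k, rfl⟩
      obtain ⟨v, hv⟩ := (hUmem _).mp (huU k)
      rw [← hv]
      exact hzS v
    have h3 := Submodule.finrank_mono h2'
    have h4 : finrank F (Submodule.span F (S4 : Set (ι → F))) ≤ S4.card :=
      finrank_span_finset_le_card S4
    omega
  -- a rational dual family
  have hdualex : ∀ k : ↥bs, ∃ y : ι → F, RatV F₀ y ∧
      ∀ l, polar ⇑Q (u l) y = if l = k then 1 else 0 := by
    intro k
    let _ : Fintype F₀ := Fintype.ofFinite F₀
    choose u₀ hu₀ using fun l : ↥bs => exists_rcv (hur l)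
    have hli₀ : LinearIndependent F₀ u₀ := by
      rw [Fintype.linearIndependent_iff]
      intro c hc l
      have h1 : ∑ i, ((c i : F₀) : F) • u i = 0 := by
        have h5 := congrArg (rcv F₀) hc
        rw [rcv_zero] at h5
        rw [← h5]
        funext j
        simp only [rcv, Finset.sum_apply, Pi.smul_apply, smul_eq_mul, ← hu₀]
        push_cast
        rfl
      have h2' := Fintype.linearIndependent_iff.mp huli (fun i => ((c i : F₀) : F)) h1 l
      exact Subtype.ext h2'
    have hnot := hli₀.notMem_span_image (s := {l | l ≠ k}) (x := k) (by simp)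
    obtain ⟨y, hy1, hy0⟩ := exists_polar_sep (ratForm Q F₀ hrat)
      (ratForm_nondegenerate Q F₀ hrat hQ) _ (u₀ k) hnot
    refine ⟨rcv F₀ y, ratV_rcv F₀ y, fun l => ?_⟩
    by_cases hlk : l = k
    · subst hlk
      rw [if_pos rfl, ← hu₀ l, polar_comm]
      exact (polar_ratForm_eq_one_iff Q F₀ hrat _ _).mp hy1
    · rw [if_neg hlk, ← hu₀ l, polar_comm]
      exact (polar_ratForm_eq_zero_iff Q F₀ hrat _ _).mp
        (hy0 _ (Submodule.subset_span ⟨l, hlk, rfl⟩))
  choose u' hu'r hu'd using hdualex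
  have hdual : ∀ k l, polar ⇑Q (u k) (u' l) = if k = l then 1 else 0 := fun k l => hu'd l k
  rcases Nat.lt_or_ge 1 (Fintype.card ↥bs) with hbig | hsmall
  · obtain ⟨k₁, k₂, hk⟩ := Fintype.exists_pair_of_one_lt_card hbig
    have hc3 : 2 * Fintype.card ↥bs + 3 ≤ Fintype.card ι := by omega
    apply ts_mem_H1 hQ hrat hH hZ hFIX u u' hur hu'r hQu horth hdual hc3 k₁ k₂ hk b hbM
    · rw [hspanu]
      exact hspan b hbz _ (Submodule.subset_span (huR k₁))
    · intro k
      rw [hspanu]
      exact hspan b⁻¹ hbinv _ (Submodule.subset_span (huR k))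
  · rcases Nat.eq_zero_or_pos (Fintype.card ↥bs) with h0 | hpos
    · exfalso
      have hempty : IsEmpty ↥bs := Fintype.card_eq_zero_iff.mp h0
      have hbot : Submodule.span F R = ⊥ := by
        rw [← hspanu, Submodule.span_eq_bot]
        rintro _ ⟨k, rfl⟩
        exact (hempty.false k).elim
      have hnosing : ∀ x ∈ U, Q x = 0 → x = 0 := by
        intro x hx hQx
        have h5 := hsing x hx hQx
        rw [hbot] at h5
        exact (Submodule.mem_bot F).mp h5
      have hfr := finrank_le_one_of_anisotropic h2 U hti hnosing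
      have heven := (mem_commutator_iff_even_rank_two Q h2 hQ (Or.inr (by omega)) z).mp
        (hMO hzM)
      rw [hrank] at heven
      have hU0 : finrank F U = 0 := by
        rcases heven with ⟨m, hm⟩
        omega
      have hUbot : U = ⊥ := Submodule.finrank_eq_zero.mp hU0
      apply hz1
      apply isometry_ext
      have h5 : mt(z) - 1 = 0 := by
        apply matrix_ext_mulVec
        intro v
        have hv : (mt(z) - 1).mulVec v ∈ U := (hUmem _).mpr ⟨v, rfl⟩
        rw [hUbot] at hv
        rw [(Submodule.mem_bot F).mp hv, Matrix.zero_mulVec]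
      rw [sub_eq_zero] at h5
      rw [h5]
      rfl
    · have hone : Fintype.card ↥bs = 1 := by omega
      obtain ⟨k, hk⟩ := Fintype.card_eq_one_iff.mp hone
      have hbk : mt(b).mulVec (u k) ∈ Submodule.span F R :=
        hspan b hbz _ (Submodule.subset_span (huR k))
      have hru : Set.range u = {u k} := by
        ext y
        constructor
        · rintro ⟨l, rfl⟩
          rw [hk l]
          exact Set.mem_singleton _
        · intro hy
          rw [Set.mem_singleton_iff] at hy
          exact ⟨k, hy.symm⟩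
      rw [← hspanu, hru, Submodule.mem_span_singleton] at hbk
      obtain ⟨c, hc⟩ := hbk
      have huk0 : u k ≠ 0 := huli.ne_zero k
      have hc0 : c ≠ 0 := by
        rintro rfl
        rw [zero_smul] at hc
        exact mulVec_ne_zero Q b (u k) huk0 hc.symm
      refine hFIX b hbM (u k) (hur k) huk0 (hQu k) ⟨c⁻¹, inv_ne_zero hc0, ?_⟩
      rw [← hc, smul_smul, inv_mul_cancel₀ hc0, one_smul]
      exact hur k

end TwoC

end Cfsg.Agent.Lib.Helper96
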