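import Mathlib
import Cfsg.Agent.Lib.Helper96.SubfTwoC

/-!
Overgroups of the subfield subgroup of `Ω` in characteristic two (helper96): under `HypZ` and
`HypFix`, an overgroup `M ≤ Ω` of the rational part of `Ω` consists of scalar multiples of
rational matrices (`char_two_le_H1_aux`).
-/

set_option autoImplicit false
set_option linter.unusedSectionVars false

namespace Cfsg.Agent.Lib.Helper96

open Module QuadraticMap
open Cfsg.Agent.Lib.Helper51 Cfsg.Agent.Lib.Helper52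
open Cfsg.Agent.Lib.Helper50 (RatV RatM H1 ratV_add ratV_sub ratV_neg ratV_smul ratV_single)

section Two

variable {ι : Type} [Fintype ι] [DecidableEq ι] {F : Type*} [Field F] [Fintype F]
variable {Q : QuadraticForm F (ι → F)}

local notation "mt(" g ")" => ((g : Matrix.GeneralLinearGroup ι F) : Matrix ι ι F)

omit [Fintype F] in
theorem eichMat_sub (u w x : ι → F) :
    (eichMat Q u w).mulVec x - x
      = (polar ⇑Q w x - Q w * polar ⇑Q u x) • u + (-polar ⇑Q u x) • w := by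
  rw [eichMat_mulVec, sub_smul, neg_smul]
  abel

omit [Fintype F] in
theorem Q_comb (u w : ι → F) (hQu : Q u = 0) (huw : polar ⇑Q u w = 0) (α β : F) :
    Q (α • u + β • w) = β * β * Q w := by
  rw [add_comm, Q_add_smul, QuadraticMap.map_smul, hQu, polar_smul_left, polar_comm, huw]
  simp

omit [Fintype F] in
theorem Q_eichMat_sub (u w : ι → F) (hQu : Q u = 0) (huw : polar ⇑Q u w = 0) (x : ι → F) :
    Q ((eichMat Q u w).mulVec x - x) = polar ⇑Q u x * polar ⇑Q u x * Q w := by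
  rw [eichMat_sub, Q_comb u w hQu huw]
  ring

omit [Fintype F] in
theorem conj_mulVec_sub (g c : ↥(Cfsg.isometryGroup F ⇑Q)) (v : ι → F) :
    mt((g * c * g⁻¹ : ↥(Cfsg.isometryGroup F ⇑Q))).mulVec v - v
      = mt(g).mulVec (mt(c).mulVec (mt((g⁻¹ : ↥(Cfsg.isometryGroup F ⇑Q))).mulVec v)
          - mt((g⁻¹ : ↥(Cfsg.isometryGroup F ⇑Q))).mulVec v) := by
  rw [Matrix.mulVec_sub, coe_inv_mulVec, coe_mul', coe_mul', ← Matrix.mulVec_mulVec,
    ← Matrix.mulVec_mulVec]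

/-- An involution which is a scalar multiple of a rational matrix is rational
(characteristic two). -/
theorem ratM_of_invol_mem_H1 (h2 : (2 : F) = 0) {F₀ : Subfield F}
    (z : ↥(Cfsg.isometryGroup F ⇑Q)) (hzz : z * z = 1)
    (hz : (z : Matrix.GeneralLinearGroup ι F) ∈ H1 ι F₀) : RatM F₀ mt(z) := by
  obtain ⟨c, hc0, A, hA, hzA⟩ := Cfsg.Agent.Lib.Helper50.exists_of_mem_H1 F₀ _ hz
  have hsq := invol_mat_sq z hzz
  rw [hzA] at hsq
  rcases isEmpty_or_nonempty ι with hι | ⟨⟨i⟩⟩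
  · intro i
    exact (hι.false i).elim
  have hAA : RatM F₀ (A * A) := Cfsg.Agent.Lib.Helper50.ratM_mul hA hA
  have h1 : (c * c) * (A * A) i i = 1 := by
    have h := congrFun (congrFun hsq i) i
    rw [Matrix.smul_mul, Matrix.mul_smul, Matrix.smul_apply, Matrix.smul_apply,
      Matrix.one_apply_eq, smul_eq_mul, smul_eq_mul] at h
    rw [← h]
    ring
  have hcc : c * c ∈ F₀ := by
    have h3 : c * c = ((A * A) i i)⁻¹ := eq_inv_of_mul_eq_one_left h1
    rw [h3]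
    exact F₀.inv_mem (hAA i i)
  let _ : Fintype F₀ := Fintype.ofFinite F₀
  have h2' : (2 : F₀) = 0 := Subtype.ext (by push_cast; exact h2)
  obtain ⟨r, hr⟩ := exists_sqrt_two (F := F₀) h2' ⟨c * c, hcc⟩
  have hr' : (r : F) * (r : F) = c * c := congrArg Subtype.val hr
  have hrc : (r : F) = c := by
    have h3 : ((r : F) - c) * ((r : F) - c) = 0 := by
      have h4 : ((r : F) - c) * ((r : F) - c) = (r : F) * r + c * c - 2 * ((r : F) * c) := by
        ring
      rw [h4, hr']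
      have h5 : c * c + c * c - 2 * ((r : F) * c) = 2 * (c * c - (r : F) * c) := by ring
      rw [h5, h2, zero_mul]
    exact sub_eq_zero.mp (mul_self_eq_zero.mp h3)
  have hc : c ∈ F₀ := by
    rw [← hrc]
    exact r.2
  rw [hzA]
  exact Cfsg.Agent.Lib.Helper50.ratM_smul hc hA

/-- An element of `M` commuting with a rational long root element (with a rational dual pair)
is a scalar multiple of a rational matrix. -/
theorem comm_long_mem_H1 (hQ : (polarBilin Q).Nondegenerate) (hn : 7 ≤ Fintype.card ι)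
    {F₀ : Subfield F} (hrat : RatQ Q F₀) {M : Subgroup ↥(Cfsg.isometryGroup F ⇑Q)}
    (hH : ContainsRat Q F₀ M) (hZ : HypZ Q F₀ M) (hFIX : HypFix Q F₀ M)
    (u w u' w' : ι → F) (hu : RatV F₀ u) (hw : RatV F₀ w) (hu' : RatV F₀ u')
    (hw' : RatV F₀ w') (hQu : Q u = 0) (hQw : Q w = 0) (huw : polar ⇑Q u w = 0)
    (huu' : polar ⇑Q u u' = 1) (hwu' : polar ⇑Q w u' = 0) (huw' : polar ⇑Q u w' = 0)
    (hww' : polar ⇑Q w w' = 1) (g : ↥(Cfsg.isometryGroup F ⇑Q)) (hg : g ∈ M)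
    (hga : g * eich Q u w hQu huw = eich Q u w hQu huw * g) :
    (g : Matrix.GeneralLinearGroup ι F) ∈ H1 ι F₀ := by
  classical
  have hE : ∀ x, (eichMat Q u w).mulVec x - x = polar ⇑Q w x • u - polar ⇑Q u x • w := by
    intro x
    rw [eichMat_mulVec, hQw]
    simp only [zero_mul, zero_smul, sub_zero]
    abel
  have hu1 : (eichMat Q u w).mulVec w' - w' = u := by
    rw [hE, hww', huw']
    simp
  have hw1 : (eichMat Q u w).mulVec (-u') - (-u') = w := by
    rw [hE, polar_neg_right, polar_neg_right, hwu', huu']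
    simp
  have hmemu : u ∈ Submodule.span F (Set.range ![u, w]) := Submodule.subset_span ⟨0, rfl⟩
  have hmemw : w ∈ Submodule.span F (Set.range ![u, w]) := Submodule.subset_span ⟨1, rfl⟩
  have key : ∀ c : ↥(Cfsg.isometryGroup F ⇑Q),
      c * eich Q u w hQu huw = eich Q u w hQu huw * c → ∀ x,
      mt(c).mulVec ((eichMat Q u w).mulVec x - x) ∈ Submodule.span F (Set.range ![u, w]) := by
    intro c hc x
    have h1 : mt(c) * eichMat Q u w = eichMat Q u w * mt(c) := by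
      rw [← coe_eich Q u w hQu huw, ← coe_mul', ← coe_mul', hc]
    have h3 : mt(c).mulVec ((eichMat Q u w).mulVec x - x)
        = (eichMat Q u w).mulVec (mt(c).mulVec x) - mt(c).mulVec x := by
      rw [Matrix.mulVec_sub, Matrix.mulVec_mulVec, Matrix.mulVec_mulVec, h1]
    rw [h3, hE]
    exact Submodule.sub_mem _ (Submodule.smul_mem _ _ hmemu) (Submodule.smul_mem _ _ hmemw)
  have hginv : g⁻¹ * eich Q u w hQu huw = eich Q u w hQu huw * g⁻¹ := by
    have h1 : g⁻¹ * (g * eich Q u w hQu huw) * g⁻¹ = g⁻¹ * (eich Q u w hQu huw * g) * g⁻¹ := by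
      rw [hga]
    rw [← mul_assoc, inv_mul_cancel, one_mul, mul_assoc, mul_assoc, mul_inv_cancel, mul_one]
      at h1
    exact h1.symm
  have hc3 : 2 * Fintype.card (Fin 2) + 3 ≤ Fintype.card ι := by
    rw [Fintype.card_fin]
    omega
  refine ts_mem_H1 hQ hrat hH hZ hFIX ![u, w] ![u', w'] ?_ ?_ ?_ ?_ ?_ hc3 0 1 (by decide)
    g hg ?_ ?_
  · intro k
    fin_cases k
    · exact hu
    · exact hw
  · intro k
    fin_cases k
    · exact hu'
    · exact hw'
  · intro k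
    fin_cases k
    · exact hQu
    · exact hQw
  · intro k l
    fin_cases k <;> fin_cases l
    · show polar ⇑Q u u = 0
      rw [Helper51.polar_self, hQu, mul_zero]
    · exact huw
    · show polar ⇑Q w u = 0
      rw [polar_comm]
      exact huw
    · show polar ⇑Q w w = 0
      rw [Helper51.polar_self, hQw, mul_zero]
  · intro k l
    fin_cases k <;> fin_cases l
    · simpa using huu'
    · simpa using huw'
    · simpa using hwu'
    · simpa using hww'
  · have h := key g hga w'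
    rw [hu1] at h
    exact h
  · intro k
    fin_cases k
    · have h := key g⁻¹ hginv w'
      rw [hu1] at h
      exact h
    · have h := key g⁻¹ hginv (-u')
      rw [hw1] at h
      exact h

/-- If the conjugate by `m ∈ M` of a rational short root element is a scalar multiple of a
rational matrix, so is `m` (characteristic two). -/
theorem conj_short_mem_H1 (h2 : (2 : F) = 0) (hQ : (polarBilin Q).Nondegenerate)
    {F₀ : Subfield F} (hrat : RatQ Q F₀) {M : Subgroup ↥(Cfsg.isometryGroup F ⇑Q)}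
    (hFIX : HypFix Q F₀ M) (u₀ w₀ : ι → F) (hu₀ : RatV F₀ u₀) (hu₀0 : u₀ ≠ 0)
    (hQu₀ : Q u₀ = 0) (huw₀ : polar ⇑Q u₀ w₀ = 0) (hQw₀ : Q w₀ ≠ 0)
    (m : ↥(Cfsg.isometryGroup F ⇑Q)) (hm : m ∈ M)
    (hb : ((m * eich Q u₀ w₀ hQu₀ huw₀ * m⁻¹ : ↥(Cfsg.isometryGroup F ⇑Q)) :
      Matrix.GeneralLinearGroup ι F) ∈ H1 ι F₀) :
    (m : Matrix.GeneralLinearGroup ι F) ∈ H1 ι F₀ := by
  classical
  have hb0sq : eich Q u₀ w₀ hQu₀ huw₀ * eich Q u₀ w₀ hQu₀ huw₀ = 1 := by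
    have h0 : w₀ + w₀ = 0 := by rw [← two_smul F w₀, h2, zero_smul]
    rw [eich_mul]
    apply isometry_ext
    rw [coe_eich, h0, eichMat_zero]
    rfl
  have hbsq : (m * eich Q u₀ w₀ hQu₀ huw₀ * m⁻¹) * (m * eich Q u₀ w₀ hQu₀ huw₀ * m⁻¹) = 1 := by
    have h1 : (m * eich Q u₀ w₀ hQu₀ huw₀ * m⁻¹) * (m * eich Q u₀ w₀ hQu₀ huw₀ * m⁻¹)
        = m * (eich Q u₀ w₀ hQu₀ huw₀ * eich Q u₀ w₀ hQu₀ huw₀) * m⁻¹ := by group
    rw [h1, hb0sq, mul_one, mul_inv_cancel]
  have hbr := ratM_of_invol_mem_H1 h2 _ hbsq hb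
  -- the image of `b - 1`
  have hform : ∀ v, (mt((m * eich Q u₀ w₀ hQu₀ huw₀ * m⁻¹ : ↥(Cfsg.isometryGroup F ⇑Q))) - 1).mulVec v
      = mt(m).mulVec ((eichMat Q u₀ w₀).mulVec
          (mt((m⁻¹ : ↥(Cfsg.isometryGroup F ⇑Q))).mulVec v)
          - mt((m⁻¹ : ↥(Cfsg.isometryGroup F ⇑Q))).mulVec v) := by
    intro v
    rw [Matrix.sub_mulVec, Matrix.one_mulVec, conj_mulVec_sub, coe_eich]
  -- `m u₀` lies in the image
  have hnot : w₀ ∉ Submodule.span F ({u₀} : Set (ι → F)) := by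
    intro hmem
    obtain ⟨c, rfl⟩ := Submodule.mem_span_singleton.mp hmem
    apply hQw₀
    rw [QuadraticMap.map_smul, hQu₀, smul_zero]
  obtain ⟨y, hy1, hy0⟩ := exists_polar_sep Q hQ _ w₀ hnot
  have hyu : polar ⇑Q u₀ y = 0 := by
    rw [polar_comm]
    exact hy0 u₀ (Submodule.mem_span_singleton_self u₀)
  have hyw : polar ⇑Q w₀ y = 1 := by
    rw [polar_comm]
    exact hy1
  have hmu : mt(m).mulVec u₀ ∈ LinearMap.range
      (mt((m * eich Q u₀ w₀ hQu₀ huw₀ * m⁻¹ : ↥(Cfsg.isometryGroup F ⇑Q))) - 1).mulVecLin := by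
    refine ⟨mt(m).mulVec y, ?_⟩
    rw [Matrix.mulVecLin_apply, hform, coe_inv_mulVec', eichMat_sub, hyu, hyw]
    simp
  have hspan := sing_mem_span h2 hrat _ hbsq hbr (mt(m).mulVec u₀) hmu
    (by rw [isometry_apply]; exact hQu₀)
  have hmu0 : mt(m).mulVec u₀ ≠ 0 := mulVec_ne_zero Q m u₀ hu₀0
  obtain ⟨y', ⟨hy'r, hy'range, hQy'⟩, hy'0⟩ : ∃ y' ∈ {y | RatV F₀ y ∧ y ∈ LinearMap.range
      (mt((m * eich Q u₀ w₀ hQu₀ huw₀ * m⁻¹ : ↥(Cfsg.isometryGroup F ⇑Q))) - 1).mulVecLin ∧ Q y = 0}, y' ≠ 0 := by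
    by_contra hcon
    push Not at hcon
    have hbot := (Submodule.span_eq_bot (R := F)).mpr hcon
    rw [hbot] at hspan
    exact hmu0 ((Submodule.mem_bot F).mp hspan)
  obtain ⟨v, hv⟩ := hy'range
  rw [Matrix.mulVecLin_apply, hform, eichMat_sub] at hv
  set x := mt((m⁻¹ : ↥(Cfsg.isometryGroup F ⇑Q))).mulVec v with hx
  have hβ : polar ⇑Q u₀ x = 0 := by
    have h1 : Q y' = polar ⇑Q u₀ x * polar ⇑Q u₀ x * Q w₀ := by
      rw [← hv, isometry_apply, Q_comb u₀ w₀ hQu₀ huw₀]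
      ring
    rw [hQy'] at h1
    have h3 := mul_eq_zero.mp h1.symm
    rcases h3 with h3 | h3
    · exact mul_self_eq_zero.mp h3
    · exact (hQw₀ h3).elim
  rw [hβ, mul_zero, sub_zero, neg_zero, zero_smul, add_zero, Matrix.mulVec_smul] at hv
  have hα0 : polar ⇑Q w₀ x ≠ 0 := by
    intro h0
    rw [h0, zero_smul] at hv
    exact hy'0 hv.symm
  refine hFIX m hm u₀ hu₀ hu₀0 hQu₀ ⟨polar ⇑Q w₀ x, hα0, ?_⟩
  rw [hv]
  exact hy'r

/-- **Overgroups in characteristic two.**  Under `HypZ` and `HypFix`, every element of an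
overgroup `M ≤ Ω` of the rational part of `Ω` is a scalar multiple of a rational matrix. -/
theorem char_two_le_H1_aux (h2 : (2 : F) = 0) (hQ : (polarBilin Q).Nondegenerate)
    (hn : 14 ≤ Fintype.card ι) {F₀ : Subfield F} (hrat : RatQ Q F₀)
    {M : Subgroup ↥(Cfsg.isometryGroup F ⇑Q)} (hH : ContainsRat Q F₀ M)
    (hMO : M ≤ commutator ↥(Cfsg.isometryGroup F ⇑Q)) (hZ : HypZ Q F₀ M)
    (hFIX : HypFix Q F₀ M) (m : ↥(Cfsg.isometryGroup F ⇑Q)) (hm : m ∈ M) :
    (m : Matrix.GeneralLinearGroup ι F) ∈ H1 ι F₀ := by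
  classical
  obtain ⟨u, w, u', w', hu, hw, hu', hw', hQu, hQw, huw, huu', hwu', huw', hww'⟩ :=
    exists_rat_pair hQ hrat (by omega)
  obtain ⟨u₀, w₀, hu₀, hw₀, hu₀0, hQu₀, huw₀, hQw₀⟩ := exists_rat_siegel hQ hrat (by omega)
  have haM : eich Q u w hQu huw ∈ M := (inM_rat hQ (by omega) hrat hH hu hw hQu huw).2.2
  have hb0M : eich Q u₀ w₀ hQu₀ huw₀ ∈ M :=
    (inM_rat hQ (by omega) hrat hH hu₀ hw₀ hQu₀ huw₀).2.2
  have hbM : m * eich Q u₀ w₀ hQu₀ huw₀ * m⁻¹ ∈ M :=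
    M.mul_mem (M.mul_mem hm hb0M) (M.inv_mem hm)
  have hasq : eich Q u w hQu huw * eich Q u w hQu huw = 1 := by
    have h0 : w + w = 0 := by rw [← two_smul F w, h2, zero_smul]
    rw [eich_mul]
    apply isometry_ext
    rw [coe_eich, h0, eichMat_zero]
    rfl
  have hb0sq : eich Q u₀ w₀ hQu₀ huw₀ * eich Q u₀ w₀ hQu₀ huw₀ = 1 := by
    have h0 : w₀ + w₀ = 0 := by rw [← two_smul F w₀, h2, zero_smul]
    rw [eich_mul]
    apply isometry_ext
    rw [coe_eich, h0, eichMat_zero]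
    rfl
  have hbsq : (m * eich Q u₀ w₀ hQu₀ huw₀ * m⁻¹) * (m * eich Q u₀ w₀ hQu₀ huw₀ * m⁻¹) = 1 := by
    have h1 : (m * eich Q u₀ w₀ hQu₀ huw₀ * m⁻¹) * (m * eich Q u₀ w₀ hQu₀ huw₀ * m⁻¹)
        = m * (eich Q u₀ w₀ hQu₀ huw₀ * eich Q u₀ w₀ hQu₀ huw₀) * m⁻¹ := by group
    rw [h1, hb0sq, mul_one, mul_inv_cancel]
  rcases Cfsg.Agent.Lib.Helper50.dihedral_alt (eich Q u w hQu huw)
    (m * eich Q u₀ w₀ hQu₀ huw₀ * m⁻¹) hasq hbsq with ⟨g, hg⟩ | ⟨j, hz1, hzz, haz, hbz⟩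
  · exfalso
    have hts : ∀ v, Q (mt((m * eich Q u₀ w₀ hQu₀ huw₀ * m⁻¹ : ↥(Cfsg.isometryGroup F ⇑Q))).mulVec v - v) = 0 := by
      intro v
      rw [hg, conj_mulVec_sub, isometry_apply, coe_eich, Q_eichMat_sub u w hQu huw, hQw,
        mul_zero]
    obtain ⟨x₀, hx₀⟩ := exists_polar_ne_zero Q hQ u₀ hu₀0
    have h1 := hts (mt(m).mulVec x₀)
    rw [conj_mulVec_sub, isometry_apply, coe_inv_mulVec', coe_eich,
      Q_eichMat_sub u₀ w₀ hQu₀ huw₀] at h1
    rcases mul_eq_zero.mp h1 with h3 | h3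
    · exact hx₀ (mul_self_eq_zero.mp h3)
    · exact hQw₀ h3
  · have hzM : (eich Q u w hQu huw * (m * eich Q u₀ w₀ hQu₀ huw₀ * m⁻¹)) ^ j ∈ M :=
      M.pow_mem (M.mul_mem haM hbM) j
    have hzH := comm_long_mem_H1 hQ (by omega) hrat hH hZ hFIX u w u' w' hu hw hu' hw' hQu hQw
      huw huu' hwu' huw' hww' _ hzM haz.symm
    have hzr := ratM_of_invol_mem_H1 h2 _ hzz hzH
    obtain ⟨S4, hS4, hm1, hm2, hm3, hm4⟩ : ∃ S4 : Finset (ι → F), S4.card ≤ 4 ∧ u ∈ S4 ∧
        w ∈ S4 ∧ mt(m).mulVec u₀ ∈ S4 ∧ mt(m).mulVec w₀ ∈ S4 :=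
      ⟨{u, w, mt(m).mulVec u₀, mt(m).mulVec w₀}, Finset.card_le_four, by simp, by simp,
        by simp, by simp⟩
    have hPa : ∀ v, mt(eich Q u w hQu huw).mulVec v - v
        ∈ Submodule.span F (S4 : Set (ι → F)) := by
      intro v
      rw [coe_eich, eichMat_sub]
      exact Submodule.add_mem _ (Submodule.smul_mem _ _ (Submodule.subset_span hm1))
        (Submodule.smul_mem _ _ (Submodule.subset_span hm2))
    have hPb : ∀ v, mt((m * eich Q u₀ w₀ hQu₀ huw₀ * m⁻¹ : ↥(Cfsg.isometryGroup F ⇑Q))).mulVec v - v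
        ∈ Submodule.span F (S4 : Set (ι → F)) := by
      intro v
      rw [conj_mulVec_sub, coe_eich, eichMat_sub, Matrix.mulVec_add, Matrix.mulVec_smul,
        Matrix.mulVec_smul]
      exact Submodule.add_mem _ (Submodule.smul_mem _ _ (Submodule.subset_span hm3))
        (Submodule.smul_mem _ _ (Submodule.subset_span hm4))
    have hPmul : ∀ x y : ↥(Cfsg.isometryGroup F ⇑Q),
        (∀ v, mt(x).mulVec v - v ∈ Submodule.span F (S4 : Set (ι → F))) →
        (∀ v, mt(y).mulVec v - v ∈ Submodule.span F (S4 : Set (ι → F))) →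
        ∀ v, mt((x * y : ↥(Cfsg.isometryGroup F ⇑Q))).mulVec v - v ∈ Submodule.span F (S4 : Set (ι → F)) := by
      intro x y hx hy v
      have h1 : mt((x * y : ↥(Cfsg.isometryGroup F ⇑Q))).mulVec v - v
          = (mt(x).mulVec (mt(y).mulVec v) - mt(y).mulVec v) + (mt(y).mulVec v - v) := by
        rw [coe_mul', ← Matrix.mulVec_mulVec]
        abel
      rw [h1]
      exact Submodule.add_mem _ (hx _) (hy v)
    have hPpow : ∀ (x : ↥(Cfsg.isometryGroup F ⇑Q)),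
        (∀ v, mt(x).mulVec v - v ∈ Submodule.span F (S4 : Set (ι → F))) →
        ∀ (k : ℕ) (v : ι → F), mt((x ^ k : ↥(Cfsg.isometryGroup F ⇑Q))).mulVec v - v
          ∈ Submodule.span F (S4 : Set (ι → F)) := by
      intro x hx k
      induction k with
      | zero =>
        intro v
        rw [pow_zero]
        have h1 : mt((1 : ↥(Cfsg.isometryGroup F ⇑Q))).mulVec v = v := by
          show (1 : Matrix ι ι F).mulVec v = v
          rw [Matrix.one_mulVec]
        rw [h1, sub_self]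
        exact Submodule.zero_mem _
      | succ k ih =>
        rw [pow_succ]
        exact hPmul _ _ ih hx
    have hzS : ∀ v, (mt(((eich Q u w hQu huw * (m * eich Q u₀ w₀ hQu₀ huw₀ * m⁻¹)) ^ j :
        ↥(Cfsg.isometryGroup F ⇑Q))) - 1).mulVec v ∈ Submodule.span F (S4 : Set (ι → F)) := by
      intro v
      rw [Matrix.sub_mulVec, Matrix.one_mulVec]
      exact hPpow _ (hPmul _ _ hPa hPb) j v
    have hbH := comm_invol_mem_H1 h2 hQ hn hrat hH hMO hZ hFIX _ hzM hzz hz1 hzr S4 hS4 hzS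
      _ hbM hbz
    exact conj_short_mem_H1 h2 hQ hrat hFIX u₀ w₀ hu₀ hu₀0 hQu₀ huw₀ hQw₀ m hm hbH

end Two

end Cfsg.Agent.Lib.Helper96
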