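import Mathlib
import Cfsg.Agent.Lib.Helper96.SubfTwo
import Cfsg.Agent.Lib.Helper52.SubfFix

/-!
Overgroups of the subfield subgroup of `Ω` in characteristic two, in the interface of
`Helper52/SubfFix` (helper96): an overgroup `M ≤ Ω` of the rational part of `Ω` whose parameter
set is `F₀` consists of scalar multiples of rational matrices (`char_two_le_H1`).
-/

set_option autoImplicit false
set_option linter.unusedSectionVars false

namespace Cfsg.Agent.Lib.Helper96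

open Module QuadraticMap
open Cfsg.Agent.Lib.Helper50 (RatV RatM H1)

/-- **Overgroups in characteristic two.**  Every element of a subgroup `M ≤ Ω` containing the
rational part of `Ω`, and with parameter set `F₀`, is a scalar multiple of a rational
matrix. -/
theorem char_two_le_H1 {ι : Type} [Fintype ι] [DecidableEq ι] {F : Type*} [Field F] [Fintype F]
    (F₀ : Subfield F) (Q : QuadraticForm F (ι → F))
    (hrat : ∀ v : ι → F₀, Q (Cfsg.Agent.Lib.Helper52.jV F₀ v) ∈ F₀)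
    (hQ : (polarBilin Q).Nondegenerate) (M : Subgroup ↥(Cfsg.isometryGroup F ⇑Q))
    (hn : 14 ≤ Fintype.card ι) (hHM : Cfsg.Agent.Lib.Helper52.RatLe F₀ Q M)
    (hW : ∀ c : F, Cfsg.Agent.Lib.Helper52.InW F₀ Q M c → c ∈ F₀) (h2 : (2 : F) = 0)
    (hMΩ : M ≤ commutator ↥(Cfsg.isometryGroup F ⇑Q)) :
    ∀ m ∈ M, (m : Matrix.GeneralLinearGroup ι F) ∈ H1 ι F₀ := by
  have hrat' : RatQ Q F₀ := by
    intro v hv
    obtain ⟨v₀, rfl⟩ := Cfsg.Agent.Lib.Helper52.exists_jV_of_ratV F₀ hv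
    exact hrat v₀
  have hH : ContainsRat Q F₀ M := hHM
  have hZ : HypZ Q F₀ M := by
    intro u x hu hu0 hInM
    obtain ⟨u₀, rfl⟩ := Cfsg.Agent.Lib.Helper52.exists_jV_of_ratV F₀ hu
    have hu₀0 : u₀ ≠ 0 := by
      rintro rfl
      exact hu0 (Cfsg.Agent.Lib.Helper52.jV_zero F₀)
    have hTS : Cfsg.Agent.Lib.Helper52.TS Q M (Cfsg.Agent.Lib.Helper52.jV F₀ u₀) x := hInM
    obtain ⟨w₀, s, hw⟩ := Cfsg.Agent.Lib.Helper52.rat_of_TS F₀ Q hrat hQ M (by omega) hHM hW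
      hu₀0 hTS
    refine ⟨s, ?_⟩
    rw [hw, add_sub_cancel_right]
    exact Cfsg.Agent.Lib.Helper52.ratV_jV F₀ w₀
  have hFIX : HypFix Q F₀ M := by
    rintro m hm u hu hu0 hQu ⟨c, hc0, hcr⟩
    obtain ⟨u₀, rfl⟩ := Cfsg.Agent.Lib.Helper52.exists_jV_of_ratV F₀ hu
    obtain ⟨xt, hxt⟩ := Cfsg.Agent.Lib.Helper52.exists_jV_of_ratV F₀ hcr
    have hu₀0 : u₀ ≠ 0 := by
      rintro rfl
      exact hu0 (Cfsg.Agent.Lib.Helper52.jV_zero F₀)
    apply Cfsg.Agent.Lib.Helper52.mem_H1_of_map_rat F₀ Q hrat hQ M (by omega) hHM hW hMΩ hm hQu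
      hu₀0 (xt := xt) (lam := c⁻¹)
    rw [hxt, smul_smul, inv_mul_cancel₀ hc0, one_smul]
  intro m hm
  exact char_two_le_H1_aux h2 hQ hn hrat' hH hMΩ hZ hFIX m hm

end Cfsg.Agent.Lib.Helper96
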