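import Cfsg.Agent.Lib.Helper96.UfBase
import Cfsg.Agent.Lib.Helper2.UfSLCONJ
import Cfsg.Agent.Lib.Helper43.UfSTD
import Cfsg.Agent.Lib.Helper50.UfFROB
import Cfsg.Agent.Lib.Helper68.UfTWOSQ
import Cfsg.Agent.Lib.Helper94.UfNILSQU
import Cfsg.Agent.Lib.Helper59.UfINVCHAR
import Cfsg.Agent.Lib.Helper59.UfSELFDUAL2
import Cfsg.Agent.Lib.Helper96.BGLin
import Cfsg.Agent.Lib.Helper96.BGIrr
import Cfsg.Agent.Lib.Helper96.SfArith
import Cfsg.Agent.Lib.Helper96.SfEIGENPROD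
import Cfsg.Agent.Lib.Helper34.SfDEGDET
import Cfsg.Agent.Lib.Helper34.SfSCALAR
import Cfsg.Agent.Lib.Helper34.SfSYM35
import Cfsg.Agent.Lib.Helper34.SfSMULPROD
import Cfsg.Agent.Lib.Helper47.SUCount
import Cfsg.Agent.Lib.Helper47.PGUClasses
import Cfsg.Agent.Lib.Helper47.SemiConjMat

/-!
# S5982: the backward direction
-/

set_option autoImplicit false

namespace Cfsg.Agent.Lib.Helper96.Uf

open Polynomial Matrix
open scoped MatrixGroups

/-- From an invertible `S` with `A* S A = S` to a `specialLinear`-conjugate of `x = w • A` in the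
similarity group of `f`. -/
theorem conj_of_selfdual {F : Type*} [Field F] [Fintype F] {p : ℕ} [Fact p.Prime] [CharP F p]
    (q₀ : ℕ) (hq : Fintype.card F = q₀ ^ 2) (n : ℕ)
    (f : (Fin n → F) → (Fin n → F) → F) (hf : Cfsg.Geo.IsUnitaryFormPow q₀ f)
    (σ : F →+* F) (hσq : ∀ x, σ x = x ^ q₀) (hσ : ∀ x, σ (σ x) = x) (hne : ∃ c, σ c ≠ c)
    (x : GL (Fin n) F) (hx : x ∈ Cfsg.Geo.specialLinear (Fin n) F) (w : F) (hw : w ≠ 0)
    (A S : Matrix (Fin n) (Fin n) F) (hxA : (x : Matrix (Fin n) (Fin n) F) = w • A)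
    (hS : IsUnit S.det) (hSA : Cfsg.Agent.Lib.Helper47.sT σ A * S * A = S)
    (hD : ∀ δ : F, δ ≠ 0 → ∃ Cm : Matrix (Fin n) (Fin n) F,
      Cm * (x : Matrix (Fin n) (Fin n) F) = (x : Matrix (Fin n) (Fin n) F) * Cm ∧ Cm.det = δ) :
    ∃ g ∈ Cfsg.Geo.specialLinear (Fin n) F, g⁻¹ * x * g ∈ Cfsg.Geo.similarityGroup f := by
  have hAdet : IsUnit A.det := by
    have h1 := (mem_sl_iff x).mp hx
    rw [hxA, Matrix.det_smul] at h1
    exact IsUnit.of_mul_eq_one _ (by rw [mul_comm]; exact h1)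
  obtain ⟨y, B, hyU, hyAB, hBB⟩ := Cfsg.Agent.Lib.Helper47.exists_unitary_similar p hσ hne A S
    ((Matrix.isUnit_iff_isUnit_det A).mpr hAdet) ((Matrix.isUnit_iff_isUnit_det S).mpr hS) hSA
  have hB : ∀ u v, Cfsg.hermForm n F q₀ (B *ᵥ u) (B *ᵥ v) = Cfsg.hermForm n F q₀ u v := by
    intro u v
    rw [← uForm_eq_hermForm q₀ n σ hσq, ← uForm_eq_hermForm q₀ n σ hσq]
    exact Cfsg.Agent.Lib.Helper47.unitary_of_sT_mul_self hσ hBB u v
  obtain ⟨Y, hY, hfY⟩ := Cfsg.Agent.Lib.Helper43.Uf.exists_std p q₀ hq n f hf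
  obtain ⟨T, A', hT, hTA, hiso⟩ := conj_isometry q₀ n f Y hY hfY A y B
    ((Matrix.isUnit_iff_isUnit_det y).mp hyU) hyAB hB
  exact Cfsg.Agent.Lib.Helper2.Uf.sl_conj_sim q₀ n f hf x hx w hw A T A' hxA hT hTA hiso hD

/-- The case `r = 2`. -/
theorem backward_two {F : Type*} [Field F] [Fintype F] {p : ℕ} [Fact p.Prime] [CharP F p]
    (q₀ : ℕ) (hq : Fintype.card F = q₀ ^ 2) (n : ℕ) (hn : 3 ≤ n)
    (f : (Fin n → F) → (Fin n → F) → F) (hf : Cfsg.Geo.IsUnitaryFormPow q₀ f)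
    (hcase : p = 2 ∨ padicValNat 2 n ≤ padicValNat 2 (q₀ ^ 2 - 1))
    (x : GL (Fin n) F) (hx : x ∈ Cfsg.Geo.specialLinear (Fin n) F) (z : F)
    (hz : ((x ^ 2 : GL (Fin n) F) : Matrix (Fin n) (Fin n) F) =
      z • (1 : Matrix (Fin n) (Fin n) F)) :
    ∃ g ∈ Cfsg.Geo.specialLinear (Fin n) F, g⁻¹ * x * g ∈ Cfsg.Geo.similarityGroup f := by
  classical
  have hn0 : n ≠ 0 := by omega
  have : NeZero n := ⟨hn0⟩
  have hp : p.Prime := Fact.out
  have hdet : (x : Matrix (Fin n) (Fin n) F).det = 1 := (mem_sl_iff x).mp hx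
  have hM : (x : Matrix (Fin n) (Fin n) F) * (x : Matrix (Fin n) (Fin n) F) =
      z • (1 : Matrix (Fin n) (Fin n) F) := by
    rw [← hz, Units.val_pow_eq_pow_val, pow_two]
  have hz0 : z ≠ 0 := by
    rintro rfl
    have h1 := congrArg Matrix.det hM
    have hne' : Nonempty (Fin n) := ⟨⟨0, by omega⟩⟩
    rw [Matrix.det_mul, hdet, zero_smul, Matrix.det_zero] at h1
    norm_num at h1
  have hD : ∀ δ : F, δ ≠ 0 → ∃ Cm : Matrix (Fin n) (Fin n) F,
      Cm * (x : Matrix (Fin n) (Fin n) F) = (x : Matrix (Fin n) (Fin n) F) * Cm ∧ Cm.det = δ :=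
    fun δ _ => Cfsg.Agent.Lib.Helper47.exists_commute_det_of_sq _ z hz0 hM δ
  obtain ⟨σ, hσq, hσ, hne⟩ := Cfsg.Agent.Lib.Helper50.Uf.exists_frob (F := F) p q₀ hq
  have hscal : ∀ c : F, c ^ 2 = z → c ≠ 0 ∧
      (c⁻¹ • (x : Matrix (Fin n) (Fin n) F)) * (c⁻¹ • (x : Matrix (Fin n) (Fin n) F)) = 1 ∧
      (x : Matrix (Fin n) (Fin n) F) = c • (c⁻¹ • (x : Matrix (Fin n) (Fin n) F)) := by
    intro c hc
    have hc0 : c ≠ 0 := by
      rintro rfl
      apply hz0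
      rw [← hc]
      norm_num
    refine ⟨hc0, ?_, ?_⟩
    · rw [Matrix.smul_mul, Matrix.mul_smul, hM, smul_smul, smul_smul, ← hc]
      have : c⁻¹ * c⁻¹ * c ^ 2 = 1 := by
        field_simp
      rw [this, one_smul]
    · rw [smul_smul, mul_inv_cancel₀ hc0, one_smul]
  by_cases h2 : (2 : F) = 0
  · obtain ⟨c, hc⟩ := Cfsg.Agent.Lib.Helper47.exists_sqrt_of_two_eq_zero h2 z
    obtain ⟨hc0, hAA, hxA⟩ := hscal c hc.symm
    obtain ⟨A, hA⟩ : ∃ A : Matrix (Fin n) (Fin n) F,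
        A = c⁻¹ • (x : Matrix (Fin n) (Fin n) F) := ⟨_, rfl⟩
    rw [← hA] at hAA hxA
    have hNN : (A - 1) * (A - 1) = 0 := by
      have h3 : (A - 1) * (A - 1) = A * A - A - A + 1 := by
        rw [Matrix.sub_mul, Matrix.mul_sub, Matrix.mul_one, Matrix.one_mul]
        abel
      rw [h3, hAA]
      have h4 : (1 : Matrix (Fin n) (Fin n) F) - A - A + 1 = (2 : F) • (1 - A) := by
        rw [two_smul]
        abel
      rw [h4, h2, zero_smul]
    obtain ⟨f', hf', hnd', hinv⟩ := Cfsg.Agent.Lib.Helper94.Uf.exists_uform_nilsq σ hσ h2 n (Fin n → F)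
      (Matrix.toLin' (A - 1)) (by simp) (by
        intro u
        rw [← LinearMap.comp_apply, ← Matrix.toLin'_mul, hNN, map_zero, LinearMap.zero_apply])
    have hAinv : ∀ u v, f' (A *ᵥ u) (A *ᵥ v) = f' u v := by
      intro u v
      have h5 : ∀ u : Fin n → F, u + Matrix.toLin' (A - 1) u = A *ᵥ u := by
        intro u
        rw [Matrix.toLin'_apply, Matrix.sub_mulVec, Matrix.one_mulVec]
        abel
      rw [← h5 u, ← h5 v]
      exact hinv u v
    have hf'U := isUnitary_of_sform q₀ n σ hσq f' hf' hnd'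
    obtain ⟨Y', hY', hfY'⟩ := Cfsg.Agent.Lib.Helper43.Uf.exists_std p q₀ hq n f' hf'U
    obtain ⟨B, hyAB, hB⟩ := conj_std_of_form q₀ n f' Y' hY' hfY' A hAinv
    obtain ⟨Y, hY, hfY⟩ := Cfsg.Agent.Lib.Helper43.Uf.exists_std p q₀ hq n f hf
    obtain ⟨T, A', hT, hTA, hiso⟩ := conj_isometry q₀ n f Y hY hfY A Y' B hY' hyAB hB
    exact Cfsg.Agent.Lib.Helper2.Uf.sl_conj_sim q₀ n f hf x hx c hc0 A T A' hxA hT hTA hiso hD
  · have hp2 : p ≠ 2 := by
      rintro rfl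
      apply h2
      have := CharP.cast_eq_zero F 2
      exact_mod_cast this
    have hv : padicValNat 2 n ≤ padicValNat 2 (q₀ ^ 2 - 1) := by
      rcases hcase with h | h
      · exact absurd h hp2
      · exact h
    obtain ⟨c, hc⟩ := Cfsg.Agent.Lib.Helper68.Uf.sq_of_det_one p hp2 q₀ hq n hn0 hv _ z hz0 hM hdet
    obtain ⟨hc0, hAA, hxA⟩ := hscal c hc
    obtain ⟨S, hS, hSA⟩ := Cfsg.Agent.Lib.Helper59.Uf.selfdual_of_sq_one σ h2 _ hAA
    exact conj_of_selfdual q₀ hq n f hf σ hσq hσ hne x hx c hc0 _ S hxA hS hSA hD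

/-- The special case `n = r ∈ {3, 5}` and `v_r(q₀ - 1) = 1`. -/
theorem backward_special {F : Type*} [Field F] [Fintype F] {p : ℕ} [Fact p.Prime] [CharP F p]
    (q₀ : ℕ) (hq : Fintype.card F = q₀ ^ 2) (r : ℕ) [Fact r.Prime]
    (hr35 : r = 3 ∨ r = 5) (hrp : r ≠ p) (hv : padicValNat r (q₀ - 1) = 1)
    (f : (Fin r → F) → (Fin r → F) → F) (hf : Cfsg.Geo.IsUnitaryFormPow q₀ f)
    (x : GL (Fin r) F) (hx : x ∈ Cfsg.Geo.specialLinear (Fin r) F) (z : F)
    (hz : ((x ^ r : GL (Fin r) F) : Matrix (Fin r) (Fin r) F) =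
      z • (1 : Matrix (Fin r) (Fin r) F))
    (hns : ∀ z : F, (x : Matrix (Fin r) (Fin r) F) ≠ z • (1 : Matrix (Fin r) (Fin r) F)) :
    ∃ g ∈ Cfsg.Geo.specialLinear (Fin r) F, g⁻¹ * x * g ∈ Cfsg.Geo.similarityGroup f := by
  classical
  have hr : r.Prime := Fact.out
  have hr2 : r ≠ 2 := by rcases hr35 with h | h <;> omega
  have hrodd : Odd r := hr.odd_of_ne_two hr2
  have : Nonempty (Fin r) := ⟨⟨0, hr.pos⟩⟩
  obtain ⟨hrq, hr0, -⟩ := BG.facts (F := F) p r hrp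
  have hdetx : (x : Matrix (Fin r) (Fin r) F).det = 1 := (mem_sl_iff x).mp hx
  obtain ⟨M, hMx⟩ : ∃ M : Matrix (Fin r) (Fin r) F, M = (x : Matrix (Fin r) (Fin r) F) :=
    ⟨_, rfl⟩
  rw [Units.val_pow_eq_pow_val, ← hMx] at hz
  rw [← hMx] at hns hdetx
  have hq₀2 := two_le_q₀ q₀ hq
  have hdvd1 : r ∣ q₀ - 1 := dvd_of_one_le_padicValNat (by omega)
  have hndvd : ¬ r ∣ q₀ + 1 := by
    intro h
    have h2 : r ∣ (q₀ + 1) - (q₀ - 1) := Nat.dvd_sub h hdvd1
    have h3 : (q₀ + 1) - (q₀ - 1) = 2 := by omega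
    rw [h3] at h2
    have h4 := Nat.le_of_dvd (by norm_num) h2
    have h5 := hr.two_le
    omega
  have hfac : Fintype.card F - 1 = (q₀ - 1) * (q₀ + 1) := by
    rw [hq]
    obtain ⟨b, rfl⟩ : ∃ b, q₀ = b + 1 := ⟨q₀ - 1, by omega⟩
    simp only [Nat.add_sub_cancel]
    have : (b + 1) ^ 2 = b * (b + 1 + 1) + 1 := by ring
    omega
  have hdvdq : r ∣ Fintype.card F - 1 := by
    rw [hfac]
    exact Dvd.dvd.mul_right hdvd1 _
  have hvq : padicValNat r (Fintype.card F - 1) = 1 := by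
    rw [hfac, padicValNat.mul (by omega) (by omega), padicValNat.eq_zero_of_not_dvd hndvd,
      add_zero, hv]
  have hzr : z ^ r = 1 := by
    have h1 := congrArg Matrix.det hz
    rw [Matrix.det_pow, hdetx, one_pow, Matrix.det_smul, Matrix.det_one, mul_one,
      Fintype.card_fin] at h1
    exact h1.symm
  have hz0 : z ≠ 0 := by
    rintro rfl
    rw [zero_pow hr.ne_zero] at hzr
    exact zero_ne_one hzr
  have hz1 : z = 1 := by
    obtain ⟨w, hw⟩ : ∃ w : F, w ^ r = z := by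
      by_contra hno
      push Not at hno
      have hT := BG.toLin'_pow_eq r r M z hz
      have hdet : LinearMap.det (Matrix.toLin' M) = 1 := by
        rw [LinearMap.det_toLin']
        exact hdetx
      have h1 := BG.det_of_not_pow r hr z hno r (Fin r → F) _ (Module.finrank_fin_fun F) hT
      rw [hdet, Nat.div_self hr.pos, pow_one, hrodd.add_one.neg_one_pow, one_mul] at h1
      exact hno 1 (by rw [one_pow]; exact h1)
    have hw0 : w ≠ 0 := by
      rintro rfl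
      rw [zero_pow hr.ne_zero] at hw
      exact hz0 hw.symm
    have h1 : w ^ (r ^ 2) = 1 := by rw [pow_two, pow_mul, hw, hzr]
    have h2 : w ^ (Fintype.card F - 1) = 1 := FiniteField.pow_card_sub_one_eq_one w hw0
    have h3 : w ^ Nat.gcd (r ^ 2) (Fintype.card F - 1) = 1 := pow_gcd_eq_one.mpr ⟨h1, h2⟩
    have h4 : Nat.gcd (r ^ 2) (Fintype.card F - 1) ∣ r := by
      obtain ⟨i, hi, hgi⟩ :=
        (Nat.dvd_prime_pow hr).mp (Nat.gcd_dvd_left (r ^ 2) (Fintype.card F - 1))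
      rcases Nat.lt_or_ge i 2 with hlt | hge
      · rw [hgi]
        have h5 : r ^ i ∣ r ^ 1 := pow_dvd_pow r (by omega)
        rwa [pow_one] at h5
      · have hi2 : i = 2 := by omega
        have h5 : r ^ 2 ∣ Fintype.card F - 1 := by
          have h6 := Nat.gcd_dvd_right (r ^ 2) (Fintype.card F - 1)
          rwa [hgi, hi2] at h6
        have h7 : Fintype.card F - 1 ≠ 0 := by
          have := Fintype.one_lt_card (α := F)
          omega
        have h6 := (padicValNat_dvd_iff_le h7).mp h5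
        omega
    obtain ⟨t, ht⟩ := h4
    rw [← hw, ht, pow_mul, h3, one_pow]
  have hM : M ^ r = 1 := by
    rw [hz, hz1, one_smul]
  obtain ⟨ω, hω, hω1⟩ := Sf.exists_prim_root (F := F) r hdvdq
  obtain ⟨m, hm⟩ := Sf.charpoly_eq_prod_of_pow_eq_one M r hr ω hω hω1 hM
  obtain ⟨hsum, hdet⟩ := Cfsg.Agent.Lib.Helper34.Sf.deg_det_of_prod M r ω m hm
  rw [hdetx] at hdet
  have hS : r ∣ ∑ j ∈ Finset.range r, j * m j := by
    have h1 : orderOf ω = r := orderOf_eq_prime hω hω1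
    have h2 := orderOf_dvd_of_pow_eq_one hdet.symm
    rwa [h1] at h2
  have hlt : ∀ j ∈ Finset.range r, m j < r := by
    intro j₀ hj₀
    by_contra hge
    push Not at hge
    have h1 := Finset.add_sum_erase (Finset.range r) m hj₀
    have h2 : ∑ j ∈ (Finset.range r).erase j₀, m j = 0 := by omega
    have h3 : ∀ j ∈ Finset.range r, j ≠ j₀ → m j = 0 := by
      intro j hj hne
      exact (Finset.sum_eq_zero_iff.mp h2) j (Finset.mem_erase.mpr ⟨hne, hj⟩)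
    have h4 : m j₀ = r := by omega
    have h5 : M.charpoly = (X - C (ω ^ j₀)) ^ r := by
      rw [hm, Finset.prod_eq_single j₀ (fun j hj hne => by rw [h3 j hj hne, pow_zero])
        (fun h => absurd hj₀ h), h4]
    exact hns (ω ^ j₀)
      (Cfsg.Agent.Lib.Helper34.Sf.eq_smul_one_of_charpoly _ r hr0 hM (ω ^ j₀) h5)
  obtain ⟨c, hc, hsym⟩ := Cfsg.Agent.Lib.Helper34.Sf.sym35 r hr35 m hsum hS hlt
  rw [Finset.mem_range] at hc
  have hω0 : ω ≠ 0 := by
    rintro rfl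
    rw [zero_pow hr.ne_zero] at hω
    exact zero_ne_one hω
  have hu : ω ^ c ≠ 0 := pow_ne_zero _ hω0
  obtain ⟨A, hA⟩ : ∃ A : Matrix (Fin r) (Fin r) F, A = ω ^ (r - c) • M := ⟨_, rfl⟩
  have hxA : (x : Matrix (Fin r) (Fin r) F) = ω ^ c • A := by
    rw [← hMx, hA, smul_smul, ← pow_add, Nat.add_sub_cancel' hc.le, hω, one_smul]
  have hpow : A ^ r = 1 := by
    rw [hA, _root_.smul_pow, hM, ← pow_mul, mul_comm, pow_mul, hω, one_pow, one_smul]
  have hchar : A.charpoly = ∏ j ∈ Finset.range r, (X - C (ω ^ (r - c) * ω ^ j)) ^ m j := by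
    rw [hA]
    exact Cfsg.Agent.Lib.Helper34.Sf.charpoly_smul_prod M (ω ^ (r - c)) (pow_ne_zero _ hω0)
      (Finset.range r) (fun j => ω ^ j) m hm
  have hinvchar := Cfsg.Agent.Lib.Helper59.Uf.charpoly_inv_sym A r hr.pos ω hω m c hc hsym hchar
  obtain ⟨σ, hσq, hσ, hne⟩ := Cfsg.Agent.Lib.Helper50.Uf.exists_frob (F := F) p q₀ hq
  have hσω : σ ω = ω := by
    rw [hσq]
    obtain ⟨t, ht⟩ := hdvd1
    have h2 : q₀ = r * t + 1 := by omega
    rw [h2, pow_succ, pow_mul, hω, one_pow, one_mul]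
  have hAdet : IsUnit A.det := by
    have h1 := congrArg Matrix.det hpow
    rw [Matrix.det_pow, Matrix.det_one] at h1
    exact IsUnit.of_pow_eq_one h1 hr.ne_zero
  have hAA : A⁻¹ * A = 1 := Matrix.nonsing_inv_mul A hAdet
  have hAinvpow : A⁻¹ ^ r = 1 := by
    rw [Matrix.inv_pow', hpow, inv_one]
  have hsA : Module.End.IsSemisimple (Matrix.toLin' A) :=
    Cfsg.Agent.Lib.Helper47.isSemisimple_toLin'_of_pow_eq_scalar A r hr0 (c := 1) one_ne_zero
      (by rw [hpow, one_smul])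
  have hNpow : (Cfsg.Agent.Lib.Helper47.sT σ A⁻¹) ^ r = 1 := by
    rw [← Cfsg.Agent.Lib.Helper47.sT_pow, hAinvpow, Cfsg.Agent.Lib.Helper47.sT_one]
  have hsN : Module.End.IsSemisimple (Matrix.toLin' (Cfsg.Agent.Lib.Helper47.sT σ A⁻¹)) :=
    Cfsg.Agent.Lib.Helper47.isSemisimple_toLin'_of_pow_eq_scalar _ r hr0 (c := 1) one_ne_zero
      (by rw [hNpow, one_smul])
  have hcharN : A.charpoly = (Cfsg.Agent.Lib.Helper47.sT σ A⁻¹).charpoly := by
    rw [Cfsg.Agent.Lib.Helper47.charpoly_sT, hinvchar, hchar, Polynomial.map_prod]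
    apply Finset.prod_congr rfl
    intro j _
    have hσj : σ (ω ^ (r - c) * ω ^ j) = ω ^ (r - c) * ω ^ j := by
      rw [map_mul, map_pow, map_pow, hσω]
    rw [Polynomial.map_pow, Polynomial.map_sub, Polynomial.map_X, Polynomial.map_C, hσj]
  obtain ⟨P, hP, hPA⟩ := Cfsg.Agent.Lib.Helper47.exists_conj_matrix A _ hsA hsN hcharN
  have hSA : Cfsg.Agent.Lib.Helper47.sT σ A * P * A = P := by
    rw [Matrix.mul_assoc, hPA, ← Matrix.mul_assoc, ← Cfsg.Agent.Lib.Helper47.sT_mul, hAA,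
      Cfsg.Agent.Lib.Helper47.sT_one, Matrix.one_mul]
  have hsM : Module.End.IsSemisimple (Matrix.toLin' M) :=
    Cfsg.Agent.Lib.Helper47.isSemisimple_toLin'_of_pow_eq_scalar M r hr0 (c := 1) one_ne_zero
      (by rw [hM, one_smul])
  have hD : ∀ δ : F, δ ≠ 0 → ∃ Cm : Matrix (Fin r) (Fin r) F,
      Cm * (x : Matrix (Fin r) (Fin r) F) = (x : Matrix (Fin r) (Fin r) F) * Cm ∧ Cm.det = δ := by
    intro δ _
    rw [← hMx]
    exact Cfsg.Agent.Lib.Helper47.exists_commute_matrix_det M hsM δ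
  exact conj_of_selfdual q₀ hq r f hf σ hσq hσ hne x hx (ω ^ c) hu A P hxA hP hSA hD

end Cfsg.Agent.Lib.Helper96.Uf
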