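import Cfsg.Agent.Lib.Helper96.UfBase
import Cfsg.Agent.Lib.Helper43.UfSTD
import Cfsg.Agent.Lib.Helper46.UfEIGPERM
import Cfsg.Agent.Lib.Helper50.UfFROB
import Cfsg.Agent.Lib.Helper89.UfPERMCOMB
import Cfsg.Agent.Lib.Helper34.SfMAJ

/-!
# S5982: diagonal elements of order `r ∣ q₀ - 1` which are not conjugate into the similarity group
of a unitary form
-/

set_option autoImplicit false

namespace Cfsg.Agent.Lib.Helper96.Uf

open Polynomial Matrix
open scoped MatrixGroups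

/-- A diagonal element with more than half of its eigenvalues equal, with an eigenvalue `ω`
but without the eigenvalue `ω⁻¹`, is not conjugate into the similarity group. -/
theorem diag_contraU {F : Type*} [Field F] [Fintype F] {p : ℕ} [Fact p.Prime] [CharP F p]
    (q₀ : ℕ) (hq : Fintype.card F = q₀ ^ 2) (n r : ℕ) [Fact r.Prime] (hr2 : r ≠ 2) (hn : n ≠ 0)
    (hr₀ : r ∣ q₀ - 1) (f : (Fin n → F) → (Fin n → F) → F)
    (hf : Cfsg.Geo.IsUnitaryFormPow q₀ f) (ω : F) (hω : ω ^ r = 1) (hω1 : ω ≠ 1)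
    (hall : ∀ x ∈ Cfsg.Geo.specialLinear (Fin n) F,
      (∃ z : F, ((x ^ r : GL (Fin n) F) : Matrix (Fin n) (Fin n) F) =
        z • (1 : Matrix (Fin n) (Fin n) F)) →
      (∀ z : F, (x : Matrix (Fin n) (Fin n) F) ≠ z • (1 : Matrix (Fin n) (Fin n) F)) →
      ∃ g ∈ Cfsg.Geo.specialLinear (Fin n) F, g⁻¹ * x * g ∈ Cfsg.Geo.similarityGroup f)
    (a : Fin n → ℕ) (w : F) (hw : w ≠ 0) (hdet : w ^ n * ω ^ (∑ l, a l) = 1)
    (hmaj : n < 2 * (Finset.univ.filter (fun l : Fin n => a l % r = 0)).card)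
    (h1 : 0 < (Finset.univ.filter (fun l : Fin n => a l % r = 1)).card)
    (hq' : (Finset.univ.filter (fun l : Fin n => a l % r = (r - 1) % r)).card = 0) : False := by
  classical
  have hr : r.Prime := Fact.out
  have hr3 : 3 ≤ r := by
    have := hr.two_le
    omega
  have hq₀2 := two_le_q₀ q₀ hq
  have hord : orderOf ω = r := orderOf_eq_prime hω hω1
  have hprim : IsPrimitiveRoot ω r := by
    have := IsPrimitiveRoot.orderOf ω
    rwa [hord] at this
  have hpow_iff : ∀ x y : ℕ, ω ^ x = ω ^ y ↔ x % r = y % r := by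
    intro x y
    rw [pow_eq_pow_mod x hω, pow_eq_pow_mod y hω]
    constructor
    · intro h
      exact hprim.pow_inj (Nat.mod_lt _ hr.pos) (Nat.mod_lt _ hr.pos) h
    · intro h
      rw [h]
  have hω0 : ω ≠ 0 := by
    rintro rfl
    rw [zero_pow hr.ne_zero] at hω
    exact zero_ne_one hω
  have hωq : ω ^ q₀ = ω := by
    obtain ⟨t, ht⟩ := hr₀
    have h2 : q₀ = r * t + 1 := by omega
    rw [h2, pow_succ, pow_mul, hω, one_pow, one_mul]
  obtain ⟨D, hD⟩ : ∃ D : Matrix (Fin n) (Fin n) F,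
      D = Matrix.diagonal (fun l => ω ^ a l) := ⟨_, rfl⟩
  have hDdet : (w • D).det = 1 := by
    rw [Matrix.det_smul, hD, Matrix.det_diagonal, Fintype.card_fin, Finset.prod_pow_eq_pow_sum]
    exact hdet
  have hDpow : D ^ r = 1 := by
    rw [hD, Matrix.diagonal_pow]
    have h0 : (fun l : Fin n => ω ^ a l) ^ r = 1 := by
      funext l
      rw [Pi.pow_apply, ← pow_mul, mul_comm, pow_mul, hω, one_pow]
      rfl
    rw [h0]
    exact Matrix.diagonal_one
  obtain ⟨x, hx⟩ : ∃ x : Matrix.SpecialLinearGroup (Fin n) F,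
      (x : Matrix (Fin n) (Fin n) F) = w • D := ⟨⟨w • D, hDdet⟩, rfl⟩
  have hxpow : (x : Matrix (Fin n) (Fin n) F) ^ r = w ^ r • (1 : Matrix (Fin n) (Fin n) F) := by
    rw [hx, _root_.smul_pow, hDpow]
  have hpowmod : ∀ t : ℕ, ω ^ t = ω ^ (t % r) := fun t => pow_eq_pow_mod t hω
  have hns : ∀ z : F, (x : Matrix (Fin n) (Fin n) F) ≠ z • (1 : Matrix (Fin n) (Fin n) F) := by
    intro z hz
    obtain ⟨l₂, hl₂⟩ := Finset.card_pos.mp h1
    have hpos0 : 0 < (Finset.univ.filter (fun l : Fin n => a l % r = 0)).card := by omega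
    obtain ⟨l₁, hl₁⟩ := Finset.card_pos.mp hpos0
    rw [Finset.mem_filter] at hl₁ hl₂
    rw [hx, hD] at hz
    have e1 := congrFun (congrFun hz l₁) l₁
    have e2 := congrFun (congrFun hz l₂) l₂
    rw [Matrix.smul_apply, Matrix.diagonal_apply_eq, Matrix.smul_apply, Matrix.one_apply_eq,
      smul_eq_mul, smul_eq_mul, mul_one] at e1 e2
    rw [hpowmod, hl₁.2, pow_zero, mul_one] at e1
    rw [hpowmod, hl₂.2, pow_one, ← e1] at e2
    apply hω1
    exact mul_left_cancel₀ hw (e2.trans (mul_one w).symm)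
  have hXmem : Matrix.SpecialLinearGroup.toGL x ∈ Cfsg.Geo.specialLinear (Fin n) F := by
    rw [mem_sl_iff, Matrix.SpecialLinearGroup.coe_GL_coe_matrix]
    exact x.det_coe
  obtain ⟨g, -, hmem⟩ := hall _ hXmem ⟨w ^ r, by
    rw [Units.val_pow_eq_pow_val, Matrix.SpecialLinearGroup.coe_GL_coe_matrix]
    exact hxpow⟩ (by
    intro z
    rw [Matrix.SpecialLinearGroup.coe_GL_coe_matrix]
    exact hns z)
  obtain ⟨μ, hμ⟩ := hmem
  obtain ⟨Y, hY, hfY⟩ := Cfsg.Agent.Lib.Helper43.Uf.exists_std p q₀ hq n f hf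
  obtain ⟨G, Z, hG, hZG, hZ⟩ := sim_std q₀ n f Y hY hfY _ g (μ : F) hμ
  rw [Matrix.SpecialLinearGroup.coe_GL_coe_matrix, hx, hD, ← Matrix.diagonal_smul] at hZG
  obtain ⟨σ, hσq, -, -⟩ := Cfsg.Agent.Lib.Helper50.Uf.exists_frob (F := F) p q₀ hq
  obtain ⟨π, hπ⟩ := Cfsg.Agent.Lib.Helper46.Uf.exists_perm_eig q₀ n σ hσq _ G Z hG (μ : F) hZ hZG
  have hπ' : ∀ l, w ^ (q₀ + 1) * ω ^ (a (π l) + a l) = (μ : F) := by
    intro l
    have h2 := hπ l
    simp only [Pi.smul_apply, smul_eq_mul] at h2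
    rw [← h2, mul_pow, ← pow_mul, mul_comm (a l) q₀, pow_mul, hωq, pow_add, pow_succ]
    ring
  obtain ⟨l₀⟩ : Nonempty (Fin n) := ⟨⟨0, Nat.pos_of_ne_zero hn⟩⟩
  have hw1 : w ^ (q₀ + 1) ≠ 0 := pow_ne_zero _ hw
  have hπ'' : ∀ l, (a (π l) + a l) % r = (a (π l₀) + a l₀) % r := by
    intro l
    rw [← hpow_iff]
    exact mul_left_cancel₀ hw1 ((hπ' l).trans (hπ' l₀).symm)
  obtain ⟨c, hc⟩ := Cfsg.Agent.Lib.Helper89.Uf.perm_comb n r hr2 a π _ hπ''
  have hmajc := Cfsg.Agent.Lib.Helper34.Sf.maj_center n r (r - 1)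
    (by
      intro h
      have h2 := Nat.le_of_dvd (by omega) h
      omega) (by omega) a hmaj c hc 1
  rw [mul_one, Nat.mod_eq_of_lt hr.one_lt, hq'] at hmajc
  omega

/-- The version with an explicit short list of exponents. -/
theorem diag_contraU' {F : Type*} [Field F] [Fintype F] {p : ℕ} [Fact p.Prime] [CharP F p]
    (q₀ : ℕ) (hq : Fintype.card F = q₀ ^ 2) (n r : ℕ) [Fact r.Prime] (hr2 : r ≠ 2)
    (hr₀ : r ∣ q₀ - 1) (f : (Fin n → F) → (Fin n → F) → F)
    (hf : Cfsg.Geo.IsUnitaryFormPow q₀ f) (ω : F) (hω : ω ^ r = 1) (hω1 : ω ≠ 1)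
    (hall : ∀ x ∈ Cfsg.Geo.specialLinear (Fin n) F,
      (∃ z : F, ((x ^ r : GL (Fin n) F) : Matrix (Fin n) (Fin n) F) =
        z • (1 : Matrix (Fin n) (Fin n) F)) →
      (∀ z : F, (x : Matrix (Fin n) (Fin n) F) ≠ z • (1 : Matrix (Fin n) (Fin n) F)) →
      ∃ g ∈ Cfsg.Geo.specialLinear (Fin n) F, g⁻¹ * x * g ∈ Cfsg.Geo.similarityGroup f)
    (s : ℕ) (e : ℕ → ℕ) (hs : 2 * s < n) (hs1 : 1 ≤ s) (he0 : e 0 % r = 1)
    (heq : ∀ t < s, e t % r ≠ r - 1)
    (w : F) (hw : w ≠ 0) (hdet : w ^ n * ω ^ (∑ t ∈ Finset.range s, e t) = 1) : False := by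
  classical
  have hr : r.Prime := Fact.out
  have hr3 : 3 ≤ r := by
    have := hr.two_le
    omega
  have hr1 : (r - 1) % r = r - 1 := Nat.mod_eq_of_lt (by omega)
  apply diag_contraU q₀ hq n r hr2 (by omega) hr₀ f hf ω hω hω1 hall
    (fun l => if (l : ℕ) < s then e l else 0) w hw
  · have hsum : ∑ l : Fin n, (if (l : ℕ) < s then e l else 0) = ∑ t ∈ Finset.range s, e t := by
      rw [Fin.sum_univ_eq_sum_range (fun t => if t < s then e t else 0) n, ← Finset.sum_filter]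
      congr 1
      ext t
      simp only [Finset.mem_filter, Finset.mem_range]
      omega
    rw [hsum]
    exact hdet
  · have hsub : Finset.univ.filter (fun l : Fin n => ¬ (l : ℕ) < s) ⊆
        Finset.univ.filter (fun l : Fin n => (if (l : ℕ) < s then e l else 0) % r = 0) := by
      intro l hl
      rw [Finset.mem_filter] at hl ⊢
      refine ⟨hl.1, ?_⟩
      rw [if_neg hl.2]
      exact Nat.zero_mod r
    have hlt : (Finset.univ.filter (fun l : Fin n => (l : ℕ) < s)).card = s := by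
      rw [Fin.card_filter_val_lt]
      omega
    have hadd := Finset.card_filter_add_card_filter_not (s := (Finset.univ : Finset (Fin n)))
      (fun l : Fin n => (l : ℕ) < s)
    rw [Finset.card_univ, Fintype.card_fin, hlt] at hadd
    have hle := Finset.card_le_card hsub
    omega
  · apply Finset.card_pos.mpr
    refine ⟨⟨0, by omega⟩, ?_⟩
    rw [Finset.mem_filter]
    refine ⟨Finset.mem_univ _, ?_⟩
    show (if (0 : ℕ) < s then e 0 else 0) % r = 1
    rw [if_pos (by omega)]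
    exact he0
  · rw [Finset.card_eq_zero, Finset.filter_eq_empty_iff]
    intro l _
    rw [hr1]
    by_cases hl : (l : ℕ) < s
    · rw [if_pos hl]
      exact heq l hl
    · rw [if_neg hl, Nat.zero_mod]
      omega

end Cfsg.Agent.Lib.Helper96.Uf
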