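import Cfsg.Agent.Lib.Helper96.UfBase
import Cfsg.Agent.Lib.Helper10.UfKERDIM
import Cfsg.Agent.Lib.Helper20.UfCOUNTSUB
import Cfsg.Agent.Lib.Helper4.UfSIM2SQ
import Cfsg.Agent.Lib.Helper42.UfFIXND
import Cfsg.Agent.Lib.Helper43.UfSTD
import Cfsg.Agent.Lib.Helper46.UfFIXORB
import Cfsg.Agent.Lib.Helper56.UfMULT
import Cfsg.Agent.Lib.Helper96.BGLin
import Cfsg.Agent.Lib.Helper96.SfBLOCKSL
import Cfsg.Agent.Lib.Helper96.SfArith
import Cfsg.Agent.Lib.Helper7.HermCount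
import Cfsg.Agent.Lib.Helper47.SemiConjMat

/-!
# S5982: the forward direction (`r = 2` twisted involutions; `r` odd block elements)
-/

set_option autoImplicit false

namespace Cfsg.Agent.Lib.Helper96.Uf

open Polynomial Matrix
open scoped MatrixGroups

/-- For `q` odd and `v₂(q - 1) < v₂(n)` some involution of `PSL_n(q)` is not conjugate into the
similarity group of a unitary form. -/
theorem forward_two {F : Type*} [Field F] [Fintype F] {p : ℕ} [Fact p.Prime] [CharP F p]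
    (q₀ : ℕ) (hq : Fintype.card F = q₀ ^ 2) (n : ℕ) (hn : 3 ≤ n)
    (f : (Fin n → F) → (Fin n → F) → F) (hf : Cfsg.Geo.IsUnitaryFormPow q₀ f) (hp2 : p ≠ 2)
    (hv : padicValNat 2 (q₀ ^ 2 - 1) < padicValNat 2 n)
    (hall : ∀ x ∈ Cfsg.Geo.specialLinear (Fin n) F,
      (∃ z : F, ((x ^ 2 : GL (Fin n) F) : Matrix (Fin n) (Fin n) F) =
        z • (1 : Matrix (Fin n) (Fin n) F)) →
      (∀ z : F, (x : Matrix (Fin n) (Fin n) F) ≠ z • (1 : Matrix (Fin n) (Fin n) F)) →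
      ∃ g ∈ Cfsg.Geo.specialLinear (Fin n) F, g⁻¹ * x * g ∈ Cfsg.Geo.similarityGroup f) :
    False := by
  classical
  have hn0 : n ≠ 0 := by omega
  have hp : p.Prime := Fact.out
  have : Fact (Nat.Prime 2) := ⟨Nat.prime_two⟩
  have hodd : ¬ 2 ∣ Fintype.card F := by
    obtain ⟨k, hk1, hk2⟩ := FiniteField.card F p
    rw [hk2]
    intro h
    exact hp2 ((Nat.prime_dvd_prime_iff_eq Nat.prime_two hp).mp
      (Nat.prime_two.dvd_of_dvd_pow h)).symm
  have hdvd : 2 ∣ Fintype.card F - 1 := by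
    have := Fintype.card_pos (α := F)
    omega
  obtain ⟨x, c, hc, hxc⟩ := BG.exists_twisted_sl (F := F) n 2 hdvd hodd (by
    rw [hq]
    intro h
    omega) hn0
  have hc0 : c ≠ 0 := by
    rintro rfl
    exact hc 0 (by norm_num)
  have hXmem : Matrix.SpecialLinearGroup.toGL x ∈ Cfsg.Geo.specialLinear (Fin n) F := by
    rw [mem_sl_iff, Matrix.SpecialLinearGroup.coe_GL_coe_matrix]
    exact x.det_coe
  have hXsq : ((Matrix.SpecialLinearGroup.toGL x ^ 2 : GL (Fin n) F) :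
      Matrix (Fin n) (Fin n) F) = c • (1 : Matrix (Fin n) (Fin n) F) := by
    rw [← map_pow, Matrix.SpecialLinearGroup.coe_GL_coe_matrix]
    exact hxc
  have hXns : ∀ z : F, ((Matrix.SpecialLinearGroup.toGL x : GL (Fin n) F) :
      Matrix (Fin n) (Fin n) F) ≠ z • (1 : Matrix (Fin n) (Fin n) F) := by
    intro z hz
    have h1 : ((Matrix.SpecialLinearGroup.toGL x ^ 2 : GL (Fin n) F) :
        Matrix (Fin n) (Fin n) F) = (z ^ 2) • (1 : Matrix (Fin n) (Fin n) F) := by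
      rw [Units.val_pow_eq_pow_val, hz, _root_.smul_pow, one_pow]
    rw [hXsq] at h1
    have h2 := congrFun (congrFun h1 ⟨0, by omega⟩) ⟨0, by omega⟩
    rw [Matrix.smul_apply, Matrix.smul_apply, Matrix.one_apply_eq, smul_eq_mul, smul_eq_mul,
      mul_one, mul_one] at h2
    exact hc z h2.symm
  obtain ⟨g, -, hmem⟩ := hall _ hXmem ⟨c, hXsq⟩ hXns
  obtain ⟨μ, hμ⟩ := hmem
  have hyy : ((g⁻¹ * Matrix.SpecialLinearGroup.toGL x * g : GL (Fin n) F) :
      Matrix (Fin n) (Fin n) F) * ((g⁻¹ * Matrix.SpecialLinearGroup.toGL x * g : GL (Fin n) F) :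
      Matrix (Fin n) (Fin n) F) = c • (1 : Matrix (Fin n) (Fin n) F) := by
    rw [← Units.val_mul]
    have h1 : g⁻¹ * Matrix.SpecialLinearGroup.toGL x * g *
        (g⁻¹ * Matrix.SpecialLinearGroup.toGL x * g) =
        g⁻¹ * (Matrix.SpecialLinearGroup.toGL x ^ 2) * g := by
      rw [pow_two]
      simp only [mul_assoc, mul_inv_cancel_left]
    rw [h1, Units.val_mul, Units.val_mul, hXsq, Matrix.mul_smul, Matrix.smul_mul, Matrix.mul_one,
      ← Units.val_mul, inv_mul_cancel, Units.val_one]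
  obtain ⟨d, hd⟩ := Cfsg.Agent.Lib.Helper4.Uf.sq_of_sim_sq p hp2 q₀ hq n hn0 f hf _ (μ : F) c hc0 hμ hyy
  exact hc d hd

/-- If `ord_r(q) ≥ 2` and all elements of order `r` are conjugate into the similarity group of a
unitary form, then `(-q₀)^{ord_r(q)} = 1` modulo `r`. -/
theorem forward_blockU {F : Type*} [Field F] [Fintype F] {p : ℕ} [Fact p.Prime] [CharP F p]
    (q₀ : ℕ) (hq : Fintype.card F = q₀ ^ 2) (n : ℕ)
    (f : (Fin n → F) → (Fin n → F) → F) (hf : Cfsg.Geo.IsUnitaryFormPow q₀ f)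
    (r : ℕ) [Fact r.Prime] (hrp : r ≠ p)
    (hi2 : 2 ≤ orderOf ((Fintype.card F : ℕ) : ZMod r))
    (hin : orderOf ((Fintype.card F : ℕ) : ZMod r) ≤ n)
    (hall : ∀ x ∈ Cfsg.Geo.specialLinear (Fin n) F,
      (∃ z : F, ((x ^ r : GL (Fin n) F) : Matrix (Fin n) (Fin n) F) =
        z • (1 : Matrix (Fin n) (Fin n) F)) →
      (∀ z : F, (x : Matrix (Fin n) (Fin n) F) ≠ z • (1 : Matrix (Fin n) (Fin n) F)) →
      ∃ g ∈ Cfsg.Geo.specialLinear (Fin n) F, g⁻¹ * x * g ∈ Cfsg.Geo.similarityGroup f) :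
    (-(q₀ : ZMod r)) ^ orderOf ((Fintype.card F : ℕ) : ZMod r) = 1 := by
  classical
  have hr : r.Prime := Fact.out
  have hn0 : n ≠ 0 := by omega
  obtain ⟨hrq, hrF, -⟩ := BG.facts (F := F) p r hrp
  obtain ⟨x, g, hxr, hns, hchar, hg⟩ := Sf.exists_block_sl p n r hrp hi2 hin
  have hXmem : Matrix.SpecialLinearGroup.toGL x ∈ Cfsg.Geo.specialLinear (Fin n) F := by
    rw [mem_sl_iff, Matrix.SpecialLinearGroup.coe_GL_coe_matrix]
    exact x.det_coe
  have hXr : ((Matrix.SpecialLinearGroup.toGL x ^ r : GL (Fin n) F) :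
      Matrix (Fin n) (Fin n) F) = 1 := by
    rw [Units.val_pow_eq_pow_val, Matrix.SpecialLinearGroup.coe_GL_coe_matrix]
    exact hxr
  obtain ⟨g', -, hmem⟩ := hall _ hXmem ⟨1, by rw [hXr, one_smul]⟩ (by
    intro z
    rw [Matrix.SpecialLinearGroup.coe_GL_coe_matrix]
    exact hns z)
  obtain ⟨μ, hμ⟩ := hmem
  -- the multiplier is one
  have hyr : ((g'⁻¹ * Matrix.SpecialLinearGroup.toGL x * g' : GL (Fin n) F) :
      Matrix (Fin n) (Fin n) F) ^ r = (1 : F) • (1 : Matrix (Fin n) (Fin n) F) := by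
    rw [← Units.val_pow_eq_pow_val]
    have h1 : (g'⁻¹ * Matrix.SpecialLinearGroup.toGL x * g') ^ r =
        g'⁻¹ * (Matrix.SpecialLinearGroup.toGL x ^ r) * g' := by
      have h0 := conj_pow (a := g'⁻¹) (b := Matrix.SpecialLinearGroup.toGL x) (i := r)
      rwa [inv_inv] at h0
    rw [h1, Units.val_mul, Units.val_mul, hXr, Matrix.mul_one, ← Units.val_mul, inv_mul_cancel,
      Units.val_one, one_smul]
  obtain ⟨-, hμk⟩ := Cfsg.Agent.Lib.Helper56.Uf.sim_mult q₀ n hn0 f hf _ (μ : F) hμ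
  have hμr : (μ : F) ^ r = 1 := by
    rw [hμk r 1 hyr, one_pow]
  have hr1 : ¬ r ∣ Fintype.card F - 1 := by
    intro h
    have h1 : ((Fintype.card F : ℕ) : ZMod r) = 1 := by
      have h2 : ((Fintype.card F - 1 : ℕ) : ZMod r) = 0 := (ZMod.natCast_eq_zero_iff _ _).mpr h
      rw [Nat.cast_sub Fintype.card_pos, Nat.cast_one, sub_eq_zero] at h2
      exact h2
    rw [h1, orderOf_one] at hi2
    omega
  have hμ1 : (μ : F) = 1 := by
    have h2 : (μ : F) ^ (Fintype.card F - 1) = 1 :=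
      FiniteField.pow_card_sub_one_eq_one _ μ.ne_zero
    have hcop : Nat.Coprime r (Fintype.card F - 1) :=
      (Nat.Prime.coprime_iff_not_dvd hr).mpr hr1
    exact (pow_eq_one_iff_of_coprime hcop).mp ⟨hμr, h2⟩
  obtain ⟨Y, hY, hfY⟩ := Cfsg.Agent.Lib.Helper43.Uf.exists_std p q₀ hq n f hf
  obtain ⟨G, Z, hG, hZG, hZ⟩ := sim_std q₀ n f Y hY hfY _ g' (μ : F) hμ
  rw [Matrix.SpecialLinearGroup.coe_GL_coe_matrix] at hZG
  have hiso : ∀ u v, Cfsg.hermForm n F q₀ (Z *ᵥ u) (Z *ᵥ v) = Cfsg.hermForm n F q₀ u v := by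
    intro u v
    rw [hZ, hμ1, one_mul]
  have hZr : Z ^ r = 1 := by
    have h1 := Cfsg.Agent.Lib.Helper47.pow_intertwine hZG r
    rw [hxr, Matrix.mul_one] at h1
    have h2 : Z ^ r * G * G⁻¹ = G * G⁻¹ := by rw [h1]
    rwa [Matrix.mul_assoc, Matrix.mul_nonsing_inv G hG, Matrix.mul_one] at h2
  have hcharZ : Z.charpoly =
      (X - 1) ^ (n - orderOf ((Fintype.card F : ℕ) : ZMod r)) * g := by
    rw [← hchar]
    exact (Cfsg.Agent.Lib.Helper47.charpoly_eq_of_mul_eq G _ _ hG hZG.symm).symm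
  have hker := Cfsg.Agent.Lib.Helper10.Uf.finrank_ker_sub_one Z r hrF hZr _ g hcharZ hg
  have hnd := Cfsg.Agent.Lib.Helper42.Uf.fix_nondeg q₀ n r hrF Z hZr hiso
  have hcnt := Cfsg.Agent.Lib.Helper20.Uf.count_sub p q₀ hq (fun m f' hf' => Cfsg.Agent.Lib.Helper43.Uf.exists_std p q₀ hq m f' hf') n
    (LinearMap.ker (Matrix.toLin' Z - 1)) hnd
  rw [hker] at hcnt
  have hV := (Cfsg.Agent.Lib.Helper7.herm_counts hq n).1
  rw [← Cfsg.Agent.Lib.Helper7.hcnt_eq_hermForm, ← Cfsg.Agent.Lib.Helper7.hcnt_eq_hermForm] at hV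
  have ho0 := Cfsg.Agent.Lib.Helper46.Uf.fix_orbit q₀ n r Z hZr hiso 0
  have ho1 := Cfsg.Agent.Lib.Helper46.Uf.fix_orbit q₀ n r Z hZr hiso 1
  have e0 := (ZMod.natCast_eq_natCast_iff _ _ _).mpr ho0
  have e1 := (ZMod.natCast_eq_natCast_iff _ _ _).mpr ho1
  have hV' := congrArg (Int.cast : ℤ → ZMod r) hV
  have hC' := congrArg (Int.cast : ℤ → ZMod r) hcnt
  push_cast at hV' hC'
  have hpow : (-(q₀ : ZMod r)) ^ n =
      (-(q₀ : ZMod r)) ^ (n - orderOf ((Fintype.card F : ℕ) : ZMod r)) := by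
    rw [← hV', ← hC', e0, e1]
  have hq0 : (-(q₀ : ZMod r)) ≠ 0 := by
    rw [neg_ne_zero, Ne, ZMod.natCast_eq_zero_iff]
    intro h
    apply hrq
    rw [hq]
    exact Dvd.dvd.mul_left h _ |>.trans (by rw [pow_two])
  obtain ⟨d, hd⟩ : ∃ d, n - orderOf ((Fintype.card F : ℕ) : ZMod r) = d := ⟨_, rfl⟩
  have hsplit : n = d + orderOf ((Fintype.card F : ℕ) : ZMod r) := by omega
  rw [hd] at hpow
  have h3 : (-(q₀ : ZMod r)) ^ d ≠ 0 := pow_ne_zero _ hq0
  have h4 : (-(q₀ : ZMod r)) ^ d * (-(q₀ : ZMod r)) ^ orderOf ((Fintype.card F : ℕ) : ZMod r) =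
      (-(q₀ : ZMod r)) ^ d * 1 := by
    rw [← pow_add, ← hsplit, mul_one]
    exact hpow
  exact mul_left_cancel₀ h3 h4

end Cfsg.Agent.Lib.Helper96.Uf
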