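import Cfsg.Agent.Lib.Helper43.UfSTD
import Cfsg.Agent.Lib.Helper49.UfINDEXARITH
import Cfsg.Agent.Lib.Helper63.UfINDEXGRP
import Cfsg.Agent.Lib.Helper75.UfORDARITH
import Cfsg.Agent.Lib.Helper96.UfFwd
import Cfsg.Agent.Lib.Helper96.UfDiag
import Cfsg.Agent.Lib.Helper34.SfEXISTW
import Cfsg.Agent.Lib.Helper7.GUOrder
import Cfsg.Agent.Lib.Helper7.SUOrder
import Cfsg.Agent.Lib.Helper47.SylowSL

/-!
# S5982: the forward direction for odd `r`, assembled
-/

set_option autoImplicit false

namespace Cfsg.Agent.Lib.Helper96.Uf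

open Polynomial Matrix
open scoped MatrixGroups

/-- If `r` is odd and every element of order `r` is conjugate into the similarity group of the
unitary form, then we are in the special case. -/
theorem forward_odd {F : Type*} [Field F] [Fintype F] {p : ℕ} [Fact p.Prime] [CharP F p]
    (q₀ : ℕ) (hq : Fintype.card F = q₀ ^ 2) (n : ℕ) (hn : 3 ≤ n)
    (f : (Fin n → F) → (Fin n → F) → F) (hf : Cfsg.Geo.IsUnitaryFormPow q₀ f)
    (r : ℕ) [Fact r.Prime] (hr2 : r ≠ 2) (hrp : r ≠ p) (hgap : ¬ (n = 6 ∧ r = 3))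
    (hΩ : r ∣ (Cfsg.Geo.similarityGroup f).relIndex (Cfsg.Geo.specialLinear (Fin n) F))
    (hall : ∀ x ∈ Cfsg.Geo.specialLinear (Fin n) F,
      (∃ z : F, ((x ^ r : GL (Fin n) F) : Matrix (Fin n) (Fin n) F) =
        z • (1 : Matrix (Fin n) (Fin n) F)) →
      (∀ z : F, (x : Matrix (Fin n) (Fin n) F) ≠ z • (1 : Matrix (Fin n) (Fin n) F)) →
      ∃ g ∈ Cfsg.Geo.specialLinear (Fin n) F, g⁻¹ * x * g ∈ Cfsg.Geo.similarityGroup f)
    (hspec : ¬ ((r = 3 ∨ r = 5) ∧ n = r ∧ padicValNat r (q₀ - 1) = 1)) : False := by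
  classical
  have hr : r.Prime := Fact.out
  have hr3 : 3 ≤ r := by
    have := hr.two_le
    omega
  obtain ⟨hrq, hr0, hi1⟩ := BG.facts (F := F) p r hrp
  have hq₀2 := two_le_q₀ q₀ hq
  have hrq₀ : ¬ r ∣ q₀ := by
    intro h
    apply hrq
    rw [hq]
    exact dvd_pow h two_ne_zero
  obtain ⟨Y, hY, hfY⟩ := Cfsg.Agent.Lib.Helper43.Uf.exists_std p q₀ hq n f hf
  obtain ⟨t, ht⟩ := Cfsg.Agent.Lib.Helper63.Uf.index_mul_eq q₀ n f Y hY hfY
  have hU : (q₀ + 1) * Nat.card ↥(Cfsg.SU n F q₀) = q₀ ^ (n * (n - 1) / 2) *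
      ∏ i ∈ Finset.range n, (if Even i then q₀ ^ (i + 1) + 1 else q₀ ^ (i + 1) - 1) := by
    rw [Cfsg.Agent.Lib.Helper7.card_SU hq n (by omega), Cfsg.Agent.Lib.Helper7.card_GU hq n]
  have hS : Nat.card (Matrix.SpecialLinearGroup (Fin n) F) * (q₀ ^ 2 - 1) =
      ∏ i : Fin n, ((q₀ ^ 2) ^ n - (q₀ ^ 2) ^ (i : ℕ)) := by
    rw [← hq, ← Cfsg.Agent.Lib.Helper47.card_GL_eq_card_SL_mul F n (by omega)]
    exact Matrix.card_GL_field n
  obtain ⟨k, hk2, hkn, hkd⟩ := Cfsg.Agent.Lib.Helper49.Uf.index_arith q₀ n r hr hq₀2 (by omega) hrq₀ _ _ _ t hU hS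
    ht hΩ
  obtain ⟨hik, hs⟩ := Cfsg.Agent.Lib.Helper75.Uf.ord_arith q₀ r k hr2 hrq₀ hkd
  rw [← hq] at hik hs
  have hile : orderOf ((Fintype.card F : ℕ) : ZMod r) ≤ n :=
    (Nat.le_of_dvd (by omega) hik).trans hkn
  have hne : (1 : ZMod r) ≠ -1 := by
    intro h
    have h2 : ((2 : ℕ) : ZMod r) = 0 := by
      push_cast
      linear_combination h
    rw [ZMod.natCast_eq_zero_iff] at h2
    have := Nat.le_of_dvd (by norm_num) h2
    omega
  rcases Nat.lt_or_ge (orderOf ((Fintype.card F : ℕ) : ZMod r)) 2 with hlt | hge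
  · have hi : orderOf ((Fintype.card F : ℕ) : ZMod r) = 1 := by omega
    rw [hi, pow_one, neg_inj] at hs
    have hr₀ : r ∣ q₀ - 1 := by
      rw [← ZMod.natCast_eq_zero_iff, Nat.cast_sub (by omega), Nat.cast_one, hs, sub_self]
    have hfac : Fintype.card F - 1 = (q₀ - 1) * (q₀ + 1) := by
      rw [hq]
      obtain ⟨b, rfl⟩ : ∃ b, q₀ = b + 1 := ⟨q₀ - 1, by omega⟩
      simp only [Nat.add_sub_cancel]
      have : (b + 1) ^ 2 = b * (b + 1 + 1) + 1 := by ring
      omega
    have hdq : r ∣ Fintype.card F - 1 := by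
      rw [hfac]
      exact Dvd.dvd.mul_right hr₀ _
    have hnplus : ¬ r ∣ q₀ + 1 := by
      intro h
      have h2 : r ∣ (q₀ + 1) - (q₀ - 1) := Nat.dvd_sub h hr₀
      have h3 : (q₀ + 1) - (q₀ - 1) = 2 := by omega
      rw [h3] at h2
      have h4 := Nat.le_of_dvd (by norm_num) h2
      omega
    obtain ⟨ω, hω, hω1⟩ := Sf.exists_prim_root (F := F) r hdq
    have h1r : 1 % r = 1 := Nat.mod_eq_of_lt hr.one_lt
    by_cases hv : padicValNat r n < padicValNat r (Fintype.card F - 1)
    · obtain ⟨w, hw, hwn⟩ := Cfsg.Agent.Lib.Helper34.Sf.exists_w n r (by omega) hv ω hω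
      refine diag_contraU' q₀ hq n r hr2 hr₀ f hf ω hω hω1 hall 1 (fun _ => 1) (by omega)
        le_rfl h1r (fun t _ => ?_) w hw ?_
      · rw [h1r]
        omega
      · rw [Finset.sum_range_one, pow_one]
        exact hwn
    · push Not at hv
      have hcard1 : Fintype.card F - 1 ≠ 0 := by
        have := Fintype.one_lt_card (α := F)
        omega
      have hv1 : 1 ≤ padicValNat r (Fintype.card F - 1) :=
        one_le_padicValNat_of_dvd hcard1 hdq
      have hrn : r ∣ n := dvd_of_one_le_padicValNat (by omega)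
      have hrn_le : r ≤ n := Nat.le_of_dvd (by omega) hrn
      have hdet1 : ∀ S : ℕ, S = r → (1 : F) ^ n * ω ^ S = 1 := by
        intro S hS
        rw [hS, one_pow, one_mul, hω]
      have hvspec : n = r → padicValNat r (q₀ - 1) = 1 := by
        intro hnr
        have h1 : padicValNat r (Fintype.card F - 1) = padicValNat r (q₀ - 1) := by
          rw [hfac, padicValNat.mul (by omega) (by omega),
            padicValNat.eq_zero_of_not_dvd hnplus, add_zero]
        have h2 : padicValNat r n = 1 := by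
          rw [hnr]
          exact padicValNat_self
        omega
      by_cases hr3' : r = 3
      · have hn369 : n = 3 ∨ n = 6 ∨ 9 ≤ n := by
          obtain ⟨t', ht'⟩ := hrn
          rw [hr3'] at ht'
          omega
        rcases hn369 with h3 | h6 | h9
        · exact hspec ⟨Or.inl hr3', by omega, hvspec (by omega)⟩
        · exact hgap ⟨h6, hr3'⟩
        · refine diag_contraU' q₀ hq n r hr2 hr₀ f hf ω hω hω1 hall 3 (fun _ => 1)
            (by omega) (by omega) h1r (fun t _ => ?_) 1 one_ne_zero (hdet1 _ ?_)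
          · rw [h1r]
            omega
          · rw [Finset.sum_const, Finset.card_range, smul_eq_mul, mul_one, hr3']
      · have hr5 : 5 ≤ r := by
          have h4 : r ≠ 4 := by
            rintro rfl
            exact absurd hr (by norm_num)
          omega
        by_cases hn7 : 7 ≤ n
        · refine diag_contraU' q₀ hq n r hr2 hr₀ f hf ω hω hω1 hall 3
            (fun t => if t = 0 then 1 else if t = 1 then 2 else r - 3)
            (by omega) (by omega) ?_ (fun t _ => ?_) 1 one_ne_zero (hdet1 _ ?_)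
          · rw [if_pos rfl]
            exact h1r
          · by_cases ht0 : t = 0
            · rw [if_pos ht0, h1r]
              omega
            · rw [if_neg ht0]
              by_cases ht1 : t = 1
              · rw [if_pos ht1, Nat.mod_eq_of_lt (by omega)]
                omega
              · rw [if_neg ht1, Nat.mod_eq_of_lt (by omega)]
                omega
          · rw [Finset.sum_range_succ, Finset.sum_range_succ, Finset.sum_range_one]
            simp
            omega
        · have hn5 : n = 5 ∧ r = 5 := by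
            obtain ⟨t', ht'⟩ := hrn
            have h6 : r ≠ 6 := by
              rintro rfl
              exact absurd hr (by norm_num)
            have ht1 : t' = 1 := by
              rcases Nat.lt_or_ge t' 2 with h | h
              · rcases Nat.eq_zero_or_pos t' with h0 | h0
                · rw [h0, mul_zero] at ht'
                  omega
                · omega
              · have : r * 2 ≤ r * t' := Nat.mul_le_mul_left r h
                omega
            rw [ht1, mul_one] at ht'
            omega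
          exact hspec ⟨Or.inr hn5.2, by omega, hvspec (by omega)⟩
  · have h := forward_blockU q₀ hq n f hf r hrp hge hile hall
    rw [h] at hs
    exact hne hs

end Cfsg.Agent.Lib.Helper96.Uf
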